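import Mathlib
import Cfsg.Agent.Helper90.HTDefs
import Cfsg.Agent.Helper44.Unitary

/-!
# CALL S5953 (helper90), piece HISO (double): isotropic vectors exist in dimension `≥ 2`.
-/

set_option autoImplicit false

namespace Cfsg.Agent.Helper27.HT5953

open Module Polynomial Cfsg.Agent.Helper90.HT

section geom

variable {F : Type*} [Field F] {V : Type*} [AddCommGroup V] [Module F V] [FiniteDimensional F V]
  (σ : F →+* F) (h : V → V → F)

/-- HISO: isotropic vectors exist in dimension ≥ 2 (norm is surjective). -/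
theorem ht_iso [Fintype F] (q : ℕ) (hq : Fintype.card F = q ^ 2) (hσ : ∀ a, σ a = a ^ q)
    (hh : IsHerm σ h) (U : Submodule F V) (hU : 2 ≤ finrank F U) :
    ∃ v ∈ U, v ≠ 0 ∧ h v v = 0 := by
  have hUpos : 0 < finrank F U := by omega
  obtain ⟨u, hu0⟩ : ∃ u : U, u ≠ 0 := Module.finrank_pos_iff_exists_ne_zero.mp hUpos
  by_cases huu : h (u : V) (u : V) = 0
  · exact ⟨u, u.2, fun h0 => hu0 (Subtype.ext h0), huu⟩
  let φ : U →ₗ[F] F :=
    { toFun := fun x => h (x : V) (u : V)
      map_add' := fun x y => hh.add_left _ _ _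
      map_smul' := fun a x => hh.smul_left _ _ _ }
  have hker : 0 < finrank F (LinearMap.ker φ) := by
    have h1 := LinearMap.finrank_range_add_finrank_ker φ
    have h2 : finrank F (LinearMap.range φ) ≤ 1 := by
      have := Submodule.finrank_le (LinearMap.range φ)
      rwa [Module.finrank_self] at this
    omega
  obtain ⟨w, hw0⟩ : ∃ w : LinearMap.ker φ, w ≠ 0 :=
    Module.finrank_pos_iff_exists_ne_zero.mp hker
  have hwu : h ((w : U) : V) (u : V) = 0 := LinearMap.mem_ker.mp w.2
  have hwV : ((w : U) : V) ≠ 0 := fun h0 => hw0 (Subtype.ext (Subtype.ext h0))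
  by_cases hww : h ((w : U) : V) ((w : U) : V) = 0
  · exact ⟨_, (w : U).2, hwV, hww⟩
  have huw : h (u : V) ((w : U) : V) = 0 := hh.eq_zero_symm hwu
  obtain ⟨a, ha⟩ : ∃ a : F, a = - h (u : V) (u : V) / h ((w : U) : V) ((w : U) : V) :=
    ⟨_, rfl⟩
  have haq : a ^ q = a := by
    rw [← hσ, ha, map_div₀, map_neg, ← hh.symm, ← hh.symm]
  obtain ⟨t, ht⟩ := Cfsg.Agent.Helper44.exists_norm hq a haq
  refine ⟨(u : V) + t • ((w : U) : V), U.add_mem u.2 (U.smul_mem t (w : U).2), ?_, ?_⟩
  · intro h0
    have h1 : h ((w : U) : V) ((u : V) + t • ((w : U) : V)) = 0 := by rw [h0, hh.zero_right]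
    rw [hh.add_right, hh.smul_right, hwu, zero_add] at h1
    rcases mul_eq_zero.mp h1 with h2 | h2
    · have ht0 : t = 0 := by rwa [map_eq_zero] at h2
      rw [ht0, zero_smul, add_zero] at h0
      exact hu0 (Subtype.ext h0)
    · exact hww h2
  · simp only [hh.add_left, hh.add_right, hh.smul_left, hh.smul_right, huw, hwu, mul_zero,
      add_zero, zero_add]
    have h3 : t * σ t = a := by
      rw [hσ]
      exact ht
    have h4 : a * h ((w : U) : V) ((w : U) : V) = - h (u : V) (u : V) := by
      rw [ha]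
      field_simp
    linear_combination (h ((w : U) : V) ((w : U) : V)) * h3 + h4

end geom

end Cfsg.Agent.Helper27.HT5953
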