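import Mathlib
import Cfsg.Agent.Helper71.SQDefs

/-! CALL S5867 (helper71), piece IP: Lagrange interpolation at five points. -/

set_option autoImplicit false
set_option linter.unusedVariables false

namespace Cfsg.Agent.Helper27.SQIP

open Matrix Cfsg.Agent.Helper71.T4 Cfsg.Agent.Helper71.SO Cfsg.Agent.Helper71.SQ
open scoped Kronecker

variable {F : Type*} [Field F] {m n : ℕ}

/-! ## Piece IP -/
theorem interp5 [Finite F] (hq : 5 ≤ Nat.card F) (U : Set (Matrix (Fin 3) (Fin 3) F))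
    (hadd : ∀ D D' : Matrix (Fin 3) (Fin 3) F, D ∈ U → D' ∈ U → D + D' ∈ U)
    (hsmul : ∀ (c : F) (D : Matrix (Fin 3) (Fin 3) F), D ∈ U → c • D ∈ U)
    (Dk : Fin 5 → Matrix (Fin 3) (Fin 3) F)
    (h : ∀ t : F, ∑ k : Fin 5, t ^ (k : ℕ) • Dk k ∈ U) : Dk 4 ∈ U := by
  classical
  haveI := Fintype.ofFinite F
  have hc : Fintype.card (Fin 5) ≤ Fintype.card F := by
    rw [Fintype.card_fin, ← Nat.card_eq_fintype_card]; exact hq
  obtain ⟨e⟩ := Function.Embedding.nonempty_of_card_le hc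
  have hdet : (Matrix.vandermonde e).det ≠ 0 :=
    Matrix.det_vandermonde_ne_zero_iff.mpr e.injective
  have hunit : IsUnit (Matrix.vandermonde e).det := isUnit_iff_ne_zero.mpr hdet
  obtain ⟨c, hcV⟩ : ∃ c : Fin 5 → F, c ᵥ* (Matrix.vandermonde e) = Pi.single 4 1 := by
    refine ⟨(Pi.single 4 1 : Fin 5 → F) ᵥ* (Matrix.vandermonde e)⁻¹, ?_⟩
    rw [Matrix.vecMul_vecMul, Matrix.nonsing_inv_mul _ hunit, Matrix.vecMul_one]
  let W : Submodule F (Matrix (Fin 3) (Fin 3) F) :=
    { carrier := U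
      add_mem' := fun {a b} ha hb => hadd a b ha hb
      zero_mem' := by
        have h0 := hsmul 0 _ (h 0)
        rw [zero_smul] at h0
        exact h0
      smul_mem' := fun c x hx => hsmul c x hx }
  have h1 : ∀ k : Fin 5, ∑ i, c i * (e i) ^ (k : ℕ) = (Pi.single 4 1 : Fin 5 → F) k := by
    intro k
    have := congrFun hcV k
    simpa [Matrix.vecMul, dotProduct, Matrix.vandermonde_apply] using this
  have key : Dk 4 = ∑ i, c i • ∑ k : Fin 5, (e i) ^ (k : ℕ) • Dk k := by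
    calc Dk 4 = ∑ k : Fin 5, (Pi.single 4 1 : Fin 5 → F) k • Dk k := by
          rw [Finset.sum_eq_single (4 : Fin 5)]
          · simp
          · intro b _ hb
            rw [Pi.single_eq_of_ne hb, zero_smul]
          · intro hh
            exact absurd (Finset.mem_univ _) hh
      _ = ∑ k : Fin 5, (∑ i, c i * (e i) ^ (k : ℕ)) • Dk k := by simp_rw [h1]
      _ = ∑ k : Fin 5, ∑ i, c i • ((e i) ^ (k : ℕ) • Dk k) := by
          simp_rw [Finset.sum_smul, mul_smul]
      _ = ∑ i, ∑ k : Fin 5, c i • ((e i) ^ (k : ℕ) • Dk k) := Finset.sum_comm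
      _ = _ := by simp_rw [Finset.smul_sum]
  rw [key]
  exact W.sum_mem (fun i _ => W.smul_mem _ (h (e i)))

end Cfsg.Agent.Helper27.SQIP
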