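import Mathlib
import Cfsg.Agent.Helper71.SQDefs

/-! CALL S5867 (helper71), piece K3: a `3 × 3` matrix `C` with `C C† ` and `(C+1)(C+1)†` scalar
(`†` the adjoint of a nondegenerate symmetric form) is scalar. -/

set_option autoImplicit false
set_option linter.unusedVariables false

namespace Cfsg.Agent.Helper27.SQK3

open Matrix Cfsg.Agent.Helper71.T4 Cfsg.Agent.Helper71.SO Cfsg.Agent.Helper71.SQ
open scoped Kronecker

variable {F : Type*} [Field F] {m n : ℕ}

/-- A `3 × 3` matrix `K` with `K² = 0` which is skew for a nondegenerate symmetric form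
vanishes. -/
theorem skew3_aux (h2 : (2 : F) ≠ 0) (S : Matrix (Fin 3) (Fin 3) F) (hS : Sᵀ = S)
    (hdet : S.det ≠ 0) (K : Matrix (Fin 3) (Fin 3) F) (hK : (S * K)ᵀ = -(S * K))
    (hKK : K * K = 0) : K = 0 := by
  classical
  by_contra hne
  -- rank ≤ 1
  have hr : K.rank ≤ 1 := by
    have := Matrix.rank_add_rank_le_card_of_mul_eq_zero hKK
    rw [Fintype.card_fin] at this
    omega
  -- a vector not killed
  obtain ⟨j, hj⟩ : ∃ j : Fin 3, K *ᵥ Pi.single j 1 ≠ 0 := by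
    by_contra hall
    push Not at hall
    apply hne
    apply Matrix.ext_of_mulVec_single
    intro i
    rw [hall i, Matrix.zero_mulVec]
  set x : Fin 3 → F := Pi.single j 1 with hx
  set u : Fin 3 → F := K *ᵥ x with hu
  -- every image is a multiple of u
  have hmul : ∀ y : Fin 3 → F, ∃ c : F, K *ᵥ y = c • u := by
    intro y
    have hfr : Module.finrank F (LinearMap.range K.mulVecLin) ≤ 1 := hr
    rw [finrank_le_one_iff] at hfr
    obtain ⟨v, hv⟩ := hfr
    obtain ⟨c0, hc0⟩ := hv ⟨u, ⟨x, rfl⟩⟩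
    obtain ⟨c1, hc1⟩ := hv ⟨K *ᵥ y, ⟨y, rfl⟩⟩
    have hc0' : c0 • (v : Fin 3 → F) = u := congrArg Subtype.val hc0
    have hc1' : c1 • (v : Fin 3 → F) = K *ᵥ y := congrArg Subtype.val hc1
    have hc0ne : c0 ≠ 0 := by
      rintro rfl
      rw [zero_smul] at hc0'
      exact hj hc0'.symm
    refine ⟨c1 * c0⁻¹, ?_⟩
    rw [← hc1', ← hc0', smul_smul, mul_assoc, inv_mul_cancel₀ hc0ne, mul_one]
  -- skewness: (K y) ⬝ S y = 0
  have hskew : ∀ y : Fin 3 → F, (K *ᵥ y) ⬝ᵥ (S *ᵥ y) = 0 := by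
    intro y
    have e1 : (K *ᵥ y) ⬝ᵥ (S *ᵥ y) = y ⬝ᵥ ((S * K)ᵀ *ᵥ y) := by
      rw [Matrix.transpose_mul, hS, ← Matrix.mulVec_mulVec, Matrix.dotProduct_mulVec y Kᵀ,
        Matrix.vecMul_transpose]
    have e2 : (K *ᵥ y) ⬝ᵥ (S *ᵥ y) = y ⬝ᵥ ((S * K) *ᵥ y) := by
      rw [← Matrix.mulVec_mulVec, Matrix.dotProduct_mulVec y S, ← Matrix.mulVec_transpose, hS,
        dotProduct_comm]
    rw [hK, Matrix.neg_mulVec, dotProduct_neg] at e1
    have e3 : (2 : F) * ((K *ᵥ y) ⬝ᵥ (S *ᵥ y)) = 0 := by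
      rw [two_mul]
      nth_rewrite 1 [e1]
      rw [e2]
      ring
    exact (mul_eq_zero.mp e3).resolve_left h2
  -- u ⬝ S y = 0 for all y
  have hperp : ∀ y : Fin 3 → F, u ⬝ᵥ (S *ᵥ y) = 0 := by
    intro y
    obtain ⟨c, hc⟩ := hmul y
    have hx0 : u ⬝ᵥ (S *ᵥ x) = 0 := hskew x
    have hy0 := hskew y
    have hxy := hskew (x + y)
    rw [Matrix.mulVec_add, Matrix.mulVec_add, hc, ← hu] at hxy
    rw [hc] at hy0
    simp only [add_dotProduct, dotProduct_add, smul_dotProduct, smul_eq_mul] at hxy hy0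
    rw [hx0] at hxy
    linear_combination hxy - hy0
  -- hence S u = 0 and u = 0
  have hSu : S *ᵥ u = 0 := by
    funext i
    have := hperp (Pi.single i 1)
    rw [Matrix.dotProduct_mulVec, ← Matrix.mulVec_transpose, hS] at this
    simpa using this
  have hunit : IsUnit S.det := isUnit_iff_ne_zero.mpr hdet
  apply hj
  have : S⁻¹ *ᵥ (S *ᵥ u) = u := by
    rw [Matrix.mulVec_mulVec, Matrix.nonsing_inv_mul _ hunit, Matrix.one_mulVec]
  rw [← this, hSu, Matrix.mulVec_zero]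

/-! ## Piece K3 -/
theorem skew3 (h2 : (2 : F) ≠ 0) (S : Matrix (Fin 3) (Fin 3) F) (hS : Sᵀ = S)
    (hdet : S.det ≠ 0) (C : Matrix (Fin 3) (Fin 3) F) (l l' : F)
    (h0 : C * S⁻¹ * Cᵀ * S = l • (1 : Matrix (Fin 3) (Fin 3) F))
    (h1 : (C + 1) * S⁻¹ * (C + 1)ᵀ * S = l' • (1 : Matrix (Fin 3) (Fin 3) F)) :
    ∃ γ : F, C = γ • (1 : Matrix (Fin 3) (Fin 3) F) := by
  classical
  have hunit : IsUnit S.det := isUnit_iff_ne_zero.mpr hdet
  have hSi : S⁻¹ * S = 1 := Matrix.nonsing_inv_mul _ hunit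
  have hSi' : S * S⁻¹ = 1 := Matrix.mul_nonsing_inv _ hunit
  -- C + C† = (l' - l - 1) • 1
  have hsum : C + S⁻¹ * Cᵀ * S = (l' - l - 1) • (1 : Matrix (Fin 3) (Fin 3) F) := by
    have e : (C + 1) * S⁻¹ * (C + 1)ᵀ * S
        = C * S⁻¹ * Cᵀ * S + C * (S⁻¹ * S) + S⁻¹ * Cᵀ * S + S⁻¹ * S := by
      rw [Matrix.transpose_add, Matrix.transpose_one]
      noncomm_ring
    rw [e, h0, hSi, Matrix.mul_one] at h1
    rw [sub_smul, sub_smul, one_smul, ← h1]
    abel
  set γ : F := 2⁻¹ * (l' - l - 1) with hγ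
  have h2γ : (l' - l - 1) = 2 * γ := by
    rw [hγ, ← mul_assoc, mul_inv_cancel₀ h2, one_mul]
  rw [h2γ] at hsum
  set K : Matrix (Fin 3) (Fin 3) F := C - γ • (1 : Matrix (Fin 3) (Fin 3) F) with hKdef
  -- S K is antisymmetric
  have hSC : S * C + Cᵀ * S = (2 * γ) • S := by
    have := congrArg (fun M => S * M) hsum
    rw [Matrix.mul_add, ← Matrix.mul_assoc, ← Matrix.mul_assoc, hSi', Matrix.one_mul,
      Matrix.mul_smul, Matrix.mul_one] at this
    exact this
  have hK : (S * K)ᵀ = -(S * K) := by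
    rw [hKdef, Matrix.mul_sub, Matrix.mul_smul, Matrix.mul_one, Matrix.transpose_sub,
      Matrix.transpose_mul, Matrix.transpose_smul, hS]
    have : Cᵀ * S = (2 * γ) • S - S * C := by rw [← hSC]; abel
    rw [this, mul_smul, two_smul]
    abel
  -- K * K is scalar
  have hCC : C * C = (2 * γ) • C - l • (1 : Matrix (Fin 3) (Fin 3) F) := by
    have hd : S⁻¹ * Cᵀ * S = (2 * γ) • (1 : Matrix (Fin 3) (Fin 3) F) - C := by
      rw [← hsum]; abel
    have : C * (S⁻¹ * Cᵀ * S) = l • (1 : Matrix (Fin 3) (Fin 3) F) := by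
      rw [← h0]; simp only [Matrix.mul_assoc]
    rw [hd, Matrix.mul_sub, Matrix.mul_smul, Matrix.mul_one] at this
    rw [← this]; abel
  have hKK' : K * K = (γ ^ 2 - l) • (1 : Matrix (Fin 3) (Fin 3) F) := by
    rw [hKdef, Matrix.sub_mul, Matrix.mul_sub, Matrix.mul_sub, hCC]
    simp only [Matrix.mul_smul, Matrix.smul_mul, Matrix.mul_one, Matrix.one_mul, smul_smul]
    rw [sub_smul, pow_two, mul_smul, two_smul]
    abel
  -- det K = 0
  have hdSK : (S * K).det = 0 := by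
    have e := congrArg Matrix.det hK
    rw [Matrix.det_transpose, Matrix.det_neg, Fintype.card_fin] at e
    have e3 : (2 : F) * (S * K).det = 0 := by linear_combination e
    exact (mul_eq_zero.mp e3).resolve_left h2
  have hdK : K.det = 0 := by
    rw [Matrix.det_mul] at hdSK
    exact (mul_eq_zero.mp hdSK).resolve_left hdet
  have hμ : γ ^ 2 - l = 0 := by
    have e := congrArg Matrix.det hKK'
    rw [Matrix.det_mul, hdK, Matrix.det_smul, Matrix.det_one, Fintype.card_fin, mul_one,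
      mul_zero] at e
    exact pow_eq_zero_iff (by norm_num) |>.mp e.symm
  have hKK : K * K = 0 := by rw [hKK', hμ, zero_smul]
  have hK0 : K = 0 := skew3_aux h2 S hS hdet K hK hKK
  exact ⟨γ, sub_eq_zero.mp hK0⟩

end Cfsg.Agent.Helper27.SQK3
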