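import Mathlib
import Cfsg.Agent.Helper15.B42Defs
import Cfsg.Agent.Helper77.D1Final
import Cfsg.Agent.Helper29.D1IL
import Cfsg.Agent.Helper79.S4441Setup
import Cfsg.Agent.Helper79.Basic
import Cfsg.Agent.Helper81.CharBasic
import Cfsg.Agent.Helper3.Induced
import Cfsg.Agent.Helper3.Frobenius


/-! CALL S4503 (helper15), piece GT1. -/

universe u
set_option autoImplicit false
open Cfsg Cfsg.Agent.Helper77 Cfsg.Agent.Helper15
open scoped ComplexConjugate

namespace Cfsg.Agent.Helper27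

variable {G : Type u} [Group G] [Finite G]

/-- A normal subgroup of order `p` of `H` contains every element of order `p` of `H`, when
`p ^ 2` does not divide the order of the ambient group. -/
theorem b42_mem_of_order (p : ℕ) [Fact p.Prime] (hsq : ¬ p ^ 2 ∣ Nat.card G)
    (H : Subgroup G) (Q : Subgroup H) (hQn : Q.Normal) (hQ : Nat.card Q = p) (y : H)
    (hy : orderOf y = p) : y ∈ Q := by
  have hp : p.Prime := Fact.out
  haveI := hQn
  have hmul : Nat.card (H ⧸ Q) * Nat.card Q = Nat.card H :=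
    (Subgroup.card_eq_card_quotient_mul_card_subgroup Q).symm
  have hnd : ¬ p ∣ Nat.card (H ⧸ Q) := by
    intro hd
    apply hsq
    have h1 : p ^ 2 ∣ Nat.card H := by
      rw [← hmul, hQ, pow_two]
      exact Nat.mul_dvd_mul hd dvd_rfl
    exact h1.trans (Subgroup.card_subgroup_dvd_card H)
  have h1 : orderOf (QuotientGroup.mk' Q y) ∣ p := by
    rw [← hy]
    exact orderOf_map_dvd _ y
  have h2 : orderOf (QuotientGroup.mk' Q y) ∣ Nat.card (H ⧸ Q) := orderOf_dvd_natCard _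
  have h3 : orderOf (QuotientGroup.mk' Q y) = 1 := by
    rcases (Nat.dvd_prime hp).mp h1 with h | h
    · exact h
    · exact absurd (h ▸ h2) hnd
  have h4 : QuotientGroup.mk' Q y = 1 := orderOf_eq_one_iff.mp h3
  exact (QuotientGroup.eq_one_iff y).mp h4

/-- GT1 -/
theorem b42_sub_norm (p : ℕ) [Fact p.Prime] (hsq : ¬ p ^ 2 ∣ Nat.card G) (x : G)
    (hx : orderOf x = p) (H : Subgroup G) (hxH : x ∈ H) (Q : Subgroup H) (hQn : Q.Normal)
    (hQ : Nat.card Q = p) : ∀ h ∈ H, h * x * h⁻¹ ∈ Subgroup.zpowers x := by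
  intro h hh
  have hox : orderOf (⟨x, hxH⟩ : H) = p := by
    rw [← hx, ← Subgroup.orderOf_coe]
  have hxQ : (⟨x, hxH⟩ : H) ∈ Q := b42_mem_of_order p hsq H Q hQn hQ _ hox
  have hle : Subgroup.zpowers (⟨x, hxH⟩ : H) ≤ Q := Subgroup.zpowers_le.mpr hxQ
  have heq : Subgroup.zpowers (⟨x, hxH⟩ : H) = Q := by
    apply Subgroup.eq_of_le_of_card_ge hle
    rw [hQ, Nat.card_zpowers, hox]
  have hconj : (⟨h, hh⟩ : H) * ⟨x, hxH⟩ * (⟨h, hh⟩ : H)⁻¹ ∈ Q := hQn.conj_mem _ hxQ _
  rw [← heq, Subgroup.mem_zpowers_iff] at hconj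
  obtain ⟨k, hk⟩ := hconj
  rw [Subgroup.mem_zpowers_iff]
  refine ⟨k, ?_⟩
  have := congrArg (Subtype.val : H → G) hk
  simpa using this

end Cfsg.Agent.Helper27
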