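import Mathlib
import Cfsg.Agent.Helper15.B42Defs
import Cfsg.Agent.Helper77.D1Final
import Cfsg.Agent.Helper29.D1IL
import Cfsg.Agent.Helper79.S4441Setup
import Cfsg.Agent.Helper79.Basic
import Cfsg.Agent.Helper81.CharBasic
import Cfsg.Agent.Helper3.Induced
import Cfsg.Agent.Helper3.Frobenius

import Cfsg.Agent.Helper80.CharIrr

/-! CALL S4503 (helper15), piece KERN. -/

universe u
set_option autoImplicit false
open Cfsg Cfsg.Agent.Helper77 Cfsg.Agent.Helper15
open scoped ComplexConjugate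

namespace Cfsg.Agent.Helper27

variable {G : Type u} [Group G] [Finite G]

/-- KERN -/
theorem b42_ker (ζ : G → ℂ) (hζ : Cfsg.IsCharacter G ζ) :
    ∃ L : Subgroup G, L.Normal ∧ ∀ g : G, g ∈ L ↔ ζ g = ζ 1 :=
  Cfsg.Agent.Helper80.isCharacter_ker hζ

end Cfsg.Agent.Helper27
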