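import Mathlib
import Cfsg.Prelude.Def_GeometricClasses
import Cfsg.Prelude.Def_Classical

/-!
Piece `SubPartition` of CALL S5996 (owner helper43): extracting a sub-partition from
concave "kernel dimension" data.
-/

set_option autoImplicit false
open Module

namespace Cfsg.Agent.Helper27

/-- Auxiliary multiset identity: `∑ min x a + ∑ min x (a+2) + #(a+1) = 2 ∑ min x (a+1)`. -/
theorem sub_partition_aux (m : Multiset ℕ) (a : ℕ) :
    (m.map (fun e => min e a)).sum + (m.map (fun e => min e (a + 2))).sum + m.count (a + 1)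
      = 2 * (m.map (fun e => min e (a + 1))).sum := by
  induction m using Multiset.induction_on with
  | empty => simp
  | cons x m ih =>
    simp only [Multiset.map_cons, Multiset.sum_cons, Multiset.count_cons]
    have : min x a + min x (a + 2) + (if a + 1 = x then 1 else 0) = 2 * min x (a + 1) := by
      split_ifs <;> omega
    omega

theorem sub_partition (μ : Multiset ℕ) (κ κ' : ℕ → ℕ) (P : ℕ)
    (h0 : κ 0 = 0)
    (hconc : ∀ l, κ l + κ (l + 2) ≤ 2 * κ (l + 1))
    (hconc' : ∀ l, κ' l + κ' (l + 2) ≤ 2 * κ' (l + 1))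
    (hsum : ∀ l, κ l + κ' l = (μ.map (fun e => min e l)).sum)
    (hconst : ∀ l, P ≤ l → κ l = κ P) :
    ∃ ν : Multiset ℕ, ν ≤ μ ∧ ν.sum = κ P ∧
      ∀ e, 1 ≤ e → ν.count e + κ (e - 1) + κ (e + 1) = 2 * κ e := by
  classical
  -- `c j` = multiplicity of the part `j + 1`
  obtain ⟨c, hcj⟩ : ∃ c : ℕ → ℕ, ∀ j, c j + κ j + κ (j + 2) = 2 * κ (j + 1) := by
    refine ⟨fun j => 2 * κ (j + 1) - κ j - κ (j + 2), fun j => ?_⟩
    have := hconc j
    show 2 * κ (j + 1) - κ j - κ (j + 2) + κ j + κ (j + 2) = 2 * κ (j + 1)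
    omega
  have hc0 : ∀ j, P ≤ j → c j = 0 := by
    intro j hj
    have h1 := hconst j hj
    have h2 := hconst (j + 1) (by omega)
    have h3 := hconst (j + 2) (by omega)
    have := hcj j
    omega
  obtain ⟨ν, hν⟩ : ∃ ν : ℕ → Multiset ℕ, ∀ n,
      ν n = ∑ j ∈ Finset.range n, Multiset.replicate (c j) (j + 1) := ⟨_, fun _ => rfl⟩
  have hν0 : ν 0 = 0 := by rw [hν]; simp
  have hνs : ∀ n, ν (n + 1) = ν n + Multiset.replicate (c n) (n + 1) := by
    intro n; rw [hν, hν, Finset.sum_range_succ]
  have hcount : ∀ n e, (ν n).count (e + 1) = if e < n then c e else 0 := by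
    intro n e
    induction n with
    | zero => simp [hν0]
    | succ n ih =>
      rw [hνs, Multiset.count_add, ih, Multiset.count_replicate]
      by_cases h1 : e < n
      · have h2 : ¬ (n + 1 = e + 1) := by omega
        have h3 : e < n + 1 := by omega
        rw [if_pos h1, if_neg h2, if_pos h3, add_zero]
      · by_cases h2 : e = n
        · subst h2
          rw [if_neg h1, if_pos rfl, if_pos (Nat.lt_succ_self e), zero_add]
        · have h3 : ¬ (n + 1 = e + 1) := by omega
          have h4 : ¬ (e < n + 1) := by omega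
          rw [if_neg h1, if_neg h3, if_neg h4]
  have hcount0 : ∀ n, (ν n).count 0 = 0 := by
    intro n
    induction n with
    | zero => simp [hν0]
    | succ n ih =>
      rw [hνs, Multiset.count_add, ih, Multiset.count_replicate]
      simp
  have hsumν : ∀ n, (ν n).sum + n * κ (n + 1) = (n + 1) * κ n := by
    intro n
    induction n with
    | zero => simp [hν0, h0]
    | succ n ih =>
      rw [hνs, Multiset.sum_add, Multiset.sum_replicate, smul_eq_mul]
      have h1 := hcj n
      have h2 : (n + 1) * (c n + κ n + κ (n + 2)) = (n + 1) * (2 * κ (n + 1)) := by rw [h1]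
      have e1 : n + 1 + 1 = n + 2 := rfl
      rw [e1]
      zify at ih h2 ⊢
      linear_combination ih + h2
  have hcnt : ∀ e, (ν P).count (e + 1) = c e := by
    intro e
    rw [hcount]
    split_ifs with h
    · rfl
    · exact (hc0 e (by omega)).symm
  refine ⟨ν P, ?_, ?_, ?_⟩
  · rw [Multiset.le_iff_count]
    intro a
    rcases Nat.eq_zero_or_pos a with rfl | ha
    · rw [hcount0]; exact Nat.zero_le _
    · obtain ⟨a', rfl⟩ : ∃ a', a = a' + 1 := ⟨a - 1, by omega⟩
      rw [hcnt]
      have k0 := hsum a'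
      have k1 := hsum (a' + 1)
      have k2 := hsum (a' + 2)
      have k3 := sub_partition_aux μ a'
      have k4 := hconc' a'
      have k5 := hcj a'
      omega
  · have h1 := hsumν P
    have h2 := hconst (P + 1) (by omega)
    rw [h2] at h1
    have h3 : (P + 1) * κ P = κ P + P * κ P := by ring
    omega
  · intro e he
    obtain ⟨e', rfl⟩ : ∃ e', e = e' + 1 := ⟨e - 1, by omega⟩
    rw [hcnt]
    have := hcj e'
    have e1 : e' + 1 - 1 = e' := by omega
    have e2 : e' + 1 + 1 = e' + 2 := rfl
    rw [e1, e2]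
    omega

end Cfsg.Agent.Helper27
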