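import Mathlib
import Cfsg.Agent.Helper8.S4504Defs
import Cfsg.Agent.Helper14.S4504BDefs
import Cfsg.Agent.Helper81.Blocks

/-! SUB-CALL S4504B (helper14), piece LHS: only `χ` and `χ₂` contribute to the twisted count. -/

set_option autoImplicit false
open Cfsg Cfsg.Agent.Helper8 Cfsg.Agent.Helper14.S4504B
open scoped ComplexConjugate

universe u

namespace Cfsg.Agent.Helper27.S4504BLHS

/-! ### PIECE LHS -/

theorem s4504b_lhs {H : Type u} [Group H] [Finite H] (p : ℕ) [Fact p.Prime] (x : H)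
    (χ : H → ℂ) (h : S4504Hyp p x χ) (d : ℕ) (hd : Cfsg.charDegree χ = d)
    (T : S4504Tab p d x χ) (g : H) (hg : ¬ p ∣ orderOf g)
    (hcp : ∀ z ∈ Subgroup.center H, ¬ p ∣ orderOf z)
    (hk0 : ∑ b ∈ bset p, kap χ x b = 0)
    (hk1 : ∑ b ∈ bset p, kap χ x b * χ (x ^ b) = (d : ℂ) * (χ x - (T.χ₂ : H → ℂ) x))
    (hk2 : ∑ b ∈ bset p, kap χ x b * (T.χ₂ : H → ℂ) (x ^ b)
      = (d : ℂ) * ((T.χ₂ : H → ℂ) x - χ x))
    (S : Finset (Cfsg.IrrCharacter H))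
    (hS : ∀ ξ : Cfsg.IrrCharacter H, ξ ∈ S ↔ HasCC (ξ : H → ℂ) (lam χ)) :
    ∑ ξ ∈ S, term p x g (kap χ x) (ξ : H → ℂ)
      = (χ x - (T.χ₂ : H → ℂ) x) ^ 2 * conj (χ g) := by
  classical
  have hpp : p.Prime := Fact.out
  have hp1 : ¬ p ∣ 1 := fun hdvd => hpp.one_lt.ne' (Nat.dvd_one.mp hdvd)
  have hpd : p = 2 * d + 1 := by rw [← hd]; exact h.hdeg.symm
  obtain ⟨χI, hχI⟩ : ∃ χI : Cfsg.IrrCharacter H, (χI : H → ℂ) = χ := ⟨⟨χ, h.hχ⟩, rfl⟩
  have hχ1 : χ 1 = (d : ℂ) := by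
    have h3 := Cfsg.Agent.Helper81.irr_one_eq_charDegree χI
    rw [hχI, hd] at h3
    exact h3
  have hd0 : (d : ℂ) ≠ 0 := by
    have h0 : d ≠ 0 := by
      intro h0
      rw [hpd, h0] at hpp
      exact Nat.not_prime_one hpp
    exact_mod_cast h0
  have hχ1ne : χ 1 ≠ 0 := by rw [hχ1]; exact hd0
  have hχ21 : (T.χ₂ : H → ℂ) 1 = χ 1 := T.hreg₂ 1 (by rw [orderOf_one]; exact hp1)
  have hχ2g : (T.χ₂ : H → ℂ) g = χ g := T.hreg₂ g hg
  have hχS : χI ∈ S := by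
    rw [hS, hχI]
    intro z
    unfold lam
    rw [div_mul_cancel₀ _ hχ1ne]
  have hχ2S : T.χ₂ ∈ S := by
    rw [hS]
    intro z
    unfold lam
    rw [T.hreg₂ z (hcp z z.2), hχ21, div_mul_cancel₀ _ hχ1ne]
  have hdiff := T.hdiff 1 hp1
  rw [pow_one] at hdiff
  have hne : χI ≠ T.χ₂ := by
    intro he
    have hx : χ x = (T.χ₂ : H → ℂ) x := by rw [← he, hχI]
    rw [hx, sub_self, zero_pow two_ne_zero] at hdiff
    have hpc : (p : ℂ) ≠ 0 := by exact_mod_cast hpp.ne_zero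
    have h3 : ((-1 : ℂ)) ^ d * (p : ℂ) ≠ 0 := mul_ne_zero (pow_ne_zero _ (by norm_num)) hpc
    exact h3 hdiff.symm
  have hzero : ∀ ξ ∈ S, ξ ∉ ({χI, T.χ₂} : Finset (Cfsg.IrrCharacter H)) →
      term p x g (kap χ x) (ξ : H → ℂ) = 0 := by
    intro ξ hξS hξU
    simp only [Finset.mem_insert, Finset.mem_singleton, not_or] at hξU
    obtain ⟨h1, h2⟩ := hξU
    have hcc := (hS ξ).mp hξS
    have hhyp : ∀ z ∈ Subgroup.center H, (ξ : H → ℂ) z * χ 1 = χ z * (ξ : H → ℂ) 1 := by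
      intro z hz
      have h3 : (ξ : H → ℂ) z = (χ z / χ 1) * (ξ : H → ℂ) 1 := hcc ⟨z, hz⟩
      rw [h3]
      field_simp
    have hfun : (ξ : H → ℂ) ≠ χ := fun hfun => h1 (Subtype.ext (by rw [hfun, hχI]))
    rcases T.honly ξ hhyp hfun h2 with hx0 | hconst
    · simp only [term]
      rw [hx0]
      simp
    · simp only [term]
      have hsum : ∑ b ∈ bset p, kap χ x b * (ξ : H → ℂ) (x ^ b) = 0 := by
        rw [Finset.sum_congr rfl (fun b hb => by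
          rw [hconst b (not_dvd_of_mem_bset hb)]), ← Finset.sum_mul, hk0, zero_mul]
      rw [hsum]
      simp
  have hsub : ({χI, T.χ₂} : Finset (Cfsg.IrrCharacter H)) ⊆ S := by
    intro ξ hξ
    simp only [Finset.mem_insert, Finset.mem_singleton] at hξ
    rcases hξ with h3 | h3
    · rw [h3]; exact hχS
    · rw [h3]; exact hχ2S
  rw [← Finset.sum_subset hsub hzero, Finset.sum_pair hne]
  simp only [term]
  rw [hχI, hk1, hk2, hχ2g, hχ21, hχ1]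
  field_simp
  ring

end Cfsg.Agent.Helper27.S4504BLHS
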