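import Mathlib
import Cfsg.Agent.Helper8.S4504Defs

/-! CALL S4504 (helper8), piece SYL: Sylow counting in the group `H` of `S4504Grp`. -/

set_option autoImplicit false
open Cfsg Cfsg.Agent.Helper8
open scoped ComplexConjugate

universe u

namespace Cfsg.Agent.Helper27

/-- An element of order `p` generates a Sylow `p`-subgroup when `p² ∤ |H|`. -/
theorem s4504_syl_aux {H : Type u} [Group H] [Finite H] (p : ℕ) [Fact p.Prime]
    (hsq : ¬ p ^ 2 ∣ Nat.card H) (y : H) (hy : orderOf y = p) :
    ∃ Q : Sylow p H, (Q : Subgroup H) = Subgroup.zpowers y := by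
  have hcard : Nat.card (Subgroup.zpowers y) = p := by rw [Nat.card_zpowers, hy]
  have hP : IsPGroup p (Subgroup.zpowers y) :=
    IsPGroup.of_card (n := 1) (by rw [hcard, pow_one])
  have hidx : ¬ p ∣ (Subgroup.zpowers y).index := by
    intro hdvd
    apply hsq
    rw [← Subgroup.card_mul_index (Subgroup.zpowers y), hcard, pow_two]
    exact mul_dvd_mul_left p hdvd
  exact ⟨hP.toSylow hidx, rfl⟩

/-- SYL -/
theorem s4504_sylow {H : Type u} [Group H] [Finite H] (p : ℕ) [Fact p.Prime] (x : H)
    (hg : S4504Grp p x) :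
    Nat.card H = Nat.card (Sylow p H)
      * Nat.card (Subgroup.normalizer ((Subgroup.zpowers x : Subgroup H) : Set H)) ∧
    (Nat.card (Sylow p H) ≤ p + 1 → Nat.card (Sylow p H) = p + 1) ∧
    (∀ g ∈ Subgroup.center H, ¬ p ∣ orderOf g) := by
  classical
  have hpp : p.Prime := Fact.out
  obtain ⟨P, hP⟩ := s4504_syl_aux p hg.hsq x hg.hx
  have hcardS : Nat.card (Sylow p H)
      = (Subgroup.normalizer ((Subgroup.zpowers x : Subgroup H) : Set H)).index := by
    have h : Nat.card (Sylow p H) = (Subgroup.normalizer ((P : Subgroup H) : Set H)).index :=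
      Sylow.card_eq_index_normalizer P
    rw [hP] at h
    exact h
  refine ⟨?_, ?_, ?_⟩
  · rw [hcardS, Subgroup.index_mul_card]
  · intro hle
    have hmod := card_sylow_modEq_one p H
    have hne1 : Nat.card (Sylow p H) ≠ 1 := by
      intro h1
      apply hg.hnn
      rw [hcardS, Subgroup.index_eq_one] at h1
      constructor
      intro n hn g
      have hgN : g ∈ Subgroup.normalizer ((Subgroup.zpowers x : Subgroup H) : Set H) := by
        rw [h1]; exact Subgroup.mem_top g
      exact (Subgroup.mem_normalizer_iff.mp hgN n).mp hn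
    have h1p : 1 % p = 1 := Nat.mod_eq_of_lt hpp.one_lt
    have hmod' : Nat.card (Sylow p H) % p = 1 := by
      have h3 : Nat.card (Sylow p H) % p = 1 % p := hmod
      rw [h1p] at h3
      exact h3
    have hdm := Nat.div_add_mod (Nat.card (Sylow p H)) p
    rcases Nat.eq_zero_or_pos (Nat.card (Sylow p H) / p) with h0 | hpos
    · rw [h0, mul_zero, zero_add, hmod'] at hdm
      exact absurd hdm.symm hne1
    · have h4 : p ≤ p * (Nat.card (Sylow p H) / p) := Nat.le_mul_of_pos_right p hpos
      omega
  · intro g hgZ hdvd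
    apply hg.hnn
    have hgo : orderOf g ≠ 0 := (orderOf_pos g).ne'
    obtain ⟨z, hz⟩ : ∃ z : H, z = g ^ (orderOf g / p) := ⟨_, rfl⟩
    have hzo : orderOf z = p := by rw [hz]; exact orderOf_pow_orderOf_div hgo hdvd
    have hzZ : z ∈ Subgroup.center H := by rw [hz]; exact Subgroup.pow_mem _ hgZ _
    obtain ⟨Q, hQ⟩ := s4504_syl_aux p hg.hsq z hzo
    have hQn : (Q : Subgroup H).Normal := by
      rw [hQ]
      constructor
      intro n hn h
      have hnZ : n ∈ Subgroup.center H := (Subgroup.zpowers_le.mpr hzZ) hn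
      have h5 : h * n * h⁻¹ = n := by
        rw [Subgroup.mem_center_iff] at hnZ
        rw [hnZ h, mul_inv_cancel_right]
      rw [h5]; exact hn
    obtain ⟨h, hh⟩ := MulAction.exists_smul_eq H Q P
    haveI := hQn
    have hPQ : P = Q := by rw [← hh, Sylow.smul_eq_of_normal]
    rw [← hP, hPQ]
    exact hQn

end Cfsg.Agent.Helper27
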