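import Mathlib
import Cfsg.Agent.Helper29.Frobenius

/-!
# Counting elements of a given order (helper27)

`sc H d` is the number of elements of order `d` of the finite group `H`.  This file collects the
congruences that Frobenius' theorem (`Helper29.dvd_card_pow_eq_one`) gives for these numbers, and a
Sylow fixed-point argument: if `p ∤ sc H (p * q)` then `2 * sc H p ≤ sc H (p * q)`.
-/

set_option autoImplicit false
set_option linter.unusedSectionVars false
set_option warn.classDefReducibility false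

namespace Cfsg.Agent.Helper27.SO

/-- The number of elements of order `d`. -/
noncomputable def sc (H : Type*) [Group H] (d : ℕ) : ℕ := Nat.card {g : H // orderOf g = d}

section Basic

variable {H : Type*} [Group H] [Finite H]

theorem sc_one : sc H 1 = 1 := by
  unfold sc
  rw [Nat.card_eq_one_iff_unique]
  refine ⟨⟨?_⟩, ⟨⟨1, orderOf_one⟩⟩⟩
  rintro ⟨a, ha⟩ ⟨b, hb⟩
  apply Subtype.ext
  show a = b
  rw [orderOf_eq_one_iff.mp ha, orderOf_eq_one_iff.mp hb]

theorem sc_ne_zero {d : ℕ} (g : H) (h : orderOf g = d) : sc H d ≠ 0 := by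
  unfold sc
  have : Nonempty {g : H // orderOf g = d} := ⟨⟨g, h⟩⟩
  exact Nat.card_pos.ne'

theorem exists_of_sc_ne_zero {d : ℕ} (h : sc H d ≠ 0) : ∃ g : H, orderOf g = d := by
  by_contra hne
  apply h
  unfold sc
  have : IsEmpty {g : H // orderOf g = d} := ⟨fun g => hne ⟨g.1, g.2⟩⟩
  exact Nat.card_of_isEmpty

theorem sc_eq_zero {d : ℕ} (h : ¬ ∃ g : H, orderOf g = d) : sc H d = 0 := by
  by_contra hne
  exact h (exists_of_sc_ne_zero hne)

/-- The elements of order `d ≥ 3` come in pairs `{g, g⁻¹}`. -/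
theorem even_sc {d : ℕ} (hd : 3 ≤ d) : Even (sc H d) := by
  classical
  have : Fintype H := Fintype.ofFinite H
  let σ : Equiv.Perm {g : H // orderOf g = d} :=
    { toFun := fun g => ⟨g.1⁻¹, by rw [orderOf_inv]; exact g.2⟩
      invFun := fun g => ⟨g.1⁻¹, by rw [orderOf_inv]; exact g.2⟩
      left_inv := fun g => Subtype.ext (inv_inv _)
      right_inv := fun g => Subtype.ext (inv_inv _) }
  have hσ : σ ^ 2 = 1 := by
    ext g
    show ((σ ^ 2) g).1 = g.1
    rw [pow_two]
    exact inv_inv _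
  have hsupp : σ.support = Finset.univ := by
    ext g
    simp only [Equiv.Perm.mem_support, Finset.mem_univ, iff_true]
    intro h
    have h1 : g.1⁻¹ = g.1 := congrArg Subtype.val h
    have h2 : g.1 ^ 2 = 1 := by
      rw [pow_two]
      nth_rewrite 1 [← h1]
      exact inv_mul_cancel _
    have h3 := orderOf_dvd_of_pow_eq_one h2
    rw [g.2] at h3
    have := Nat.le_of_dvd (by norm_num) h3
    omega
  have h2 := Equiv.Perm.two_dvd_card_support hσ
  rw [hsupp, Finset.card_univ] at h2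
  unfold sc
  rw [Nat.card_eq_fintype_card]
  exact even_iff_two_dvd.mpr h2

theorem sc_eq_card_filter [Fintype H] [DecidableEq H] (d : ℕ) :
    sc H d = (Finset.univ.filter (fun x : H => orderOf x = d)).card := by
  unfold sc
  rw [Nat.card_eq_fintype_card, Fintype.card_subtype]

/-- **Frobenius** for the numbers `sc H d`. -/
theorem frob {m : ℕ} (hm : m ∣ Nat.card H) : m ∣ ∑ d ∈ m.divisors, sc H d := by
  classical
  have hm0 : m ≠ 0 := by
    rintro rfl
    exact Nat.card_pos.ne' (zero_dvd_iff.mp hm)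
  have : Fintype H := Fintype.ofFinite H
  have h1 := Cfsg.Agent.Helper29.dvd_card_pow_eq_one (G := H) m hm
  have h3 := sum_card_orderOf_eq_card_pow_eq_one (G := H) hm0
  have h2 : Nat.card {x : H // x ^ m = 1} = ∑ d ∈ m.divisors, sc H d := by
    rw [Nat.card_eq_fintype_card, Fintype.card_subtype]
    simp only [sc_eq_card_filter]
    convert h3.symm using 2
  rwa [h2] at h1

/-- The numbers of elements of distinct orders add up to at most `|H|`. -/
theorem sum_sc_le (F : Finset ℕ) : ∑ d ∈ F, sc H d ≤ Nat.card H := by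
  classical
  have : Fintype H := Fintype.ofFinite H
  simp only [sc_eq_card_filter]
  rw [← Finset.card_biUnion]
  · rw [Nat.card_eq_fintype_card]
    exact Finset.card_le_univ _
  · intro x _ y _ hxy
    show Disjoint _ _
    rw [Finset.disjoint_left]
    intro g hg hg'
    simp only [Finset.mem_filter, Finset.mem_univ, true_and] at hg hg'
    exact hxy (hg.symm.trans hg')

theorem sum_div_mul {m n : ℕ} (h : m.Coprime n) (f : ℕ → ℕ) :
    ∑ d ∈ (m * n).divisors, f d = ∑ d₁ ∈ m.divisors, ∑ d₂ ∈ n.divisors, f (d₁ * d₂) := by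
  rw [h.divisors_mul, Finset.sum_map, ← Finset.sum_product']
  exact Finset.sum_attach _ (fun x : ℕ × ℕ => f (x.1 * x.2))

theorem zmod_of_dvd {p n : ℕ} (h : p ∣ n) : ((n : ℕ) : ZMod p) = 0 :=
  (ZMod.natCast_eq_zero_iff n p).mpr h

theorem two_ne_zero_zmod {p : ℕ} (hp : p.Prime) (h2 : p ≠ 2) : (2 : ZMod p) ≠ 0 := by
  intro h
  have h' : ((2 : ℕ) : ZMod p) = 0 := by exact_mod_cast h
  rw [ZMod.natCast_eq_zero_iff] at h'
  exact h2 ((Nat.prime_dvd_prime_iff_eq hp Nat.prime_two).mp h')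

theorem one_ne_zero_zmod {p : ℕ} (hp : p.Prime) : (1 : ZMod p) ≠ 0 := by
  have : Fact p.Prime := ⟨hp⟩
  exact one_ne_zero

/-- Cauchy. -/
theorem exists_orderOf_eq_prime {p : ℕ} (hp : p.Prime) (hpd : p ∣ Nat.card H) :
    ∃ g : H, orderOf g = p := by
  have : Fact p.Prime := ⟨hp⟩
  exact exists_prime_orderOf_dvd_card' p hpd

theorem sc_prime_ne_zero {p : ℕ} (hp : p.Prime) (hpd : p ∣ Nat.card H) : sc H p ≠ 0 := by
  obtain ⟨g, hg⟩ := exists_orderOf_eq_prime hp hpd
  exact sc_ne_zero g hg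

/-- `s_p ≡ -1 (mod p)`. -/
theorem prime_cong {p : ℕ} (hp : p.Prime) (hpd : p ∣ Nat.card H) :
    ((sc H p : ℕ) : ZMod p) = -1 := by
  have h := frob (H := H) hpd
  rw [hp.sum_divisors, sc_one] at h
  have h2 := zmod_of_dvd h
  push_cast at h2
  linear_combination h2

/-- `s_q + s_{pq} ≡ 0 (mod p)`. -/
theorem pq_cong {p q : ℕ} (hp : p.Prime) (hq : q.Prime) (hpq : p ≠ q)
    (hpd : p ∣ Nat.card H) (hqd : q ∣ Nat.card H) :
    ((sc H q : ℕ) : ZMod p) + ((sc H (p * q) : ℕ) : ZMod p) = 0 := by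
  have hcop : p.Coprime q := (Nat.coprime_primes hp hq).mpr hpq
  have h := frob (H := H) (hcop.mul_dvd_of_dvd_of_dvd hpd hqd)
  rw [sum_div_mul hcop, hp.sum_divisors] at h
  simp only [hq.sum_divisors, mul_one, one_mul, sc_one] at h
  have h2 := zmod_of_dvd ((dvd_mul_right p q).trans h)
  have h3 := prime_cong hp hpd
  push_cast at h2
  linear_combination h2 - h3

/-- `s_{p²} ≡ 0 (mod p)`. -/
theorem sq_cong {p : ℕ} (hp : p.Prime) (hpd : p ^ 2 ∣ Nat.card H) :
    ((sc H (p ^ 2) : ℕ) : ZMod p) = 0 := by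
  have h := frob (H := H) hpd
  rw [Nat.sum_divisors_prime_pow hp] at h
  simp only [Finset.sum_range_succ, Finset.sum_range_zero, pow_zero, pow_one, zero_add,
    sc_one] at h
  have h2 := zmod_of_dvd ((dvd_pow_self p (by norm_num : 2 ≠ 0)).trans h)
  have h3 := prime_cong hp ((dvd_pow_self p (by norm_num : 2 ≠ 0)).trans hpd)
  push_cast at h2
  linear_combination h2 - h3

/-- `s_{qr} + s_{pqr} ≡ 0 (mod p)`. -/
theorem pqr_cong {p q r : ℕ} (hp : p.Prime) (hq : q.Prime) (hr : r.Prime) (hpq : p ≠ q)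
    (hpr : p ≠ r) (hqr : q ≠ r)
    (hpd : p ∣ Nat.card H) (hqd : q ∣ Nat.card H) (hrd : r ∣ Nat.card H) :
    ((sc H (q * r) : ℕ) : ZMod p) + ((sc H (p * (q * r)) : ℕ) : ZMod p) = 0 := by
  have hcqr : q.Coprime r := (Nat.coprime_primes hq hr).mpr hqr
  have hcop : p.Coprime (q * r) :=
    Nat.Coprime.mul_right ((Nat.coprime_primes hp hq).mpr hpq) ((Nat.coprime_primes hp hr).mpr hpr)
  have h := frob (H := H) (hcop.mul_dvd_of_dvd_of_dvd hpd (hcqr.mul_dvd_of_dvd_of_dvd hqd hrd))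
  rw [sum_div_mul hcop, hp.sum_divisors] at h
  simp only [sum_div_mul hcqr, hq.sum_divisors, hr.sum_divisors, mul_one, one_mul, sc_one] at h
  have h2 := zmod_of_dvd ((dvd_mul_right p (q * r)).trans h)
  have h3 := prime_cong hp hpd
  have h4 := pq_cong hp hq hpq hpd hqd
  have h5 := pq_cong hp hr hpr hpd hrd
  push_cast at h2
  linear_combination h2 - h3 - h4 - h5

/-- `s_{p²} + s_{p² q} ≡ 0 (mod q)`. -/
theorem sq_mul_cong {p q : ℕ} (hp : p.Prime) (hq : q.Prime) (hpq : p ≠ q)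
    (hpd : p ^ 2 ∣ Nat.card H) (hqd : q ∣ Nat.card H) :
    ((sc H (p ^ 2) : ℕ) : ZMod q) + ((sc H (p ^ 2 * q) : ℕ) : ZMod q) = 0 := by
  have hcop : (p ^ 2).Coprime q := Nat.Coprime.pow_left 2 ((Nat.coprime_primes hp hq).mpr hpq)
  have hpd1 : p ∣ Nat.card H := (dvd_pow_self p (by norm_num : 2 ≠ 0)).trans hpd
  have h := frob (H := H) (hcop.mul_dvd_of_dvd_of_dvd hpd hqd)
  rw [sum_div_mul hcop, Nat.sum_divisors_prime_pow hp] at h
  simp only [Finset.sum_range_succ, Finset.sum_range_zero, pow_zero, pow_one, zero_add,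
    hq.sum_divisors, mul_one, one_mul, sc_one] at h
  have h2 := zmod_of_dvd ((dvd_mul_left q (p ^ 2)).trans h)
  have h3 := prime_cong hq hqd
  have h4 := pq_cong hq hp (Ne.symm hpq) hqd hpd1
  rw [mul_comm q p] at h4
  push_cast at h2
  linear_combination h2 - h3 - h4

end Basic

section FixedPoint

variable {H : Type*} [Group H] [Finite H]

theorem orderOf_conj' (g x : H) : orderOf (g * x * g⁻¹) = orderOf x := by
  have h := orderOf_injective (MulAut.conj g).toMonoidHom (MulAut.conj g).injective x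
  simpa using h

/-- The conjugation action of a subgroup on the set of elements of order `n`. -/
def conjOrd (P : Subgroup H) (n : ℕ) : MulAction P {z : H // orderOf z = n} where
  smul g z := ⟨g.1 * z.1 * g.1⁻¹, by rw [orderOf_conj']; exact z.2⟩
  one_smul z := Subtype.ext (by
    show (1 : P).1 * z.1 * (1 : P).1⁻¹ = z.1
    simp)
  mul_smul g h z := Subtype.ext (by
    show (g * h).1 * z.1 * (g * h).1⁻¹ = g.1 * (h.1 * z.1 * h.1⁻¹) * g.1⁻¹
    simp [mul_assoc])

/-- If `p ∤ s_{pq}`, every element of order `p` commutes with an element of order `q`. -/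
theorem exists_commute_of_not_dvd {p q : ℕ} (hp : p.Prime) (hq : q.Prime)
    (hnd : ¬ p ∣ sc H (p * q)) (x : H) (hx : orderOf x = p) :
    ∃ y : H, orderOf y = q ∧ x * y = y * x := by
  have : Fact p.Prime := ⟨hp⟩
  obtain ⟨P⟩ : Nonempty (Sylow p H) := inferInstance
  let _ := conjOrd (P : Subgroup H) (p * q)
  obtain ⟨z, hz⟩ := IsPGroup.nonempty_fixed_point_of_prime_not_dvd_card (P.isPGroup')
    {z : H // orderOf z = p * q} hnd
  have hz' : ∀ g ∈ (P : Subgroup H), g * z.1 * g⁻¹ = z.1 := by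
    intro g hg
    exact congrArg Subtype.val (hz ⟨g, hg⟩)
  have hy0 : orderOf (z.1 ^ p) = q := by
    rw [orderOf_pow_of_dvd hp.ne_zero (by rw [z.2]; exact dvd_mul_right p q), z.2,
      Nat.mul_div_cancel_left q hp.pos]
  have hxP : IsPGroup p (Subgroup.zpowers x) := by
    apply IsPGroup.of_card (n := 1)
    rw [Nat.card_zpowers, hx, pow_one]
  obtain ⟨Q, hQ⟩ := hxP.exists_le_sylow
  obtain ⟨g, hg⟩ := MulAction.exists_smul_eq H P Q
  have hu : g⁻¹ * x * g ∈ (P : Subgroup H) := by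
    have h1 : x ∈ ((g • P : Sylow p H) : Subgroup H) := by
      rw [hg]
      exact hQ (Subgroup.mem_zpowers x)
    rw [Sylow.coe_subgroup_smul, Subgroup.mem_pointwise_smul_iff_inv_smul_mem] at h1
    simpa [MulAut.smul_def] using h1
  refine ⟨g * z.1 ^ p * g⁻¹, by rw [orderOf_conj', hy0], ?_⟩
  have h2 := hz' _ hu
  -- `u z = z u` with `u = g⁻¹ x g`
  have h3 : g⁻¹ * x * g * z.1 = z.1 * (g⁻¹ * x * g) := by
    have := congrArg (fun t => t * (g⁻¹ * x * g)) h2
    simpa [mul_assoc] using this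
  have h4 : Commute (g⁻¹ * x * g) (z.1 ^ p) := (show Commute (g⁻¹ * x * g) z.1 from h3).pow_right p
  have h5 : g⁻¹ * x * g * z.1 ^ p = z.1 ^ p * (g⁻¹ * x * g) := h4
  calc x * (g * z.1 ^ p * g⁻¹) = g * (g⁻¹ * x * g * z.1 ^ p) * g⁻¹ := by group
    _ = g * (z.1 ^ p * (g⁻¹ * x * g)) * g⁻¹ := by rw [h5]
    _ = g * z.1 ^ p * g⁻¹ * x := by group

/-- If `p ∤ s_{pq}` (and `q ≥ 3`) then `2 s_p ≤ s_{pq}`. -/
theorem two_mul_sc_le {p q : ℕ} (hp : p.Prime) (hq : q.Prime) (hpq : p ≠ q) (hq3 : 3 ≤ q)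
    (hnd : ¬ p ∣ sc H (p * q)) : 2 * sc H p ≤ sc H (p * q) := by
  classical
  choose! y hy using fun x : H => exists_commute_of_not_dvd hp hq hnd x
  have hcop : p.Coprime q := (Nat.coprime_primes hp hq).mpr hpq
  have hyo : ∀ x : H, orderOf x = p → ∀ k : ℕ, 0 < k → k < q → orderOf (y x ^ k) = q := by
    intro x hx k hk0 hkq
    have h1 := (hy x hx).1
    have hc : (orderOf (y x)).Coprime k := by
      rw [h1]
      exact (Nat.Prime.coprime_iff_not_dvd hq).mpr (Nat.not_dvd_of_pos_of_lt hk0 hkq)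
    rw [hc.orderOf_pow, h1]
  let f : {x : H // orderOf x = p} × Fin 2 → {z : H // orderOf z = p * q} := fun a =>
    ⟨a.1.1 * y a.1.1 ^ (a.2.1 + 1), by
      have h1 := hy a.1.1 a.1.2
      have hc : Commute a.1.1 (y a.1.1 ^ (a.2.1 + 1)) :=
        (show Commute a.1.1 (y a.1.1) from h1.2).pow_right _
      have ho := hyo a.1.1 a.1.2 (a.2.1 + 1) (by omega) (by have := a.2.2; omega)
      rw [hc.orderOf_mul_eq_mul_orderOf_of_coprime (by rw [a.1.2, ho]; exact hcop), a.1.2, ho]⟩
  have hinj : Function.Injective f := by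
    rintro ⟨⟨x, hx⟩, k⟩ ⟨⟨x', hx'⟩, l⟩ hab
    have h0 : x * y x ^ (k.1 + 1) = x' * y x' ^ (l.1 + 1) := congrArg Subtype.val hab
    have hq1 : ∀ x : H, orderOf x = p → ∀ k : ℕ, (x * y x ^ k) ^ q = x ^ q := by
      intro x hx k
      have hc : Commute x (y x ^ k) := (show Commute x (y x) from (hy x hx).2).pow_right _
      rw [hc.mul_pow, ← pow_mul, mul_comm k q, pow_mul]
      have : y x ^ q = 1 := by
        have := pow_orderOf_eq_one (y x)
        rwa [(hy x hx).1] at this
      rw [this, one_pow, mul_one]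
    have h1 : x ^ q = x' ^ q := by
      rw [← hq1 x hx (k.1 + 1), ← hq1 x' hx' (l.1 + 1), h0]
    obtain ⟨m, -, hm⟩ := Nat.exists_mul_mod_eq_one_of_coprime hcop.symm hp.one_lt
    have hrec : ∀ x : H, orderOf x = p → (x ^ q) ^ m = x := by
      intro x hx
      rw [← pow_mul, ← pow_mod_orderOf, hx, hm, pow_one]
    have hxx : x = x' := by
      rw [← hrec x hx, ← hrec x' hx', h1]
    subst hxx
    have h2 : y x ^ (k.1 + 1) = y x ^ (l.1 + 1) := mul_left_cancel h0
    have h3 : k.1 + 1 = l.1 + 1 := by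
      apply pow_injOn_Iio_orderOf (x := y x)
      · show k.1 + 1 < orderOf (y x)
        rw [(hy x hx).1]
        have := k.2
        omega
      · show l.1 + 1 < orderOf (y x)
        rw [(hy x hx).1]
        have := l.2
        omega
      · exact h2
    have h4 : k = l := Fin.ext (by omega)
    rw [h4]
  have h := Nat.card_le_card_of_injective f hinj
  rw [Nat.card_prod, Nat.card_fin] at h
  unfold sc
  omega

end FixedPoint

end Cfsg.Agent.Helper27.SO
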