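import Mathlib
import Cfsg.Prelude.Def_Sporadic_a
import Cfsg.Agent.Helper26.GolayMore
import Cfsg.Agent.Helper93.GolayAbs

set_option autoImplicit false

/-!
Bridging facts for the concrete binary Golay code `Cfsg.golayCode`: dimension 12, minimum
weight 8, so that the abstract results of `Helper93.GolayAbs` apply.
-/

namespace Cfsg.Agent.Helper27

open Cfsg

theorem card_golayPt : Fintype.card GolayPt = 24 := by
  simp [GolayPt, Fintype.card_option, ZMod.card]

theorem golay_natCard : Nat.card golayCode = 4096 := by
  have h := Cfsg.Agent.Helper26.ncard_golayCode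
  rw [← Nat.card_coe_set_eq] at h
  exact h

theorem golay_finrank : Module.finrank (ZMod 2) golayCode = 12 := by
  have h := golay_natCard
  rw [Module.natCard_eq_pow_finrank (K := ZMod 2) (V := golayCode)] at h
  have h2 : Nat.card (ZMod 2) = 2 := by simp
  rw [h2] at h
  have : (2 : ℕ) ^ Module.finrank (ZMod 2) golayCode = 2 ^ 12 := by rw [h]; norm_num
  exact Nat.pow_right_injective (le_refl 2) this

theorem golay_hammingNorm (w : GolayPt → ZMod 2) : hammingNorm w = (support₂ w).card := by
  rw [Cfsg.Agent.Helper93.hammingNorm_eq_card_supp, Cfsg.Agent.Helper93.support₂_eq_supp]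

theorem golay_weight {w : GolayPt → ZMod 2} (hw : w ∈ golayCode) :
    hammingNorm w = 0 ∨ hammingNorm w = 8 ∨ hammingNorm w = 12 ∨ hammingNorm w = 16 ∨
      hammingNorm w = 24 := by
  rw [golay_hammingNorm]
  exact Cfsg.Agent.Helper26.card_of_mem_supports ⟨w, hw, rfl⟩

theorem golay_min : ∀ w ∈ golayCode, w ≠ 0 → 8 ≤ hammingNorm w := by
  intro w hw hne
  have h0 : hammingNorm w ≠ 0 := by
    rw [Ne, hammingNorm_eq_zero]; exact hne
  rcases golay_weight hw with h | h | h | h | h <;> omega

end Cfsg.Agent.Helper27
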