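import Mathlib
import Cfsg.Agent.Helper15.B42Defs
import Cfsg.Agent.Helper77.D1Final
import Cfsg.Agent.Helper29.D1IL
import Cfsg.Agent.Helper79.S4441Setup
import Cfsg.Agent.Helper79.Basic
import Cfsg.Agent.Helper81.CharBasic
import Cfsg.Agent.Helper3.Induced
import Cfsg.Agent.Helper3.Frobenius
import Cfsg.Agent.Helper27.B42GT1


/-! CALL S4503 (helper15), piece GT2. -/

universe u
set_option autoImplicit false
open Cfsg Cfsg.Agent.Helper77 Cfsg.Agent.Helper15
open scoped ComplexConjugate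

namespace Cfsg.Agent.Helper27

variable {G : Type u} [Group G] [Finite G]

/-- GT2 -/
theorem b42_normal_top (p : ℕ) [Fact p.Prime] (hsq : ¬ p ^ 2 ∣ Nat.card G)
    (hnn : ∀ H : Subgroup G, H.Normal → Nat.card H ≠ p) (x : G) (hx : orderOf x = p)
    (hmin : ∀ H : Subgroup G, H ≠ ⊤ → x ∈ H → ∀ h ∈ H, h * x * h⁻¹ ∈ Subgroup.zpowers x)
    (L : Subgroup G) (hL : L.Normal) (hxL : x ∈ L) : L = ⊤ := by
  by_contra hne
  have hLx := hmin L hne hxL
  have hox : orderOf (⟨x, hxL⟩ : L) = p := by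
    rw [← hx, ← Subgroup.orderOf_coe]
  -- zpowers x is normal in L
  have hQn : (Subgroup.zpowers (⟨x, hxL⟩ : L)).Normal := by
    refine ⟨fun n hn g => ?_⟩
    rw [Subgroup.mem_zpowers_iff] at hn
    obtain ⟨j, rfl⟩ := hn
    have h1 := hLx g g.2
    rw [Subgroup.mem_zpowers_iff] at h1
    obtain ⟨k, hk⟩ := h1
    have h2 : g * (⟨x, hxL⟩ : L) * g⁻¹ = (⟨x, hxL⟩ : L) ^ k := by
      apply Subtype.ext
      simpa using hk.symm
    have h3 : g * (⟨x, hxL⟩ : L) ^ j * g⁻¹ = (g * (⟨x, hxL⟩ : L) * g⁻¹) ^ j :=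
      conj_zpow.symm
    rw [h3, h2]
    exact zpow_mem (zpow_mem (Subgroup.mem_zpowers (⟨x, hxL⟩ : L)) k) j
  have hQ : Nat.card (Subgroup.zpowers (⟨x, hxL⟩ : L)) = p := by
    rw [Nat.card_zpowers, hox]
  -- zpowers x is normal in G
  have hnorm : (Subgroup.zpowers x).Normal := by
    refine ⟨fun n hn g => ?_⟩
    rw [Subgroup.mem_zpowers_iff] at hn
    obtain ⟨j, rfl⟩ := hn
    have hgL : g * x * g⁻¹ ∈ L := hL.conj_mem x hxL g
    have hoy : orderOf (⟨g * x * g⁻¹, hgL⟩ : L) = p := by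
      rw [← Subgroup.orderOf_coe]
      show orderOf (g * x * g⁻¹) = p
      rw [← hx]
      exact orderOf_injective (MulAut.conj g).toMonoidHom (MulAut.conj g).injective x
    have hmem := b42_mem_of_order p hsq L _ hQn hQ _ hoy
    rw [Subgroup.mem_zpowers_iff] at hmem
    obtain ⟨k, hk⟩ := hmem
    have hk' : x ^ k = g * x * g⁻¹ := by
      have := congrArg (Subtype.val : L → G) hk
      simpa using this
    have h3 : g * x ^ j * g⁻¹ = (g * x * g⁻¹) ^ j := conj_zpow.symm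
    rw [h3, ← hk']
    exact zpow_mem (zpow_mem (Subgroup.mem_zpowers x) k) j
  apply hnn (Subgroup.zpowers x) hnorm
  rw [Nat.card_zpowers, hx]

end Cfsg.Agent.Helper27
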