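import Cfsg.Statements.S1383

/-!
# CALL BG83 (helper25), piece NILP: the Sylow `q`-subgroup of a nilpotent subgroup
-/

set_option autoImplicit false

namespace Cfsg.Agent.Helper27

open Cfsg Subgroup

universe u

variable {G : Type u} [Group G] [Finite G]

/-- In a finite nilpotent group, an element of order prime to `q` centralizes the Sylow
`q`-subgroup. -/
theorem bg83_nilp_cent {X : Type u} [Group X] [Finite X] [hnil : Group.IsNilpotent X] (q : ℕ)
    [hq : Fact q.Prime] (S₀ : Sylow q X) {h : X} (hh : (orderOf h).Coprime q) :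
    h ∈ centralizer ((S₀ : Subgroup X) : Set X) := by
  have hCn : (centralizer ((S₀ : Subgroup X) : Set X)).Normal := normal_centralizer
  have hidx : ∀ {d : ℕ}, d.Prime → d ∣ (centralizer ((S₀ : Subgroup X) : Set X)).index → d = q := by
    intro r hr hrd
    by_contra hne
    have : Fact r.Prime := ⟨hr⟩
    let R : Sylow r X := default
    have hRC : (R : Subgroup X) ≤ centralizer ((S₀ : Subgroup X) : Set X) := by
      intro x hx
      rw [mem_centralizer_iff]
      intro y hy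
      have hdis : Disjoint (S₀ : Subgroup X) (R : Subgroup X) :=
        IsPGroup.disjoint_of_ne q r (fun h => hne h.symm) _ _ S₀.isPGroup' R.isPGroup'
      exact (commute_of_normal_of_disjoint (S₀ : Subgroup X) (R : Subgroup X) inferInstance
        inferInstance hdis y x hy hx).eq
    exact Sylow.not_dvd_index R (hrd.trans (index_dvd_of_le hRC))
  have hpow := Nat.eq_prime_pow_of_unique_prime_dvd
    (Subgroup.index_ne_zero_of_finite (H := centralizer ((S₀ : Subgroup X) : Set X))) hidx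
  have h1 : h ^ (centralizer ((S₀ : Subgroup X) : Set X)).index ∈
      centralizer ((S₀ : Subgroup X) : Set X) := Subgroup.pow_index_mem _ h
  have hcop : ((centralizer ((S₀ : Subgroup X) : Set X)).index).Coprime (orderOf h) := by
    rw [hpow]
    exact (Nat.Coprime.pow_right _ hh).symm
  obtain ⟨m, hm⟩ := exists_pow_eq_self_of_coprime hcop
  rw [← hm]
  exact Subgroup.pow_mem _ h1 m

/-- NILP (pure). The Sylow `q`-subgroup of a nilpotent `H`, as a subgroup of `G`. -/
theorem bg83_nilp_sylow (H : Subgroup G) (hnil : Group.IsNilpotent ↥H) (q : ℕ) [Fact q.Prime] :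
    ∃ S : Subgroup G, S ≤ H ∧ IsPGroup q S ∧
      (∀ Q : Subgroup G, Q ≤ H → IsPGroup q Q → Q ≤ S) ∧
      (∀ s ∈ S, ∀ h ∈ H, (orderOf h).Coprime q → s * h = h * s) ∧
      (∀ h ∈ H, ∃ s ∈ S, ∃ t ∈ H, (orderOf t).Coprime q ∧ h = s * t) := by
  have hq : q.Prime := Fact.out
  let S₀ : Sylow q ↥H := default
  have hmax : ∀ Q : Subgroup G, Q ≤ H → IsPGroup q Q → Q ≤ (S₀ : Subgroup ↥H).map H.subtype := by
    intro Q hQH hQ
    obtain ⟨S₁, hS₁⟩ := (hQ.comap_subtype (K := H)).exists_le_sylow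
    have hS : S₁ = S₀ := by
      have := Sylow.unique_of_normal S₀ inferInstance
      exact Subsingleton.elim _ _
    intro x hx
    refine Subgroup.mem_map.2 ⟨⟨x, hQH hx⟩, ?_, rfl⟩
    rw [← hS]
    exact hS₁ (Subgroup.mem_subgroupOf.2 hx)
  refine ⟨(S₀ : Subgroup ↥H).map H.subtype, Subgroup.map_subtype_le _, S₀.isPGroup'.map _, hmax,
    ?_, ?_⟩
  · intro s hs h hh hcop
    obtain ⟨s', hs', rfl⟩ := Subgroup.mem_map.1 hs
    have h1 : (⟨h, hh⟩ : ↥H) ∈ centralizer ((S₀ : Subgroup ↥H) : Set ↥H) := by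
      apply bg83_nilp_cent q S₀
      rw [Subgroup.orderOf_mk]
      exact hcop
    have h2 := mem_centralizer_iff.1 h1 s' hs'
    exact congrArg Subtype.val h2
  · intro h hh
    have hn : orderOf h ≠ 0 := (orderOf_pos h).ne'
    obtain ⟨a, m, hqm, hnm⟩ := Nat.exists_eq_pow_mul_and_not_dvd hn q hq.ne_one
    have hcop : Nat.Coprime (q ^ a) m :=
      Nat.Coprime.pow_left _ ((Nat.Prime.coprime_iff_not_dvd hq).2 hqm)
    have hbez : ((q ^ a : ℕ) : ℤ) * Nat.gcdA (q ^ a) m + (m : ℤ) * Nat.gcdB (q ^ a) m = 1 := by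
      rw [← Nat.gcd_eq_gcd_ab, hcop.gcd_eq_one]
      rfl
    have hs1 : (h ^ ((m : ℤ) * Nat.gcdB (q ^ a) m)) ^ (q ^ a) = 1 := by
      rw [← zpow_natCast, ← zpow_mul, mul_comm (m : ℤ), mul_assoc, mul_comm (m : ℤ), ← Nat.cast_mul,
        ← hnm, mul_comm, zpow_mul, zpow_natCast, pow_orderOf_eq_one, one_zpow]
    have ht1 : (h ^ (((q ^ a : ℕ) : ℤ) * Nat.gcdA (q ^ a) m)) ^ m = 1 := by
      rw [← zpow_natCast, ← zpow_mul, mul_comm ((q ^ a : ℕ) : ℤ), mul_assoc, ← Nat.cast_mul,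
        ← hnm, mul_comm, zpow_mul, zpow_natCast, pow_orderOf_eq_one, one_zpow]
    refine ⟨h ^ ((m : ℤ) * Nat.gcdB (q ^ a) m), ?_, h ^ (((q ^ a : ℕ) : ℤ) * Nat.gcdA (q ^ a) m),
      H.zpow_mem hh _, ?_, ?_⟩
    · have hle : zpowers (h ^ ((m : ℤ) * Nat.gcdB (q ^ a) m)) ≤ H := by
        rw [zpowers_le]
        exact H.zpow_mem hh _
      have hpg : IsPGroup q (zpowers (h ^ ((m : ℤ) * Nat.gcdB (q ^ a) m))) := by
        obtain ⟨j, -, hj⟩ := (Nat.dvd_prime_pow hq).1 (orderOf_dvd_of_pow_eq_one hs1)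
        apply IsPGroup.of_card (n := j)
        rw [Nat.card_zpowers, hj]
      exact hmax _ hle hpg (mem_zpowers _)
    · have h1 : orderOf (h ^ (((q ^ a : ℕ) : ℤ) * Nat.gcdA (q ^ a) m)) ∣ m :=
        orderOf_dvd_of_pow_eq_one ht1
      exact Nat.Coprime.coprime_dvd_left h1 ((Nat.Prime.coprime_iff_not_dvd hq).2 hqm).symm
    · rw [← zpow_add, add_comm, hbez, zpow_one]

end Cfsg.Agent.Helper27
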