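import Cfsg.Agent.Helper27.BG83PNOR

/-!
# CALL BG83 (helper25), piece PCARD
-/

set_option autoImplicit false

namespace Cfsg.Agent.Helper27

open Cfsg Subgroup

universe u

variable {G : Type u} [Group G] [Finite G]

/-- PCARD (pure). (`P` is normal in `H` by `hmax`; `pCore p ↥H` is a `p`-group.) -/
theorem bg83_pCore_card (H P : Subgroup G) (p : ℕ) [Fact p.Prime] (hPH : P ≤ H)
    (hP : IsPGroup p P) (hmax : ∀ Q : Subgroup G, Q ≤ H → IsPGroup p Q → Q ≤ P) :
    Nat.card ↥(pCore p ↥H) = Nat.card ↥P := by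
  have hnorm : (P.subgroupOf H).Normal := by
    constructor
    intro n hn g
    rw [Subgroup.mem_subgroupOf] at hn ⊢
    have hg : (g : G) ∈ normalizer (H : Set G) := Subgroup.le_normalizer g.2
    exact bg83_conj_mem H P p hP hmax hPH hg hn
  have hpg : IsPGroup p (P.subgroupOf H) := hP.comap_subtype
  have heq : pCore p ↥H = P.subgroupOf H := by
    apply le_antisymm
    · apply sSup_le
      rintro N ⟨-, hN⟩
      intro x hx
      rw [Subgroup.mem_subgroupOf]
      have h1 : N.map H.subtype ≤ H := Subgroup.map_subtype_le N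
      have h2 : IsPGroup p (N.map H.subtype) := hN.map _
      exact hmax _ h1 h2 (Subgroup.mem_map.2 ⟨x, hx, rfl⟩)
    · exact le_sSup ⟨hnorm, hpg⟩
  rw [heq]
  exact Nat.card_congr (Subgroup.subgroupOfEquivOfLe hPH).toEquiv

end Cfsg.Agent.Helper27
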