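import Cfsg.Statements.S1383

/-!
# CALL BG83 (helper25), piece PNOR
-/

set_option autoImplicit false

namespace Cfsg.Agent.Helper27

open Cfsg Subgroup

universe u

variable {G : Type u} [Group G] [Finite G]

/-- Conjugates of the largest `p`-subgroup `P` of `H` by elements normalizing `H` lie in `P`. -/
theorem bg83_conj_mem (H P : Subgroup G) (p : ℕ) [Fact p.Prime]
    (hP : IsPGroup p P) (hmax : ∀ Q : Subgroup G, Q ≤ H → IsPGroup p Q → Q ≤ P)
    (hPH : P ≤ H) {k : G} (hk : k ∈ normalizer (H : Set G)) {h : G} (hh : h ∈ P) :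
    k * h * k⁻¹ ∈ P := by
  have h1 : P.map (MulAut.conj k).toMonoidHom ≤ H := by
    intro x hx
    obtain ⟨y, hy, rfl⟩ := Subgroup.mem_map.1 hx
    exact (Subgroup.mem_normalizer_iff.1 hk y).1 (hPH hy)
  have h2 : IsPGroup p (P.map (MulAut.conj k).toMonoidHom) := hP.map _
  exact hmax _ h1 h2 (Subgroup.mem_map.2 ⟨h, hh, rfl⟩)

/-- PNOR (pure). -/
theorem bg83_norm_max (H P : Subgroup G) (p : ℕ) [Fact p.Prime] (hPH : P ≤ H)
    (hP : IsPGroup p P) (hmax : ∀ Q : Subgroup G, Q ≤ H → IsPGroup p Q → Q ≤ P)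
    (K : Subgroup G) (hK : K ≤ normalizer (H : Set G)) : K ≤ normalizer (P : Set G) := by
  intro k hk
  rw [Subgroup.mem_normalizer_iff]
  intro h
  constructor
  · intro hh
    exact bg83_conj_mem H P p hP hmax hPH (hK hk) hh
  · intro hh
    have h1 := bg83_conj_mem H P p hP hmax hPH (hK (K.inv_mem hk)) hh
    have h2 : k⁻¹ * (k * h * k⁻¹) * k⁻¹⁻¹ = h := by group
    rw [h2] at h1
    exact h1

end Cfsg.Agent.Helper27
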