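import Mathlib
import Cfsg.Agent.Helper94.ULag
import Cfsg.Agent.Helper94.USub
import Cfsg.Agent.Helper94.UK
import Cfsg.Agent.Helper97.UNot
import Cfsg.Agent.Helper5.UnitSU

set_option autoImplicit false
open Cfsg Cfsg.Geo Matrix
open Cfsg.Agent.Helper94
open scoped MatrixGroups

namespace Cfsg.Agent.Helper27

universe u

variable {F : Type u} [Field F] {σ : F ≃+* F}

/-- Existence of a pair of complementary totally isotropic subspaces in even dimension,
by induction on the dimension. -/
theorem bu_lag_exists_aux [Finite F] : ∀ n : ℕ, ∀ (κ : Type) [Fintype κ] [DecidableEq κ]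
    (f : (κ → F) → (κ → F) → F), UF σ f → Fintype.card κ = n → Even n →
    ∃ P P' : Submodule F (κ → F), ULagPair f P P' := by
  intro n
  induction n using Nat.strong_induction_on with
  | _ n ih =>
  intro κ _ _ f h hcard hev
  rcases Nat.eq_zero_or_pos n with hn0 | hnpos
  · subst hn0
    have : IsEmpty κ := Fintype.card_eq_zero_iff.mp hcard
    refine ⟨⊥, ⊥, ?_⟩
    constructor
    · intro x hx y _
      rw [Submodule.mem_bot] at hx
      rw [hx]
      exact h.zero_left y
    · intro x hx y _
      rw [Submodule.mem_bot] at hx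
      rw [hx]
      exact h.zero_left y
    · intro x hx _
      exact (Submodule.mem_bot F).mp hx
    · intro v
      exact ⟨0, Submodule.zero_mem _, 0, Submodule.zero_mem _, Subsingleton.elim _ _⟩
  · have hn2 : 2 ≤ n := by
      obtain ⟨k, hk⟩ := hev
      omega
    obtain ⟨e1, he1, -⟩ := h.exists_aniso (k := 0) (fun i => Fin.elim0 i) (by omega)
    have hker : LinearMap.ker (h.fl e1) ≠ ⊥ := by
      apply LinearMap.ker_ne_bot_of_finrank_lt
      rw [Module.finrank_self, Module.finrank_fintype_fun_eq_card, hcard]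
      omega
    obtain ⟨x', hx'mem, hx'0⟩ := Submodule.exists_mem_ne_zero_of_ne_bot hker
    have hx'e : f x' e1 = 0 := by
      have h1 := LinearMap.mem_ker.mp hx'mem
      rwa [UF.fl_apply] at h1
    obtain ⟨z, hz0, hzz⟩ : ∃ z : κ → F, z ≠ 0 ∧ f z z = 0 := by
      by_cases hxx : f x' x' = 0
      · exact ⟨x', hx'0, hxx⟩
      · obtain ⟨l, hl⟩ := h.exists_iso_add (h.swap_zero hx'e) hxx
        refine ⟨e1 + l • x', ?_, hl⟩
        intro h0
        apply he1
        have h1 : e1 = -(l • x') := eq_neg_of_add_eq_zero_left h0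
        calc f e1 e1 = f e1 (-(l • x')) := congrArg (f e1) h1
          _ = 0 := by rw [h.neg_right, h.smul_right, h.swap_zero hx'e, mul_zero, neg_zero]
    have hWtop : ∀ u ∈ (⊤ : Submodule F (κ → F)), u ≠ 0 →
        ∃ x ∈ (⊤ : Submodule F (κ → F)), f x u ≠ 0 := fun u _ hu => by
      obtain ⟨x, hx⟩ := h.nondeg u hu
      exact ⟨x, Submodule.mem_top, hx⟩
    obtain ⟨z', -, hz'z', hzz'⟩ := h.sub_hyp ⊤ hWtop (Submodule.mem_top : z ∈ ⊤) hz0 hzz 1
    have hz'z : f z' z = 1 := by rw [h.herm, hzz', map_one]
    have hmemW : ∀ x, x ∈ Submodule.span F {z, z'} ↔ ∃ a b : F, a • z + b • z' = x :=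
      fun x => Submodule.mem_span_pair
    have hW : ∀ u ∈ Submodule.span F {z, z'}, u ≠ 0 →
        ∃ x ∈ Submodule.span F {z, z'}, f x u ≠ 0 := by
      intro u hu hu0
      obtain ⟨a, b, rfl⟩ := (hmemW u).mp hu
      have hzu : f z (a • z + b • z') = σ b := by
        rw [h.add_right, h.smul_right, h.smul_right, hzz, hzz', mul_zero, mul_one, zero_add]
      have hz'u : f z' (a • z + b • z') = σ a := by
        rw [h.add_right, h.smul_right, h.smul_right, hz'z', hz'z, mul_zero, mul_one, add_zero]
      by_cases hb : b = 0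
      · have ha : a ≠ 0 := by
          rintro rfl
          apply hu0
          rw [hb]
          simp
        refine ⟨z', (hmemW z').mpr ⟨0, 1, by simp⟩, ?_⟩
        rw [hz'u]
        simpa using ha
      · refine ⟨z, (hmemW z).mpr ⟨1, 0, by simp⟩, ?_⟩
        rw [hzu]
        simpa using hb
    have hU := h.uperp_nondeg (Submodule.span F {z, z'}) hW
    have hfinW : Module.finrank F (Submodule.span F {z, z'}) = 2 := by
      have hli : LinearIndependent F ![z, z'] := by
        rw [LinearIndependent.pair_iff]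
        intro a b hab
        have h1 : f (a • z + b • z') z' = 0 := by rw [hab]; exact h.zero_left z'
        have h2 : f (a • z + b • z') z = 0 := by rw [hab]; exact h.zero_left z
        rw [h.add_left, h.smul_left, h.smul_left, hzz', hz'z', mul_one, mul_zero,
          add_zero] at h1
        rw [h.add_left, h.smul_left, h.smul_left, hzz, hz'z, mul_one, mul_zero,
          zero_add] at h2
        exact ⟨h1, h2⟩
      have h3 : Module.finrank F (Submodule.span F (Set.range ![z, z'])) = 2 := by
        have h3' := finrank_span_eq_card hli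
        rw [Fintype.card_fin] at h3'
        exact h3'
      have h4 : Set.range ![z, z'] = {z, z'} := by
        ext x
        simp only [Set.mem_range, Set.mem_insert_iff, Set.mem_singleton_iff]
        constructor
        · rintro ⟨i, rfl⟩
          fin_cases i
          · left; rfl
          · right; rfl
        · rintro (rfl | rfl)
          · exact ⟨0, rfl⟩
          · exact ⟨1, rfl⟩
      rw [← h4]
      exact h3
    have hsum : Module.finrank F (Submodule.span F {z, z'}) +
        Module.finrank F (h.uperp (Submodule.span F {z, z'})) = n := by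
      have h1 := Submodule.finrank_sup_add_finrank_inf_eq (Submodule.span F {z, z'})
        (h.uperp (Submodule.span F {z, z'}))
      have htop : Submodule.span F {z, z'} ⊔ h.uperp (Submodule.span F {z, z'}) = ⊤ := by
        rw [eq_top_iff]
        intro x _
        obtain ⟨w, hw, u, hu, rfl⟩ := h.sub_decomp (Submodule.span F {z, z'}) hW x
        exact Submodule.add_mem_sup hw hu
      have hbot : Submodule.span F {z, z'} ⊓ h.uperp (Submodule.span F {z, z'}) = ⊥ := by
        rw [eq_bot_iff]
        intro x hx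
        rw [Submodule.mem_bot]
        exact h.sub_disj (Submodule.span F {z, z'}) hW hx.1 hx.2
      rw [htop, hbot, finrank_top, finrank_bot, Module.finrank_fintype_fun_eq_card,
        hcard] at h1
      omega
    obtain ⟨φ, hinj, hφU, hsurj, hφ⟩ := h.sub_coords (h.uperp (Submodule.span F {z, z'})) hU
    have hevU : Even (Module.finrank F (h.uperp (Submodule.span F {z, z'}))) := by
      obtain ⟨k, hk⟩ := hev
      exact ⟨k - 1, by omega⟩
    obtain ⟨P1, P1', p1⟩ := ih (Module.finrank F (h.uperp (Submodule.span F {z, z'})))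
      (by omega) (Fin (Module.finrank F (h.uperp (Submodule.span F {z, z'}))))
      (fun x y => f (φ x) (φ y)) hφ (Fintype.card_fin _) hevU
    have hmemP : ∀ (z0 : κ → F)
        (Q : Submodule F (Fin (Module.finrank F (h.uperp (Submodule.span F {z, z'}))) → F))
        (x : κ → F), x ∈ Submodule.span F {z0} ⊔ Q.map φ ↔
          ∃ a : F, ∃ p ∈ Q, x = a • z0 + φ p := by
      intro z0 Q x
      rw [Submodule.mem_sup]
      constructor
      · rintro ⟨y, hy, w, hw, rfl⟩
        obtain ⟨a, rfl⟩ := Submodule.mem_span_singleton.mp hy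
        obtain ⟨p, hp, rfl⟩ := Submodule.mem_map.mp hw
        exact ⟨a, p, hp, rfl⟩
      · rintro ⟨a, p, hp, rfl⟩
        exact ⟨a • z0, Submodule.mem_span_singleton.mpr ⟨a, rfl⟩, φ p,
          Submodule.mem_map.mpr ⟨p, hp, rfl⟩, rfl⟩
    have hzW : z ∈ Submodule.span F {z, z'} := (hmemW z).mpr ⟨1, 0, by simp⟩
    have hz'W : z' ∈ Submodule.span F {z, z'} := (hmemW z').mpr ⟨0, 1, by simp⟩
    have hφz : ∀ p, f (φ p) z = 0 := fun p => hφU p z hzW
    have hφz' : ∀ p, f (φ p) z' = 0 := fun p => hφU p z' hz'W
    have hzφ : ∀ p, f z (φ p) = 0 := fun p => h.swap_zero (hφz p)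
    have hz'φ : ∀ p, f z' (φ p) = 0 := fun p => h.swap_zero (hφz' p)
    refine ⟨Submodule.span F {z} ⊔ P1.map φ, Submodule.span F {z'} ⊔ P1'.map φ, ?_⟩
    constructor
    · intro x hx y hy
      obtain ⟨a, p, hp, rfl⟩ := (hmemP z P1 x).mp hx
      obtain ⟨b, q, hq, rfl⟩ := (hmemP z P1 y).mp hy
      have h5 : f (φ p) (φ q) = 0 := p1.isoA p hp q hq
      simp only [h.add_left, h.add_right, h.smul_left, h.smul_right, hzz, hzφ, hφz, h5,
        mul_zero, add_zero]
    · intro x hx y hy
      obtain ⟨a, p, hp, rfl⟩ := (hmemP z' P1' x).mp hx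
      obtain ⟨b, q, hq, rfl⟩ := (hmemP z' P1' y).mp hy
      have h5 : f (φ p) (φ q) = 0 := p1.isoB p hp q hq
      simp only [h.add_left, h.add_right, h.smul_left, h.smul_right, hz'z', hz'φ, hφz', h5,
        mul_zero, add_zero]
    · intro x hx hx'
      obtain ⟨a, p, hp, rfl⟩ := (hmemP z P1 x).mp hx
      obtain ⟨b, q, hq, hxq⟩ := (hmemP z' P1' _).mp hx'
      have ha : a = 0 := by
        have h1 : f (a • z + φ p) z' = f (b • z' + φ q) z' := by rw [hxq]
        simp only [h.add_left, h.smul_left, hzz', hz'z', hφz', mul_one, mul_zero,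
          add_zero] at h1
        exact h1
      have hb : b = 0 := by
        have h1 : f (a • z + φ p) z = f (b • z' + φ q) z := by rw [hxq]
        simp only [h.add_left, h.smul_left, hzz, hz'z, hφz, mul_one, mul_zero,
          add_zero] at h1
        exact h1.symm
      subst ha
      subst hb
      simp only [zero_smul, zero_add] at hxq ⊢
      have hpq : p = q := hinj hxq
      subst hpq
      have hp0 : p = 0 := p1.disj p hp hq
      rw [hp0, map_zero]
    · intro v
      obtain ⟨w, hw, u, hu, rfl⟩ := h.sub_decomp (Submodule.span F {z, z'}) hW v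
      obtain ⟨a, b, rfl⟩ := (hmemW w).mp hw
      obtain ⟨t, rfl⟩ := hsurj u hu
      obtain ⟨p, hp, q, hq, rfl⟩ := p1.dec t
      refine ⟨a • z + φ p, (hmemP z P1 _).mpr ⟨a, p, hp, rfl⟩, b • z' + φ q,
        (hmemP z' P1' _).mpr ⟨b, q, hq, rfl⟩, ?_⟩
      rw [map_add]
      abel

variable {ι : Type} [Fintype ι] [DecidableEq ι] {f : (ι → F) → (ι → F) → F}

/-- HYP0 -/
theorem bu_lag_exists [Finite F] (h : UF σ f) (hev : Even (Fintype.card ι)) :
    ∃ P P' : Submodule F (ι → F), ULagPair f P P' :=
  bu_lag_exists_aux (Fintype.card ι) ι f h rfl hev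

end Cfsg.Agent.Helper27
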