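import Mathlib
import Cfsg.Agent.Helper94.ULag
import Cfsg.Agent.Helper94.USub
import Cfsg.Agent.Helper94.UK
import Cfsg.Agent.Helper97.UNot
import Cfsg.Agent.Helper5.UnitSU

set_option autoImplicit false
open Cfsg Cfsg.Geo Matrix
open Cfsg.Agent.Helper94
open scoped MatrixGroups

namespace Cfsg.Agent.Helper27

universe u

variable {F : Type u} [Field F] {ι : Type} [Fintype ι] [DecidableEq ι]

/-- INVDET -/
theorem bu_invol_det (s : Matrix ι ι F) (hs : s * s = 1) (h2 : (2 : F) ≠ 0) :
    s.det = (-1) ^ Module.finrank F (LinearMap.ker (Matrix.mulVecLin (s + 1))) := by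
  set V : Submodule F (ι → F) := LinearMap.ker (Matrix.mulVecLin (s + 1)) with hV
  set d := Module.finrank F V with hd
  let b : Module.Basis (Fin d) F V := Module.finBasis F V
  let P : Matrix ι ι F := (2⁻¹ : F) • (1 - s)
  have hPmem : ∀ v : ι → F, Matrix.mulVecLin P v ∈ V := by
    intro v
    rw [hV, LinearMap.mem_ker, Matrix.mulVecLin_apply, Matrix.mulVecLin_apply,
      Matrix.mulVec_mulVec]
    have h1 : (s + 1) * P = 0 := by
      show (s + 1) * ((2⁻¹ : F) • (1 - s)) = 0
      rw [Matrix.mul_smul, Matrix.add_mul, Matrix.mul_sub, Matrix.mul_sub, hs]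
      simp
    rw [h1, Matrix.zero_mulVec]
  have hPfix : ∀ w : ι → F, w ∈ V → P *ᵥ w = w := by
    intro w hw
    rw [hV, LinearMap.mem_ker, Matrix.mulVecLin_apply, Matrix.add_mulVec,
      Matrix.one_mulVec] at hw
    have h1 : s *ᵥ w = -w := eq_neg_of_add_eq_zero_left hw
    show ((2⁻¹ : F) • (1 - s)) *ᵥ w = w
    rw [Matrix.smul_mulVec, Matrix.sub_mulVec, Matrix.one_mulVec, h1, sub_neg_eq_add,
      ← two_smul F w, smul_smul, inv_mul_cancel₀ h2, one_smul]
  let π : (ι → F) →ₗ[F] V := (Matrix.mulVecLin P).codRestrict V hPmem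
  let A : Matrix ι (Fin d) F := LinearMap.toMatrix b (Pi.basisFun F ι) V.subtype
  let B : Matrix (Fin d) ι F := LinearMap.toMatrix (Pi.basisFun F ι) b π
  have hAB : A * B = P := by
    show LinearMap.toMatrix b (Pi.basisFun F ι) V.subtype *
      LinearMap.toMatrix (Pi.basisFun F ι) b π = P
    rw [← LinearMap.toMatrix_comp]
    have h1 : V.subtype ∘ₗ π = Matrix.mulVecLin P := LinearMap.subtype_comp_codRestrict _ _ _
    rw [h1, LinearMap.toMatrix_eq_toMatrix', ← Matrix.toLin'_apply', LinearMap.toMatrix'_toLin']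
  have hBA : B * A = 1 := by
    show LinearMap.toMatrix (Pi.basisFun F ι) b π *
      LinearMap.toMatrix b (Pi.basisFun F ι) V.subtype = 1
    rw [← LinearMap.toMatrix_comp]
    have h1 : π ∘ₗ V.subtype = LinearMap.id := by
      ext w : 1
      apply Subtype.ext
      show P *ᵥ (w : ι → F) = (w : ι → F)
      exact hPfix w w.2
    rw [h1, LinearMap.toMatrix_id]
  have hs' : s = 1 - ((2 : F) • A) * B := by
    rw [Matrix.smul_mul, hAB]
    show s = 1 - (2 : F) • ((2⁻¹ : F) • (1 - s))
    rw [smul_smul, mul_inv_cancel₀ h2, one_smul]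
    abel
  have hdet : s.det = (1 - ((2 : F) • A) * B).det := congrArg Matrix.det hs'
  rw [hdet, Matrix.det_one_sub_mul_comm, Matrix.mul_smul, hBA]
  have h3 : (1 : Matrix (Fin d) (Fin d) F) - (2 : F) • (1 : Matrix (Fin d) (Fin d) F) =
      (-1 : F) • (1 : Matrix (Fin d) (Fin d) F) := by
    rw [← one_smul F (1 : Matrix (Fin d) (Fin d) F), smul_smul, ← sub_smul]
    norm_num
  rw [h3, Matrix.det_smul, Matrix.det_one, mul_one, Fintype.card_fin]

end Cfsg.Agent.Helper27
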