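import Mathlib
import Cfsg.Agent.Helper98.C2Defs
import Cfsg.Prelude.Def_GeometricClasses

/-!
# CALL S5634, piece R1: a basis adapted to an `m`-decomposition (helper27)
-/

set_option autoImplicit false

namespace Cfsg.Agent.Helper27.C2R1

open Matrix Cfsg.Agent.Helper98.C2
open scoped MatrixGroups

variable {K : Type*} [Field K]

/-- PIECE R1 -/
theorem decomp_basis {F : Type*} [Field F] {n t : ℕ} (m : ℕ)
    (D : Fin t → Submodule F (Fin n → F)) (hD : Cfsg.Geo.IsMDecomposition m D) :
    ∃ (P : GL (Fin n) F) (blk : Fin n → Fin t),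
      (∀ b : Fin t, (Finset.univ.filter (fun i => blk i = b)).card = m) ∧
      ∀ b : Fin t, D b = (coordBlock blk b).map (Matrix.toLin' P.1) := by
  classical
  have hint : DirectSum.IsInternal D :=
    DirectSum.isInternal_submodule_of_iSupIndep_of_iSup_eq_top hD.indep hD.iSup_eq_top
  let bD : ∀ i : Fin t, Module.Basis (Fin m) F (D i) :=
    fun i => Module.finBasisOfFinrankEq F (D i) (hD.finrank_eq i)
  let B : Module.Basis (Σ _ : Fin t, Fin m) F (Fin n → F) := hint.collectedBasis bD
  have hcard : Fintype.card (Fin n) = Fintype.card (Σ _ : Fin t, Fin m) := by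
    have h1 := Module.finrank_eq_card_basis B
    rw [Module.finrank_fin_fun] at h1
    rw [Fintype.card_fin, h1]
  let e : Fin n ≃ (Σ _ : Fin t, Fin m) := Fintype.equivOfCardEq hcard
  let B' : Module.Basis (Fin n) F (Fin n → F) := B.reindex e.symm
  have hB' : ∀ j, B' j = B (e j) := by
    intro j
    simp [B']
  let A : Matrix (Fin n) (Fin n) F := (Pi.basisFun F (Fin n)).toMatrix B'
  have hAinv : Invertible A := (Pi.basisFun F (Fin n)).invertibleToMatrix B'
  let P : GL (Fin n) F := unitOfInvertible A
  have hP : P.1 = A := rfl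
  have hcol : ∀ j, Matrix.toLin' P.1 (Pi.single j 1) = B' j := by
    intro j
    rw [Matrix.toLin'_apply, Matrix.mulVec_single_one, hP]
    ext i
    simp [A, Module.Basis.toMatrix_apply]
  have hmem : ∀ j, B' j ∈ D (e j).1 := by
    intro j
    rw [hB']
    exact hint.collectedBasis_mem bD (e j)
  refine ⟨P, fun j => (e j).1, ?_, ?_⟩
  · intro b
    have h1 : (Finset.univ.filter (fun i : Fin n => (e i).1 = b)).card =
        (Finset.univ : Finset (Fin m)).card := by
      apply Finset.card_nbij' (fun j => (e j).2) (fun k => e.symm ⟨b, k⟩)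
      · intro a _
        exact Finset.mem_univ _
      · intro k _
        simp
      · intro a ha
        have ha' : (e a).1 = b := by simpa using ha
        have h2 : (⟨b, (e a).2⟩ : Σ _ : Fin t, Fin m) = e a := by
          rw [← ha']
        show e.symm ⟨b, (e a).2⟩ = a
        rw [h2, Equiv.symm_apply_apply]
      · intro k _
        simp
    rw [h1, Finset.card_univ, Fintype.card_fin]
  · intro b
    apply le_antisymm
    · intro w hw
      have h1 := (bD b).sum_repr ⟨w, hw⟩
      have h2 : w = ∑ k, (bD b).repr ⟨w, hw⟩ k • ((bD b k : D b) : Fin n → F) := by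
        have h3 := congrArg Subtype.val h1
        simp only [AddSubmonoidClass.coe_finsetSum, SetLike.val_smul] at h3
        exact h3.symm
      refine ⟨∑ k, (bD b).repr ⟨w, hw⟩ k • (Pi.single (e.symm ⟨b, k⟩) 1 : Fin n → F), ?_, ?_⟩
      · apply Submodule.sum_mem
        intro k _
        apply Submodule.smul_mem
        intro i hi
        rw [Pi.single_apply, if_neg]
        rintro rfl
        apply hi
        simp
      · rw [map_sum]
        refine Eq.trans ?_ h2.symm
        apply Finset.sum_congr rfl
        intro k _
        rw [map_smul, hcol, hB']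
        simp [B]
    · rintro w ⟨v, hv, rfl⟩
      have h1 : v = ∑ j, v j • (Pi.single j 1 : Fin n → F) := pi_eq_sum_univ' v
      rw [h1, map_sum]
      apply Submodule.sum_mem
      intro j _
      rw [map_smul, hcol]
      by_cases hj : (e j).1 = b
      · apply Submodule.smul_mem
        rw [← hj]
        exact hmem j
      · rw [hv j hj, zero_smul]
        exact Submodule.zero_mem _

end Cfsg.Agent.Helper27.C2R1
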