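import Cfsg.Agent.Helper96.CWDefs

/-!
# CALL S5707 (helper96), piece I4 (double): `a (dm G x y) a⁻¹ = μ⁻¹ • dm G (a x) (a y)` for a
similitude `a`.
-/

set_option autoImplicit false
set_option linter.unusedSectionVars false
set_option linter.unusedSimpArgs false
set_option linter.unusedVariables false

namespace Cfsg.Agent.Helper27.CWI4

open Matrix Cfsg Cfsg.Geo Cfsg.Agent.Helper96 Cfsg.Agent.Helper96.CW

variable {F : Type*} [Field F] {k t : ℕ}

theorem bf_smul_form (G : Matrix (Fin k) (Fin k) F) (μ : F) (u v : Fin k → F) :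
    T5.bf (μ • G) u v = μ * T5.bf G u v := by
  simp [T5.bf, Matrix.smul_mulVec, dotProduct_smul]

theorem bf_simil (G : Matrix (Fin k) (Fin k) F) (a : Matrix (Fin k) (Fin k) F) (μ : F)
    (ha : aᵀ * G * a = μ • G) (u v : Fin k → F) :
    T5.bf G (a *ᵥ u) (a *ᵥ v) = μ * T5.bf G u v := by
  rw [T5.bf_mulVec_left, T5.bf_mulVec_right, ha, bf_smul_form]

theorem conj_rk (G : Matrix (Fin k) (Fin k) F) (a ainv : Matrix (Fin k) (Fin k) F)
    (h1 : a * ainv = 1) (μ : F) (hμ : μ ≠ 0) (ha : aᵀ * G * a = μ • G) (x y : Fin k → F) :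
    a * T5.rk G x y * ainv = μ⁻¹ • T5.rk G (a *ᵥ x) (a *ᵥ y) := by
  apply Helper98.matrix_ext_mulVec
  intro w
  rw [← Matrix.mulVec_mulVec, ← Matrix.mulVec_mulVec, T5.rk_mulVec, Matrix.mulVec_smul,
    Matrix.smul_mulVec, T5.rk_mulVec, smul_smul]
  congr 1
  have hb : T5.bf G w (a *ᵥ y) = μ * T5.bf G (ainv *ᵥ w) y := by
    have hw : w = a *ᵥ (ainv *ᵥ w) := by rw [Matrix.mulVec_mulVec, h1, Matrix.one_mulVec]
    conv_lhs => rw [hw]
    exact bf_simil G a μ ha _ _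
  rw [hb, ← mul_assoc, inv_mul_cancel₀ hμ, one_mul]

theorem i4 (G : Matrix (Fin k) (Fin k) F) (a ainv : Matrix (Fin k) (Fin k) F)
    (h1 : a * ainv = 1) (h2 : ainv * a = 1) (μ : F) (hμ : μ ≠ 0) (ha : aᵀ * G * a = μ • G)
    (W : Matrix (Fin k) (Fin k) F) (hW : W ∈ SD G) :
    a * W * ainv ∈ Submodule.span F (SD G) := by
  obtain ⟨x, y, hxy, rfl⟩ := hW
  have e : a * T5.dm G x y * ainv = μ⁻¹ • T5.dm G (a *ᵥ x) (a *ᵥ y) := by
    rw [T5.dm, Matrix.mul_sub, Matrix.sub_mul, conj_rk G a ainv h1 μ hμ ha,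
      conj_rk G a ainv h1 μ hμ ha, ← smul_sub]
    rfl
  rw [e]
  apply Submodule.smul_mem
  apply Submodule.subset_span
  refine ⟨a *ᵥ x, a *ᵥ y, ?_, rfl⟩
  rw [bf_simil G a μ ha, hxy, mul_zero]

end Cfsg.Agent.Helper27.CWI4
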