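import Cfsg.Agent.Helper96.CWDefs

/-!
# CALL S5707 (helper96), piece N0 (double): `1 + X_i Y_j` is not in the tensor-wreath group.
-/

set_option autoImplicit false
set_option linter.unusedSectionVars false
set_option linter.unusedSimpArgs false
set_option linter.unusedVariables false

namespace Cfsg.Agent.Helper27.CWN0

open Matrix Cfsg Cfsg.Geo Cfsg.Agent.Helper96 Cfsg.Agent.Helper96.CW

variable {F : Type*} [Field F] {k t : ℕ}

/-- Entries of a product of two factor matrices at different positions. -/
theorem facM_mul_facM_apply (i j : Fin t) (hij : i ≠ j) (X Y : Matrix (Fin k) (Fin k) F)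
    (x a : Fin t → Fin k) :
    (facM i X * facM j Y) x a =
      if ∀ l, l ≠ i → l ≠ j → x l = a l then X (x i) (a i) * Y (x j) (a j) else 0 := by
  classical
  rw [Matrix.mul_apply, Finset.sum_eq_single (Function.update a j (x j))]
  · rw [facM_apply, facM_apply]
    simp only [Function.update_self, Function.update_of_ne hij]
    by_cases h : ∀ l, l ≠ i → l ≠ j → x l = a l
    · rw [if_pos h, if_pos, if_pos]
      · intro l hl
        exact Function.update_of_ne hl _ _
      · intro l hl
        by_cases hlj : l = j
        · subst hlj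
          rw [Function.update_self]
        · rw [Function.update_of_ne hlj]
          exact h l hl hlj
    · rw [if_neg h, if_neg, zero_mul]
      intro h'
      apply h
      intro l hl hlj
      have := h' l hl
      rwa [Function.update_of_ne hlj] at this
  · intro y _ hy
    rw [facM_apply, facM_apply]
    by_cases h1 : ∀ l, l ≠ j → y l = a l
    · by_cases h2 : ∀ l, l ≠ i → x l = y l
      · exfalso
        apply hy
        funext l
        by_cases hlj : l = j
        · subst hlj
          rw [Function.update_self]
          exact (h2 l (Ne.symm hij)).symm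
        · rw [Function.update_of_ne hlj]
          exact h1 l hlj
      · rw [if_neg h2, zero_mul]
    · rw [if_neg h1, mul_zero]
  · intro h
    exact absurd (Finset.mem_univ _) h

theorem n0 [Finite F] (i j : Fin t) (hij : i ≠ j) (X Y : Matrix (Fin k) (Fin k) F)
    (α α' : Fin k) (hα : α ≠ α') (hX : X α' α ≠ 0) (β β' : Fin k) (hβ : β ≠ β') (hY : Y β' β ≠ 0)
    (g : GL (Fin t → Fin k) F) (hg : g ∈ tensorWreathStandard k t F) :
    (g : Matrix (Fin t → Fin k) (Fin t → Fin k) F) ≠ 1 + facM i X * facM j Y := by
  classical
  intro hgm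
  obtain ⟨a, ha⟩ : ∃ a : Fin t → Fin k, a = Function.update (fun _ => α) j β := ⟨_, rfl⟩
  have hai : a i = α := by rw [ha, Function.update_of_ne hij]
  have haj : a j = β := by rw [ha, Function.update_self]
  have hpure : Sy.IsPureVecT (Pi.single a (1 : F) : (Fin t → Fin k) → F) := by
    refine ⟨fun l => Pi.single (a l) 1, fun x => ?_⟩
    by_cases hx : x = a
    · subst hx
      simp
    · rw [Pi.single_eq_of_ne hx]
      obtain ⟨l, hl⟩ := Function.ne_iff.mp hx
      symm
      apply Finset.prod_eq_zero (Finset.mem_univ l)
      show (Pi.single (a l) (1 : F) : Fin k → F) (x l) = 0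
      rw [Pi.single_eq_of_ne hl]
  obtain ⟨u, hu⟩ := Sy.std_pure_gen g hg _ hpure
  rw [hgm] at hu
  have hcol : ∀ x, (1 + facM i X * facM j Y) x a = ∏ l, u l (x l) := by
    intro x
    rw [← hu x, Matrix.mulVec_single_one]
    rfl
  -- the four points
  obtain ⟨b, hb⟩ : ∃ b : Fin t → Fin k, b = Function.update (Function.update a i α') j β' :=
    ⟨_, rfl⟩
  obtain ⟨c, hc⟩ : ∃ c : Fin t → Fin k, c = Function.update a i α' := ⟨_, rfl⟩
  obtain ⟨d, hd⟩ : ∃ d : Fin t → Fin k, d = Function.update a j β' := ⟨_, rfl⟩
  have hbi : b i = α' := by rw [hb, Function.update_of_ne hij, Function.update_self]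
  have hbj : b j = β' := by rw [hb, Function.update_self]
  have hbl : ∀ l, l ≠ i → l ≠ j → b l = a l := by
    intro l hli hlj
    rw [hb, Function.update_of_ne hlj, Function.update_of_ne hli]
  have hci : c i = α' := by rw [hc, Function.update_self]
  have hcj : c j = β := by rw [hc, Function.update_of_ne (Ne.symm hij), haj]
  have hcl : ∀ l, l ≠ i → l ≠ j → c l = a l := by
    intro l hli hlj
    rw [hc, Function.update_of_ne hli]
  have hdi : d i = α := by rw [hd, Function.update_of_ne hij, hai]
  have hdj : d j = β' := by rw [hd, Function.update_self]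
  have hdl : ∀ l, l ≠ i → l ≠ j → d l = a l := by
    intro l hli hlj
    rw [hd, Function.update_of_ne hlj]
  have hrel : (∏ l, u l (a l)) * (∏ l, u l (b l)) = (∏ l, u l (c l)) * (∏ l, u l (d l)) := by
    rw [← Finset.prod_mul_distrib, ← Finset.prod_mul_distrib]
    apply Finset.prod_congr rfl
    intro l _
    by_cases hli : l = i
    · subst hli
      rw [hai, hbi, hci, hdi, mul_comm]
    · by_cases hlj : l = j
      · subst hlj
        rw [haj, hbj, hcj, hdj]
      · rw [hbl l hli hlj, hcl l hli hlj, hdl l hli hlj]
  have hba : b ≠ a := by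
    intro h
    have := congrFun h i
    rw [hbi, hai] at this
    exact hα this.symm
  have hca : c ≠ a := by
    intro h
    have := congrFun h i
    rw [hci, hai] at this
    exact hα this.symm
  have hda : d ≠ a := by
    intro h
    have := congrFun h j
    rw [hdj, haj] at this
    exact hβ this.symm
  have va : ∏ l, u l (a l) = 1 + X α α * Y β β := by
    rw [← hcol, Matrix.add_apply, Matrix.one_apply_eq, facM_mul_facM_apply i j hij, if_pos, hai, haj]
    intro l _ _
    rfl
  have vb : ∏ l, u l (b l) = X α' α * Y β' β := by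
    rw [← hcol, Matrix.add_apply, Matrix.one_apply_ne hba, facM_mul_facM_apply i j hij,
      if_pos hbl, hai, haj, hbi, hbj, zero_add]
  have vc : ∏ l, u l (c l) = X α' α * Y β β := by
    rw [← hcol, Matrix.add_apply, Matrix.one_apply_ne hca, facM_mul_facM_apply i j hij,
      if_pos hcl, hai, haj, hci, hcj, zero_add]
  have vd : ∏ l, u l (d l) = X α α * Y β' β := by
    rw [← hcol, Matrix.add_apply, Matrix.one_apply_ne hda, facM_mul_facM_apply i j hij,
      if_pos hdl, hai, haj, hdi, hdj, zero_add]
  rw [va, vb, vc, vd] at hrel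
  have h0 : X α' α * Y β' β = 0 := by linear_combination hrel
  exact mul_ne_zero hX hY h0

end Cfsg.Agent.Helper27.CWN0
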