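import Cfsg.Agent.Helper96.CWDefs

/-!
# CALL S5707 (helper96), piece SM (double): the factors of an isometry in normal form are
similitudes.
-/

set_option autoImplicit false
set_option linter.unusedSectionVars false
set_option linter.unusedSimpArgs false
set_option linter.unusedVariables false

namespace Cfsg.Agent.Helper27.CWSM

open Matrix Cfsg Cfsg.Geo Cfsg.Agent.Helper96 Cfsg.Agent.Helper96.CW

variable {F : Type*} [Field F] {k t : ℕ}

theorem ptM_transpose' (a : Fin t → Matrix (Fin k) (Fin k) F) :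
    (ptM a)ᵀ = ptM (fun i => (a i)ᵀ) := by
  ext x y
  simp [ptM_apply, Matrix.transpose_apply]

theorem fpM_conj_GT (G : Matrix (Fin k) (Fin k) F) (σ : Equiv.Perm (Fin t)) :
    (fpM F k σ)ᵀ * GT t G * fpM F k σ = GT t G := by
  classical
  ext x z
  rw [mul_fpM_apply, Matrix.mul_apply]
  simp_rw [Matrix.transpose_apply, fpM_apply]
  rw [Finset.sum_eq_single (x ∘ σ.symm)]
  · rw [if_pos, one_mul]
    · unfold GT
      rw [ptM_apply, ptM_apply]
      exact Equiv.prod_comp σ.symm (fun i => G (x i) (z i))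
    · funext i
      simp
  · intro y _ hy
    rw [if_neg, zero_mul]
    intro h
    apply hy
    rw [h]
    funext i
    simp
  · intro h
    exact absurd (Finset.mem_univ _) h

theorem bf_single (J : Matrix (Fin t → Fin k) (Fin t → Fin k) F) (u v : Fin t → Fin k) :
    T5.bf J (Pi.single u 1) (Pi.single v 1) = J u v := by
  classical
  simp [T5.bf]

theorem sm (hk : 0 < k) (G : Matrix (Fin k) (Fin k) F) (hG : G.det ≠ 0)
    (σ : Equiv.Perm (Fin t)) (a ainv : Fin t → Matrix (Fin k) (Fin k) F)
    (h1 : ∀ i, a i * ainv i = 1) (h2 : ∀ i, ainv i * a i = 1)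
    (hB : ∀ x y : (Fin t → Fin k) → F,
      T5.bf (GT t G) ((fpM F k σ * ptM a) *ᵥ x) ((fpM F k σ * ptM a) *ᵥ y) = T5.bf (GT t G) x y) :
    ∀ i, ∃ μ : F, μ ≠ 0 ∧ (a i)ᵀ * G * a i = μ • G := by
  classical
  -- matrix form of the hypothesis
  have hM : (fpM F k σ * ptM a)ᵀ * GT t G * (fpM F k σ * ptM a) = GT t G := by
    ext u v
    have h := hB (Pi.single u 1) (Pi.single v 1)
    rw [T5.bf_mulVec_left, T5.bf_mulVec_right, bf_single, bf_single] at h
    exact h
  have hN : ptM (fun i => (a i)ᵀ * G * a i) = ptM (fun _ : Fin t => G) := by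
    have e : (fpM F k σ * ptM a)ᵀ * GT t G * (fpM F k σ * ptM a)
        = (ptM a)ᵀ * ((fpM F k σ)ᵀ * GT t G * fpM F k σ) * ptM a := by
      rw [Matrix.transpose_mul]
      simp only [Matrix.mul_assoc]
    rw [e, fpM_conj_GT, ptM_transpose'] at hM
    unfold GT at hM
    rw [ptM_mul, ptM_mul] at hM
    exact hM
  -- a non-zero entry of `G`
  obtain ⟨p, q, hpq⟩ : ∃ p q, G p q ≠ 0 := by
    by_contra hcon
    push Not at hcon
    apply hG
    have : G = 0 := by
      ext p q
      exact hcon p q
    rw [this]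
    have : Nonempty (Fin k) := ⟨⟨0, hk⟩⟩
    exact Matrix.det_zero
  intro i
  have key : ∀ α β : Fin k,
      ((a i)ᵀ * G * a i) α β * ∏ j ∈ Finset.univ.erase i, ((a j)ᵀ * G * a j) p q
        = G α β * ∏ j ∈ Finset.univ.erase i, G p q := by
    intro α β
    have h := congrFun (congrFun hN (Function.update (fun _ => p) i α))
      (Function.update (fun _ => q) i β)
    rw [ptM_apply, ptM_apply, ← Finset.mul_prod_erase Finset.univ _ (Finset.mem_univ i),
      ← Finset.mul_prod_erase Finset.univ _ (Finset.mem_univ i)] at h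
    simp only [Function.update_self] at h
    have e1 : ∏ j ∈ Finset.univ.erase i, ((a j)ᵀ * G * a j)
          (Function.update (fun _ => p) i α j) (Function.update (fun _ => q) i β j)
        = ∏ j ∈ Finset.univ.erase i, ((a j)ᵀ * G * a j) p q := by
      apply Finset.prod_congr rfl
      intro j hj
      rw [Function.update_of_ne (Finset.ne_of_mem_erase hj),
        Function.update_of_ne (Finset.ne_of_mem_erase hj)]
    have e2 : ∏ j ∈ Finset.univ.erase i, G
          (Function.update (fun _ => p) i α j) (Function.update (fun _ => q) i β j)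
        = ∏ j ∈ Finset.univ.erase i, G p q := by
      apply Finset.prod_congr rfl
      intro j hj
      rw [Function.update_of_ne (Finset.ne_of_mem_erase hj),
        Function.update_of_ne (Finset.ne_of_mem_erase hj)]
    rw [e1, e2] at h
    exact h
  obtain ⟨c, hc⟩ : ∃ c : F, c = ∏ j ∈ Finset.univ.erase i, ((a j)ᵀ * G * a j) p q := ⟨_, rfl⟩
  obtain ⟨g, hg⟩ : ∃ g : F, g = ∏ j ∈ Finset.univ.erase i, G p q := ⟨_, rfl⟩
  rw [← hc, ← hg] at key
  have hg0 : g ≠ 0 := by
    rw [hg, Finset.prod_const]
    exact pow_ne_zero _ hpq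
  have hc0 : c ≠ 0 := by
    intro h0
    have h := key p q
    rw [h0, mul_zero] at h
    exact mul_ne_zero hpq hg0 h.symm
  refine ⟨g / c, div_ne_zero hg0 hc0, ?_⟩
  ext α β
  rw [Matrix.smul_apply, smul_eq_mul]
  have h := key α β
  field_simp
  linear_combination h

end Cfsg.Agent.Helper27.CWSM
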