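/-
Helper27: linear functionals on the length-24 code as sums of coordinates over small sets, and a count
of zeros on the words of weight 8 and 16 that separates the sets of two points from the other small sets.
-/
import Cfsg.Agent.Helper91.Words2
import Cfsg.Agent.Helper7.Golay

set_option autoImplicit false

namespace Cfsg.Agent.Helper27.Cocode

open Cfsg
open Cfsg.Agent.Helper91 (setM toWord)
open scoped Pointwise

/-- The sum of the coordinates of `w` over `s`. -/
def dot (s : Finset GolayPt) (w : GolayPt → ZMod 2) : ZMod 2 := ∑ p ∈ s, w p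

theorem dot_add (s : Finset GolayPt) (v w : GolayPt → ZMod 2) : dot s (v + w) = dot s v + dot s w := by
  simp only [dot, Pi.add_apply, Finset.sum_add_distrib]

theorem dot_empty (w : GolayPt → ZMod 2) : dot ∅ w = 0 := Finset.sum_empty

theorem dot_pair {p q : GolayPt} (h : p ≠ q) (w : GolayPt → ZMod 2) : dot {p, q} w = w p + w q :=
  Finset.sum_pair h

theorem dot_eq_sum_ite (s : Finset GolayPt) (w : GolayPt → ZMod 2) :
    dot s w = ∑ p, if p ∈ s then w p else 0 := by
  rw [dot, Finset.sum_ite_mem, Finset.univ_inter]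

theorem dot_symmDiff (s t : Finset GolayPt) (w : GolayPt → ZMod 2) :
    dot (symmDiff s t) w = dot s w + dot t w := by
  rw [dot_eq_sum_ite, dot_eq_sum_ite, dot_eq_sum_ite, ← Finset.sum_add_distrib]
  apply Finset.sum_congr rfl
  intro p _
  have h2 : w p + w p = 0 := CharTwo.add_self_eq_zero (w p)
  by_cases hs : p ∈ s <;> by_cases ht : p ∈ t <;> simp [Finset.mem_symmDiff, hs, ht, h2]

theorem dot_eq_card (s : Finset GolayPt) (w : GolayPt → ZMod 2) :
    dot s w = ((s ∩ support₂ w).card : ZMod 2) := by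
  have h1 : s ∩ support₂ w = s.filter (fun p => w p ≠ 0) := by
    ext p
    simp [support₂]
  rw [h1, Finset.card_filter, Nat.cast_sum, dot]
  apply Finset.sum_congr rfl
  intro p _
  have key : ∀ a : ZMod 2, a = (((if a ≠ 0 then 1 else 0 : ℕ)) : ZMod 2) := by decide
  exact key (w p)

theorem dot_one (s : Finset GolayPt) : dot s (1 : GolayPt → ZMod 2) = (s.card : ZMod 2) := by
  simp [dot]

/-- Code words are orthogonal to each other. -/
theorem dot_code_code {b : Finset GolayPt} (hb : b ∈ supports (golayCode : Set (GolayPt → ZMod 2)))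
    {c : GolayPt → ZMod 2} (hc : c ∈ golayCode) : dot b c = 0 := by
  rw [dot_eq_card]
  obtain ⟨k, hk⟩ := Helper26.even_card_inter hb ⟨c, hc, rfl⟩
  rw [hk, Nat.cast_mul]
  have : ((2 : ℕ) : ZMod 2) = 0 := by decide
  rw [this, zero_mul]

/-- Every linear functional on the code is the sum of the coordinates over some set. -/
theorem exists_dot (φ : ↥golayCode →ₗ[ZMod 2] ZMod 2) :
    ∃ s : Finset GolayPt, ∀ c : ↥golayCode, φ c = dot s (c : GolayPt → ZMod 2) := by
  classical
  obtain ⟨g, hg⟩ := LinearMap.exists_extend φ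
  refine ⟨Finset.univ.filter (fun p => g (fun j => if p = j then 1 else 0) = 1), fun c => ?_⟩
  have h1 : φ c = g (c : GolayPt → ZMod 2) := by rw [← hg]; rfl
  rw [h1, LinearMap.pi_apply_eq_sum_univ g (c : GolayPt → ZMod 2), dot, Finset.sum_filter]
  apply Finset.sum_congr rfl
  intro p _
  have key : ∀ a x : ZMod 2, x • a = if a = 1 then x else 0 := by decide
  exact key _ _

/-- Every linear functional on the code is the sum of the coordinates over a set of at most four points. -/
theorem exists_dot_small (φ : ↥golayCode →ₗ[ZMod 2] ZMod 2) :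
    ∃ s : Finset GolayPt, s.card ≤ 4 ∧ ∀ c : ↥golayCode, φ c = dot s (c : GolayPt → ZMod 2) := by
  obtain ⟨s, hs⟩ := exists_dot φ
  by_cases hc : Helper26.isCode (Helper26.enc s) = true
  · refine ⟨∅, by simp, fun c => ?_⟩
    rw [hs c, dot_empty]
    exact dot_code_code ((Helper26.mem_supports_iff s).2 hc) c.2
  · have hc' : Helper26.isCode (Helper26.enc s) = false := by
      cases h : Helper26.isCode (Helper26.enc s)
      · rfl
      · exact absurd h hc
    obtain ⟨L, hL, -, h4, hcode⟩ := Helper91.exists_leader (Helper26.enc_lt s) hc'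
    refine ⟨setM L, by rw [Helper91.card_setM hL]; exact h4, fun c => ?_⟩
    have hsd : symmDiff s (setM L) ∈ supports (golayCode : Set (GolayPt → ZMod 2)) := by
      rw [Helper26.mem_supports_iff, Helper26.enc_symmDiff, Helper91.enc_setM hL]; exact hcode
    have h0 := dot_code_code hsd c.2
    rw [dot_symmDiff] at h0
    rw [hs c]
    have key : ∀ a b : ZMod 2, a + b = 0 → a = b := by decide
    exact key _ _ h0

/-- A set of at most seven points over which every code word has coordinate sum zero is empty. -/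
theorem eq_empty_of_dot_zero {s : Finset GolayPt} (hs : s.card ≤ 7)
    (h : ∀ c ∈ golayCode, dot s c = 0) : s = ∅ := by
  by_cases hc : Helper26.isCode (Helper26.enc s) = true
  · have h1 := Helper26.card_of_mem_supports ((Helper26.mem_supports_iff s).2 hc)
    rw [← Finset.card_eq_zero]
    omega
  · exfalso
    have hc' : Helper26.isCode (Helper26.enc s) = false := by
      cases h : Helper26.isCode (Helper26.enc s)
      · rfl
      · exact absurd h hc
    obtain ⟨L, hL, h1, h4, hcode⟩ := Helper91.exists_leader (Helper26.enc_lt s) hc'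
    have hsd : symmDiff s (setM L) ∈ supports (golayCode : Set (GolayPt → ZMod 2)) := by
      rw [Helper26.mem_supports_iff, Helper26.enc_symmDiff, Helper91.enc_setM hL]; exact hcode
    have hL0 : ∀ c ∈ golayCode, dot (setM L) c = 0 := by
      intro c hc
      have h0 := dot_code_code hsd hc
      rw [dot_symmDiff, h c hc, zero_add] at h0
      exact h0
    have hcard1 : 1 ≤ (setM L).card := by rw [Helper91.card_setM hL]; exact h1
    have hcard4 : (setM L).card ≤ 4 := by rw [Helper91.card_setM hL]; exact h4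
    -- a code word with odd intersection with each standard small set
    have hstd : ∀ r m : ℕ, r < 2 ^ 24 → m < 2 ^ 24 → Helper26.isCode m = true →
        Helper26.pc24 (Nat.land r m) % 2 = 1 → ∀ g ∈ M24, g • setM r = setM L → False := by
      intro r m hr hm hmc hodd g hg hgL
      have hw : toWord m ∈ golayCode := (Helper91.toWord_mem_iff26 hm).2 hmc
      have hw' : (fun p => toWord m (g.symm p)) ∈ golayCode := Helper7.preserves_of_mem_M24 hg hw
      have h0 := hL0 _ hw'
      rw [dot_eq_card, Helper7.support_comp_symm, ← hgL] at h0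
      have hsm : g • setM r ∩ g • support₂ (toWord m) = g • (setM r ∩ setM m) := by
        rw [Finset.smul_finset_inter]; rfl
      rw [hsm, Finset.card_smul_finset, Helper26.card_eq_pc24, Helper26.enc_inter,
        Helper91.enc_setM hr, Helper91.enc_setM hm] at h0
      have h2 : ((Helper26.pc24 (r &&& m) : ℕ) : ZMod 2) = ((Helper26.pc24 (r &&& m) % 2 : ℕ) : ZMod 2) := by
        rw [ZMod.natCast_mod]
      have hodd' : Helper26.pc24 (r &&& m) % 2 = 1 := hodd
      rw [h2, hodd'] at h0
      exact absurd h0 (by decide)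
    rcases Helper91.exists_m24_small hcard1 hcard4 with ⟨g, hg, e⟩ | ⟨g, hg, e⟩ | ⟨g, hg, e⟩ | ⟨g, hg, e⟩
    · exact hstd 1 (Helper26.codeOf 1) (by norm_num) (Helper26.codeOf_lt 1) (Helper26.isCode_codeOf 1)
        (by decide +kernel) g hg e
    · exact hstd 17 (Helper26.codeOf 1) (by norm_num) (Helper26.codeOf_lt 1) (Helper26.isCode_codeOf 1)
        (by decide +kernel) g hg e
    · exact hstd 14 (Helper26.codeOf 2) (by norm_num) (Helper26.codeOf_lt 2) (Helper26.isCode_codeOf 2)
        (by decide +kernel) g hg e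
    · exact hstd 15 (Helper26.codeOf 1) (by norm_num) (Helper26.codeOf_lt 1) (Helper26.isCode_codeOf 1)
        (by decide +kernel) g hg e

/-! ## Counting zeros on the words of weight 8 and 16 -/

/-- The word has weight 8 or 16. -/
def IsOct (c : ↥golayCode) : Prop :=
  (support₂ (c : GolayPt → ZMod 2)).card = 8 ∨ (support₂ (c : GolayPt → ZMod 2)).card = 16

/-- The number of words of weight 8 or 16 on which `φ` vanishes. -/
noncomputable def cnt (φ : ↥golayCode → ZMod 2) : ℕ := Nat.card {c : ↥golayCode // IsOct c ∧ φ c = 0}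

theorem cnt_comp (y : ↥golayCode ≃ ↥golayCode) (hy : ∀ c, IsOct (y c) ↔ IsOct c)
    (φ : ↥golayCode → ZMod 2) : cnt (fun c => φ (y c)) = cnt φ := by
  unfold cnt
  exact Nat.card_congr (y.subtypeEquiv (fun c => by rw [hy]))

/-- The test on the index `k` of a code word: weight 8 or 16, and even intersection with the set of mask `m0`. -/
def pk (m0 k : ℕ) : Bool :=
  (Nat.beq (Helper26.pc24 (Helper26.codeOf k)) 8 || Nat.beq (Helper26.pc24 (Helper26.codeOf k)) 16) &&
    Nat.beq (Nat.mod (Helper26.pc24 (Nat.land m0 (Helper26.codeOf k))) 2) 0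

/-- The code word with index `k`. -/
def cw (k : ℕ) : ↥golayCode :=
  ⟨toWord (Helper26.codeOf k),
    (Helper91.toWord_mem_iff26 (Helper26.codeOf_lt k)).2 (Helper26.isCode_codeOf k)⟩

theorem cw_val (k : ℕ) : ((cw k : ↥golayCode) : GolayPt → ZMod 2) = toWord (Helper26.codeOf k) := rfl

theorem pk_iff (s : Finset GolayPt) (k : ℕ) :
    pk (Helper26.enc s) k = true ↔ (IsOct (cw k) ∧ dot s ((cw k : ↥golayCode) : GolayPt → ZMod 2) = 0) := by
  have hlt := Helper26.codeOf_lt k
  have hsupp : support₂ (toWord (Helper26.codeOf k)) = setM (Helper26.codeOf k) := rfl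
  have hcard : (support₂ ((cw k : ↥golayCode) : GolayPt → ZMod 2)).card
      = Helper26.pc24 (Helper26.codeOf k) := by
    rw [cw_val, hsupp, Helper91.card_setM hlt]
  have hdot : dot s ((cw k : ↥golayCode) : GolayPt → ZMod 2)
      = ((Helper26.pc24 (Nat.land (Helper26.enc s) (Helper26.codeOf k)) : ℕ) : ZMod 2) := by
    rw [cw_val, dot_eq_card, hsupp, Helper26.card_eq_pc24, Helper26.enc_inter, Helper91.enc_setM hlt]
    rfl
  unfold pk IsOct
  rw [hcard, hdot, Bool.and_eq_true, Bool.or_eq_true, Nat.beq_eq, Nat.beq_eq, Nat.beq_eq]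
  have key : ∀ n : ℕ, Nat.mod n 2 = 0 ↔ ((n : ℕ) : ZMod 2) = 0 := by
    intro n
    rw [ZMod.natCast_eq_zero_iff]
    exact (Nat.dvd_iff_mod_eq_zero).symm
  rw [key]

theorem cw_injOn {k₁ k₂ : ℕ} (h₁ : k₁ < 4096) (h₂ : k₂ < 4096) (h : cw k₁ = cw k₂) : k₁ = k₂ := by
  have h' : toWord (Helper26.codeOf k₁) = toWord (Helper26.codeOf k₂) := congrArg Subtype.val h
  have h'' := congrArg Helper91.mk h'
  rw [Helper91.mk_toWord (Helper26.codeOf_lt k₁), Helper91.mk_toWord (Helper26.codeOf_lt k₂)] at h''
  rw [← Helper26.codeOf_mod_self k₁ h₁, ← Helper26.codeOf_mod_self k₂ h₂, h'']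

theorem exists_cw (c : ↥golayCode) : ∃ k, k < 4096 ∧ cw k = c := by
  have hc := (Helper91.mem_golayCode_iff26 (c : GolayPt → ZMod 2)).1 c.2
  have h1 := Helper26.eq_codeOf_of_isCode hc
  refine ⟨Helper91.mk (c : GolayPt → ZMod 2) % 4096, Nat.mod_lt _ (by norm_num), ?_⟩
  apply Subtype.ext
  rw [cw_val, ← h1, Helper91.toWord_mk]

/-- The count of zeros of a coordinate sum, as a computation on the 4096 indices. -/
theorem cnt_dot (s : Finset GolayPt) :
    cnt (fun c => dot s (c : GolayPt → ZMod 2)) = Helper26.countBelow (pk (Helper26.enc s)) 4096 := by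
  rw [← Helper26.card_filter_range, ← Nat.card_eq_finsetCard]
  unfold cnt
  symm
  apply Nat.card_congr
  refine Equiv.ofBijective
    (fun k => ⟨cw k.1, (pk_iff s k.1).1 (Finset.mem_filter.1 k.2).2⟩) ⟨?_, ?_⟩
  · rintro ⟨k₁, h₁⟩ ⟨k₂, h₂⟩ h
    apply Subtype.ext
    have h' : cw k₁ = cw k₂ := congrArg Subtype.val h
    exact cw_injOn (Finset.mem_range.1 (Finset.mem_filter.1 h₁).1)
      (Finset.mem_range.1 (Finset.mem_filter.1 h₂).1) h'
  · rintro ⟨c, hc⟩
    obtain ⟨k, hk, rfl⟩ := exists_cw c
    exact ⟨⟨k, Finset.mem_filter.2 ⟨Finset.mem_range.2 hk, (pk_iff s k).2 hc⟩⟩, rfl⟩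

theorem count_empty : Helper26.countBelow (pk 0) 4096 = 1518 := by decide +kernel

theorem count_duad : Helper26.countBelow (pk 17) 4096 = 814 := by decide +kernel

theorem count_tetrad : Helper26.countBelow (pk 15) 4096 = 750 := by decide +kernel

theorem cnt_empty : cnt (fun c => dot ∅ (c : GolayPt → ZMod 2)) = 1518 := by
  rw [cnt_dot, Helper26.enc_empty, count_empty]

theorem cnt_duad0 : cnt (fun c => dot (setM 17) (c : GolayPt → ZMod 2)) = 814 := by
  rw [cnt_dot, Helper91.enc_setM (by norm_num), count_duad]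

theorem cnt_tetrad0 : cnt (fun c => dot (setM 15) (c : GolayPt → ZMod 2)) = 750 := by
  rw [cnt_dot, Helper91.enc_setM (by norm_num), count_tetrad]

/-! ## The action of `M24` on the code -/

/-- The permutation of the code words induced by an element of `M24`. -/
def actM (g : Equiv.Perm GolayPt) (hg : g ∈ M24) : ↥golayCode ≃ ↥golayCode where
  toFun c := ⟨fun p => (c : GolayPt → ZMod 2) (g.symm p), Helper7.preserves_of_mem_M24 hg c.2⟩
  invFun c := ⟨fun p => (c : GolayPt → ZMod 2) (g p), by
    have h := Helper7.preserves_of_mem_M24 (inv_mem hg) c.2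
    exact h⟩
  left_inv c := by
    apply Subtype.ext
    funext p
    simp
  right_inv c := by
    apply Subtype.ext
    funext p
    simp

theorem actM_val (g : Equiv.Perm GolayPt) (hg : g ∈ M24) (c : ↥golayCode) :
    ((actM g hg c : ↥golayCode) : GolayPt → ZMod 2) = fun p => (c : GolayPt → ZMod 2) (g.symm p) := rfl

theorem isOct_actM (g : Equiv.Perm GolayPt) (hg : g ∈ M24) (c : ↥golayCode) :
    IsOct (actM g hg c) ↔ IsOct c := by
  unfold IsOct
  rw [actM_val, Helper7.support_comp_symm, Finset.card_smul_finset]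

theorem dot_comp_symm (g : Equiv.Perm GolayPt) (s : Finset GolayPt) (w : GolayPt → ZMod 2) :
    dot s (fun p => w (g.symm p)) = dot (g⁻¹ • s) w := by
  have h1 : g⁻¹ • s = s.image (fun p => g.symm p) := rfl
  rw [dot, dot, h1, Finset.sum_image]
  intro x _ y _ h
  exact g.symm.injective h

theorem cnt_smul (g : Equiv.Perm GolayPt) (hg : g ∈ M24) (s : Finset GolayPt) :
    cnt (fun c => dot (g • s) (c : GolayPt → ZMod 2)) = cnt (fun c => dot s (c : GolayPt → ZMod 2)) := by
  have h := cnt_comp (actM g⁻¹ (inv_mem hg)) (isOct_actM g⁻¹ (inv_mem hg))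
    (fun c => dot s (c : GolayPt → ZMod 2))
  rw [← h]
  congr 1
  funext c
  rw [actM_val, dot_comp_symm, inv_inv]

theorem cnt_of_card_two {s : Finset GolayPt} (hs : s.card = 2) :
    cnt (fun c => dot s (c : GolayPt → ZMod 2)) = 814 := by
  have hc : ∀ r : ℕ, r < 2 ^ 24 → ∀ g : Equiv.Perm GolayPt, g • setM r = s →
      Helper26.pc24 r = 2 := by
    intro r hr g e
    rw [← Helper91.card_setM hr, ← Finset.card_smul_finset g, e, hs]
  rcases Helper91.exists_m24_small (s := s) (by omega) (by omega) with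
    ⟨g, hg, e⟩ | ⟨g, hg, e⟩ | ⟨g, hg, e⟩ | ⟨g, hg, e⟩
  · exact absurd (hc 1 (by norm_num) g e) (by decide +kernel)
  · rw [← e, cnt_smul g hg, cnt_duad0]
  · exact absurd (hc 14 (by norm_num) g e) (by decide +kernel)
  · exact absurd (hc 15 (by norm_num) g e) (by decide +kernel)

theorem cnt_of_card_four {s : Finset GolayPt} (hs : s.card = 4) :
    cnt (fun c => dot s (c : GolayPt → ZMod 2)) = 750 := by
  obtain ⟨g, hg, e⟩ := Helper91.exists_m24_tetrad hs
  rw [← e, cnt_smul g hg, cnt_tetrad0]

/-! ## Maps of the code that preserve the words of weight 8 and 16 -/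

/-- A linear bijection of the code that fixes the all-ones word and preserves the set of words of weight 8
or 16 carries the sum of two coordinates to the sum of two coordinates. -/
theorem duad_of_pres (y : ↥golayCode ≃ₗ[ZMod 2] ↥golayCode) (hy : ∀ c, IsOct (y c) ↔ IsOct c)
    (e1 : ↥golayCode) (he1 : (e1 : GolayPt → ZMod 2) = 1) (hy1 : y e1 = e1)
    {p q : GolayPt} (hpq : p ≠ q) :
    ∃ p' q' : GolayPt, p' ≠ q' ∧ ∀ c : ↥golayCode,
      ((y c : ↥golayCode) : GolayPt → ZMod 2) p + ((y c : ↥golayCode) : GolayPt → ZMod 2) q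
        = (c : GolayPt → ZMod 2) p' + (c : GolayPt → ZMod 2) q' := by
  let ψ : (GolayPt → ZMod 2) →ₗ[ZMod 2] ZMod 2 :=
    (LinearMap.proj p : (GolayPt → ZMod 2) →ₗ[ZMod 2] ZMod 2) + LinearMap.proj q
  let φ : ↥golayCode →ₗ[ZMod 2] ZMod 2 := (ψ.comp golayCode.subtype).comp y.toLinearMap
  have hφ : ∀ c : ↥golayCode, φ c = dot {p, q} ((y c : ↥golayCode) : GolayPt → ZMod 2) := by
    intro c
    rw [dot_pair hpq]
    rfl
  obtain ⟨s, hs4, hs⟩ := exists_dot_small φ
  -- the count
  have hcnt : cnt (fun c => dot s (c : GolayPt → ZMod 2)) = 814 := by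
    have h1 : (fun c : ↥golayCode => dot s (c : GolayPt → ZMod 2))
        = fun c => dot {p, q} ((y.toEquiv c : ↥golayCode) : GolayPt → ZMod 2) := by
      funext c
      rw [← hs c, hφ c]
      rfl
    rw [h1, cnt_comp y.toEquiv hy (fun c => dot {p, q} (c : GolayPt → ZMod 2))]
    exact cnt_of_card_two (Finset.card_pair hpq)
  -- the parity
  have hpar : (s.card : ZMod 2) = 0 := by
    have h1 := hs e1
    rw [hφ e1, hy1, he1, dot_one, dot_one, Finset.card_pair hpq] at h1
    rw [← h1]
    decide
  have hpar' : s.card % 2 = 0 := by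
    rw [ZMod.natCast_eq_zero_iff] at hpar
    exact Nat.mod_eq_zero_of_dvd hpar
  have hcard : s.card = 2 := by
    have h024 : s.card = 0 ∨ s.card = 2 ∨ s.card = 4 := by omega
    rcases h024 with h | h | h
    · rw [Finset.card_eq_zero] at h
      rw [h, cnt_empty] at hcnt
      exact absurd hcnt (by norm_num)
    · exact h
    · rw [cnt_of_card_four h] at hcnt
      exact absurd hcnt (by norm_num)
  obtain ⟨p', q', hpq', rfl⟩ := Finset.card_eq_two.1 hcard
  refine ⟨p', q', hpq', fun c => ?_⟩
  rw [← dot_pair hpq, ← hφ c, hs c, dot_pair hpq']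

end Cfsg.Agent.Helper27.Cocode
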