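/-
Helper27: a linear bijection of the length-24 code that fixes the all-ones word and preserves the set of
words of weight 8 or 16 is induced, up to adding the all-ones word, by an element of `M24`.
-/
import Cfsg.Agent.Helper27.CocodeA

set_option autoImplicit false

namespace Cfsg.Agent.Helper27.Cocode

open Cfsg
open scoped Pointwise

/-! ## Sets of two points -/

theorem symmDiff_pair_pair {α : Type*} [DecidableEq α] {p q r : α} (hpq : p ≠ q) (hpr : p ≠ r) :
    symmDiff ({p, q} : Finset α) {p, r} = symmDiff ({q} : Finset α) {r} := by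
  ext x
  simp only [Finset.mem_symmDiff, Finset.mem_insert, Finset.mem_singleton]
  constructor
  · rintro (⟨h1 | h1, h2⟩ | ⟨h1 | h1, h2⟩)
    · exact absurd (Or.inl h1) h2
    · exact Or.inl ⟨h1, fun h => h2 (Or.inr h)⟩
    · exact absurd (Or.inl h1) h2
    · exact Or.inr ⟨h1, fun h => h2 (Or.inr h)⟩
  · rintro (⟨h1, h2⟩ | ⟨h1, h2⟩)
    · subst h1
      exact Or.inl ⟨Or.inr rfl, fun h => h.elim (fun e => hpq e.symm) h2⟩
    · subst h1
      exact Or.inr ⟨Or.inr rfl, fun h => h.elim (fun e => hpr e.symm) h2⟩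

theorem symmDiff_single_single {α : Type*} [DecidableEq α] {q r : α} (hqr : q ≠ r) :
    symmDiff ({q} : Finset α) {r} = {q, r} := by
  ext x
  simp only [Finset.mem_symmDiff, Finset.mem_insert, Finset.mem_singleton]
  constructor
  · rintro (⟨h1, -⟩ | ⟨h1, -⟩)
    · exact Or.inl h1
    · exact Or.inr h1
  · rintro (h | h)
    · subst h; exact Or.inl ⟨rfl, hqr⟩
    · subst h; exact Or.inr ⟨rfl, fun e => hqr e.symm⟩

/-- Three sets of two points that meet pairwise in one point have a common point, or the third is the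
symmetric difference of the first two. -/
theorem three_pairs {α : Type*} [DecidableEq α] {A B D : Finset α}
    (hD : D.card = 2) (hAB : (A ∩ B).card = 1) (hAD : (A ∩ D).card = 1) (hBD : (B ∩ D).card = 1)
    (hsd : (symmDiff A B).card = 2) :
    (∃ a, a ∈ A ∧ a ∈ B ∧ a ∈ D) ∨ D = symmDiff A B := by
  obtain ⟨a, ha⟩ := Finset.card_eq_one.1 hAB
  have haA : a ∈ A := (Finset.mem_inter.1 (ha ▸ Finset.mem_singleton_self a)).1
  have haB : a ∈ B := (Finset.mem_inter.1 (ha ▸ Finset.mem_singleton_self a)).2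
  by_cases haD : a ∈ D
  · exact Or.inl ⟨a, haA, haB, haD⟩
  · right
    obtain ⟨x, hx⟩ := Finset.card_eq_one.1 hAD
    obtain ⟨x', hx'⟩ := Finset.card_eq_one.1 hBD
    have hxA : x ∈ A := (Finset.mem_inter.1 (hx ▸ Finset.mem_singleton_self x)).1
    have hxD : x ∈ D := (Finset.mem_inter.1 (hx ▸ Finset.mem_singleton_self x)).2
    have hx'B : x' ∈ B := (Finset.mem_inter.1 (hx' ▸ Finset.mem_singleton_self x')).1
    have hx'D : x' ∈ D := (Finset.mem_inter.1 (hx' ▸ Finset.mem_singleton_self x')).2
    have hxB : x ∉ B := by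
      intro h
      have : x ∈ A ∩ B := Finset.mem_inter.2 ⟨hxA, h⟩
      rw [ha, Finset.mem_singleton] at this
      exact haD (this ▸ hxD)
    have hx'A : x' ∉ A := by
      intro h
      have : x' ∈ A ∩ B := Finset.mem_inter.2 ⟨h, hx'B⟩
      rw [ha, Finset.mem_singleton] at this
      exact haD (this ▸ hx'D)
    have hne : x ≠ x' := fun e => hxB (e ▸ hx'B)
    have h1 : ({x, x'} : Finset α) ⊆ D := by
      intro z hz
      rw [Finset.mem_insert, Finset.mem_singleton] at hz
      rcases hz with rfl | rfl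
      · exact hxD
      · exact hx'D
    have h2 : ({x, x'} : Finset α) ⊆ symmDiff A B := by
      intro z hz
      rw [Finset.mem_insert, Finset.mem_singleton] at hz
      rw [Finset.mem_symmDiff]
      rcases hz with rfl | rfl
      · exact Or.inl ⟨hxA, hxB⟩
      · exact Or.inr ⟨hx'B, hx'A⟩
    have e1 : ({x, x'} : Finset α) = D :=
      Finset.eq_of_subset_of_card_le h1 (by rw [hD, Finset.card_pair hne])
    have e2 : ({x, x'} : Finset α) = symmDiff A B :=
      Finset.eq_of_subset_of_card_le h2 (by rw [hsd, Finset.card_pair hne])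
    rw [← e1, e2]

theorem exists_notMem (S : Finset GolayPt) (h : S.card ≤ 4) : ∃ x, x ∉ S := by
  by_contra hne
  have hall : ∀ x, x ∈ S := fun x => by
    by_contra hx
    exact hne ⟨x, hx⟩
  have : S = Finset.univ := Finset.eq_univ_iff_forall.2 hall
  rw [this, Finset.card_univ, Helper26.card_golayPt] at h
  omega

/-! ## The relation between sets induced by a map of the code -/

section

variable (y : ↥golayCode ≃ₗ[ZMod 2] ↥golayCode)

/-- The coordinate sum over `A` of the image of a word is its coordinate sum over `B`. -/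
def Rel (A B : Finset GolayPt) : Prop :=
  ∀ c : ↥golayCode, dot A ((y c : ↥golayCode) : GolayPt → ZMod 2) = dot B (c : GolayPt → ZMod 2)

variable {y}

theorem Rel.symmDiff {A B A' B' : Finset GolayPt} (h : Rel y A B) (h' : Rel y A' B') :
    Rel y (symmDiff A A') (symmDiff B B') := by
  intro c
  rw [dot_symmDiff, dot_symmDiff, h c, h' c]

theorem Rel.right_empty {B : Finset GolayPt} (h : Rel y ∅ B) (hB : B.card ≤ 7) : B = ∅ := by
  apply eq_empty_of_dot_zero hB
  intro c hc
  have h0 := h ⟨c, hc⟩
  rw [dot_empty] at h0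
  exact h0.symm

theorem Rel.left_empty {A : Finset GolayPt} (h : Rel y A ∅) (hA : A.card ≤ 7) : A = ∅ := by
  apply eq_empty_of_dot_zero hA
  intro c hc
  have h0 := h (y.symm ⟨c, hc⟩)
  rw [dot_empty, LinearEquiv.apply_symm_apply] at h0
  exact h0

theorem Rel.right_unique {A B B' : Finset GolayPt} (h : Rel y A B) (h' : Rel y A B')
    (hc : B.card + B'.card ≤ 7) : B = B' := by
  have h0 := h.symmDiff h'
  rw [symmDiff_self, Finset.bot_eq_empty] at h0
  have hcard := Helper26.card_symmDiff_add B B'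
  have h1 := h0.right_empty (by omega)
  exact symmDiff_eq_bot.1 h1

theorem Rel.left_unique {A A' B : Finset GolayPt} (h : Rel y A B) (h' : Rel y A' B)
    (hc : A.card + A'.card ≤ 7) : A = A' := by
  have h0 := h.symmDiff h'
  rw [symmDiff_self, Finset.bot_eq_empty] at h0
  have hcard := Helper26.card_symmDiff_add A A'
  have h1 := h0.left_empty (by omega)
  exact symmDiff_eq_bot.1 h1

/-- From sums of two coordinates to a map of the points. -/
theorem exists_point_map
    (hd : ∀ p q : GolayPt, p ≠ q → ∃ p' q' : GolayPt, p' ≠ q' ∧ Rel y {p, q} {p', q'}) :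
    ∃ s : GolayPt → GolayPt, Function.Injective s ∧ ∀ p q : GolayPt, p ≠ q → Rel y {p, q} {s p, s q} := by
  classical
  have hex : ∀ p q : GolayPt, ∃ B : Finset GolayPt, p ≠ q → B.card = 2 ∧ Rel y {p, q} B := by
    intro p q
    by_cases h : p = q
    · exact ⟨∅, fun h' => absurd h h'⟩
    · obtain ⟨p', q', hne, hr⟩ := hd p q h
      exact ⟨{p', q'}, fun _ => ⟨Finset.card_pair hne, hr⟩⟩
  choose τ hτ using hex
  have hcard : ∀ p q, p ≠ q → (τ p q).card = 2 := fun p q h => (hτ p q h).1
  have hrel : ∀ p q, p ≠ q → Rel y {p, q} (τ p q) := fun p q h => (hτ p q h).2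
  -- symmetry
  have hsymm : ∀ p q, p ≠ q → τ p q = τ q p := by
    intro p q h
    have h1 := hrel p q h
    have h2 := hrel q p (Ne.symm h)
    rw [Finset.pair_comm] at h2
    exact h1.right_unique h2 (by rw [hcard p q h, hcard q p (Ne.symm h)]; norm_num)
  -- triangles
  have htri : ∀ p q r, p ≠ q → p ≠ r → q ≠ r → symmDiff (τ p q) (τ p r) = τ q r := by
    intro p q r hpq hpr hqr
    have h1 := (hrel p q hpq).symmDiff (hrel p r hpr)
    rw [symmDiff_pair_pair hpq hpr, symmDiff_single_single hqr] at h1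
    have hc := Helper26.card_symmDiff_add (τ p q) (τ p r)
    exact h1.right_unique (hrel q r hqr) (by rw [hcard q r hqr]; have := hcard p q hpq; have := hcard p r hpr; omega)
  -- injectivity
  have hinj : ∀ p q p' q', p ≠ q → p' ≠ q' → τ p q = τ p' q' → ({p, q} : Finset GolayPt) = {p', q'} := by
    intro p q p' q' h h' e
    have h1 := hrel p q h
    have h2 := hrel p' q' h'
    rw [← e] at h2
    exact h1.left_unique h2 (by rw [Finset.card_pair h, Finset.card_pair h']; norm_num)
  -- intersections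
  have hint : ∀ p q r, p ≠ q → p ≠ r → q ≠ r → (τ p q ∩ τ p r).card = 1 := by
    intro p q r hpq hpr hqr
    have hc := Helper26.card_symmDiff_add (τ p q) (τ p r)
    rw [htri p q r hpq hpr hqr, hcard q r hqr, hcard p q hpq, hcard p r hpr] at hc
    omega
  -- the common point
  have hsun : ∀ p : GolayPt, ∃ a, ∀ q, q ≠ p → a ∈ τ p q := by
    intro p
    obtain ⟨q1, hq1⟩ := exists_notMem {p} (by simp)
    obtain ⟨q2, hq2⟩ := exists_notMem {p, q1} (by
      have := Finset.card_le_two (a := p) (b := q1); omega)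
    rw [Finset.mem_singleton] at hq1
    rw [Finset.mem_insert, Finset.mem_singleton, not_or] at hq2
    have hpq1 : p ≠ q1 := fun e => hq1 e.symm
    have hpq2 : p ≠ q2 := fun e => hq2.1 e.symm
    have hq12 : q1 ≠ q2 := fun e => hq2.2 e.symm
    obtain ⟨a, ha⟩ := Finset.card_eq_one.1 (hint p q1 q2 hpq1 hpq2 hq12)
    have haA : a ∈ τ p q1 := (Finset.mem_inter.1 (ha ▸ Finset.mem_singleton_self a)).1
    have haB : a ∈ τ p q2 := (Finset.mem_inter.1 (ha ▸ Finset.mem_singleton_self a)).2
    refine ⟨a, fun q hq => ?_⟩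
    have hpq : p ≠ q := fun e => hq e.symm
    by_cases e1 : q = q1
    · rw [e1]; exact haA
    by_cases e2 : q = q2
    · rw [e2]; exact haB
    have h3 := three_pairs (hcard p q hpq)
      (hint p q1 q2 hpq1 hpq2 hq12) (hint p q1 q hpq1 hpq (fun e => e1 e.symm))
      (hint p q2 q hpq2 hpq (fun e => e2 e.symm))
      (by rw [htri p q1 q2 hpq1 hpq2 hq12, hcard q1 q2 hq12])
    rcases h3 with ⟨b, hbA, hbB, hbD⟩ | h3
    · have : b ∈ τ p q1 ∩ τ p q2 := Finset.mem_inter.2 ⟨hbA, hbB⟩
      rw [ha, Finset.mem_singleton] at this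
      rw [← this]; exact hbD
    · exfalso
      rw [htri p q1 q2 hpq1 hpq2 hq12] at h3
      have h4 := hinj p q q1 q2 hpq hq12 h3
      have h5 : p ∈ ({q1, q2} : Finset GolayPt) := by
        rw [← h4]; exact Finset.mem_insert_self p _
      rw [Finset.mem_insert, Finset.mem_singleton] at h5
      rcases h5 with h5 | h5
      · exact hpq1 h5
      · exact hpq2 h5
  choose s hs using hsun
  have hne : ∀ p q, p ≠ q → s p ≠ s q := by
    intro p q hpq e
    obtain ⟨r, hr⟩ := exists_notMem {p, q} (by
      have := Finset.card_le_two (a := p) (b := q); omega)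
    rw [Finset.mem_insert, Finset.mem_singleton, not_or] at hr
    have hrp : r ≠ p := hr.1
    have hrq : r ≠ q := hr.2
    have h1 : s p ∈ τ r p := by
      rw [hsymm r p hrp]; exact hs p r hrp
    have h2 : s p ∈ τ r q := by
      rw [e, hsymm r q hrq]; exact hs q r hrq
    have h3 : s p ∈ τ p q := hs p q (Ne.symm hpq)
    rw [← htri r p q hrp hrq hpq, Finset.mem_symmDiff] at h3
    rcases h3 with ⟨-, h3⟩ | ⟨-, h3⟩
    · exact h3 h2
    · exact h3 h1
  refine ⟨s, ?_, ?_⟩
  · intro p q e
    by_contra hpq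
    exact hne p q hpq e
  · intro p q hpq
    have h1 : ({s p, s q} : Finset GolayPt) ⊆ τ p q := by
      intro z hz
      rw [Finset.mem_insert, Finset.mem_singleton] at hz
      rcases hz with rfl | rfl
      · exact hs p q (Ne.symm hpq)
      · rw [hsymm p q hpq]; exact hs q p hpq
    have h2 : ({s p, s q} : Finset GolayPt) = τ p q :=
      Finset.eq_of_subset_of_card_le h1 (by rw [hcard p q hpq, Finset.card_pair (hne p q hpq)])
    rw [h2]
    exact hrel p q hpq

end

/-- A linear bijection of the code that fixes the all-ones word and preserves the set of words of weight 8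
or 16 is induced by an element of `M24`, up to adding the all-ones word. -/
theorem exists_m24_of_pres (y : ↥golayCode ≃ₗ[ZMod 2] ↥golayCode) (hy : ∀ c, IsOct (y c) ↔ IsOct c)
    (e1 : ↥golayCode) (he1 : (e1 : GolayPt → ZMod 2) = 1) (hy1 : y e1 = e1) :
    ∃ σ ∈ M24, ∀ c : ↥golayCode,
      ((y c : ↥golayCode) : GolayPt → ZMod 2) = (fun p => (c : GolayPt → ZMod 2) (σ.symm p)) ∨
      ((y c : ↥golayCode) : GolayPt → ZMod 2)
        = (fun p => (c : GolayPt → ZMod 2) (σ.symm p)) + fun _ => (1 : ZMod 2) := by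
  have hd : ∀ p q : GolayPt, p ≠ q → ∃ p' q' : GolayPt, p' ≠ q' ∧ Rel y {p, q} {p', q'} := by
    intro p q hpq
    obtain ⟨p', q', hne, h⟩ := duad_of_pres y hy e1 he1 hy1 hpq
    refine ⟨p', q', hne, fun c => ?_⟩
    rw [dot_pair hpq, dot_pair hne]
    exact h c
  obtain ⟨s, hinj, hs⟩ := exists_point_map hd
  let σe : Equiv.Perm GolayPt := Equiv.ofBijective s (Finite.injective_iff_bijective.1 hinj)
  have hσ : ∀ p, σe.symm.symm p = s p := fun p => rfl
  have key : ∀ c : ↥golayCode,
      ((y c : ↥golayCode) : GolayPt → ZMod 2) = (fun p => (c : GolayPt → ZMod 2) (σe.symm.symm p)) ∨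
      ((y c : ↥golayCode) : GolayPt → ZMod 2)
        = (fun p => (c : GolayPt → ZMod 2) (σe.symm.symm p)) + fun _ => (1 : ZMod 2) := by
    intro c
    have hall : ∀ p : GolayPt, ((y c : ↥golayCode) : GolayPt → ZMod 2) p
        = (c : GolayPt → ZMod 2) (s p)
          + (((y c : ↥golayCode) : GolayPt → ZMod 2) none + (c : GolayPt → ZMod 2) (s none)) := by
      intro p
      by_cases hp : p = none
      · rw [hp]
        have k1 : ∀ a b : ZMod 2, a = b + (a + b) := by decide
        exact k1 _ _
      · have h1 := hs p none hp c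
        rw [dot_pair hp, dot_pair (fun e => hp (hinj e))] at h1
        have k2 : ∀ a a0 b b0 : ZMod 2, a + a0 = b + b0 → a = b + (a0 + b0) := by decide
        exact k2 _ _ _ _ h1
    have k3 : ∀ a : ZMod 2, a = 0 ∨ a = 1 := by decide
    rcases k3 (((y c : ↥golayCode) : GolayPt → ZMod 2) none + (c : GolayPt → ZMod 2) (s none)) with h0 | h0
    · left
      funext p
      rw [hall p, h0, add_zero]
      rfl
    · right
      funext p
      rw [hall p, h0]
      rfl
  refine ⟨σe.symm, ?_, key⟩
  apply Helper7.mem_M24_of_preserves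
  intro w hw
  rcases key ⟨w, hw⟩ with h | h
  · have h' : (fun p => w (σe.symm.symm p)) = ((y ⟨w, hw⟩ : ↥golayCode) : GolayPt → ZMod 2) := h.symm
    rw [h']
    exact (y ⟨w, hw⟩).2
  · have h' : (fun p => w (σe.symm.symm p))
        = ((y ⟨w, hw⟩ : ↥golayCode) : GolayPt → ZMod 2) + (e1 : GolayPt → ZMod 2) := by
      rw [h, he1]
      funext p
      have k4 : ∀ a : ZMod 2, a = a + 1 + 1 := by decide
      exact k4 _
    rw [h']
    exact golayCode.add_mem (y ⟨w, hw⟩).2 e1.2

end Cfsg.Agent.Helper27.Cocode
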