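import Mathlib
import Cfsg.Prelude.Def_Sporadic_a
import Cfsg.Agent.Helper26.GolayMore
import Cfsg.Agent.Helper93.GolayAbs
import Cfsg.Agent.Helper27.GolayFacts

set_option autoImplicit false

/-!
The punctured binary Golay code of length 23 (delete the coordinate `none`): injectivity of the
puncturing map on the code, weights, and counting of punctured words by a kernel-checkable
predicate on the 12-bit index of the code word.
-/

namespace Cfsg.Agent.Helper27

open Cfsg Cfsg.Agent.Helper26

/-- restriction of a word of length 24 to the 23 coordinates `some x`. -/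
def res23 (w : GolayPt → ZMod 2) : ZMod 23 → ZMod 2 := fun x => w (some x)

/-- the word of length 23 with support `{x | some x ∈ b}`. -/
def ind23 (b : Finset GolayPt) : ZMod 23 → ZMod 2 := fun x => if some x ∈ b then 1 else 0

theorem res23_sub (v w : GolayPt → ZMod 2) : res23 (v - w) = res23 v - res23 w := rfl

theorem res23_eq_ind23 (w : GolayPt → ZMod 2) : res23 w = ind23 (support₂ w) := by
  funext x
  unfold res23 ind23
  have h : some x ∈ support₂ w ↔ w (some x) ≠ 0 := by
    simp [support₂]
  by_cases h0 : w (some x) = 0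
  · rw [if_neg (by rw [h]; simpa using h0), h0]
  · rw [if_pos (by rw [h]; exact h0)]
    generalize w (some x) = a at h0
    revert a
    decide

theorem hammingNorm_ind23 (b : Finset GolayPt) : hammingNorm (ind23 b) = (b.erase none).card := by
  rw [← Finset.map_some_eraseNone, Finset.card_map]
  unfold hammingNorm
  congr 1
  ext x
  simp [ind23, Finset.mem_eraseNone]

theorem hammingNorm_res23 (w : GolayPt → ZMod 2) :
    hammingNorm w = hammingNorm (res23 w) + (if w none = 0 then 0 else 1) := by
  rw [res23_eq_ind23, hammingNorm_ind23, golay_hammingNorm]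
  have h : none ∈ support₂ w ↔ w none ≠ 0 := by simp [support₂]
  by_cases h0 : w none = 0
  · rw [if_pos h0, Finset.erase_eq_of_notMem (by rw [h]; simpa using h0), Nat.add_zero]
  · rw [if_neg h0, Finset.card_erase_add_one (by rw [h]; exact h0)]

theorem hammingNorm_res23_le (w : GolayPt → ZMod 2) : hammingNorm w ≤ hammingNorm (res23 w) + 1 := by
  rw [hammingNorm_res23 w]
  split_ifs <;> omega

theorem hammingNorm_res23_ge (w : GolayPt → ZMod 2) : hammingNorm (res23 w) ≤ hammingNorm w := by
  rw [hammingNorm_res23 w]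
  omega

/-- the punctured code, as in the statements. -/
theorem punct_eq : {u : ZMod 23 → ZMod 2 | ∃ w ∈ golayCode, ∀ x : ZMod 23, u x = w (some x)} =
    res23 '' (golayCode : Set (GolayPt → ZMod 2)) := by
  ext u
  simp only [Set.mem_ofPred_eq, Set.mem_image, SetLike.mem_coe]
  constructor
  · rintro ⟨w, hw, h⟩
    exact ⟨w, hw, (funext h).symm⟩
  · rintro ⟨w, hw, rfl⟩
    exact ⟨w, hw, fun x => rfl⟩

theorem res23_injOn : Set.InjOn res23 (golayCode : Set (GolayPt → ZMod 2)) := by
  intro v hv w hw h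
  by_contra hne
  have hd : v - w ∈ golayCode := golayCode.sub_mem hv hw
  have h8 := golay_min _ hd (sub_ne_zero.mpr hne)
  have h1 := hammingNorm_res23_le (v - w)
  rw [res23_sub, h, sub_self, hammingNorm_zero] at h1
  omega

theorem punct_min (u : ZMod 23 → ZMod 2)
    (hu : u ∈ {u : ZMod 23 → ZMod 2 | ∃ w ∈ golayCode, ∀ x : ZMod 23, u x = w (some x)})
    (hne : u ≠ 0) : 7 ≤ hammingNorm u := by
  rw [punct_eq] at hu
  obtain ⟨w, hw, rfl⟩ := hu
  have hw0 : w ≠ 0 := by
    rintro rfl
    exact hne rfl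
  have h8 := golay_min w hw hw0
  have h1 := hammingNorm_res23_le w
  omega

/-! ### counting by a predicate on encodings -/

/-- supports of code words whose encoding satisfies `Q`. -/
def pF (Q : ℕ → Bool) : Finset (Finset GolayPt) :=
  ((Finset.range 4096).filter (fun j => Q (codeOf j) = true)).image (fun j => dec (codeOf j))

theorem mem_pF (Q : ℕ → Bool) (b : Finset GolayPt) :
    b ∈ pF Q ↔ b ∈ supports (golayCode : Set (GolayPt → ZMod 2)) ∧ Q (enc b) = true := by
  rw [mem_supports_iff]
  unfold pF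
  simp only [Finset.mem_image, Finset.mem_filter, Finset.mem_range]
  constructor
  · rintro ⟨k, ⟨hk, hw⟩, rfl⟩
    have he : enc (dec (codeOf k)) = codeOf k := enc_dec _ (codeOf_lt k)
    rw [he]
    exact ⟨isCode_codeOf k, hw⟩
  · rintro ⟨hc, hw⟩
    have h1 := eq_codeOf_of_isCode hc
    refine ⟨enc b % 4096, ⟨Nat.mod_lt _ (by norm_num), ?_⟩, ?_⟩
    · rw [← h1]; exact hw
    · rw [← h1, dec_enc]

theorem card_pF (Q : ℕ → Bool) :
    (pF Q).card = countBelow (fun j => Q (codeOf j)) 4096 := by
  unfold pF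
  rw [Finset.card_image_of_injOn]
  · exact card_filter_range _ _
  · intro k₁ h₁ k₂ h₂ h
    simp only [Finset.coe_filter, Finset.mem_range, Set.mem_ofPred_eq] at h₁ h₂
    have h' : codeOf k₁ = codeOf k₂ := by
      have := congrArg enc h
      rwa [enc_dec _ (codeOf_lt k₁), enc_dec _ (codeOf_lt k₂)] at this
    rw [← codeOf_mod_self k₁ h₁.1, ← codeOf_mod_self k₂ h₂.1, h']

theorem ind23_injOn : Set.InjOn ind23 (supports (golayCode : Set (GolayPt → ZMod 2))) := by
  rintro _ ⟨v, hv, rfl⟩ _ ⟨w, hw, rfl⟩ h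
  rw [← res23_eq_ind23, ← res23_eq_ind23] at h
  rw [res23_injOn hv hw h]

/-- the weight of the punctured word, read off the encoding. -/
def wt23 (m : ℕ) : ℕ := pc24 (Nat.xor m (Nat.land m 8388608))

theorem enc_singleton_none : enc {(none : GolayPt)} = 8388608 := by
  simp [enc, idx]

theorem card_erase_none (b : Finset GolayPt) : (b.erase none).card = wt23 (enc b) := by
  rw [← Finset.sdiff_singleton_eq_erase, card_eq_pc24, enc_sdiff, enc_singleton_none]
  rfl

/-- the punctured words of weight `k` are the `ind23`-image of a computable family. -/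
theorem punct_weight_eq (k : ℕ) :
    {u : ZMod 23 → ZMod 2 | u ∈ {u : ZMod 23 → ZMod 2 | ∃ w ∈ golayCode, ∀ x : ZMod 23,
      u x = w (some x)} ∧ hammingNorm u = k} =
    ind23 '' (pF (fun m => Nat.beq (wt23 m) k) : Set (Finset GolayPt)) := by
  rw [punct_eq]
  ext u
  simp only [Set.mem_ofPred_eq, Set.mem_image, SetLike.mem_coe, mem_pF, Nat.beq_eq]
  constructor
  · rintro ⟨⟨w, hw, rfl⟩, hk⟩
    refine ⟨support₂ w, ⟨⟨w, hw, rfl⟩, ?_⟩, (res23_eq_ind23 w).symm⟩
    rw [← card_erase_none, ← hammingNorm_ind23, ← res23_eq_ind23]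
    exact hk
  · rintro ⟨b, ⟨⟨w, hw, rfl⟩, hk⟩, rfl⟩
    refine ⟨⟨w, hw, res23_eq_ind23 w⟩, ?_⟩
    rw [hammingNorm_ind23, card_erase_none]
    exact hk

theorem punct_weight_ncard (k : ℕ) :
    {u : ZMod 23 → ZMod 2 | u ∈ {u : ZMod 23 → ZMod 2 | ∃ w ∈ golayCode, ∀ x : ZMod 23,
      u x = w (some x)} ∧ hammingNorm u = k}.ncard =
    countBelow (fun j => Nat.beq (wt23 (codeOf j)) k) 4096 := by
  rw [punct_weight_eq, Set.InjOn.ncard_image, Set.ncard_coe_finset, card_pF]
  intro a ha b hb h
  rw [Finset.mem_coe, mem_pF] at ha hb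
  exact ind23_injOn ha.1 hb.1 h

theorem punct_ncard :
    {u : ZMod 23 → ZMod 2 | ∃ w ∈ golayCode, ∀ x : ZMod 23, u x = w (some x)}.ncard = 4096 := by
  rw [punct_eq, Set.InjOn.ncard_image res23_injOn]
  exact ncard_golayCode

theorem count23_7 : countBelow (fun j => Nat.beq (wt23 (codeOf j)) 7) 4096 = 253 := by
  decide +kernel
theorem count23_8 : countBelow (fun j => Nat.beq (wt23 (codeOf j)) 8) 4096 = 506 := by
  decide +kernel
theorem count23_11 : countBelow (fun j => Nat.beq (wt23 (codeOf j)) 11) 4096 = 1288 := by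
  decide +kernel
theorem count23_12 : countBelow (fun j => Nat.beq (wt23 (codeOf j)) 12) 4096 = 1288 := by
  decide +kernel
theorem count23_15 : countBelow (fun j => Nat.beq (wt23 (codeOf j)) 15) 4096 = 506 := by
  decide +kernel
theorem count23_16 : countBelow (fun j => Nat.beq (wt23 (codeOf j)) 16) 4096 = 253 := by
  decide +kernel

end Cfsg.Agent.Helper27
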