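import Mathlib
import Cfsg.Agent.Helper90.HTDefs
import Cfsg.Agent.Helper47.HTHORTH
import Cfsg.Agent.Helper27.HTHISO

/-!
# CALL S5953 (helper90), piece HLAG (double): totally isotropic subspaces of every dimension
`a` with `2 a ≤ dim C` (direct induction from HORTH and HISO).
-/

set_option autoImplicit false

namespace Cfsg.Agent.Helper27.HT5953

open Module Polynomial Cfsg.Agent.Helper90.HT

section geom2

variable {F : Type*} [Field F] {V : Type*} [AddCommGroup V] [Module F V] [FiniteDimensional F V]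
  (σ : F →+* F) (h : V → V → F)

variable [Fintype F] (q : ℕ) (hq : Fintype.card F = q ^ 2) (hσ : ∀ a, σ a = a ^ q)

include hq hσ

/-- HLAG (uses HMAX with `T = 1`, `N = 1`, and HISO) -/
theorem ht_lag (hh : IsHerm σ h) (C : Submodule F V) (hC : HNondegOn h C) :
    ∀ a, 2 * a ≤ finrank F C → ∃ A : Submodule F V, A ≤ C ∧ HTI h A ∧ finrank F A = a := by
  intro a
  induction a with
  | zero =>
    intro _
    refine ⟨⊥, bot_le, fun u hu v _ => ?_, finrank_bot F V⟩
    rw [(Submodule.mem_bot F).1 hu]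
    exact hh.zero_left v
  | succ a ih =>
    intro ha
    obtain ⟨A, hAC, hATI, hAdim⟩ := ih (by omega)
    obtain ⟨P, hPmem, hPdim⟩ := Cfsg.Agent.Helper47.HT5953.ht_orth σ h hh C A hC hAC
    have hAP : A ≤ P := fun x hx => (hPmem x).2 ⟨hAC hx, fun w hw => hATI x hx w hw⟩
    have hPC : P ≤ C := fun x hx => ((hPmem x).1 hx).1
    obtain ⟨Q, hQ⟩ := Submodule.exists_isCompl (A.comap P.subtype)
    have hdim1 : finrank F (A.comap P.subtype) + finrank F Q = finrank F P :=
      Submodule.finrank_add_eq_of_isCompl hQ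
    have hdim2 : finrank F (A.comap P.subtype) = finrank F A :=
      LinearEquiv.finrank_eq (Submodule.comapSubtypeEquivOfLe hAP)
    have hdim3 : finrank F (Q.map P.subtype) = finrank F Q :=
      LinearEquiv.finrank_eq (Submodule.equivMapOfInjective P.subtype P.injective_subtype Q).symm
    have hU2 : 2 ≤ finrank F (Q.map P.subtype) := by omega
    obtain ⟨v, hvU, hv0, hvv⟩ := ht_iso σ h q hq hσ hh (Q.map P.subtype) hU2
    obtain ⟨x, hxQ, rfl⟩ := hvU
    have hxP : (x : V) ∈ P := x.2
    have hx0V : (x : V) ≠ 0 := hv0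
    have hvv' : h (x : V) (x : V) = 0 := hvv
    have hvA : (x : V) ∉ A := by
      intro hxA
      have hx0 : x ∈ A.comap P.subtype ⊓ Q := Submodule.mem_inf.2 ⟨hxA, hxQ⟩
      rw [hQ.inf_eq_bot] at hx0
      apply hx0V
      rw [(Submodule.mem_bot F).1 hx0]
      rfl
    have hvperp : ∀ w ∈ A, h (x : V) w = 0 := ((hPmem _).1 hxP).2
    refine ⟨A ⊔ Submodule.span F {(x : V)}, sup_le hAC ?_, ?_, ?_⟩
    · rw [Submodule.span_singleton_le_iff_mem]
      exact hPC hxP
    · intro u hu w hw
      obtain ⟨a₁, ha₁, z₁, hz₁, rfl⟩ := Submodule.mem_sup.1 hu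
      obtain ⟨a₂, ha₂, z₂, hz₂, rfl⟩ := Submodule.mem_sup.1 hw
      obtain ⟨c₁, rfl⟩ := Submodule.mem_span_singleton.1 hz₁
      obtain ⟨c₂, rfl⟩ := Submodule.mem_span_singleton.1 hz₂
      simp only [hh.add_left, hh.add_right, hh.smul_left, hh.smul_right]
      rw [hATI a₁ ha₁ a₂ ha₂, hh.eq_zero_symm (hvperp a₁ ha₁), hvperp a₂ ha₂, hvv']
      simp
    · have hinf : A ⊓ Submodule.span F {(x : V)} = ⊥ := by
        rw [eq_bot_iff]
        rintro y ⟨hyA, hyS⟩
        obtain ⟨c, rfl⟩ := Submodule.mem_span_singleton.1 hyS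
        by_cases hc : c = 0
        · rw [hc, zero_smul]
          exact Submodule.zero_mem _
        · exfalso
          apply hvA
          have := A.smul_mem c⁻¹ hyA
          rwa [smul_smul, inv_mul_cancel₀ hc, one_smul] at this
      have h1 := Submodule.finrank_sup_add_finrank_inf_eq A (Submodule.span F {(x : V)})
      rw [hinf, finrank_bot, add_zero, finrank_span_singleton hx0V, hAdim] at h1
      exact h1

end geom2

end Cfsg.Agent.Helper27.HT5953
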