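import Mathlib
import Cfsg.Agent.Helper90.HTDefs
import Cfsg.Agent.Helper34.HTHFIX
import Cfsg.Agent.Helper33.HTHSUM
import Cfsg.Agent.Helper47.HTHTIB
import Cfsg.Agent.Helper27.HTHLAG

/-!
# CALL S5953 (helper90), piece HINV (double): invariant totally isotropic subspaces of an
involution.
-/

set_option autoImplicit false

namespace Cfsg.Agent.Helper27.HT5953

open Module Polynomial Cfsg.Agent.Helper90.HT

section geom2

variable {F : Type*} [Field F] {V : Type*} [AddCommGroup V] [Module F V] [FiniteDimensional F V]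
  (σ : F →+* F) (h : V → V → F)

variable [Fintype F] (q : ℕ) (hq : Fintype.card F = q ^ 2) (hσ : ∀ a, σ a = a ^ q)

include hq hσ

/-- HINV (uses HFIX with r = 2, HLAG, HSUM, HTIB): involutions. -/
theorem ht_inv (hh : IsHerm σ h) (hnd : ∀ v, (∀ w, h v w = 0) → v = 0)
    (T : Module.End F V) (hT : HPres h T) (h2 : (2 : F) ≠ 0) (hT2 : T ^ 2 = 1) :
    finrank F (LinearMap.ker (T - 1)) + finrank F (LinearMap.ker (T + 1)) = finrank F V ∧
    (∀ m, m ≤ finrank F (LinearMap.ker (T - 1)) / 2 + finrank F (LinearMap.ker (T + 1)) / 2 →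
      ∃ W : Submodule F V, finrank F W = m ∧ HTI h W ∧ W.map T ≤ W) ∧
    (∀ W : Submodule F V, HTI h W → W.map T ≤ W →
      finrank F W ≤ finrank F (LinearMap.ker (T - 1)) / 2 + finrank F (LinearMap.ker (T + 1)) / 2) := by
  have h2' : ((2 : ℕ) : F) ≠ 0 := by exact_mod_cast h2
  obtain ⟨-, hcompl, hB1, hB2, hnd1, hnd2⟩ :=
    Cfsg.Agent.Helper34.HT5953.ht_fix σ h hh hnd T hT 2 h2' hT2
  have hTT : ∀ x, T (T x) = x := fun x => by
    have := congrArg (fun f : Module.End F V => f x) hT2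
    simpa [pow_two] using this
  have hker1 : ∀ x, x ∈ LinearMap.ker (T - 1) ↔ T x = x := by
    intro x
    rw [LinearMap.mem_ker, LinearMap.sub_apply, sub_eq_zero]
    rfl
  have hker2 : ∀ x, x ∈ LinearMap.ker (T + 1) ↔ T x = -x := by
    intro x
    rw [LinearMap.mem_ker, LinearMap.add_apply]
    exact ⟨fun hx => eq_neg_of_add_eq_zero_left hx, fun hx => by rw [hx]; exact neg_add_cancel x⟩
  have hhalf : (2 : F)⁻¹ + (2 : F)⁻¹ = 1 := by rw [← two_mul, mul_inv_cancel₀ h2]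
  have hrange : LinearMap.range (T - 1) = LinearMap.ker (T + 1) := by
    ext v
    constructor
    · rintro ⟨x, rfl⟩
      rw [hker2]
      have e : (T - 1) x = T x - x := rfl
      rw [e, map_sub, hTT]
      abel
    · intro hv
      rw [hker2] at hv
      refine ⟨(-(2 : F)⁻¹) • v, ?_⟩
      have e : (T - 1) ((-(2 : F)⁻¹) • v) = T ((-(2 : F)⁻¹) • v) - (-(2 : F)⁻¹) • v := rfl
      rw [e, map_smul, hv, smul_neg, neg_smul, neg_neg, sub_neg_eq_add, ← add_smul,
        hhalf, one_smul]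
  rw [hrange] at hcompl hB1 hB2 hnd2
  refine ⟨Submodule.finrank_add_eq_of_isCompl hcompl, ?_, ?_⟩
  · intro m hm
    obtain ⟨m₁, m₂, hm12, hm1, hm2⟩ : ∃ m₁ m₂, m = m₁ + m₂ ∧
        2 * m₁ ≤ finrank F (LinearMap.ker (T - 1)) ∧
        2 * m₂ ≤ finrank F (LinearMap.ker (T + 1)) := by
      by_cases hle : m ≤ finrank F (LinearMap.ker (T - 1)) / 2
      · exact ⟨m, 0, by omega, by omega, by omega⟩
      · exact ⟨finrank F (LinearMap.ker (T - 1)) / 2,
          m - finrank F (LinearMap.ker (T - 1)) / 2, by omega, by omega, by omega⟩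
    obtain ⟨A₁, hA₁, hTI₁, hd₁⟩ := ht_lag σ h q hq hσ hh _ hnd1 m₁ hm1
    obtain ⟨A₂, hA₂, hTI₂, hd₂⟩ := ht_lag σ h q hq hσ hh _ hnd2 m₂ hm2
    obtain ⟨hTI, hd⟩ := Cfsg.Agent.Helper33.HT5953.ht_sum σ h hh A₁ A₂ _ _ hA₁ hA₂
      hcompl.inf_eq_bot hB1 hTI₁ hTI₂
    refine ⟨A₁ ⊔ A₂, by rw [hd, hd₁, hd₂, hm12], hTI, ?_⟩
    rw [Submodule.map_sup]
    apply sup_le_sup
    · rintro _ ⟨x, hx, rfl⟩
      rw [(hker1 x).1 (hA₁ hx)]
      exact hx
    · rintro _ ⟨x, hx, rfl⟩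
      rw [(hker2 x).1 (hA₂ hx)]
      exact A₂.neg_mem hx
  · intro W hTI hWT
    have hW1 : 2 * finrank F ↥(W ⊓ LinearMap.ker (T - 1)) ≤ finrank F (LinearMap.ker (T - 1)) :=
      Cfsg.Agent.Helper47.HT5953.ht_bound σ h hh _ _ hnd1 inf_le_right
        (fun u hu v hv => hTI u hu.1 v hv.1)
    have hW2 : 2 * finrank F ↥(W ⊓ LinearMap.ker (T + 1)) ≤ finrank F (LinearMap.ker (T + 1)) :=
      Cfsg.Agent.Helper47.HT5953.ht_bound σ h hh _ _ hnd2 inf_le_right
        (fun u hu v hv => hTI u hu.1 v hv.1)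
    have hle : W ≤ (W ⊓ LinearMap.ker (T - 1)) ⊔ (W ⊓ LinearMap.ker (T + 1)) := by
      intro w hw
      have hTw : T w ∈ W := hWT ⟨w, hw, rfl⟩
      have e : w = (2 : F)⁻¹ • (w + T w) + (2 : F)⁻¹ • (w - T w) := by
        rw [← smul_add]
        have e1 : w + T w + (w - T w) = (2 : F) • w := by
          rw [two_smul]
          abel
        rw [e1, smul_smul, inv_mul_cancel₀ h2, one_smul]
      rw [e]
      apply Submodule.add_mem_sup
      · refine Submodule.mem_inf.2 ⟨W.smul_mem _ (W.add_mem hw hTw), (hker1 _).2 ?_⟩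
        rw [map_smul, map_add, hTT, add_comm (T w) w]
      · refine Submodule.mem_inf.2 ⟨W.smul_mem _ (W.sub_mem hw hTw), (hker2 _).2 ?_⟩
        rw [map_smul, map_sub, hTT, ← smul_neg, neg_sub]
    have h3 := Submodule.finrank_mono hle
    have h4 := Submodule.finrank_add_le_finrank_add_finrank (W ⊓ LinearMap.ker (T - 1))
      (W ⊓ LinearMap.ker (T + 1))
    omega

end geom2

end Cfsg.Agent.Helper27.HT5953
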