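import Mathlib
import Cfsg.Prelude.Def_SporadicCombinatorics

set_option autoImplicit false

namespace Cfsg.Agent.Helper27

open Cfsg

variable {α F : Type*} [Field F]

theorem monomialMap_apply (σ : Equiv.Perm α) (c : α → Fˣ) (x : α → F) (i : α) :
    monomialMap σ c x i = (c i : F) * x (σ.symm i) := rfl

theorem monomialMap_add (σ : Equiv.Perm α) (c : α → Fˣ) (x y : α → F) :
    monomialMap σ c (x + y) = monomialMap σ c x + monomialMap σ c y := by
  funext i
  simp only [monomialMap_apply, Pi.add_apply, mul_add]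

theorem monomialMap_smul (σ : Equiv.Perm α) (c : α → Fˣ) (a : F) (x : α → F) :
    monomialMap σ c (a • x) = a • monomialMap σ c x := by
  funext i
  simp only [monomialMap_apply, Pi.smul_apply, smul_eq_mul]
  ring

theorem monomialMap_comp (σ τ : Equiv.Perm α) (c d : α → Fˣ) (x : α → F) :
    monomialMap σ c (monomialMap τ d x) = monomialMap (σ * τ) (fun i => c i * d (σ.symm i)) x := by
  funext i
  simp only [monomialMap_apply, Units.val_mul]
  rw [mul_assoc]
  rfl

theorem monomialMap_injective (σ : Equiv.Perm α) (c : α → Fˣ) :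
    Function.Injective (monomialMap σ c : (α → F) → α → F) := by
  intro x y h
  funext j
  have := congrFun h (σ j)
  simp only [monomialMap_apply, Equiv.symm_apply_apply] at this
  exact (c (σ j)).isUnit.mul_left_cancel this

/-- the monomial map `(σ, c)` preserves the subspace `C` -/
def Pres (C : Submodule F (α → F)) (σ : Equiv.Perm α) (c : α → Fˣ) : Prop :=
  ∀ x ∈ C, monomialMap σ c x ∈ C

theorem pres_surj (C : Submodule F (α → F)) [Finite C] {σ : Equiv.Perm α} {c : α → Fˣ}
    (h : Pres C σ c) (y : α → F) (hy : y ∈ C) : ∃ x ∈ C, monomialMap σ c x = y := by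
  let f : C → C := fun x => ⟨monomialMap σ c x, h x x.2⟩
  have hf : Function.Injective f := by
    intro x x' hxx'
    apply Subtype.ext
    exact monomialMap_injective σ c (congrArg Subtype.val hxx')
  obtain ⟨x, hx⟩ := (Finite.injective_iff_surjective.mp hf) ⟨y, hy⟩
  exact ⟨x.1, x.2, congrArg Subtype.val hx⟩

theorem pres_one (C : Submodule F (α → F)) : Pres C 1 (fun _ => 1) := by
  intro x hx
  have : monomialMap (1 : Equiv.Perm α) (fun _ => (1 : Fˣ)) x = x := by
    funext i
    simp only [monomialMap_apply, Units.val_one, one_mul]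
    rfl
  rw [this]
  exact hx

theorem pres_mul (C : Submodule F (α → F)) {σ τ : Equiv.Perm α} {c d : α → Fˣ}
    (h1 : Pres C σ c) (h2 : Pres C τ d) : Pres C (σ * τ) (fun i => c i * d (σ.symm i)) := by
  intro x hx
  rw [← monomialMap_comp]
  exact h1 _ (h2 x hx)

theorem pres_inv (C : Submodule F (α → F)) [Finite C] {σ : Equiv.Perm α} {c : α → Fˣ}
    (h : Pres C σ c) : Pres C σ⁻¹ (fun i => (c (σ i))⁻¹) := by
  intro y hy
  obtain ⟨x, hx, rfl⟩ := pres_surj C h y hy
  have : monomialMap σ⁻¹ (fun i => (c (σ i))⁻¹) (monomialMap σ c x) = x := by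
    funext i
    simp only [monomialMap_apply]
    have h1 : (σ⁻¹ : Equiv.Perm α).symm i = σ i := rfl
    rw [h1, Equiv.symm_apply_apply, ← mul_assoc, ← Units.val_mul, inv_mul_cancel, Units.val_one,
      one_mul]
  rw [this]
  exact hx

/-- the group of permutation parts of the monomial automorphisms of `C` -/
def monoProj (C : Submodule F (α → F)) [Finite C] : Subgroup (Equiv.Perm α) where
  carrier := {σ | ∃ c, Pres C σ c}
  one_mem' := ⟨_, pres_one C⟩
  mul_mem' := by
    rintro σ τ ⟨c, hc⟩ ⟨d, hd⟩
    exact ⟨_, pres_mul C hc hd⟩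
  inv_mem' := by
    rintro σ ⟨c, hc⟩
    exact ⟨_, pres_inv C hc⟩

theorem mem_monoProj (C : Submodule F (α → F)) [Finite C] (σ : Equiv.Perm α) :
    σ ∈ monoProj C ↔ ∃ c, Pres C σ c := Iff.rfl

theorem pres_diag_of_pres (C : Submodule F (α → F)) [Finite C] {σ : Equiv.Perm α}
    {c0 c : α → Fˣ} (h0 : Pres C σ c0) (h : Pres C σ c) :
    Pres C 1 (fun i => c i * (c0 i)⁻¹) := by
  intro y hy
  obtain ⟨x, hx, rfl⟩ := pres_surj C h0 y hy
  have : monomialMap (1 : Equiv.Perm α) (fun i => c i * (c0 i)⁻¹) (monomialMap σ c0 x)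
      = monomialMap σ c x := by
    funext i
    simp only [monomialMap_apply]
    have h1 : (1 : Equiv.Perm α).symm i = i := rfl
    rw [h1, ← mul_assoc, ← Units.val_mul, inv_mul_cancel_right]
  rw [this]
  exact h x hx

theorem pres_of_diag (C : Submodule F (α → F)) {σ : Equiv.Perm α} {c0 d : α → Fˣ}
    (h0 : Pres C σ c0) (hd : Pres C 1 d) : Pres C σ (fun i => d i * c0 i) := by
  have := pres_mul C hd h0
  rw [one_mul] at this
  exact this

theorem pres_iff_span (S : Set (α → F)) (σ : Equiv.Perm α) (c : α → Fˣ) :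
    Pres (Submodule.span F S) σ c ↔ ∀ g ∈ S, monomialMap σ c g ∈ Submodule.span F S := by
  constructor
  · intro h g hg
    exact h g (Submodule.subset_span hg)
  · intro h x hx
    induction hx using Submodule.span_induction with
    | mem g hg => exact h g hg
    | zero =>
      have : monomialMap σ c (0 : α → F) = 0 := by
        funext i
        simp [monomialMap_apply]
      rw [this]
      exact Submodule.zero_mem _
    | add x y _ _ hx hy =>
      rw [monomialMap_add]
      exact Submodule.add_mem _ hx hy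
    | smul a x _ hx =>
      rw [monomialMap_smul]
      exact Submodule.smul_mem _ a hx

/-- the monomial automorphisms are counted by the permutation parts times the diagonal ones -/
theorem card_pres (C : Submodule F (α → F)) [Finite C] :
    Nat.card {f : Equiv.Perm α × (α → Fˣ) // Pres C f.1 f.2}
      = Nat.card (monoProj C) * Nat.card {d : α → Fˣ // Pres C 1 d} := by
  classical
  rw [← Nat.card_prod]
  apply Nat.card_congr
  let c0 : monoProj C → (α → Fˣ) := fun σ => Classical.choose σ.2
  have hc0 : ∀ σ : monoProj C, Pres C σ.1 (c0 σ) := fun σ => Classical.choose_spec σ.2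
  refine
    { toFun := fun f => (⟨f.1.1, ⟨f.1.2, f.2⟩⟩,
        ⟨fun i => f.1.2 i * (c0 ⟨f.1.1, ⟨f.1.2, f.2⟩⟩ i)⁻¹,
          pres_diag_of_pres C (hc0 ⟨f.1.1, ⟨f.1.2, f.2⟩⟩) f.2⟩)
      invFun := fun p => ⟨(p.1.1, fun i => p.2.1 i * c0 p.1 i), pres_of_diag C (hc0 p.1) p.2.2⟩
      left_inv := ?_
      right_inv := ?_ }
  · rintro ⟨⟨σ, c⟩, h⟩
    apply Subtype.ext
    apply Prod.ext
    · rfl
    · funext i
      simp
  · rintro ⟨⟨σ, hσ⟩, ⟨d, hd⟩⟩
    apply Prod.ext
    · rfl
    · apply Subtype.ext
      funext i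
      simp

end Cfsg.Agent.Helper27
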