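import Mathlib
import Cfsg.Prelude.Def_SporadicCombinatorics
import Cfsg.Agent.Helper27.Monomial

set_option autoImplicit false

namespace Cfsg.Agent.Helper27

open Cfsg

/-- multiplication of the field with 4 elements on the codes `0, 1, 2 = ω, 3 = ω²` -/
def f4mul (a b : Fin 4) : Fin 4 :=
  ![![0, 0, 0, 0], ![0, 1, 2, 3], ![0, 2, 3, 1], ![0, 3, 1, 2]] a b

/-- addition of the field with 4 elements on the codes `0, 1, 2 = ω, 3 = ω²` -/
def f4add (a b : Fin 4) : Fin 4 :=
  ![![0, 1, 2, 3], ![1, 0, 3, 2], ![2, 3, 0, 1], ![3, 2, 1, 0]] a b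

/-- the three generators of the hexacode, in codes -/
def hexG : Fin 3 → Fin 6 → Fin 4 :=
  ![![2, 3, 3, 2, 3, 2], ![3, 2, 2, 3, 3, 2], ![3, 2, 3, 2, 2, 3]]

/-- the hexacode word with coefficients `t`, in codes -/
def hexW (t : Fin 4 × Fin 4 × Fin 4) : Fin 6 → Fin 4 := fun i =>
  f4add (f4add (f4mul t.1 (hexG 0 i)) (f4mul t.2.1 (hexG 1 i))) (f4mul t.2.2 (hexG 2 i))

theorem hexW_injective : Function.Injective hexW := by
  unfold Function.Injective
  decide +kernel

section field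

variable {F : Type*} [Field F]

/-- the four elements of the field -/
def f4emb (ω : F) : Fin 4 → F := ![0, 1, ω, ω ^ 2]

theorem f4_two [Fintype F] (hF : Fintype.card F = 4) : (2 : F) = 0 := by
  have h4 : ((Fintype.card F : ℕ) : F) = 0 := Nat.cast_card_eq_zero F
  rw [hF] at h4
  have h22 : (2 : F) * 2 = 0 := by
    have : ((4 : ℕ) : F) = 2 * 2 := by norm_num
    rw [← this]; exact h4
  exact mul_self_eq_zero.mp h22

theorem f4emb_add [Fintype F] (hF : Fintype.card F = 4) (ω : F) (hω : ω ^ 2 + ω + 1 = 0)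
    (a b : Fin 4) : f4emb ω (f4add a b) = f4emb ω a + f4emb ω b := by
  have h2 := f4_two hF
  fin_cases a <;> fin_cases b
  · show (0 : F) = 0 + 0
    linear_combination (0) * hω + (0) * h2
  · show (1 : F) = 0 + 1
    linear_combination (0) * hω + (0) * h2
  · show (ω : F) = 0 + ω
    linear_combination (0) * hω + (0) * h2
  · show (ω ^ 2 : F) = 0 + ω ^ 2
    linear_combination (0) * hω + (0) * h2
  · show (1 : F) = 1 + 0
    linear_combination (0) * hω + (0) * h2
  · show (0 : F) = 1 + 1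
    linear_combination (0) * hω + ((-1)) * h2
  · show (ω ^ 2 : F) = 1 + ω
    linear_combination ((1)) * hω + ((-1) + (-1) * ω) * h2
  · show (ω : F) = 1 + ω ^ 2
    linear_combination ((-1)) * hω + ((1) * ω) * h2
  · show (ω : F) = ω + 0
    linear_combination (0) * hω + (0) * h2
  · show (ω ^ 2 : F) = ω + 1
    linear_combination ((1)) * hω + ((-1) + (-1) * ω) * h2
  · show (0 : F) = ω + ω
    linear_combination (0) * hω + ((-1) * ω) * h2
  · show (1 : F) = ω + ω ^ 2
    linear_combination ((-1)) * hω + ((1)) * h2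
  · show (ω ^ 2 : F) = ω ^ 2 + 0
    linear_combination (0) * hω + (0) * h2
  · show (ω : F) = ω ^ 2 + 1
    linear_combination ((-1)) * hω + ((1) * ω) * h2
  · show (1 : F) = ω ^ 2 + ω
    linear_combination ((-1)) * hω + ((1)) * h2
  · show (0 : F) = ω ^ 2 + ω ^ 2
    linear_combination ((-2)) * hω + ((1) + (1) * ω) * h2

theorem f4emb_mul [Fintype F] (hF : Fintype.card F = 4) (ω : F) (hω : ω ^ 2 + ω + 1 = 0)
    (a b : Fin 4) : f4emb ω (f4mul a b) = f4emb ω a * f4emb ω b := by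
  have h2 := f4_two hF
  fin_cases a <;> fin_cases b
  · show (0 : F) = 0 * 0
    linear_combination (0) * hω + (0) * h2
  · show (0 : F) = 0 * 1
    linear_combination (0) * hω + (0) * h2
  · show (0 : F) = 0 * ω
    linear_combination (0) * hω + (0) * h2
  · show (0 : F) = 0 * ω ^ 2
    linear_combination (0) * hω + (0) * h2
  · show (0 : F) = 1 * 0
    linear_combination (0) * hω + (0) * h2
  · show (1 : F) = 1 * 1
    linear_combination (0) * hω + (0) * h2
  · show (ω : F) = 1 * ω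
    linear_combination (0) * hω + (0) * h2
  · show (ω ^ 2 : F) = 1 * ω ^ 2
    linear_combination (0) * hω + (0) * h2
  · show (0 : F) = ω * 0
    linear_combination (0) * hω + (0) * h2
  · show (ω : F) = ω * 1
    linear_combination (0) * hω + (0) * h2
  · show (ω ^ 2 : F) = ω * ω
    linear_combination (0) * hω + (0) * h2
  · show (1 : F) = ω * ω ^ 2
    linear_combination ((1) + (-1) * ω) * hω + (0) * h2
  · show (0 : F) = ω ^ 2 * 0
    linear_combination (0) * hω + (0) * h2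
  · show (ω ^ 2 : F) = ω ^ 2 * 1
    linear_combination (0) * hω + (0) * h2
  · show (1 : F) = ω ^ 2 * ω
    linear_combination ((1) + (-1) * ω) * hω + (0) * h2
  · show (ω : F) = ω ^ 2 * ω ^ 2
    linear_combination ((1) * ω + (-1) * ω ^ 2) * hω + (0) * h2

theorem omega_ne_zero (ω : F) (hω : ω ^ 2 + ω + 1 = 0) : ω ≠ 0 := by
  rintro rfl
  simp at hω

theorem f4emb_eq_zero_iff (ω : F) (hω : ω ^ 2 + ω + 1 = 0) (a : Fin 4) :
    f4emb ω a = 0 ↔ a = 0 := by
  have h0 := omega_ne_zero ω hω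
  fin_cases a
  · simp [f4emb]
  · simp [f4emb]
  · simp [f4emb, h0]
  · simp [f4emb, h0]

theorem f4emb_injective [Fintype F] (hF : Fintype.card F = 4) (ω : F) (hω : ω ^ 2 + ω + 1 = 0) :
    Function.Injective (f4emb ω) := by
  intro a b hab
  have h2 := f4_two hF
  have h1 : f4emb ω (f4add a b) = 0 := by
    rw [f4emb_add hF ω hω, hab]
    linear_combination (f4emb ω b) * h2
  rw [f4emb_eq_zero_iff ω hω] at h1
  have key : ∀ a b : Fin 4, f4add a b = 0 → a = b := by decide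
  exact key a b h1

theorem f4emb_bijective [Fintype F] (hF : Fintype.card F = 4) (ω : F) (hω : ω ^ 2 + ω + 1 = 0) :
    Function.Bijective (f4emb ω) := by
  rw [Fintype.bijective_iff_injective_and_card]
  exact ⟨f4emb_injective hF ω hω, by rw [hF]; rfl⟩

/-- the hexacode word with coefficients `t` -/
def hexEnc (ω : F) (t : Fin 4 × Fin 4 × Fin 4) : Fin 6 → F := fun i => f4emb ω (hexW t i)

theorem hexG_emb (ω : F) (i : Fin 6) :
    (![ω, ω ^ 2, ω ^ 2, ω, ω ^ 2, ω] i = f4emb ω (hexG 0 i)) ∧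
    (![ω ^ 2, ω, ω, ω ^ 2, ω ^ 2, ω] i = f4emb ω (hexG 1 i)) ∧
    (![ω ^ 2, ω, ω ^ 2, ω, ω, ω ^ 2] i = f4emb ω (hexG 2 i)) := by
  fin_cases i <;> exact ⟨rfl, rfl, rfl⟩

theorem hexEnc_eq [Fintype F] (hF : Fintype.card F = 4) (ω : F) (hω : ω ^ 2 + ω + 1 = 0)
    (t : Fin 4 × Fin 4 × Fin 4) :
    hexEnc ω t = f4emb ω t.1 • ![ω, ω ^ 2, ω ^ 2, ω, ω ^ 2, ω]
      + f4emb ω t.2.1 • ![ω ^ 2, ω, ω, ω ^ 2, ω ^ 2, ω]
      + f4emb ω t.2.2 • ![ω ^ 2, ω, ω ^ 2, ω, ω, ω ^ 2] := by
  funext i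
  simp only [hexEnc, hexW, Pi.add_apply, Pi.smul_apply, smul_eq_mul, f4emb_add hF ω hω,
    f4emb_mul hF ω hω, (hexG_emb ω i).1, (hexG_emb ω i).2.1, (hexG_emb ω i).2.2]

theorem mem_hexacode_iff [Fintype F] (hF : Fintype.card F = 4) (ω : F) (hω : ω ^ 2 + ω + 1 = 0)
    (x : Fin 6 → F) : x ∈ hexacode F ω ↔ ∃ t, hexEnc ω t = x := by
  rw [hexacode, Submodule.mem_span_triple]
  constructor
  · rintro ⟨a, b, c, rfl⟩
    obtain ⟨a', rfl⟩ := (f4emb_bijective hF ω hω).2 a
    obtain ⟨b', rfl⟩ := (f4emb_bijective hF ω hω).2 b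
    obtain ⟨c', rfl⟩ := (f4emb_bijective hF ω hω).2 c
    exact ⟨(a', b', c'), hexEnc_eq hF ω hω _⟩
  · rintro ⟨t, rfl⟩
    exact ⟨_, _, _, (hexEnc_eq hF ω hω t).symm⟩

theorem hexEnc_injective [Fintype F] (hF : Fintype.card F = 4) (ω : F)
    (hω : ω ^ 2 + ω + 1 = 0) : Function.Injective (hexEnc (F := F) ω) := by
  intro t t' h
  apply hexW_injective
  funext i
  exact f4emb_injective hF ω hω (congrFun h i)

theorem hexEnc_ne_zero_iff (ω : F) (hω : ω ^ 2 + ω + 1 = 0) (t : Fin 4 × Fin 4 × Fin 4)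
    (i : Fin 6) : hexEnc ω t i ≠ 0 ↔ hexW t i ≠ 0 := by
  rw [hexEnc, Ne, f4emb_eq_zero_iff ω hω]


/-- weight of a hexacode word, in codes -/
def hexWt (t : Fin 4 × Fin 4 × Fin 4) : ℕ := (Finset.univ.filter fun i => hexW t i ≠ 0).card

theorem hexWt_cases : ∀ t, hexWt t = 0 ∨ hexWt t = 4 ∨ hexWt t = 6 := by decide +kernel

theorem hexWt_count4 : (Finset.univ.filter (fun t => hexWt t = 4)).card = 45 := by decide +kernel

theorem hexWt_count6 : (Finset.univ.filter (fun t => hexWt t = 6)).card = 18 := by decide +kernel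

theorem hexEnc_wt [DecidableEq F] (ω : F) (hω : ω ^ 2 + ω + 1 = 0)
    (t : Fin 4 × Fin 4 × Fin 4) :
    (Finset.univ.filter fun i => hexEnc ω t i ≠ 0).card = hexWt t := by
  unfold hexWt
  congr 1
  apply Finset.filter_congr
  intro i _
  exact hexEnc_ne_zero_iff ω hω t i

theorem hex_card [Fintype F] (hF : Fintype.card F = 4) (ω : F) (hω : ω ^ 2 + ω + 1 = 0) :
    Nat.card (hexacode F ω) = 64 := by
  have h : (hexacode F ω : Set (Fin 6 → F)) = Set.range (hexEnc ω) := by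
    ext x
    exact mem_hexacode_iff hF ω hω x
  have : Nat.card (hexacode F ω) = Nat.card (Set.range (hexEnc (F := F) ω)) := by
    rw [← h]; rfl
  rw [this, Nat.card_range_of_injective (hexEnc_injective hF ω hω)]
  simp

theorem hex_ncard [Fintype F] [DecidableEq F] (hF : Fintype.card F = 4) (ω : F)
    (hω : ω ^ 2 + ω + 1 = 0) (k : ℕ) :
    {x : Fin 6 → F | x ∈ hexacode F ω ∧ (Finset.univ.filter fun i => x i ≠ 0).card = k}.ncard
      = (Finset.univ.filter (fun t => hexWt t = k)).card := by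
  have h : {x : Fin 6 → F | x ∈ hexacode F ω ∧ (Finset.univ.filter fun i => x i ≠ 0).card = k}
      = hexEnc ω '' ((Finset.univ.filter (fun t => hexWt t = k) :
          Finset (Fin 4 × Fin 4 × Fin 4)) : Set (Fin 4 × Fin 4 × Fin 4)) := by
    ext x
    simp only [Set.mem_ofPred_eq, Set.mem_image, Finset.coe_filter, Finset.mem_univ, true_and,
      mem_hexacode_iff hF ω hω]
    constructor
    · rintro ⟨⟨t, rfl⟩, hP⟩
      rw [hexEnc_wt ω hω] at hP
      exact ⟨t, hP, rfl⟩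
    · rintro ⟨t, hP, rfl⟩
      rw [hexEnc_wt ω hω]
      exact ⟨⟨t, rfl⟩, hP⟩
  rw [h, Set.ncard_image_of_injective _ (hexEnc_injective hF ω hω), Set.ncard_coe_finset]

end field

end Cfsg.Agent.Helper27
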