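import Mathlib
import Cfsg.Prelude.Def_SporadicCombinatorics
import Cfsg.Agent.Helper27.Hexacode

set_option autoImplicit false

namespace Cfsg.Agent.Helper27

open Cfsg

/-- decoding a hexacode word (in codes) from its first three coordinates -/
def hexDec (m : Fin 6 → Fin 4) : Fin 4 × Fin 4 × Fin 4 :=
  (f4add (f4mul 2 (m 0)) (f4mul 3 (m 1)),
   f4add (f4add (f4mul 3 (m 0)) (f4mul 3 (m 1))) (m 2),
   f4add (m 1) (m 2))

theorem hexDec_hexW : ∀ t, hexDec (hexW t) = t := by decide +kernel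

/-- membership in the hexacode, in codes -/
def inHex (m : Fin 6 → Fin 4) : Prop := hexW (hexDec m) = m

instance : DecidablePred inHex := fun m => by unfold inHex; infer_instance

theorem inHex_iff (m : Fin 6 → Fin 4) : inHex m ↔ ∃ t, hexW t = m := by
  constructor
  · intro h
    exact ⟨_, h⟩
  · rintro ⟨t, rfl⟩
    unfold inHex
    rw [hexDec_hexW]

/-- the monomial map `(σ, c')` (in codes) preserves the hexacode -/
def hexPres (σ : Equiv.Perm (Fin 6)) (c' : Fin 6 → Fin 4) : Prop :=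
  ∀ k : Fin 3, inHex (fun i => f4mul (c' i) (hexG k (σ.symm i)))

instance (σ : Equiv.Perm (Fin 6)) (c' : Fin 6 → Fin 4) : Decidable (hexPres σ c') := by
  unfold hexPres; infer_instance

theorem hex_diag_1 : ∀ d : Fin 5 → Fin 4, (∀ i, (Fin.cons 1 d : Fin 6 → Fin 4) i ≠ 0) →
    hexPres 1 (Fin.cons 1 d : Fin 6 → Fin 4) →
      ∀ i j, (Fin.cons 1 d : Fin 6 → Fin 4) i = (Fin.cons 1 d : Fin 6 → Fin 4) j := by
  decide +kernel

theorem hex_diag_2 : ∀ d : Fin 5 → Fin 4, (∀ i, (Fin.cons 2 d : Fin 6 → Fin 4) i ≠ 0) →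
    hexPres 1 (Fin.cons 2 d : Fin 6 → Fin 4) →
      ∀ i j, (Fin.cons 2 d : Fin 6 → Fin 4) i = (Fin.cons 2 d : Fin 6 → Fin 4) j := by
  decide +kernel

theorem hex_diag_3 : ∀ d : Fin 5 → Fin 4, (∀ i, (Fin.cons 3 d : Fin 6 → Fin 4) i ≠ 0) →
    hexPres 1 (Fin.cons 3 d : Fin 6 → Fin 4) →
      ∀ i j, (Fin.cons 3 d : Fin 6 → Fin 4) i = (Fin.cons 3 d : Fin 6 → Fin 4) j := by
  decide +kernel

theorem hex_diag : ∀ c' : Fin 6 → Fin 4, (∀ i, c' i ≠ 0) → hexPres 1 c' → ∀ i j, c' i = c' j := by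
  intro c' h0
  obtain ⟨a, d, rfl⟩ : ∃ a d, c' = (Fin.cons a d : Fin 6 → Fin 4) :=
    ⟨c' 0, Fin.tail c', (Fin.cons_self_tail c').symm⟩
  have ha : a ≠ 0 := by simpa using h0 0
  fin_cases a
  · exact absurd rfl ha
  · exact hex_diag_1 d h0
  · exact hex_diag_2 d h0
  · exact hex_diag_3 d h0

theorem hex_swap_1 : ∀ d : Fin 5 → Fin 4, (∀ i, (Fin.cons 1 d : Fin 6 → Fin 4) i ≠ 0) →
    ¬ hexPres (Equiv.swap 0 1) (Fin.cons 1 d : Fin 6 → Fin 4) := by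
  decide +kernel

theorem hex_swap_2 : ∀ d : Fin 5 → Fin 4, (∀ i, (Fin.cons 2 d : Fin 6 → Fin 4) i ≠ 0) →
    ¬ hexPres (Equiv.swap 0 1) (Fin.cons 2 d : Fin 6 → Fin 4) := by
  decide +kernel

theorem hex_swap_3 : ∀ d : Fin 5 → Fin 4, (∀ i, (Fin.cons 3 d : Fin 6 → Fin 4) i ≠ 0) →
    ¬ hexPres (Equiv.swap 0 1) (Fin.cons 3 d : Fin 6 → Fin 4) := by
  decide +kernel

theorem hex_swap : ∀ c' : Fin 6 → Fin 4, (∀ i, c' i ≠ 0) → ¬ hexPres (Equiv.swap 0 1) c' := by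
  intro c' h0
  obtain ⟨a, d, rfl⟩ : ∃ a d, c' = (Fin.cons a d : Fin 6 → Fin 4) :=
    ⟨c' 0, Fin.tail c', (Fin.cons_self_tail c').symm⟩
  have ha : a ≠ 0 := by simpa using h0 0
  fin_cases a
  · exact absurd rfl ha
  · exact hex_swap_1 d h0
  · exact hex_swap_2 d h0
  · exact hex_swap_3 d h0

/-- witnesses for the 3-cycles -/
def hex3tab : List ((Fin 6 → Fin 6) × (Fin 6 → Fin 4)) :=
  [(![0, 1, 2, 4, 5, 3], ![1, 2, 3, 3, 3, 3]),
    (![0, 1, 2, 5, 3, 4], ![1, 3, 2, 2, 2, 2]),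
    (![0, 1, 3, 4, 2, 5], ![1, 3, 2, 2, 2, 2]),
    (![0, 1, 3, 5, 4, 2], ![1, 2, 3, 3, 3, 3]),
    (![0, 1, 4, 2, 3, 5], ![1, 2, 3, 3, 3, 3]),
    (![0, 1, 4, 3, 5, 2], ![1, 3, 2, 2, 2, 2]),
    (![0, 1, 5, 2, 4, 3], ![1, 3, 2, 2, 2, 2]),
    (![0, 1, 5, 3, 2, 4], ![1, 2, 3, 3, 3, 3]),
    (![0, 2, 3, 1, 4, 5], ![1, 1, 1, 1, 2, 3]),
    (![0, 2, 4, 3, 1, 5], ![1, 3, 2, 3, 1, 2]),
    (![0, 2, 5, 3, 4, 1], ![1, 2, 3, 2, 3, 1]),
    (![0, 3, 1, 2, 4, 5], ![1, 1, 1, 1, 3, 2]),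
    (![0, 3, 2, 4, 1, 5], ![1, 2, 2, 3, 1, 3]),
    (![0, 3, 2, 5, 4, 1], ![1, 3, 3, 2, 2, 1]),
    (![0, 4, 1, 3, 2, 5], ![1, 3, 1, 2, 2, 3]),
    (![0, 4, 2, 1, 3, 5], ![1, 2, 3, 1, 3, 2]),
    (![0, 4, 2, 3, 5, 1], ![1, 1, 2, 3, 1, 1]),
    (![0, 5, 1, 3, 4, 2], ![1, 2, 1, 3, 2, 3]),
    (![0, 5, 2, 1, 4, 3], ![1, 3, 2, 1, 3, 2]),
    (![0, 5, 2, 3, 1, 4], ![1, 1, 3, 2, 1, 1]),
    (![1, 2, 0, 3, 4, 5], ![1, 1, 1, 1, 3, 2]),
    (![1, 3, 2, 0, 4, 5], ![1, 1, 1, 1, 2, 3]),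
    (![1, 4, 2, 3, 0, 5], ![1, 1, 3, 2, 1, 1]),
    (![1, 5, 2, 3, 4, 0], ![1, 1, 2, 3, 1, 1]),
    (![2, 0, 1, 3, 4, 5], ![1, 1, 1, 1, 2, 3]),
    (![2, 1, 3, 0, 4, 5], ![1, 1, 1, 1, 3, 2]),
    (![2, 1, 4, 3, 0, 5], ![1, 3, 2, 1, 3, 2]),
    (![2, 1, 5, 3, 4, 0], ![1, 2, 3, 1, 3, 2]),
    (![3, 0, 2, 1, 4, 5], ![1, 1, 1, 1, 3, 2]),
    (![3, 1, 0, 2, 4, 5], ![1, 1, 1, 1, 2, 3]),
    (![3, 1, 2, 4, 0, 5], ![1, 2, 1, 3, 2, 3]),
    (![3, 1, 2, 5, 4, 0], ![1, 3, 1, 2, 2, 3]),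
    (![4, 0, 2, 3, 1, 5], ![1, 1, 2, 3, 1, 1]),
    (![4, 1, 0, 3, 2, 5], ![1, 3, 3, 2, 2, 1]),
    (![4, 1, 2, 0, 3, 5], ![1, 2, 3, 2, 3, 1]),
    (![4, 1, 2, 3, 5, 0], ![1, 1, 3, 2, 1, 1]),
    (![5, 0, 2, 3, 4, 1], ![1, 1, 3, 2, 1, 1]),
    (![5, 1, 0, 3, 4, 2], ![1, 2, 2, 3, 1, 3]),
    (![5, 1, 2, 0, 4, 3], ![1, 3, 2, 3, 1, 2]),
    (![5, 1, 2, 3, 0, 4], ![1, 1, 2, 3, 1, 1])]

/-- the witness scalars attached to a permutation -/
def hexWit (σ : Equiv.Perm (Fin 6)) : Fin 6 → Fin 4 :=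
  match hex3tab.find? (fun e => decide (∀ i, e.1 i = σ i)) with
  | some e => e.2
  | none => fun _ => 0

set_option maxRecDepth 100000 in
theorem hex_three : ∀ σ : Equiv.Perm (Fin 6), σ.support.card = 3 →
    (∀ i, hexWit σ i ≠ 0) ∧ hexPres σ (hexWit σ) := by
  decide +kernel


section field

variable {F : Type*} [Field F] [Fintype F]

theorem emb_mem_iff (hF : Fintype.card F = 4) (ω : F) (hω : ω ^ 2 + ω + 1 = 0)
    (m : Fin 6 → Fin 4) : (fun i => f4emb ω (m i)) ∈ hexacode F ω ↔ inHex m := by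
  rw [mem_hexacode_iff hF ω hω, inHex_iff]
  constructor
  · rintro ⟨t, ht⟩
    refine ⟨t, ?_⟩
    funext i
    exact f4emb_injective hF ω hω (congrFun ht i)
  · rintro ⟨t, rfl⟩
    exact ⟨t, rfl⟩

theorem monomial_gen (hF : Fintype.card F = 4) (ω : F) (hω : ω ^ 2 + ω + 1 = 0)
    (σ : Equiv.Perm (Fin 6)) (c : Fin 6 → Fˣ) (c' : Fin 6 → Fin 4)
    (hc : ∀ i, f4emb ω (c' i) = (c i : F)) (k : Fin 3) (g : Fin 6 → F)
    (hg : ∀ i, g i = f4emb ω (hexG k i)) :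
    monomialMap σ c g ∈ hexacode F ω ↔ inHex (fun i => f4mul (c' i) (hexG k (σ.symm i))) := by
  have : monomialMap σ c g = fun i => f4emb ω (f4mul (c' i) (hexG k (σ.symm i))) := by
    funext i
    rw [monomialMap_apply, hg, ← hc i, f4emb_mul hF ω hω]
  rw [this, emb_mem_iff hF ω hω]

theorem pres_iff_hexPres (hF : Fintype.card F = 4) (ω : F) (hω : ω ^ 2 + ω + 1 = 0)
    (σ : Equiv.Perm (Fin 6)) (c : Fin 6 → Fˣ) (c' : Fin 6 → Fin 4)
    (hc : ∀ i, f4emb ω (c' i) = (c i : F)) :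
    Pres (hexacode F ω) σ c ↔ hexPres σ c' := by
  have hdef : hexacode F ω = Submodule.span F {![ω, ω ^ 2, ω ^ 2, ω, ω ^ 2, ω],
      ![ω ^ 2, ω, ω, ω ^ 2, ω ^ 2, ω], ![ω ^ 2, ω, ω ^ 2, ω, ω, ω ^ 2]} := rfl
  have e0 := monomial_gen hF ω hω σ c c' hc 0 ![ω, ω ^ 2, ω ^ 2, ω, ω ^ 2, ω]
    (fun i => (hexG_emb ω i).1)
  have e1 := monomial_gen hF ω hω σ c c' hc 1 ![ω ^ 2, ω, ω, ω ^ 2, ω ^ 2, ω]
    (fun i => (hexG_emb ω i).2.1)
  have e2 := monomial_gen hF ω hω σ c c' hc 2 ![ω ^ 2, ω, ω ^ 2, ω, ω, ω ^ 2]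
    (fun i => (hexG_emb ω i).2.2)
  constructor
  · intro h k
    rw [hdef, pres_iff_span] at h
    fin_cases k
    · exact e0.mp (h _ (by simp))
    · exact e1.mp (h _ (by simp))
    · exact e2.mp (h _ (by simp))
  · intro h
    rw [hdef, pres_iff_span]
    intro g hg
    simp only [Set.mem_insert_iff, Set.mem_singleton_iff] at hg
    rcases hg with rfl | rfl | rfl
    · exact e0.mpr (h 0)
    · exact e1.mpr (h 1)
    · exact e2.mpr (h 2)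

theorem exists_unitCode (hF : Fintype.card F = 4) (ω : F) (hω : ω ^ 2 + ω + 1 = 0)
    (c : Fin 6 → Fˣ) : ∃ c' : Fin 6 → Fin 4, (∀ i, f4emb ω (c' i) = (c i : F)) ∧ ∀ i, c' i ≠ 0 := by
  choose c' hc' using fun i => (f4emb_bijective hF ω hω).2 (c i : F)
  refine ⟨c', hc', fun i h0 => ?_⟩
  have := hc' i
  rw [h0] at this
  exact (c i).ne_zero (by rw [← this]; rfl)

theorem hex_diag_units (hF : Fintype.card F = 4) (ω : F) (hω : ω ^ 2 + ω + 1 = 0)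
    (c : Fin 6 → Fˣ) (h : Pres (hexacode F ω) 1 c) : ∀ i j, c i = c j := by
  obtain ⟨c', hc', hne⟩ := exists_unitCode hF ω hω c
  have h1 := (pres_iff_hexPres hF ω hω 1 c c' hc').mp h
  intro i j
  apply Units.ext
  rw [← hc' i, ← hc' j, hex_diag c' hne h1 i j]

theorem hex_proj_eq (hF : Fintype.card F = 4) (ω : F) (hω : ω ^ 2 + ω + 1 = 0) :
    monoProj (hexacode F ω) = alternatingGroup (Fin 6) := by
  have hge : alternatingGroup (Fin 6) ≤ monoProj (hexacode F ω) := by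
    rw [← Equiv.Perm.closure_three_cycles_eq_alternating, Subgroup.closure_le]
    intro σ hσ
    have h3 : σ.support.card = 3 := card_support_eq_three_iff.mpr hσ
    obtain ⟨hne, hp⟩ := hex_three σ h3
    refine ⟨fun i => Units.mk0 (f4emb ω (hexWit σ i)) ?_, ?_⟩
    · rw [Ne, f4emb_eq_zero_iff ω hω]
      exact hne i
    · exact (pres_iff_hexPres hF ω hω σ _ (hexWit σ) (fun i => rfl)).mpr hp
  apply le_antisymm _ hge
  intro σ hσ
  by_contra hodd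
  rw [Equiv.Perm.mem_alternatingGroup] at hodd
  have hs : Equiv.Perm.sign σ = -1 := by
    rcases Int.units_eq_one_or (Equiv.Perm.sign σ) with h | h
    · exact absurd h hodd
    · exact h
  have hτ : σ⁻¹ * Equiv.swap (0 : Fin 6) 1 ∈ alternatingGroup (Fin 6) := by
    rw [Equiv.Perm.mem_alternatingGroup, Equiv.Perm.sign_mul, Equiv.Perm.sign_inv, hs,
      Equiv.Perm.sign_swap (by decide)]
    decide
  have hsw : Equiv.swap (0 : Fin 6) 1 ∈ monoProj (hexacode F ω) := by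
    have := Subgroup.mul_mem _ hσ (hge hτ)
    rwa [mul_inv_cancel_left] at this
  obtain ⟨c, hc⟩ := hsw
  obtain ⟨c', hc', hne⟩ := exists_unitCode hF ω hω c
  exact hex_swap c' hne ((pres_iff_hexPres hF ω hω _ c c' hc').mp hc)

theorem hex_card_diag (hF : Fintype.card F = 4) (ω : F) (hω : ω ^ 2 + ω + 1 = 0) :
    Nat.card {d : Fin 6 → Fˣ // Pres (hexacode F ω) 1 d} = 3 := by
  classical
  have e : {d : Fin 6 → Fˣ // Pres (hexacode F ω) 1 d} ≃ Fˣ :=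
    { toFun := fun d => d.1 0
      invFun := fun a => ⟨fun _ => a, by
        intro x hx
        have : monomialMap (1 : Equiv.Perm (Fin 6)) (fun _ => a) x = (a : F) • x := by
          funext i
          rfl
        rw [this]
        exact Submodule.smul_mem _ _ hx⟩
      left_inv := by
        rintro ⟨d, hd⟩
        apply Subtype.ext
        funext i
        exact hex_diag_units hF ω hω d hd 0 i
      right_inv := fun a => rfl }
  rw [Nat.card_congr e, Nat.card_units, Nat.card_eq_fintype_card, hF]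

theorem hex_card_aut (hF : Fintype.card F = 4) (ω : F) (hω : ω ^ 2 + ω + 1 = 0) :
    Nat.card {f : Equiv.Perm (Fin 6) × (Fin 6 → Fˣ) // Pres (hexacode F ω) f.1 f.2} = 1080 := by
  rw [card_pres, hex_card_diag hF ω hω, hex_proj_eq hF ω hω]
  have h := two_mul_nat_card_alternatingGroup (α := Fin 6)
  rw [Nat.card_eq_fintype_card (α := Equiv.Perm (Fin 6)), Fintype.card_perm, Fintype.card_fin] at h
  have h6 : Nat.factorial 6 = 720 := by decide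
  omega

end field

end Cfsg.Agent.Helper27
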