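import Mathlib
import Cfsg.Agent.Helper27.Lattice

set_option autoImplicit false
open Matrix

namespace Cfsg.Agent.Helper27

variable {n : Type*}

/-- reduction modulo 2 of an integer vector -/
def red2 (x : n → ℤ) : n → ZMod 2 := fun i => ((x i : ℤ) : ZMod 2)

theorem red2_eq_iff (x y : n → ℤ) : red2 x = red2 y ↔ ∀ i, (2 : ℤ) ∣ (x - y) i := by
  constructor
  · intro h i
    have := congrFun h i
    simp only [red2] at this
    rw [ZMod.intCast_eq_intCast_iff_dvd_sub] at this
    simp only [Pi.sub_apply]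
    have h2 : ((2 : ℕ) : ℤ) = 2 := by norm_num
    rw [h2] at this
    exact (dvd_sub_comm).mp this
  · intro h
    funext i
    simp only [red2]
    rw [ZMod.intCast_eq_intCast_iff_dvd_sub]
    have := h i
    simp only [Pi.sub_apply] at this
    have h2 : ((2 : ℕ) : ℤ) = 2 := by norm_num
    rw [h2]
    exact (dvd_sub_comm).mp this

theorem red2_neg (x : n → ℤ) : red2 (-x) = red2 x := by
  rw [red2_eq_iff]
  intro i
  simp only [Pi.sub_apply, Pi.neg_apply]
  exact ⟨-x i, by ring⟩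

variable [Fintype n]

theorem norm_zero' (B : Matrix n n ℤ) : (0 : n → ℤ) ⬝ᵥ (B *ᵥ (0 : n → ℤ)) = 0 := by
  simp

theorem ne_neg_of_norm_ne_zero (B : Matrix n n ℤ) (x : n → ℤ) (hx : x ⬝ᵥ (B *ᵥ x) ≠ 0) :
    x ≠ -x := by
  intro h
  apply hx
  have h0 : x = 0 := by
    funext i
    have := congrFun h i
    simp only [Pi.neg_apply] at this
    simp only [Pi.zero_apply]
    omega
  rw [h0]
  exact norm_zero' B

/-- the bilinear form as a linear functional in the second variable -/
def bilRight (B : Matrix n n ℤ) (v : n → ℤ) : (n → ℤ) →ₗ[ℤ] ℤ where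
  toFun x := v ⬝ᵥ (B *ᵥ x)
  map_add' x y := by rw [Matrix.mulVec_add, dotProduct_add]
  map_smul' c x := by
    rw [Matrix.mulVec_smul, dotProduct_smul]
    rfl

theorem bilRight_apply (B : Matrix n n ℤ) (v x : n → ℤ) : bilRight B v x = v ⬝ᵥ (B *ᵥ x) := rfl

/-- a family of pairwise orthogonal vectors of nonzero norm is linearly independent -/
theorem linearIndependent_of_orthogonal {ι : Type*} (B : Matrix n n ℤ) (v : ι → n → ℤ)
    (hn : ∀ i, v i ⬝ᵥ (B *ᵥ v i) ≠ 0)
    (ho : ∀ i j, i ≠ j → v i ⬝ᵥ (B *ᵥ v j) = 0) : LinearIndependent ℤ v := by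
  classical
  rw [linearIndependent_iff']
  intro s g hg j hj
  have h1 := congrArg (bilRight B (v j)) hg
  rw [map_sum, map_zero] at h1
  rw [Finset.sum_eq_single j] at h1
  · rw [map_smul, bilRight_apply, smul_eq_mul] at h1
    rcases mul_eq_zero.mp h1 with h | h
    · exact h
    · exact absurd h (hn j)
  · intro i _ hij
    rw [map_smul, bilRight_apply, ho j i (Ne.symm hij), smul_zero]
  · intro hj'
    exact absurd hj hj'

/-- the relation "equal or opposite" -/
def pmSetoid (n : Type*) : Setoid (n → ℤ) where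
  r x y := y = x ∨ y = -x
  iseqv := by
    refine ⟨fun x => Or.inl rfl, ?_, ?_⟩
    · intro x y h
      rcases h with h | h
      · exact Or.inl h.symm
      · right; rw [h, neg_neg]
    · intro x y z h1 h2
      rcases h1 with h1 | h1 <;> rcases h2 with h2 | h2
      · left; rw [h2, h1]
      · right; rw [h2, h1]
      · right; rw [h2, h1]
      · left; rw [h2, h1, neg_neg]

theorem bil_neg_left (B : Matrix n n ℤ) (x y : n → ℤ) :
    (-x) ⬝ᵥ (B *ᵥ y) = -(x ⬝ᵥ (B *ᵥ y)) := by
  rw [neg_dotProduct]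

theorem bil_neg_right (B : Matrix n n ℤ) (x y : n → ℤ) :
    x ⬝ᵥ (B *ᵥ (-y)) = -(x ⬝ᵥ (B *ᵥ y)) := by
  rw [Matrix.mulVec_neg, dotProduct_neg]

/-- A finite set of vectors of norm `c ≠ 0`, any two of which are equal, opposite or orthogonal,
has at most `2 * rank` elements. -/
theorem card_le_of_frame [DecidableEq n] (B : Matrix n n ℤ) (c : ℤ) (hc : c ≠ 0)
    (F : Finset (n → ℤ))
    (hF : ∀ y ∈ F, y ⬝ᵥ (B *ᵥ y) = c)
    (ho : ∀ y ∈ F, ∀ y' ∈ F, y' = y ∨ y' = -y ∨ y ⬝ᵥ (B *ᵥ y') = 0) :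
    F.card ≤ 2 * Fintype.card n := by
  classical
  let f : (n → ℤ) → Quotient (pmSetoid n) := fun y => Quotient.mk (pmSetoid n) y
  have hfib : ∀ b ∈ F.image f, (F.filter (fun a => f a = b)).card ≤ 2 := by
    intro b hb
    obtain ⟨y, hy, rfl⟩ := Finset.mem_image.mp hb
    have hsub : F.filter (fun a => f a = f y) ⊆ {y, -y} := by
      intro a ha
      rw [Finset.mem_filter] at ha
      have := Quotient.exact ha.2
      rcases this with h | h
      · rw [h]; simp
      · rw [h]; simp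
    exact (Finset.card_le_card hsub).trans Finset.card_le_two
  have h1 := Finset.card_le_mul_card_image (f := f) F 2 hfib
  -- the image has at most `card n` elements
  have key : ∀ q ∈ F.image f, ∃ y ∈ F, f y = q := by
    intro q hq
    obtain ⟨y, hy, rfl⟩ := Finset.mem_image.mp hq
    exact ⟨y, hy, rfl⟩
  let v : (F.image f) → n → ℤ := fun q => Classical.choose (key q.1 q.2)
  have hv : ∀ q : F.image f, v q ∈ F ∧ f (v q) = q.1 := fun q => Classical.choose_spec (key q.1 q.2)
  have hli : LinearIndependent ℤ v := by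
    apply linearIndependent_of_orthogonal B v
    · intro q
      rw [hF _ (hv q).1]
      exact hc
    · intro q q' hqq'
      rcases ho _ (hv q).1 _ (hv q').1 with h | h | h
      · exfalso
        apply hqq'
        apply Subtype.ext
        rw [← (hv q).2, ← (hv q').2, h]
      · exfalso
        apply hqq'
        apply Subtype.ext
        rw [← (hv q).2, ← (hv q').2]
        apply Quotient.sound
        exact Or.inr h
      · exact h
  have h2 := hli.fintype_card_le_finrank
  rw [Fintype.card_coe] at h2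
  have h3 : Module.finrank ℤ (n → ℤ) = Fintype.card n := by
    simp
  rw [h3] at h2
  calc F.card ≤ 2 * (F.image f).card := h1
    _ ≤ 2 * Fintype.card n := by omega

/-- A finset of vectors of a fixed norm `c` with `0 < c < 8` (in an even rootless lattice) has
exactly twice as many elements as classes modulo 2. -/
theorem card_eq_two_mul_image [DecidableEq n] (B : Matrix n n ℤ) (hsymm : B.IsSymm)
    (hpos : ∀ x : n → ℤ, x ≠ 0 → 0 < x ⬝ᵥ (B *ᵥ x))
    (heven : ∀ x : n → ℤ, (2 : ℤ) ∣ x ⬝ᵥ (B *ᵥ x))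
    (h2 : ∀ x : n → ℤ, x ⬝ᵥ (B *ᵥ x) ≠ 2) (c : ℤ) (hc0 : c ≠ 0) (hc8 : c < 8)
    (S : Finset (n → ℤ)) (hS : ∀ y, y ∈ S ↔ y ⬝ᵥ (B *ᵥ y) = c) :
    S.card = 2 * (S.image red2).card := by
  classical
  rw [Finset.card_eq_sum_card_image red2 S, mul_comm]
  apply Finset.sum_const_nat
  intro b hb
  obtain ⟨y, hy, rfl⟩ := Finset.mem_image.mp hb
  have hyc := (hS y).mp hy
  have hfib : S.filter (fun a => red2 a = red2 y) = {y, -y} := by
    ext a
    simp only [Finset.mem_filter, Finset.mem_insert, Finset.mem_singleton]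
    constructor
    · rintro ⟨ha, hay⟩
      have hac := (hS a).mp ha
      rcases congr_short B hsymm hpos heven h2 y a (by omega) (by omega)
        ((red2_eq_iff y a).mp hay.symm) with h | h | h
      · exact Or.inl h
      · exact Or.inr h
      · omega
    · rintro (h | h)
      · rw [h]; exact ⟨hy, rfl⟩
      · rw [h]
        refine ⟨(hS _).mpr ?_, red2_neg y⟩
        rw [norm_neg, hyc]
  rw [hfib]
  apply Finset.card_pair
  apply ne_neg_of_norm_ne_zero B
  rw [hyc]
  exact hc0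

/-- Classes modulo 2 of short vectors of different norms are disjoint. -/
theorem disjoint_image_red2 [DecidableEq n] (B : Matrix n n ℤ) (hsymm : B.IsSymm)
    (hpos : ∀ x : n → ℤ, x ≠ 0 → 0 < x ⬝ᵥ (B *ᵥ x))
    (heven : ∀ x : n → ℤ, (2 : ℤ) ∣ x ⬝ᵥ (B *ᵥ x))
    (h2 : ∀ x : n → ℤ, x ⬝ᵥ (B *ᵥ x) ≠ 2) (c c' : ℤ) (hc : c ≤ 8) (hc' : c' ≤ 8) (hne : c ≠ c')
    (S S' : Finset (n → ℤ)) (hS : ∀ y ∈ S, y ⬝ᵥ (B *ᵥ y) = c)
    (hS' : ∀ y ∈ S', y ⬝ᵥ (B *ᵥ y) = c') :
    Disjoint (S.image red2) (S'.image red2) := by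
  classical
  rw [Finset.disjoint_left]
  intro a ha ha'
  obtain ⟨y, hy, rfl⟩ := Finset.mem_image.mp ha
  obtain ⟨y', hy', hyy'⟩ := Finset.mem_image.mp ha'
  have e := hS y hy
  have e' := hS' y' hy'
  rcases congr_short B hsymm hpos heven h2 y y' (by omega) (by omega)
    ((red2_eq_iff y y').mp hyy'.symm) with h | h | h
  · rw [h] at e'; omega
  · rw [h, norm_neg] at e'; omega
  · omega

/-- The classes modulo 2 of the norm-8 vectors congruent to a given one have at most
`2 * rank` elements. -/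
theorem fiber8_card_le [DecidableEq n] (B : Matrix n n ℤ) (hsymm : B.IsSymm)
    (hpos : ∀ x : n → ℤ, x ≠ 0 → 0 < x ⬝ᵥ (B *ᵥ x))
    (heven : ∀ x : n → ℤ, (2 : ℤ) ∣ x ⬝ᵥ (B *ᵥ x))
    (h2 : ∀ x : n → ℤ, x ⬝ᵥ (B *ᵥ x) ≠ 2)
    (S : Finset (n → ℤ)) (hS : ∀ y ∈ S, y ⬝ᵥ (B *ᵥ y) = 8) (b : n → ZMod 2) :
    (S.filter (fun a => red2 a = b)).card ≤ 2 * Fintype.card n := by
  classical
  apply card_le_of_frame B 8 (by norm_num)
  · intro y hy
    exact hS y (Finset.mem_filter.mp hy).1
  · intro y hy y' hy'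
    rw [Finset.mem_filter] at hy hy'
    rcases congr_short B hsymm hpos heven h2 y y' (hS y hy.1).le (hS y' hy'.1).le
      ((red2_eq_iff y y').mp (hy.2.trans hy'.2.symm)) with h | h | h
    · exact Or.inl h
    · exact Or.inr (Or.inl h)
    · exact Or.inr (Or.inr h.2.2)

end Cfsg.Agent.Helper27
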