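import Cfsg.Agent.Helper89.L34Mat
import Cfsg.Agent.Helper89.L34Cover
import Cfsg.Agent.Helper42.SLn
import Cfsg.Agent.Helper5.SLCard
import Cfsg.Agent.Helper7.PermOf

/-!
# The three-point stabiliser of `M24` is `PSL(3, 4)`

`M21 = M24 ⊓ fixL [0, 1, 2]` has order 20160 and contains three elements `h, k, t` satisfying
the seven relators `Helper89.L34.rels` exactly.  For a simple group `P` of order 20160 generated
by three elements satisfying the same relators, the subgroup of `P × Perm` generated by the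
three pairs has order dividing `4 * 20160` (`Helper89.L34.card_lifts_dvd`), projects onto `P`,
and injects into `M21`; hence both projections are isomorphisms.
-/

set_option autoImplicit false
open scoped Pointwise

namespace Cfsg.Agent.Helper27.M21

open Cfsg Cfsg.Agent.Helper7

/-- the pointwise stabiliser of `pt 0, pt 1, pt 2` in `M24` -/
def M21 : Subgroup (Equiv.Perm GolayPt) := M24 ⊓ fixL [0, 1, 2]

theorem card_M21 : Nat.card ↥M21 = 20160 := by
  have e0 : Nat.card ↥M24 = Nat.card ↥(M24 ⊓ fixL []) := by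
    rw [fixL_nil, inf_top_eq]
  have c0 := card_level M24 [] 0 (lvD 0xffffff [])
    (fun g hg => lv_h1 hg.2 (by norm_num) (by decide) (by decide)) (lv_h2 m24level0 G3_le)
  have c1 := card_level M24 [0] 1 (lvD 0xffffff [0])
    (fun g hg => lv_h1 hg.2 (by norm_num) (by decide) (by decide)) (lv_h2 m24level1 G3_le)
  have c2 := card_level M24 [0, 1] 2 (lvD 0xffffff [0, 1])
    (fun g hg => lv_h1 hg.2 (by norm_num) (by decide) (by decide)) (lv_h2 m24level2 G3_le)
  simp only [List.nil_append, List.cons_append] at c0 c1 c2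
  rw [lvD_card0] at c0
  rw [lvD_card1] at c1
  rw [lvD_card2] at c2
  have h := card_M24
  rw [e0] at h
  show Nat.card ↥(M24 ⊓ fixL [0, 1, 2]) = 20160
  omega

/-! ### Three elements of `M21` -/

/-- table of an element of order 7 -/
def hC : ℕ := 0x1b9f582d976aa2934a969a0e520820
/-- table of its inverse -/
def hCi : ℕ := 0x822893a9b3ad9f1939862ac83b8820
/-- table of an element of order 3 -/
def kC : ℕ := 0x82db5249e7622913392abda6518820
/-- table of its inverse -/
def kCi : ℕ := 0x39a8d2c9978aaafb212e82c9318820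
/-- table of a second element of order 7 -/
def tC : ℕ := 0x35d4b9399519668226d48c1e768820
/-- table of its inverse -/
def tCi : ℕ := 0xb26086cce62c871a554c25dcb78820

theorem hC_ok : codeM24 hC = true := by decide +kernel
theorem hCi_ok : codeM24 hCi = true := by decide +kernel
theorem kC_ok : codeM24 kC = true := by decide +kernel
theorem kCi_ok : codeM24 kCi = true := by decide +kernel
theorem tC_ok : codeM24 tC = true := by decide +kernel
theorem tCi_ok : codeM24 tCi = true := by decide +kernel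

theorem tbl_of_ok {c : ℕ} (h : codeM24 c = true) : IsTbl (permOf c) c := by
  rw [codeM24, Bool.and_eq_true] at h
  exact isTbl_permOf h.1

/-- an element of order 7 of `M21` -/
noncomputable def h : Equiv.Perm GolayPt := permOf hC
/-- an element of order 3 of `M21` -/
noncomputable def k : Equiv.Perm GolayPt := permOf kC
/-- a second element of order 7 of `M21` -/
noncomputable def t : Equiv.Perm GolayPt := permOf tC

theorem h_tbl : IsTbl h hC := tbl_of_ok hC_ok
theorem k_tbl : IsTbl k kC := tbl_of_ok kC_ok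
theorem t_tbl : IsTbl t tC := tbl_of_ok tC_ok

theorem inv_tbl_of {g : Equiv.Perm GolayPt} {c ci : ℕ} (hg : IsTbl g c)
    (hci : codeM24 ci = true) (e : Helper7.comp c ci = idCode) : IsTbl g⁻¹ ci := by
  have h1 : IsTbl (permOf ci) ci := tbl_of_ok hci
  have h2 : g * permOf ci = 1 := by
    have h := hg.mul h1
    rw [e] at h
    exact h.eq IsTbl.one
  rw [← eq_inv_of_mul_eq_one_right h2]
  exact h1

theorem h_inv_tbl : IsTbl h⁻¹ hCi := inv_tbl_of h_tbl hCi_ok (by decide +kernel)
theorem k_inv_tbl : IsTbl k⁻¹ kCi := inv_tbl_of k_tbl kCi_ok (by decide +kernel)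
theorem t_inv_tbl : IsTbl t⁻¹ tCi := inv_tbl_of t_tbl tCi_ok (by decide +kernel)

theorem h_mem : h ∈ M21 :=
  Subgroup.mem_inf.mpr ⟨permOf_mem_M24 hC_ok, mem_fixL_of_tbl h_tbl (by decide +kernel)⟩
theorem k_mem : k ∈ M21 :=
  Subgroup.mem_inf.mpr ⟨permOf_mem_M24 kC_ok, mem_fixL_of_tbl k_tbl (by decide +kernel)⟩
theorem t_mem : t ∈ M21 :=
  Subgroup.mem_inf.mpr ⟨permOf_mem_M24 tC_ok, mem_fixL_of_tbl t_tbl (by decide +kernel)⟩

theorem h_ne_one : h ≠ 1 := ne_one_of_tbl h_tbl (j := 3) (by norm_num) (by decide +kernel)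

/-- tables of the six generator symbols -/
def gC (j : ℕ) : ℕ :=
  if j = 0 then hC else if j = 1 then hCi else if j = 2 then kC else if j = 3 then kCi
  else if j = 4 then tC else if j = 5 then tCi else idCode

/-- table of the value of a word -/
def evC : List ℕ → ℕ
  | [] => idCode
  | j :: w => Helper7.comp (gC j) (evC w)

theorem gens_tbl (j : ℕ) : IsTbl (Helper89.gens3 h k t j) (gC j) := by
  unfold Helper89.gens3 gC
  split_ifs
  · exact h_tbl
  · exact h_inv_tbl
  · exact k_tbl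
  · exact k_inv_tbl
  · exact t_tbl
  · exact t_inv_tbl
  · exact IsTbl.one

theorem ev_tbl (w : List ℕ) : IsTbl (Helper89.ev (Helper89.gens3 h k t) w) (evC w) := by
  induction w with
  | nil => exact IsTbl.one
  | cons j w ih => exact (gens_tbl j).mul ih

theorem rels_C : ∀ ρ ∈ Helper89.L34.rels, evC ρ.1 = idCode := by decide +kernel

theorem rels_L : ∀ ρ ∈ Helper89.L34.rels, Helper89.ev (Helper89.gens3 h k t) ρ.1 = 1 := by
  intro ρ hρ
  have h := ev_tbl ρ.1
  rw [rels_C ρ hρ] at h
  exact h.eq IsTbl.one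

/-! ### The diagonal subgroup -/

section iso

variable {P : Type*} [Group P] [Finite P] (x y u : P)

omit [Finite P] in
theorem ev_pair (w : List ℕ) :
    Helper89.ev (Helper89.gens3 (x, h) (y, k) (u, t)) w =
      (Helper89.ev (Helper89.gens3 x y u) w, Helper89.ev (Helper89.gens3 h k t) w) := by
  rw [← Helper89.ev_prod]
  exact Helper89.ev_congr (Helper89.gens3_prod x y u h k t) w

/-- the diagonal subgroup -/
def Dl : Subgroup (P × Equiv.Perm GolayPt) :=
  Subgroup.closure {((x, h) : P × Equiv.Perm GolayPt), (y, k), (u, t)}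

omit [Finite P] in
theorem aD_mem : ((x, h) : P × Equiv.Perm GolayPt) ∈ Dl x y u :=
  Subgroup.subset_closure (by simp)
omit [Finite P] in
theorem bD_mem : ((y, k) : P × Equiv.Perm GolayPt) ∈ Dl x y u :=
  Subgroup.subset_closure (by simp)
omit [Finite P] in
theorem cD_mem : ((u, t) : P × Equiv.Perm GolayPt) ∈ Dl x y u :=
  Subgroup.subset_closure (by simp)

theorem card_Dl_dvd (hrel : ∀ ρ ∈ Helper89.L34.rels, Helper89.ev (Helper89.gens3 x y u) ρ.1 = 1) :
    Nat.card ↥(Dl x y u) ∣ 80640 := by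
  have hD : ∀ ρ ∈ Helper89.L34.rels,
      Helper89.ev (Helper89.gens3 ((x, h) : P × Equiv.Perm GolayPt) (y, k) (u, t)) ρ.1 = 1 := by
    intro ρ hρ
    rw [ev_pair, hrel ρ hρ, rels_L ρ hρ]
    rfl
  have r0 := hD ([0, 0, 0, 0, 0, 0, 0], 0) ((Helper89.L34.mem_rels_iff _).2 (by simp))
  have r1 := hD ([2, 2, 2], 0) ((Helper89.L34.mem_rels_iff _).2 (by simp))
  have r2 := hD ([2, 0, 3, 1, 1], 0) ((Helper89.L34.mem_rels_iff _).2 (by simp))
  have r3 := hD ([4, 4, 4, 4, 4, 4, 4], 0) ((Helper89.L34.mem_rels_iff _).2 (by simp))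
  rw [Helper89.L34.ev_r0] at r0
  rw [Helper89.L34.ev_r1] at r1
  rw [Helper89.L34.ev_r2] at r2
  rw [Helper89.L34.ev_r3] at r3
  refine Helper89.L34.card_lifts_dvd _ _ _ r0 r1 r3 ?_ ?_ ?_
  · exact mul_inv_eq_one.mp r2
  · intro ρ hρ g
    rw [hD ρ hρ, one_mul, mul_one]
  · intro ρ hρ
    rw [hD ρ hρ, one_mul]

/-- the first projection -/
def pi1 : ↥(Dl x y u) →* P := (MonoidHom.fst P (Equiv.Perm GolayPt)).comp (Dl x y u).subtype

/-- the second projection -/
def pi2 : ↥(Dl x y u) →* Equiv.Perm GolayPt :=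
  (MonoidHom.snd P (Equiv.Perm GolayPt)).comp (Dl x y u).subtype

omit [Finite P] in
theorem pi1_surjective (hgen : Subgroup.closure {x, y, u} = ⊤) :
    Function.Surjective (pi1 x y u) := by
  rw [← MonoidHom.range_eq_top, eq_top_iff, ← hgen, Subgroup.closure_le]
  intro z hz
  simp only [Set.mem_insert_iff, Set.mem_singleton_iff] at hz
  rcases hz with rfl | rfl | rfl
  · exact ⟨⟨_, aD_mem z y u⟩, rfl⟩
  · exact ⟨⟨_, bD_mem x z u⟩, rfl⟩
  · exact ⟨⟨_, cD_mem x y z⟩, rfl⟩

omit [Finite P] in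
theorem pi2_le : (pi2 x y u).range ≤ M21 := by
  rintro z ⟨w, rfl⟩
  have hle : Dl x y u ≤ M21.comap (MonoidHom.snd P (Equiv.Perm GolayPt)) := by
    unfold Dl
    rw [Subgroup.closure_le]
    intro z hz
    simp only [Set.mem_insert_iff, Set.mem_singleton_iff] at hz
    rcases hz with rfl | rfl | rfl
    · exact h_mem
    · exact k_mem
    · exact t_mem
  exact hle w.2

theorem card_ker_pi1 (hcard : Nat.card P = 20160) (hgen : Subgroup.closure {x, y, u} = ⊤)
    (hrel : ∀ ρ ∈ Helper89.L34.rels, Helper89.ev (Helper89.gens3 x y u) ρ.1 = 1) :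
    Nat.card ↥(pi1 x y u).ker ∣ 4 := by
  have h1 := Subgroup.card_eq_card_quotient_mul_card_subgroup (pi1 x y u).ker
  have h2 : Nat.card (↥(Dl x y u) ⧸ (pi1 x y u).ker) = 20160 := by
    rw [← hcard]
    exact Nat.card_congr
      (QuotientGroup.quotientKerEquivOfSurjective _ (pi1_surjective x y u hgen)).toEquiv
  have h3 := card_Dl_dvd x y u hrel
  rw [h1, h2] at h3
  exact Nat.dvd_of_mul_dvd_mul_left (by norm_num : 0 < 20160) (by simpa using h3)

theorem pi2_injective (hsimple : IsSimpleGroup P) (hcard : Nat.card P = 20160)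
    (hgen : Subgroup.closure {x, y, u} = ⊤)
    (hrel : ∀ ρ ∈ Helper89.L34.rels, Helper89.ev (Helper89.gens3 x y u) ρ.1 = 1) :
    Function.Injective (pi2 x y u) := by
  rw [← MonoidHom.ker_eq_bot_iff]
  have hN : ((pi2 x y u).ker.map (pi1 x y u)).Normal :=
    Subgroup.Normal.map (MonoidHom.normal_ker _) _ (pi1_surjective x y u hgen)
  rcases hN.eq_bot_or_eq_top with hb | ht
  · rw [eq_bot_iff]
    intro z hz
    have h1 : pi1 x y u z ∈ (pi2 x y u).ker.map (pi1 x y u) := ⟨z, hz, rfl⟩
    rw [hb, Subgroup.mem_bot] at h1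
    have h2 : pi2 x y u z = 1 := MonoidHom.mem_ker.mp hz
    rw [Subgroup.mem_bot]
    exact Subtype.ext (Prod.ext h1 h2)
  · exfalso
    have hmem : x ∈ (pi2 x y u).ker.map (pi1 x y u) := by rw [ht]; trivial
    obtain ⟨z, hz, hzx⟩ := hmem
    have hz2 : pi2 x y u z = 1 := MonoidHom.mem_ker.mp hz
    -- the element `(1, h)` of the kernel of `pi1`
    let w : ↥(Dl x y u) := ⟨_, aD_mem x y u⟩ * z⁻¹
    have hw1 : pi1 x y u w = 1 := by
      show pi1 x y u (⟨_, aD_mem x y u⟩ * z⁻¹) = 1
      rw [map_mul, map_inv, hzx]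
      exact mul_inv_cancel x
    have hw2 : pi2 x y u w = h := by
      show pi2 x y u (⟨_, aD_mem x y u⟩ * z⁻¹) = h
      rw [map_mul, map_inv, hz2, inv_one, mul_one]
      rfl
    have h7 : h ^ 7 = 1 := by
      have r0 := rels_L ([0, 0, 0, 0, 0, 0, 0], 0) ((Helper89.L34.mem_rels_iff _).2 (by simp))
      rwa [Helper89.L34.ev_r0] at r0
    have hw7 : w ^ 7 = 1 := by
      apply Subtype.ext
      apply Prod.ext
      · have : pi1 x y u (w ^ 7) = 1 := by rw [map_pow, hw1, one_pow]
        exact this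
      · have : pi2 x y u (w ^ 7) = 1 := by rw [map_pow, hw2, h7]
        exact this
    have hwne : w ≠ 1 := by
      intro hw
      have : pi2 x y u w = 1 := by rw [hw, map_one]
      rw [hw2] at this
      exact h_ne_one this
    have hord : orderOf (⟨w, MonoidHom.mem_ker.mpr hw1⟩ : ↥(pi1 x y u).ker) = 7 := by
      have : Fact (Nat.Prime 7) := ⟨by norm_num⟩
      apply orderOf_eq_prime
      · exact Subtype.ext hw7
      · intro hc
        exact hwne (congrArg Subtype.val hc)
    have hdvd := orderOf_dvd_natCard (⟨w, MonoidHom.mem_ker.mpr hw1⟩ : ↥(pi1 x y u).ker)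
    rw [hord] at hdvd
    have := hdvd.trans (card_ker_pi1 x y u hcard hgen hrel)
    omega

theorem card_Dl (hsimple : IsSimpleGroup P) (hcard : Nat.card P = 20160)
    (hgen : Subgroup.closure {x, y, u} = ⊤)
    (hrel : ∀ ρ ∈ Helper89.L34.rels, Helper89.ev (Helper89.gens3 x y u) ρ.1 = 1) :
    Nat.card ↥(Dl x y u) = 20160 := by
  have h1 := Nat.card_le_card_of_surjective _ (pi1_surjective x y u hgen)
  rw [hcard] at h1
  have h2 : Nat.card ↥(Dl x y u) = Nat.card ↥(pi2 x y u).range :=
    Nat.card_congr (MonoidHom.ofInjective (pi2_injective x y u hsimple hcard hgen hrel)).toEquiv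
  have h3 := Subgroup.card_le_of_le (pi2_le x y u)
  rw [card_M21] at h3
  omega

/-- `M21` is isomorphic to any simple group of order 20160 generated by three elements
satisfying the relators `Helper89.L34.rels`. -/
theorem iso_of_gens (hsimple : IsSimpleGroup P) (hcard : Nat.card P = 20160)
    (hgen : Subgroup.closure {x, y, u} = ⊤)
    (hrel : ∀ ρ ∈ Helper89.L34.rels, Helper89.ev (Helper89.gens3 x y u) ρ.1 = 1) :
    Nonempty (↥M21 ≃* P) := by
  have hc := card_Dl x y u hsimple hcard hgen hrel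
  have hinj := pi2_injective x y u hsimple hcard hgen hrel
  have hbij : Function.Bijective (pi1 x y u) :=
    (Nat.bijective_iff_surjective_and_card _).mpr ⟨pi1_surjective x y u hgen, by rw [hc, hcard]⟩
  have hrange : (pi2 x y u).range = M21 := by
    apply Subgroup.eq_of_le_of_card_ge (pi2_le x y u)
    rw [card_M21, ← hc]
    exact le_of_eq (Nat.card_congr (MonoidHom.ofInjective hinj).toEquiv)
  exact ⟨(MulEquiv.subgroupCongr hrange.symm).trans
    ((MonoidHom.ofInjective hinj).symm.trans (MulEquiv.ofBijective _ hbij))⟩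

end iso

/-! ### `PSL(3, 4)` -/

section psl

variable (F : Type) [Field F] [Fintype F]

theorem card_center3 (hK : Fintype.card F = 4) :
    Nat.card (Subgroup.center (Matrix.SpecialLinearGroup (Fin 3) F)) = 3 := by
  have e := Matrix.SpecialLinearGroup.center_equiv_rootsOfUnity' (R := F) (0 : Fin 3)
  rw [Nat.card_congr e.toEquiv]
  have key : ∀ k, k = 3 → Nat.card (rootsOfUnity k F) = 3 := by
    rintro k rfl
    have hcard : Nat.card Fˣ = 3 := by rw [Nat.card_units, Nat.card_eq_fintype_card, hK]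
    have htop : rootsOfUnity 3 F = ⊤ := by
      rw [eq_top_iff]
      intro u _
      rw [mem_rootsOfUnity]
      have := pow_card_eq_one' (x := u)
      rwa [hcard] at this
    rw [htop, Subgroup.card_top, hcard]
  exact key _ (Fintype.card_fin 3)

theorem card_psl3 (hK : Fintype.card F = 4) :
    Nat.card (Matrix.ProjectiveSpecialLinearGroup (Fin 3) F) = 20160 := by
  have h0 := Subgroup.card_eq_card_quotient_mul_card_subgroup
    (Subgroup.center (Matrix.SpecialLinearGroup (Fin 3) F))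
  rw [card_center3 F hK] at h0
  have h2 := Cfsg.Agent.Helper5.card_SL_mul (F := F) (Fin 3)
  have h3 := Matrix.card_GL_field (𝔽 := F) 3
  rw [h3, hK, h0] at h2
  simp [Fin.prod_univ_three] at h2
  show Nat.card (Matrix.SpecialLinearGroup (Fin 3) F ⧸
    Subgroup.center (Matrix.SpecialLinearGroup (Fin 3) F)) = 20160
  omega

/-- `M21` is isomorphic to `PSL(3, F)` for a field `F` with four elements. -/
theorem M21_iso (hF : Fintype.card F = 4) :
    Nonempty (↥M21 ≃* Matrix.ProjectiveSpecialLinearGroup (Fin 3) F) := by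
  obtain ⟨x, y, u, hgen, hrel⟩ := Helper89.L34.exists_gens F hF
  exact iso_of_gens x y u
    (Helper42.SLn.psl_isSimpleGroup_of_three (by simp)) (card_psl3 F hF) hgen hrel

end psl

/-! ### Transport -/

theorem toM21 {v g : Equiv.Perm GolayPt} (hv : v ∈ M24) (hg : g ∈ M24)
    (h0 : g (v (pt 0)) = v (pt 0)) (h1 : g (v (pt 1)) = v (pt 1))
    (h2 : g (v (pt 2)) = v (pt 2)) : v⁻¹ * g * v ∈ M21 := by
  refine Subgroup.mem_inf.mpr ⟨M24.mul_mem (M24.mul_mem (M24.inv_mem hv) hg) hv, ?_⟩
  rw [mem_fixL]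
  intro j hj
  simp only [List.mem_cons, List.not_mem_nil, or_false] at hj
  rcases hj with rfl | rfl | rfl
  · simp only [Equiv.Perm.mul_apply]
    rw [h0]
    simp
  · simp only [Equiv.Perm.mul_apply]
    rw [h1]
    simp
  · simp only [Equiv.Perm.mul_apply]
    rw [h2]
    simp

theorem ofM21 {v m : Equiv.Perm GolayPt} (hv : v ∈ M24) (hm : m ∈ M21) :
    v * m * v⁻¹ ∈ M24 ∧ (v * m * v⁻¹) (v (pt 0)) = v (pt 0) ∧
      (v * m * v⁻¹) (v (pt 1)) = v (pt 1) ∧ (v * m * v⁻¹) (v (pt 2)) = v (pt 2) := by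
  have h0 : m (pt 0) = pt 0 := (mem_fixL.mp hm.2) 0 (by simp)
  have h1 : m (pt 1) = pt 1 := (mem_fixL.mp hm.2) 1 (by simp)
  have h2 : m (pt 2) = pt 2 := (mem_fixL.mp hm.2) 2 (by simp)
  refine ⟨M24.mul_mem (M24.mul_mem hv hm.1) (M24.inv_mem hv), ?_, ?_, ?_⟩
  · simp only [Equiv.Perm.mul_apply]
    simp [h0]
  · simp only [Equiv.Perm.mul_apply]
    simp [h1]
  · simp only [Equiv.Perm.mul_apply]
    simp [h2]

/-- the stabiliser of three general points is isomorphic to `M21` -/
noncomputable def stabEquivM21 {v : Equiv.Perm GolayPt} (hv : v ∈ M24) :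
    ↥(MulAction.stabilizer (↥M24) (v (pt 0)) ⊓ MulAction.stabilizer (↥M24) (v (pt 1)) ⊓
        MulAction.stabilizer (↥M24) (v (pt 2))) ≃* ↥M21 where
  toFun := fun z => ⟨v⁻¹ * z.1.1 * v, toM21 hv z.1.2 z.2.1.1 z.2.1.2 z.2.2⟩
  invFun := fun m => ⟨⟨v * m.1 * v⁻¹, (ofM21 hv m.2).1⟩,
    ⟨⟨(ofM21 hv m.2).2.1, (ofM21 hv m.2).2.2.1⟩, (ofM21 hv m.2).2.2.2⟩⟩
  left_inv := fun z => Subtype.ext (Subtype.ext (by simp [mul_assoc]))
  right_inv := fun m => Subtype.ext (by simp [mul_assoc])
  map_mul' := fun z w => Subtype.ext (by simp [mul_assoc])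

/-- A three-point stabiliser in `M24` is isomorphic to `PSL(3, F)` for a field `F` with four
elements. -/
theorem stab3_psl (p q r : GolayPt) (hpq : p ≠ q) (hpr : p ≠ r) (hqr : q ≠ r)
    (F : Type) [Field F] [Fintype F] (hF : Fintype.card F = 4) :
    Nonempty (↥(MulAction.stabilizer (↥M24) p ⊓ MulAction.stabilizer (↥M24) q ⊓
      MulAction.stabilizer (↥M24) r) ≃* Matrix.ProjectiveSpecialLinearGroup (Fin 3) F) := by
  obtain ⟨v, hv, rfl, rfl, rfl⟩ := m24_trans3 (p := pt 0) (q := pt 1) (r := pt 2)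
    (by decide) (by decide) (by decide) hpq hpr hqr
  obtain ⟨e⟩ := M21_iso F hF
  exact ⟨(stabEquivM21 hv).trans e⟩

end Cfsg.Agent.Helper27.M21
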