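import Cfsg.Agent.Helper27.M24InvolData
import Cfsg.Agent.Helper7.PermOf

/-!
# The involutions of `M24`

Every involution of `M24` is conjugate to one of two explicit involutions `z1` (fixing the points
of an octad) and `z2` (fixed-point-free).  An involution is first conjugated so that it
interchanges `pt 0, pt 1` and `pt 2, pt 3`; it then lies in a coset of the stabiliser of four
points, whose 960 elements are enumerated from transversals of the stabiliser chain.
-/

set_option autoImplicit false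
open scoped Pointwise

namespace Cfsg.Agent.Helper27.M24Invol

open Cfsg Cfsg.Agent.Helper7

/-! ### Transversals -/

/-- the codes in `T` are tables of elements of `M24` fixing `pre`, and they move the index `c` to
every index of the mask `Dm` outside `pre` -/
def transCheck (pre : List ℕ) (c Dm : ℕ) (T : List ℕ) : Bool :=
  T.all (fun code => codeM24 code && pre.all (fun j => decide (j < 24) && Nat.beq (tbl code j) j))
    && (List.range 24).all (fun j => !(Dm.testBit j) || (pre.contains j ||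
      T.any (fun code => Nat.beq (tbl code c) j)))

theorem validCode_of_codeM24 {c : ℕ} (h : codeM24 c = true) : validCode c = true := by
  rw [codeM24, Bool.and_eq_true] at h
  exact h.1

theorem trans_step (pre : List ℕ) (c Dm : ℕ) (T : List ℕ) (hc : c < 24)
    (h : transCheck pre c Dm T = true) {g : Equiv.Perm GolayPt} (hg : g ∈ M24 ⊓ fixL pre)
    (hx : g (pt c) ∈ lvD Dm pre) :
    ∃ code ∈ T, codeM24 code = true ∧ (permOf code)⁻¹ * g ∈ M24 ⊓ fixL (pre ++ [c]) := by
  unfold transCheck at h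
  rw [Bool.and_eq_true] at h
  obtain ⟨hT, hcov⟩ := h
  rw [mem_lvD] at hx
  have hj := List.all_eq_true.mp hcov (idx (g (pt c))) (List.mem_range.mpr (idx_lt _))
  have hbit : Dm.testBit (idx (g (pt c))) = true := mem_setOf.mp hx.1
  rw [hbit] at hj
  simp only [Bool.not_true, Bool.false_or, Bool.or_eq_true] at hj
  rcases hj with hj | hj
  · exfalso
    apply hx.2
    rw [List.mem_map]
    exact ⟨idx (g (pt c)), List.contains_iff_mem.mp hj, pt_idx _⟩
  · rw [List.any_eq_true] at hj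
    obtain ⟨code, hcode, hcj⟩ := hj
    have hcj' : tbl code c = idx (g (pt c)) := Nat.eq_of_beq_eq_true hcj
    have hT' := List.all_eq_true.mp hT code hcode
    rw [Bool.and_eq_true] at hT'
    have htbl := isTbl_permOf (validCode_of_codeM24 hT'.1)
    have hmem : permOf code ∈ M24 ⊓ fixL pre :=
      Subgroup.mem_inf.mpr ⟨permOf_mem_M24 hT'.1, mem_fixL_of_tbl htbl hT'.2⟩
    refine ⟨code, hcode, hT'.1, ?_⟩
    have hmem' : (permOf code)⁻¹ * g ∈ M24 ⊓ fixL pre :=
      Subgroup.mul_mem _ (Subgroup.inv_mem _ hmem) hg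
    refine Subgroup.mem_inf.mpr ⟨hmem'.1, mem_fixL_append_singleton.mpr ⟨hmem'.2, ?_⟩⟩
    rw [Equiv.Perm.mul_apply, Equiv.Perm.inv_eq_iff_eq, htbl.apply_pt hc, hcj', pt_idx]

theorem T4_ok : transCheck [0, 1, 2, 3] 4 0xffffff T4 = true := by decide +kernel
theorem T5_ok : transCheck [0, 1, 2, 3, 4] 7 O0 T5 = true := by decide +kernel
theorem T6_ok : transCheck [0, 1, 2, 3, 4, 7] 5 (0xffffff ^^^ O0) T6 = true := by decide +kernel

/-- the elements of `M24` fixing `pt 0, pt 1, pt 2, pt 3, pt 4, pt 7` are given by `T6` -/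
theorem fix6_decomp {s : Equiv.Perm GolayPt} (hs : s ∈ M24 ⊓ fixL [0, 1, 2, 3, 4, 7]) :
    ∃ c ∈ T6, IsTbl s c := by
  obtain ⟨c, hc, hcM, h3⟩ := trans_step [0, 1, 2, 3, 4, 7] 5 (0xffffff ^^^ O0) T6 (by norm_num)
    T6_ok hs (lv6_h1 hs)
  simp only [List.cons_append, List.nil_append] at h3
  rw [m24_bot, Subgroup.mem_bot, inv_mul_eq_one] at h3
  refine ⟨c, hc, ?_⟩
  rw [← h3]
  exact isTbl_permOf (validCode_of_codeM24 hcM)

/-- the elements of `M24` fixing `pt 0, pt 1, pt 2, pt 3` are products of the transversals -/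
theorem stab4_decomp {s : Equiv.Perm GolayPt} (hs : s ∈ M24 ⊓ fixL [0, 1, 2, 3]) :
    ∃ a ∈ T4, ∃ b ∈ T5, ∃ c ∈ T6, IsTbl s (comp (comp a b) c) := by
  obtain ⟨a, ha, haM, h1⟩ := trans_step [0, 1, 2, 3] 4 0xffffff T4 (by norm_num) T4_ok hs
    (lv_h1 hs.2 (by norm_num) (by decide) (by decide))
  simp only [List.cons_append, List.nil_append] at h1
  obtain ⟨b, hb, hbM, h2⟩ := trans_step [0, 1, 2, 3, 4] 7 O0 T5 (by norm_num) T5_ok h1
    (lv5_h1 h1)
  simp only [List.cons_append, List.nil_append] at h2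
  obtain ⟨c, hc, hcT⟩ := fix6_decomp h2
  refine ⟨a, ha, b, hb, c, hc, ?_⟩
  have e : s = permOf a * permOf b * ((permOf b)⁻¹ * ((permOf a)⁻¹ * s)) := by group
  rw [e]
  exact ((isTbl_permOf (validCode_of_codeM24 haM)).mul
    (isTbl_permOf (validCode_of_codeM24 hbM))).mul hcT

/-! ### The two involutions -/

theorem h0c_ok : codeM24 h0c = true := by decide +kernel
theorem z2c_ok : codeM24 z2c = true := by decide +kernel

/-- an involution fixing the points of an octad -/
noncomputable def z1 : Equiv.Perm GolayPt := permOf h0c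

/-- an involution without fixed points -/
noncomputable def z2 : Equiv.Perm GolayPt := permOf z2c

theorem z1_tbl : IsTbl z1 h0c := isTbl_permOf (validCode_of_codeM24 h0c_ok)
theorem z2_tbl : IsTbl z2 z2c := isTbl_permOf (validCode_of_codeM24 z2c_ok)
theorem z1_mem : z1 ∈ M24 := permOf_mem_M24 h0c_ok
theorem z2_mem : z2 ∈ M24 := permOf_mem_M24 z2c_ok

theorem z1_order : orderOf z1 = 2 :=
  orderOf_of_tbl z1_tbl 2 (by decide +kernel) (j := 0) (by norm_num) (by decide +kernel)

theorem z2_order : orderOf z2 = 2 :=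
  orderOf_of_tbl z2_tbl 2 (by decide +kernel) (j := 0) (by norm_num) (by decide +kernel)

theorem z1_fix_tbl : ∀ j : Fin 24, tbl h0c j.val = j.val ↔ (0xc24a60 : ℕ).testBit j.val = true := by
  decide +kernel

theorem z1_fix (p : GolayPt) : z1 p = p ↔ p ∈ Helper7.setOf 0xc24a60 := by
  rw [mem_setOf, ← z1_fix_tbl ⟨idx p, idx_lt p⟩, ← z1_tbl p]
  exact ⟨fun h => congrArg idx h, fun h => idx_injective h⟩

theorem z1_octad : Helper7.setOf 0xc24a60 ∈ octads := by
  have := setOf_mem_wordsOfWeight (m := 0xc24a60) (by decide +kernel)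
  have h8 : wt 0xc24a60 = 8 := by decide +kernel
  rw [h8] at this
  exact this

theorem z2_fix_tbl : ∀ j : Fin 24, tbl z2c j.val ≠ j.val := by decide +kernel

theorem z2_fix (p : GolayPt) : z2 p ≠ p := by
  intro h
  apply z2_fix_tbl ⟨idx p, idx_lt p⟩
  show tbl z2c (idx p) = idx p
  rw [← z2_tbl p, h]

/-! ### The certificate -/

/-- Bool test: the table is an involution or the identity -/
def invTest (e : ℕ) : Bool := (List.range 24).all (fun j => Nat.beq (tbl e (tbl e j)) j)

/-- Bool test: `e` is not an involution, or `k` conjugates it to one of the two involutions -/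
def checkOne (e k : ℕ) : Bool :=
  !(invTest e) || (codeM24 k && (Nat.beq (comp k e) (comp h0c k) || Nat.beq (comp k e) (comp z2c k)))

/-- the tables of the coset of `h0c` -/
def allE : List ℕ :=
  T4.flatMap (fun a => T5.flatMap (fun b => T6.map (fun c => comp h0c (comp (comp a b) c))))

theorem cert_ok : (Nat.ble allE.length certL.length &&
    (allE.zip certL).all (fun p => checkOne p.1 p.2)) = true := by decide +kernel

theorem zip_all {α β : Type} (f : α × β → Bool) : ∀ (l1 : List α) (l2 : List β),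
    l1.length ≤ l2.length → (l1.zip l2).all f = true → ∀ x ∈ l1, ∃ y, f (x, y) = true
  | [], _, _, _, x, hx => by cases hx
  | _ :: _, [], hlen, _, _, _ => by simp at hlen
  | a :: l1, b :: l2, hlen, hall, x, hx => by
      simp only [List.zip_cons_cons, List.all_cons, Bool.and_eq_true] at hall
      rcases List.mem_cons.mp hx with rfl | hx'
      · exact ⟨b, hall.1⟩
      · exact zip_all f l1 l2 (by simpa using hlen) hall.2 x hx'

theorem cert_spec {e : ℕ} (he : e ∈ allE) (hinv : invTest e = true) :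
    ∃ k, codeM24 k = true ∧ (comp k e = comp h0c k ∨ comp k e = comp z2c k) := by
  have h := cert_ok
  rw [Bool.and_eq_true] at h
  obtain ⟨k, hk⟩ := zip_all (fun p => checkOne p.1 p.2) allE certL (Nat.le_of_ble_eq_true h.1)
    h.2 e he
  simp only [checkOne, hinv, Bool.not_true, Bool.false_or, Bool.and_eq_true, Bool.or_eq_true] at hk
  refine ⟨k, hk.1, ?_⟩
  rcases hk.2 with h1 | h1
  · exact Or.inl (Nat.eq_of_beq_eq_true h1)
  · exact Or.inr (Nat.eq_of_beq_eq_true h1)

theorem h0c_tbl : tbl h0c 0 = 1 ∧ tbl h0c 1 = 0 ∧ tbl h0c 2 = 3 ∧ tbl h0c 3 = 2 := by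
  decide +kernel

/-- an involution interchanging `pt 0, pt 1` and `pt 2, pt 3` is conjugate to `z1` or `z2` -/
theorem invol_coset {g : Equiv.Perm GolayPt} (hg : g ∈ M24) (h0 : g (pt 0) = pt 1)
    (h1 : g (pt 1) = pt 0) (h2 : g (pt 2) = pt 3) (h3 : g (pt 3) = pt 2) (hsq : g * g = 1) :
    ∃ k ∈ M24, k * g * k⁻¹ = z1 ∨ k * g * k⁻¹ = z2 := by
  obtain ⟨t0, t1, t2, t3⟩ := h0c_tbl
  have hz0 : z1 (pt 0) = pt 1 := by rw [z1_tbl.apply_pt (by norm_num), t0]
  have hz1 : z1 (pt 1) = pt 0 := by rw [z1_tbl.apply_pt (by norm_num), t1]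
  have hz2 : z1 (pt 2) = pt 3 := by rw [z1_tbl.apply_pt (by norm_num), t2]
  have hz3 : z1 (pt 3) = pt 2 := by rw [z1_tbl.apply_pt (by norm_num), t3]
  have hs : z1⁻¹ * g ∈ M24 ⊓ fixL [0, 1, 2, 3] := by
    refine Subgroup.mem_inf.mpr ⟨M24.mul_mem (M24.inv_mem z1_mem) hg, ?_⟩
    rw [mem_fixL]
    intro j hj
    simp only [List.mem_cons, List.not_mem_nil, or_false] at hj
    rw [Equiv.Perm.mul_apply, Equiv.Perm.inv_eq_iff_eq]
    rcases hj with rfl | rfl | rfl | rfl
    · rw [h0, hz0]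
    · rw [h1, hz1]
    · rw [h2, hz2]
    · rw [h3, hz3]
  obtain ⟨a, ha, b, hb, c, hc, hT⟩ := stab4_decomp hs
  have hgT : IsTbl g (comp h0c (comp (comp a b) c)) := by
    have e : g = z1 * (z1⁻¹ * g) := by group
    rw [e]
    exact z1_tbl.mul hT
  have hmem : comp h0c (comp (comp a b) c) ∈ allE := by
    unfold allE
    rw [List.mem_flatMap]
    refine ⟨a, ha, ?_⟩
    rw [List.mem_flatMap]
    refine ⟨b, hb, ?_⟩
    rw [List.mem_map]
    exact ⟨c, hc, rfl⟩
  have hinv : invTest (comp h0c (comp (comp a b) c)) = true := by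
    unfold invTest
    rw [List.all_eq_true]
    intro j hj
    have hj' : j < 24 := List.mem_range.mp hj
    have e1 := hgT (g (pt j))
    rw [hgT (pt j), idx_pt hj'] at e1
    have e2 : g (g (pt j)) = pt j := by
      have := congrArg (fun t : Equiv.Perm GolayPt => t (pt j)) hsq
      simpa using this
    rw [e2, idx_pt hj'] at e1
    rw [← e1]
    exact Nat.beq_refl j
  obtain ⟨k, hkM, hk⟩ := cert_spec hmem hinv
  have hkT := isTbl_permOf (validCode_of_codeM24 hkM)
  refine ⟨permOf k, permOf_mem_M24 hkM, ?_⟩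
  rcases hk with hk | hk
  · left
    have h1' : IsTbl (permOf k * g) (comp h0c k) := by
      rw [← hk]; exact hkT.mul hgT
    have := h1'.eq (z1_tbl.mul hkT)
    rw [this]
    group
  · right
    have h1' : IsTbl (permOf k * g) (comp z2c k) := by
      rw [← hk]; exact hkT.mul hgT
    have := h1'.eq (z2_tbl.mul hkT)
    rw [this]
    group

/-! ### Every involution has two transpositions -/

theorem T6_move : ∀ c ∈ T6, tbl c 5 = 6 → tbl c 8 ≠ 8 := by decide +kernel

theorem two_moved {g : Equiv.Perm GolayPt} (hg : g ∈ M24) {a : GolayPt} (ha : g a ≠ a) :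
    ∃ c, c ≠ a ∧ c ≠ g a ∧ g c ≠ c := by
  by_contra hcon
  push Not at hcon
  obtain ⟨k, hk, hk5, hk6⟩ := m24_trans2 (p := pt 5) (q := pt 6) (p' := a) (q' := g a) (by decide)
    (Ne.symm ha)
  have hfix : ∀ j, j < 24 → j ≠ 5 → j ≠ 6 → (k⁻¹ * g * k) (pt j) = pt j := by
    intro j hj h5 h6
    simp only [Equiv.Perm.mul_apply]
    rw [Equiv.Perm.inv_eq_iff_eq]
    apply hcon
    · rw [← hk5]
      intro h
      have := congrArg idx (k.injective h)
      rw [idx_pt hj, idx_pt (by norm_num)] at this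
      exact h5 this
    · rw [← hk6]
      intro h
      have := congrArg idx (k.injective h)
      rw [idx_pt hj, idx_pt (by norm_num)] at this
      exact h6 this
  have h56 : (k⁻¹ * g * k) (pt 5) = pt 6 := by
    simp only [Equiv.Perm.mul_apply]
    rw [Equiv.Perm.inv_eq_iff_eq, hk5, hk6]
  have hmem : k⁻¹ * g * k ∈ M24 ⊓ fixL [0, 1, 2, 3, 4, 7] := by
    refine Subgroup.mem_inf.mpr ⟨M24.mul_mem (M24.mul_mem (M24.inv_mem hk) hg) hk, ?_⟩
    rw [mem_fixL]
    intro j hj
    simp only [List.mem_cons, List.not_mem_nil, or_false] at hj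
    rcases hj with rfl | rfl | rfl | rfl | rfl | rfl <;> exact hfix _ (by norm_num) (by norm_num)
      (by norm_num)
  obtain ⟨c, hc, hcT⟩ := fix6_decomp hmem
  have e5 : tbl c 5 = 6 := by
    have := hcT (pt 5)
    rw [h56, idx_pt (by norm_num), idx_pt (by norm_num)] at this
    exact this.symm
  have e8 : tbl c 8 = 8 := by
    have := hcT (pt 8)
    rw [hfix 8 (by norm_num) (by norm_num) (by norm_num), idx_pt (by norm_num)] at this
    exact this.symm
  exact T6_move c hc e5 e8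

/-- every involution of `M24` is conjugate to `z1` or to `z2` -/
theorem invol_conj {g : Equiv.Perm GolayPt} (hg : g ∈ M24) (ho : orderOf g = 2) :
    ∃ k ∈ M24, k * g * k⁻¹ = z1 ∨ k * g * k⁻¹ = z2 := by
  have hsq : g * g = 1 := by
    rw [← pow_two, ← ho]
    exact pow_orderOf_eq_one g
  have hne : g ≠ 1 := by
    intro h
    rw [h, orderOf_one] at ho
    exact absurd ho (by norm_num)
  have hgg : ∀ y, g (g y) = y := fun y => by
    have := congrArg (fun t : Equiv.Perm GolayPt => t y) hsq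
    simpa using this
  obtain ⟨a, ha⟩ : ∃ a, g a ≠ a := by
    by_contra hcon
    push Not at hcon
    exact hne (Equiv.ext hcon)
  obtain ⟨c, hca, hcb, hc⟩ := two_moved hg ha
  have hnd : [a, g a, c, g c].Nodup := by
    simp only [List.nodup_cons, List.mem_cons, List.not_mem_nil, or_false, not_or,
      List.nodup_nil, and_true, not_false_eq_true]
    refine ⟨⟨?_, ?_, ?_⟩, ⟨?_, ?_⟩, ?_⟩
    · exact fun h => ha h.symm
    · exact fun h => hca h.symm
    · intro h
      apply hcb
      rw [h, hgg]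
    · exact fun h => hcb h.symm
    · exact fun h => hca (g.injective h).symm
    · exact fun h => hc h.symm
  obtain ⟨k, hk, hmap⟩ := m24_tuple [0, 1, 2, 3] m24chain4 [a, g a, c, g c] rfl hnd
  simp only [List.map_cons, List.map_nil, List.cons.injEq, and_true] at hmap
  obtain ⟨k0, k1, k2, k3⟩ := hmap
  have hg' : k⁻¹ * g * k ∈ M24 := M24.mul_mem (M24.mul_mem (M24.inv_mem hk) hg) hk
  obtain ⟨κ, hκ, hconj⟩ := invol_coset hg'
    (by simp only [Equiv.Perm.mul_apply]; rw [Equiv.Perm.inv_eq_iff_eq, k0, k1])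
    (by simp only [Equiv.Perm.mul_apply]; rw [Equiv.Perm.inv_eq_iff_eq, k1, hgg, k0])
    (by simp only [Equiv.Perm.mul_apply]; rw [Equiv.Perm.inv_eq_iff_eq, k2, k3])
    (by simp only [Equiv.Perm.mul_apply]; rw [Equiv.Perm.inv_eq_iff_eq, k3, hgg, k2])
    (by
      have e : k⁻¹ * g * k * (k⁻¹ * g * k) = k⁻¹ * (g * g) * k := by group
      rw [e, hsq]
      group)
  refine ⟨κ * k⁻¹, M24.mul_mem hκ (M24.inv_mem hk), ?_⟩
  have e : κ * k⁻¹ * g * (κ * k⁻¹)⁻¹ = κ * (k⁻¹ * g * k) * κ⁻¹ := by group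
  rw [e]
  exact hconj

/-! ### Fixed points -/

theorem fix_of_conj {g k z : Equiv.Perm GolayPt} (h : k * g * k⁻¹ = z) (p : GolayPt) :
    g p = p ↔ z (k p) = k p := by
  rw [← h]
  have e : (k * g * k⁻¹) (k p) = k (g p) := by simp
  rw [e]
  exact ⟨fun h => by rw [h], fun h => k.injective h⟩

theorem fix_z1_conj {g k : Equiv.Perm GolayPt} (hk : k ∈ M24) (h : k * g * k⁻¹ = z1)
    (s : Finset GolayPt) (hs : ∀ p, p ∈ s ↔ g p = p) : s ∈ octads := by
  have e : s = k⁻¹ • Helper7.setOf 0xc24a60 := by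
    ext p
    rw [hs, fix_of_conj h, z1_fix, Finset.mem_inv_smul_finset_iff]
    rfl
  rw [e]
  exact smul_mem_wordsOfWeight (M24.inv_mem hk) z1_octad

theorem fix_z2_conj {g k : Equiv.Perm GolayPt} (h : k * g * k⁻¹ = z2) (p : GolayPt) : g p ≠ p := by
  rw [Ne, fix_of_conj h]
  exact z2_fix _

/-- the classification of the involutions of `M24` -/
theorem invol_classes :
    (∀ g ∈ M24, orderOf g = 2 → (∀ s : Finset GolayPt, (∀ p, p ∈ s ↔ g p = p) → s ∈ octads) ∨
      ∀ p, g p ≠ p) ∧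
    (∃ g ∈ M24, orderOf g = 2 ∧ ∀ s : Finset GolayPt, (∀ p, p ∈ s ↔ g p = p) → s ∈ octads) ∧
    (∃ g ∈ M24, orderOf g = 2 ∧ ∀ p, g p ≠ p) ∧
    ∀ g ∈ M24, ∀ h ∈ M24, orderOf g = 2 → orderOf h = 2 →
      ((∀ p, g p ≠ p) ↔ (∀ p, h p ≠ p)) → ∃ k ∈ M24, k * g * k⁻¹ = h := by
  refine ⟨?_, ?_, ?_, ?_⟩
  · intro g hg ho
    obtain ⟨k, hk, h | h⟩ := invol_conj hg ho
    · exact Or.inl (fix_z1_conj hk h)
    · exact Or.inr (fix_z2_conj h)
  · exact ⟨z1, z1_mem, z1_order, fix_z1_conj (k := 1) M24.one_mem (by group)⟩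
  · exact ⟨z2, z2_mem, z2_order, z2_fix⟩
  · intro g hg h hh hog hoh hiff
    obtain ⟨k, hk, hkg⟩ := invol_conj hg hog
    obtain ⟨l, hl, hlh⟩ := invol_conj hh hoh
    have key : ∀ z, k * g * k⁻¹ = z → l * h * l⁻¹ = z → ∃ m ∈ M24, m * g * m⁻¹ = h := by
      intro z e1 e2
      refine ⟨l⁻¹ * k, M24.mul_mem (M24.inv_mem hl) hk, ?_⟩
      have e : l⁻¹ * k * g * (l⁻¹ * k)⁻¹ = l⁻¹ * (k * g * k⁻¹) * l := by group
      rw [e, e1, ← e2]
      group
    have hfp1 : ∀ {x κ : Equiv.Perm GolayPt}, κ * x * κ⁻¹ = z1 → ¬ ∀ p, x p ≠ p := by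
      intro x κ hx hall
      apply hall (κ⁻¹ (pt 5))
      rw [fix_of_conj hx, z1_fix]
      have e : κ (κ⁻¹ (pt 5)) = pt 5 := by simp
      rw [e]
      decide +kernel
    rcases hkg with e1 | e1 <;> rcases hlh with e2 | e2
    · exact key z1 e1 e2
    · exact absurd (hiff.mpr (fix_z2_conj e2)) (hfp1 e1)
    · exact absurd (hiff.mp (fix_z2_conj e1)) (hfp1 e2)
    · exact key z2 e1 e2

end Cfsg.Agent.Helper27.M24Invol
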