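/-
Helper27: data for the local subgroups of `M24`: elements fixing every pairing of the base
sextet, pairs of them whose common fixed points are the tetrads, and the 16 elements fixing the
points of the octad of `z1`.
-/
import Mathlib.Data.Nat.Notation
import Mathlib.Data.Fin.VecNotation

namespace Cfsg.Agent.Helper27.M24Blk

/-- some of the 64 elements of `M24` fixing every pairing of the base sextet, transitive on
each tetrad -/
def n64 : List ℕ := [0x29ab4449cf845a449d7355aec18820, 0x2a695835d34464c32acf3aee418820, 0x299b29d1d07c6ac4a9683dae410c01, 0x2a6b49c9d07c5a7312c862eea08062, 0x2d9b27d1c89c6a75913061aea18820, 0x2da4d455cf8468c5a93339ae408062, 0xb99b28523343aaa4b16f258a718820, 0xb9a4d9d6307ba8449d68558ac08062, 0x72e4d454af85e84b1cd35262c00443, 0x899b27d2e8996a449d70559cc00443]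

/-- for each tetrad, two of these elements whose common fixed points are the tetrad -/
def fixW : Fin 6 → ℕ × ℕ := ![(0x29ab4449cf845a449d7355aec18820, 0x2a695835d34464c32acf3aee418820), (0x299b29d1d07c6ac4a9683dae410c01, 0x2a695835d34464c32acf3aee418820), (0x299b29d1d07c6ac4a9683dae410c01, 0x2a6b49c9d07c5a7312c862eea08062), (0x29ab4449cf845a449d7355aec18820, 0x2a6b49c9d07c5a7312c862eea08062), (0x2d9b27d1c89c6a75913061aea18820, 0x2da4d455cf8468c5a93339ae408062), (0xb99b28523343aaa4b16f258a718820, 0xb9a4d9d6307ba8449d68558ac08062)]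

/-- the 16 elements of `M24` fixing the eight fixed points of `z1` -/
def q16 : List ℕ := [0xbdab49ca307b9ac5a928398a418820, 0xbd9e894e2daba0258534018a323147, 0xbda958363343a475912f618aa08062, 0xbd82360a27538135bd24818a8a4aad, 0xbd944132200b8f25d523698b444df0, 0xbd88a01e221b98d5d121918b57c113, 0xbd9b24522f83aa459d33518ac10c01, 0xbd9870aa23138955c920a18ad83e68, 0xbda70abe34939015892d198a03a984, 0xbd90f6c232a3a6058d35118a151c8c, 0xbd8ec19221039545b522a98b29a20f, 0xbd8613822c238505a12a998afab692, 0xbda4d7d6289ba8a5b130218a700443, 0xbda13a22356b9e358132098a2610ea, 0xbd840506246386f5cd27418b06d654, 0xbd80220e2a3b8285c12c798b3951b5]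

end Cfsg.Agent.Helper27.M24Blk
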