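import Cfsg.Agent.Helper27.SextetA

/-!
# The stabiliser of a sextet, II

The normal subgroup of order `64` of a sextet stabiliser: the elements fixing every pairing
`{v, t \ v}` of every tetrad `t` (`v` a 2-subset of `t`).  They square to the identity, form a
normal subgroup, and there are exactly `64` of them.
-/

set_option autoImplicit false
open scoped Pointwise

namespace Cfsg.Agent.Helper27.Sextet

open Cfsg Cfsg.Agent.Helper7

/-- the pairings of the tetrads of a sextet -/
def pairings (S : Finset (Finset GolayPt)) : Set (Finset (Finset GolayPt)) :=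
  {p | ∃ t ∈ S, ∃ v : Finset GolayPt, v ⊆ t ∧ v.card = 2 ∧ p = {v, t \ v}}

theorem smul_pair (g : Equiv.Perm GolayPt) (t v : Finset GolayPt) :
    g • ({v, t \ v} : Finset (Finset GolayPt)) = {g • v, g • t \ g • v} := by
  rw [Finset.smul_finset_insert, Finset.smul_finset_singleton, Finset.smul_finset_sdiff]

theorem smul_mem_pairings {g : Equiv.Perm GolayPt} {S : Finset (Finset GolayPt)} (hg : g • S = S)
    {p : Finset (Finset GolayPt)} (hp : p ∈ pairings S) : g • p ∈ pairings S := by
  obtain ⟨t, ht, v, hv, hc, rfl⟩ := hp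
  refine ⟨g • t, ?_, g • v, Finset.smul_finset_subset_smul_finset hv, ?_, smul_pair g t v⟩
  · have h := Finset.smul_mem_smul_finset (a := g) ht
    rw [hg] at h
    exact h
  · rw [Finset.card_smul_finset]; exact hc

/-- the permutations fixing every pairing -/
def PS (S : Finset (Finset GolayPt)) : Subgroup (Equiv.Perm GolayPt) where
  carrier := {g | ∀ p ∈ pairings S, g • p = p}
  mul_mem' := by
    intro a b ha hb p hp
    rw [mul_smul, hb p hp, ha p hp]
  one_mem' := fun p _ => one_smul _ p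
  inv_mem' := by
    intro a ha p hp
    rw [inv_smul_eq_iff, ha p hp]

theorem mem_PS {S : Finset (Finset GolayPt)} {g : Equiv.Perm GolayPt} :
    g ∈ PS S ↔ ∀ p ∈ pairings S, g • p = p := Iff.rfl

/-- an element fixing every pairing fixes every tetrad -/
theorem smul_tet_of_mem_PS {S : Finset (Finset GolayPt)} {g : Equiv.Perm GolayPt} (hg : g ∈ PS S)
    {t : Finset GolayPt} (ht : t ∈ S) (h4 : t.card = 4) : g • t = t := by
  obtain ⟨v, hv, hc⟩ := Finset.exists_subset_card_eq (s := t) (n := 2) (by omega)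
  have h := hg {v, t \ v} ⟨t, ht, v, hv, hc, rfl⟩
  rw [smul_pair] at h
  have h1 := congrArg (fun P : Finset (Finset GolayPt) => P.sup id) h
  simp only [Finset.sup_insert, Finset.sup_singleton, id] at h1
  have e1 : g • v ⊔ (g • t \ g • v) = g • t := by
    rw [Finset.sup_eq_union, Finset.union_sdiff_of_subset (Finset.smul_finset_subset_smul_finset hv)]
  have e2 : v ⊔ (t \ v) = t := by
    rw [Finset.sup_eq_union, Finset.union_sdiff_of_subset hv]
  rw [e1, e2] at h1
  exact h1

/-- an element fixing every pairing squares to the identity -/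
theorem sq_of_mem_PS {g : Equiv.Perm GolayPt} (hg : g ∈ PS S0) : g * g = 1 := by
  refine Equiv.ext (fun q => ?_)
  rw [Equiv.Perm.mul_apply, Equiv.Perm.one_apply]
  obtain ⟨i, hq⟩ := tet_cover q
  have hgt : g • tet i = tet i := smul_tet_of_mem_PS hg (tet_mem i) (card_tet i)
  have hy : g q ∈ tet i := by
    have h := Finset.smul_mem_smul_finset (a := g) hq
    rw [hgt] at h
    exact h
  by_cases hne : g q = q
  · rw [hne, hne]
  · have hv : ({q, g q} : Finset GolayPt) ⊆ tet i := by
      intro x hx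
      rw [Finset.mem_insert, Finset.mem_singleton] at hx
      rcases hx with rfl | rfl
      · exact hq
      · exact hy
    have hc : ({q, g q} : Finset GolayPt).card = 2 := Finset.card_pair (fun e => hne e.symm)
    have h := hg {{q, g q}, tet i \ {q, g q}} ⟨tet i, tet_mem i, _, hv, hc, rfl⟩
    rw [smul_pair] at h
    have h1 : g • ({q, g q} : Finset GolayPt) ∈
        ({{q, g q}, tet i \ {q, g q}} : Finset (Finset GolayPt)) := by
      rw [← h]; exact Finset.mem_insert_self _ _
    have h2 : g q ∈ g • ({q, g q} : Finset GolayPt) :=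
      Finset.smul_mem_smul_finset (a := g) (Finset.mem_insert_self q _)
    rw [Finset.mem_insert, Finset.mem_singleton] at h1
    rcases h1 with h1 | h1
    · have h3 : g (g q) ∈ g • ({q, g q} : Finset GolayPt) :=
        Finset.smul_mem_smul_finset (a := g) (Finset.mem_insert_of_mem (Finset.mem_singleton_self _))
      rw [h1, Finset.mem_insert, Finset.mem_singleton] at h3
      rcases h3 with h3 | h3
      · exact h3
      · exact absurd (g.injective h3) hne
    · rw [h1, Finset.mem_sdiff] at h2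
      exact absurd (Finset.mem_insert_of_mem (Finset.mem_singleton_self _)) h2.2

/-! ### The normal subgroup -/

/-- the coercion of the stabiliser into the permutation group -/
def toPerm : ↥(MulAction.stabilizer (↥M24) S0) →* Equiv.Perm GolayPt :=
  M24.subtype.comp (MulAction.stabilizer (↥M24) S0).subtype

/-- the subgroup of the stabiliser of the base sextet fixing every pairing -/
def N0 : Subgroup ↥(MulAction.stabilizer (↥M24) S0) := (PS S0).comap toPerm

theorem toPerm_smul (s : ↥(MulAction.stabilizer (↥M24) S0)) : toPerm s • S0 = S0 :=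
  MulAction.mem_stabilizer_iff.mp s.2

theorem N0_normal : N0.Normal := by
  constructor
  intro n hn s
  rw [N0, Subgroup.mem_comap] at hn ⊢
  rw [map_mul, map_mul, map_inv]
  intro p hp
  have hs' : (toPerm s)⁻¹ • S0 = S0 := by rw [inv_smul_eq_iff, toPerm_smul]
  have h1 := hn ((toPerm s)⁻¹ • p) (smul_mem_pairings hs' hp)
  rw [mul_smul, mul_smul, h1, smul_inv_smul]

theorem N0_sq (x : ↥(MulAction.stabilizer (↥M24) S0)) (hx : x ∈ N0) : x * x = 1 := by
  have h := sq_of_mem_PS (Subgroup.mem_comap.mp hx)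
  apply Subtype.ext
  apply Subtype.ext
  exact h

theorem N0_le_ker : N0 ≤ (actHom S0).ker := by
  intro x hx
  rw [mem_ker_iff]
  intro t ht
  exact smul_tet_of_mem_PS (Subgroup.mem_comap.mp hx) ht (S0_mem.2.1 t ht)

/-! ### Explicit elements -/

/-- check that a table fixes every pairing of the base sextet -/
def pairChk (c : ℕ) : Prop :=
  ∀ i : Fin 6, pm c (tetM i) = tetM i ∧ ∀ a < 24, ∀ b < 24, (tetM i).testBit a = true →
    (tetM i).testBit b = true → a ≠ b →
      (pm c (2 ^ a ||| 2 ^ b) = 2 ^ a ||| 2 ^ b ∨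
        pm c (2 ^ a ||| 2 ^ b) = tetM i ^^^ (2 ^ a ||| 2 ^ b))

set_option synthInstance.maxSize 4096 in
instance (c : ℕ) : Decidable (pairChk c) := by unfold pairChk; infer_instance

theorem mem_PS_of_tbl {g : Equiv.Perm GolayPt} {c : ℕ} (hg : IsTbl g c) (h : pairChk c) :
    g ∈ PS S0 := by
  intro p hp
  obtain ⟨t, ht, v, hv, hc, rfl⟩ := hp
  obtain ⟨i, rfl⟩ := mem_S0.mp ht
  obtain ⟨x, y, hxy, rfl⟩ := Finset.card_eq_two.mp hc
  have hx : x ∈ tet i := hv (Finset.mem_insert_self _ _)
  have hy : y ∈ tet i := hv (Finset.mem_insert_of_mem (Finset.mem_singleton_self _))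
  have hab : idx x ≠ idx y := fun e => hxy (idx_injective e)
  obtain ⟨h1, h2⟩ := h i
  have h3 := h2 (idx x) (idx_lt x) (idx y) (idx_lt y) (mem_setOf.mp hx) (mem_setOf.mp hy) hab
  have e1 : ({x, y} : Finset GolayPt) = Helper7.setOf (2 ^ idx x ||| 2 ^ idx y) := by
    rw [setOf_or, setOf_two_pow (idx_lt x), setOf_two_pow (idx_lt y), pt_idx, pt_idx]
    rfl
  have e2 : tet i \ {x, y} = Helper7.setOf (tetM i ^^^ (2 ^ idx x ||| 2 ^ idx y)) := by
    rw [e1]
    ext q
    have hq : q ∈ Helper7.setOf (2 ^ idx x ||| 2 ^ idx y) → q ∈ tet i := fun hq => hv (e1 ▸ hq)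
    rw [tet, mem_setOf] at hq
    rw [Finset.mem_sdiff, tet, mem_setOf, mem_setOf, mem_setOf, Nat.testBit_xor]
    rw [mem_setOf] at hq
    cases h5 : (tetM i).testBit (idx q) <;> cases h6 : (2 ^ idx x ||| 2 ^ idx y).testBit (idx q)
      <;> simp_all
  have hgt : g • tet i = tet i := by
    rw [tet, ← setOf_pm hg, h1]
  rw [smul_pair, hgt]
  rcases h3 with h3 | h3
  · have hgv : g • ({x, y} : Finset GolayPt) = {x, y} := by
      rw [e1, ← setOf_pm hg, h3]
    rw [hgv]
  · have hgv : g • ({x, y} : Finset GolayPt) = tet i \ {x, y} := by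
      rw [e2, e1, ← setOf_pm hg, h3]
    rw [hgv, Finset.sdiff_sdiff_eq_self hv, Finset.pair_comm]

/-- the subgroup of `M24` fixing every pairing -/
def N0' : Subgroup (Equiv.Perm GolayPt) := M24 ⊓ PS S0

/-- generators for the three levels of a chain -/
def nG0 : List ℕ := [0xbae4d8563343a8cb28cf3a4a410c01, 0xba5b27d2289baac32ad03aca408062]
def nG1 : List ℕ := [0xb99b28523343aaa4b16f258a718820, 0xba64d4562f83a87312d362caa18820]
def nG2 : List ℕ := [0x2a695835d34464c32acf3aee418820, 0x71a4d7d4a89de8c4a9703da2418820]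

theorem nG_ok : ∀ c ∈ nG0 ++ nG1 ++ nG2, codeM24 c = true ∧ pairChk c := by decide +kernel

theorem nG_mem {c : ℕ} (hc : c ∈ nG0 ++ nG1 ++ nG2) : ∃ g ∈ N0', IsTbl g c := by
  obtain ⟨h1, h2⟩ := nG_ok c hc
  exact ⟨permOf c, ⟨permOf_mem_M24 h1, mem_PS_of_tbl (tbl_of_ok h1) h2⟩, tbl_of_ok h1⟩

theorem nLevel0 : levelCheck [] 0 0xf nG0 2 = true := by decide +kernel
theorem nLevel1 : levelCheck [0] 4 0x1490 nG1 2 = true := by decide +kernel
theorem nLevel2 : levelCheck [0, 4] 8 0x98100 nG2 2 = true := by decide +kernel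

/-- lower bound for one level of a stabilizer chain -/
theorem card_level_ge (K : Subgroup (Equiv.Perm GolayPt)) (pre : List ℕ) (c : ℕ)
    (D : Finset GolayPt) (h2 : ∀ x ∈ D, ∃ g ∈ K ⊓ fixL pre, g (pt c) = x) :
    D.card * Nat.card ↥(K ⊓ fixL (pre ++ [c])) ≤ Nat.card ↥(K ⊓ fixL pre) := by
  set H : Subgroup (Equiv.Perm GolayPt) := K ⊓ fixL pre with hH
  have hos : Nat.card (MulAction.orbit (↥H) (pt c)) * Nat.card (MulAction.stabilizer (↥H) (pt c))
      = Nat.card ↥H := by
    rw [Subgroup.card_eq_card_quotient_mul_card_subgroup (MulAction.stabilizer (↥H) (pt c)),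
      Nat.card_congr (MulAction.orbitEquivQuotientStabilizer (↥H) (pt c))]
  have hsub : (D : Set GolayPt) ⊆ MulAction.orbit (↥H) (pt c) := by
    intro x hx
    obtain ⟨g, hg, rfl⟩ := h2 x (Finset.mem_coe.mp hx)
    exact ⟨⟨g, hg⟩, rfl⟩
  have hcard1 : D.card ≤ Nat.card (MulAction.orbit (↥H) (pt c)) := by
    rw [Nat.card_coe_set_eq, ← Set.ncard_coe_finset D]
    exact Set.ncard_le_ncard hsub (Set.toFinite _)
  have e : ↥(MulAction.stabilizer (↥H) (pt c)) ≃ ↥(K ⊓ fixL (pre ++ [c])) :=
    { toFun := fun g => ⟨g.1.1, by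
        have hg1 : g.1.1 ∈ H := g.1.2
        have hg2 : g.1 • pt c = pt c := g.2
        exact ⟨hg1.1, mem_fixL_append_singleton.mpr ⟨hg1.2, hg2⟩⟩⟩
      invFun := fun g => ⟨⟨g.1, ⟨g.2.1, (mem_fixL_append_singleton.mp g.2.2).1⟩⟩, by
        show (⟨g.1, _⟩ : ↥H) • pt c = pt c
        exact (mem_fixL_append_singleton.mp g.2.2).2⟩
      left_inv := fun g => rfl
      right_inv := fun g => rfl }
  rw [← hos, ← Nat.card_congr e]
  exact Nat.mul_le_mul_right _ hcard1

theorem card_N0'_ge : 64 ≤ Nat.card ↥N0' := by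
  have c0 := card_level_ge N0' [] 0 (lvD 0xf [])
    (lv_h2' (level_of_check N0' [] 0 0xf nG0 2
      (fun c hc => nG_mem (by simp only [List.mem_append]; exact Or.inl (Or.inl hc))) nLevel0) le_rfl)
  have c1 := card_level_ge N0' [0] 4 (lvD 0x1490 [0])
    (lv_h2' (level_of_check N0' [0] 4 0x1490 nG1 2
      (fun c hc => nG_mem (by simp only [List.mem_append]; exact Or.inl (Or.inr hc))) nLevel1) le_rfl)
  have c2 := card_level_ge N0' [0, 4] 8 (lvD 0x98100 [0, 4])
    (lv_h2' (level_of_check N0' [0, 4] 8 0x98100 nG2 2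
      (fun c hc => nG_mem (by simp only [List.mem_append]; exact Or.inr hc)) nLevel2) le_rfl)
  have d0 : (lvD 0xf []).card = 4 := by decide +kernel
  have d1 : (lvD 0x1490 [0]).card = 4 := by decide +kernel
  have d2 : (lvD 0x98100 [0, 4]).card = 4 := by decide +kernel
  rw [d0] at c0
  rw [d1] at c1
  rw [d2] at c2
  simp only [List.nil_append, List.cons_append] at c0 c1 c2
  have e0 : Nat.card ↥(N0' ⊓ fixL []) = Nat.card ↥N0' := by
    rw [fixL_nil, inf_top_eq]
  have hpos : 0 < Nat.card ↥(N0' ⊓ fixL [0, 4, 8]) := Nat.card_pos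
  rw [e0] at c0
  omega

theorem smul_S0_of_mem_N0' {g : Equiv.Perm GolayPt} (hg : g ∈ N0') : g • S0 = S0 := by
  apply Finset.eq_of_subset_of_card_le
  · intro x hx
    obtain ⟨y, hy, rfl⟩ := Finset.mem_smul_finset.mp hx
    rw [smul_tet_of_mem_PS hg.2 hy (S0_mem.2.1 y hy)]
    exact hy
  · exact le_of_eq (Finset.card_smul_finset _ _).symm

theorem card_N0_ge : 64 ≤ Nat.card ↥N0 := by
  refine le_trans card_N0'_ge ?_
  let f : ↥N0' → ↥N0 := fun y =>
    ⟨⟨⟨y.1, y.2.1⟩, MulAction.mem_stabilizer_iff.mpr (smul_S0_of_mem_N0' y.2)⟩,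
      Subgroup.mem_comap.mpr y.2.2⟩
  have hf : Function.Injective f := by
    intro a b hab
    apply Subtype.ext
    exact congrArg (fun z : ↥N0 => toPerm z.1) hab
  exact Nat.card_le_card_of_injective f hf

theorem card_N0 : Nat.card ↥N0 = 64 := by
  have h2 : IsPGroup 2 ↥N0 := by
    intro x
    refine ⟨1, ?_⟩
    rw [pow_one, sq]
    exact Subtype.ext (N0_sq x.1 x.2)
  have : Fact (Nat.Prime 2) := ⟨Nat.prime_two⟩
  obtain ⟨n, hn⟩ := IsPGroup.iff_card.mp h2
  have hdvd : Nat.card ↥N0 ∣ 192 := by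
    rw [← card_ker S0_mem]
    exact Subgroup.card_dvd_of_le N0_le_ker
  have hge := card_N0_ge
  rw [hn] at hdvd hge ⊢
  have hn6 : n ≤ 6 := by
    by_contra hcon
    have h7 : 7 ≤ n := by omega
    have : 2 ^ 7 ∣ 192 := (pow_dvd_pow 2 h7).trans hdvd
    omega
  interval_cases n <;> omega

/-- The stabiliser of the base sextet has a normal subgroup of order `64` all of whose elements
square to the identity. -/
theorem exists_normal_S0 : ∃ N : Subgroup ↥(MulAction.stabilizer (↥M24) S0),
    N.Normal ∧ Nat.card ↥N = 64 ∧ ∀ x ∈ N, x * x = 1 :=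
  ⟨N0, N0_normal, card_N0, N0_sq⟩

/-- The stabiliser of a sextet has a normal subgroup of order `64` all of whose elements
square to the identity. -/
theorem exists_normal {S : Finset (Finset GolayPt)} (hS : S ∈ sextets) :
    ∃ N : Subgroup ↥(MulAction.stabilizer (↥M24) S),
      N.Normal ∧ Nat.card ↥N = 64 ∧ ∀ x ∈ N, x * x = 1 := by
  have hrel : MulAction.orbitRel (↥M24) (Finset (Finset GolayPt)) S0 S := by
    rw [MulAction.orbitRel_apply, orbit_eq hS]
    exact S0_mem
  let ψ := MulAction.stabilizerEquivStabilizerOfOrbitRel hrel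
  refine ⟨N0.map ψ.toMonoidHom, ?_, ?_, ?_⟩
  · exact Subgroup.Normal.map N0_normal _ ψ.surjective
  · rw [← card_N0]
    exact Nat.card_congr (N0.equivMapOfInjective ψ.toMonoidHom ψ.injective).symm.toEquiv
  · rintro x ⟨n, hn, rfl⟩
    rw [← map_mul, N0_sq n hn, map_one]

end Cfsg.Agent.Helper27.Sextet
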