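import Cfsg.Agent.Helper27.OneBlock
import Cfsg.Agent.Helper27.M24LocalData
import Cfsg.Agent.Helper27.SextetB
import Cfsg.Agent.Helper27.M24Invol
import Cfsg.Agent.Helper93.M24Rigid
import Cfsg.Agent.S5607

/-!
# Local subgroups of `M24` at the prime `2`

Every nontrivial 2-subgroup of `M24` contains an involution `t`, and the centraliser of `t` has a
self-centralising normal elementary abelian 2-subgroup: the pointwise stabiliser of the octad of
fixed points of `t`, or (when `t` has no fixed point) the group of order `64` of the sextet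
preserved by the centraliser of `t`.
-/

set_option autoImplicit false
open scoped Pointwise

namespace Cfsg.Agent.Helper27.M24Blk

open Cfsg Cfsg.Agent.Helper7 Cfsg.Agent.Helper27.M24Invol Cfsg.Agent.Helper27.Sextet

/-! ### Generalities -/

theorem comm_of_sq {G : Type*} [Group G] {x y : G} (hx : x * x = 1) (hy : y * y = 1)
    (hxy : x * y * (x * y) = 1) : x * y = y * x := by
  have hx' : x⁻¹ = x := inv_eq_of_mul_eq_one_left hx
  have hy' : y⁻¹ = y := inv_eq_of_mul_eq_one_left hy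
  have h1 : (x * y)⁻¹ = x * y := inv_eq_of_mul_eq_one_left hxy
  rw [mul_inv_rev, hx', hy'] at h1
  exact h1.symm

/-- the local data from a subgroup `Q` of exponent 2 containing `z`, normalised by the centraliser
of `z` and self-centralising -/
theorem local_of_Q {z : Equiv.Perm GolayPt} (hz : z ∈ M24)
    (Q : Subgroup (Equiv.Perm GolayPt)) (hQM : Q ≤ M24) (hzQ : z ∈ Q)
    (hsq : ∀ q ∈ Q, q * q = 1)
    (hnorm : ∀ c ∈ M24, c * z = z * c → ∀ q ∈ Q, c * q * c⁻¹ ∈ Q)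
    (hself : ∀ g ∈ M24, (∀ q ∈ Q, g * q = q * g) → g ∈ Q) :
    IsPGroup 2 ↥(Subgroup.zpowers (⟨z, hz⟩ : ↥M24)) ∧
    ∃ Q' : Subgroup ↥(Subgroup.centralizer
        ((Subgroup.zpowers (⟨z, hz⟩ : ↥M24) : Subgroup ↥M24) : Set ↥M24)),
      Q'.Normal ∧ IsPGroup 2 Q' ∧ Subgroup.centralizer (Q' : Set _) ≤ Q' := by
  have hsq' : ∀ x ∈ Q.subgroupOf M24, x * x = 1 := by
    intro x hx
    exact Subtype.ext (hsq x.1 (Subgroup.mem_subgroupOf.mp hx))
  have hQ2 : IsPGroup 2 ↥(Q.subgroupOf M24) := by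
    intro g
    refine ⟨1, ?_⟩
    rw [pow_one, sq]
    exact Subtype.ext (hsq' g.1 g.2)
  have hRQ : Subgroup.zpowers (⟨z, hz⟩ : ↥M24) ≤ Q.subgroupOf M24 := by
    rw [Subgroup.zpowers_le]
    exact Subgroup.mem_subgroupOf.mpr hzQ
  refine ⟨hQ2.to_le hRQ, ?_⟩
  apply OneBlock.exists_local_of_abelian _ (Q.subgroupOf M24) hRQ _ hQ2
  · intro c hc q hq
    rw [Subgroup.mem_centralizer_iff] at hc
    have h1 := hc ⟨z, hz⟩ (Subgroup.mem_zpowers _)
    have h2 : z * c.1 = c.1 * z := congrArg Subtype.val h1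
    exact Subgroup.mem_subgroupOf.mpr (hnorm c.1 c.2 h2.symm q.1 (Subgroup.mem_subgroupOf.mp hq))
  · intro g hg
    apply Subgroup.mem_subgroupOf.mpr
    apply hself g.1 g.2
    intro q hq
    have h1 := hg ⟨q, hQM hq⟩ (Subgroup.mem_subgroupOf.mpr hq)
    exact congrArg Subtype.val h1
  · intro x hx y hy
    exact comm_of_sq (hsq' x hx) (hsq' y hy) (hsq' _ (Subgroup.mul_mem _ hx hy))

/-! ### Involutions with fixed points -/

/-- the octad of fixed points of `z1` -/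
def O1 : Finset GolayPt := Helper7.setOf 0xc24a60

/-- the elements of `M24` fixing the points of `O1` -/
def Q1 : Subgroup (Equiv.Perm GolayPt) :=
  M24 ⊓ fixingSubgroup (Equiv.Perm GolayPt) ((O1 : Finset GolayPt) : Set GolayPt)

theorem mem_Q1 {g : Equiv.Perm GolayPt} : g ∈ Q1 ↔ g ∈ M24 ∧ ∀ y ∈ O1, g y = y := by
  unfold Q1
  rw [Subgroup.mem_inf, mem_fixingSubgroup_iff]
  rfl

theorem z1_sq : z1 * z1 = 1 := by
  rw [← pow_two, ← z1_order]
  exact pow_orderOf_eq_one z1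

theorem q16_ok : ∀ c ∈ q16, codeM24 c = true ∧
    ∀ j < 24, (0xc24a60 : ℕ).testBit j = true → tbl c j = j := by decide +kernel

theorem q16_trans : ∀ j < 24, (0xc24a60 : ℕ).testBit j = false → ∃ c ∈ q16, tbl c 0 = j := by
  decide +kernel

theorem q16_mem {c : ℕ} (hc : c ∈ q16) : permOf c ∈ Q1 ∧ IsTbl (permOf c) c := by
  obtain ⟨h1, h2⟩ := q16_ok c hc
  have hT := isTbl_permOf (validCode_of_codeM24 h1)
  refine ⟨mem_Q1.mpr ⟨permOf_mem_M24 h1, ?_⟩, hT⟩
  intro y hy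
  apply idx_injective
  rw [hT y]
  exact h2 (idx y) (idx_lt y) (mem_setOf.mp hy)

/-- `Q1` is transitive on the points outside `O1` -/
theorem Q1_trans {y : GolayPt} (hy : y ∉ O1) : ∃ q ∈ Q1, q (pt 0) = y := by
  have hb : (0xc24a60 : ℕ).testBit (idx y) = false := by
    rw [← Bool.not_eq_true]
    exact fun h => hy (mem_setOf.mpr h)
  obtain ⟨c, hc, hcj⟩ := q16_trans (idx y) (idx_lt y) hb
  obtain ⟨h1, hT⟩ := q16_mem hc
  refine ⟨permOf c, h1, ?_⟩
  rw [hT.apply_pt (by norm_num), hcj, pt_idx]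

theorem Q1_sq : ∀ q ∈ Q1, q * q = 1 := (octad_fixing z1_octad).2

theorem z1_mem_Q1 : z1 ∈ Q1 := mem_Q1.mpr ⟨z1_mem, fun y hy => (z1_fix y).mpr hy⟩

theorem Q1_norm : ∀ c ∈ M24, c * z1 = z1 * c → ∀ q ∈ Q1, c * q * c⁻¹ ∈ Q1 := by
  intro c hc hcz q hq
  rw [mem_Q1] at hq ⊢
  refine ⟨M24.mul_mem (M24.mul_mem hc hq.1) (M24.inv_mem hc), ?_⟩
  intro y hy
  have h1 : z1 (c⁻¹ y) = c⁻¹ y := by
    have e : z1 * c⁻¹ = c⁻¹ * z1 := by
      have : c⁻¹ * (c * z1) * c⁻¹ = c⁻¹ * (z1 * c) * c⁻¹ := by rw [hcz]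
      simpa [mul_assoc] using this
    have e' := congrArg (fun f : Equiv.Perm GolayPt => f y) e
    simp only [Equiv.Perm.mul_apply] at e'
    rw [e', (z1_fix y).mpr hy]
  have h2 : c⁻¹ y ∈ O1 := (z1_fix _).mp h1
  rw [Equiv.Perm.mul_apply, Equiv.Perm.mul_apply, hq.2 _ h2]
  simp

theorem pt0_not_mem : pt 0 ∉ O1 := by
  intro h
  have := mem_setOf.mp h
  rw [idx_pt (by norm_num)] at this
  exact absurd this (by decide)

theorem card_O1 : O1.card = 8 := z1_octad.2

theorem Q1_self : ∀ g ∈ M24, (∀ q ∈ Q1, g * q = q * g) → g ∈ Q1 := by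
  intro g hg hcomm
  have hgz := hcomm z1 z1_mem_Q1
  have happ : ∀ (a b : Equiv.Perm GolayPt), a * b = b * a → ∀ p, a (b p) = b (a p) := by
    intro a b h p
    have := congrArg (fun f : Equiv.Perm GolayPt => f p) h
    simpa using this
  -- `g` maps the complement of `O1` to itself
  have hg0 : g (pt 0) ∉ O1 := by
    intro h
    have h1 : z1 (g (pt 0)) = g (pt 0) := (z1_fix _).mpr h
    rw [← happ g z1 hgz] at h1
    exact pt0_not_mem ((z1_fix _).mp (g.injective h1))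
  obtain ⟨q, hq, hq0⟩ := Q1_trans hg0
  have hcomm' : ∀ r ∈ Q1, (q⁻¹ * g) * r = r * (q⁻¹ * g) := by
    intro r hr
    have h1 : q * r = r * q :=
      comm_of_sq (Q1_sq q hq) (Q1_sq r hr) (Q1_sq _ (Q1.mul_mem hq hr))
    have h2 : q⁻¹ * r = r * q⁻¹ := by
      have h3 : q⁻¹ * (q * r) * q⁻¹ = q⁻¹ * (r * q) * q⁻¹ := by rw [h1]
      have h4 : r * q⁻¹ = q⁻¹ * r := by simpa [mul_assoc] using h3
      exact h4.symm
    rw [mul_assoc, hcomm r hr, ← mul_assoc, h2, mul_assoc]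
  have hfix0 : (q⁻¹ * g) (pt 0) = pt 0 := by
    rw [Equiv.Perm.mul_apply, ← hq0]
    simp
  have hfix : ∀ y, y ∉ O1 → (q⁻¹ * g) y = y := by
    intro y hy
    obtain ⟨r, hr, hr0⟩ := Q1_trans hy
    rw [← hr0, happ _ r (hcomm' r hr), hfix0]
  have hone : q⁻¹ * g = 1 := by
    apply Helper93.eq_one_of_nine_fixed (M24.mul_mem (M24.inv_mem (mem_Q1.mp hq).1) hg)
    have hsub : Finset.univ \ O1 ⊆ Finset.univ.filter (fun p => (q⁻¹ * g) p = p) := by
      intro y hy
      rw [Finset.mem_sdiff] at hy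
      exact Finset.mem_filter.mpr ⟨Finset.mem_univ _, hfix y hy.2⟩
    have hc1 := Finset.le_card_sdiff O1 (Finset.univ : Finset GolayPt)
    have hc2 : (Finset.univ : Finset GolayPt).card = 24 := by rw [Finset.card_univ]; rfl
    have hc3 := Finset.card_le_card hsub
    rw [hc2, card_O1] at hc1
    omega
  have : g = q := by
    have h := congrArg (fun f => q * f) hone
    simpa using h
  rw [this]
  exact hq

/-! ### The base sextet -/

theorem comm_apply {a b : Equiv.Perm GolayPt} (h : a * b = b * a) (p : GolayPt) :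
    a (b p) = b (a p) := by
  have := congrArg (fun f : Equiv.Perm GolayPt => f p) h
  simpa using this

theorem n64_ok : ∀ c ∈ n64, codeM24 c = true ∧ pairChk c := by decide +kernel

theorem n64_mem {c : ℕ} (hc : c ∈ n64) : permOf c ∈ N0' ∧ IsTbl (permOf c) c := by
  obtain ⟨h1, h2⟩ := n64_ok c hc
  exact ⟨Subgroup.mem_inf.mpr ⟨permOf_mem_M24 h1, mem_PS_of_tbl (tbl_of_ok h1) h2⟩, tbl_of_ok h1⟩

theorem fixW_ok : ∀ i : Fin 6, (fixW i).1 ∈ n64 ∧ (fixW i).2 ∈ n64 ∧
    ∀ j < 24, tbl (fixW i).1 j = j → tbl (fixW i).2 j = j → (tetM i).testBit j = true := by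
  decide +kernel

theorem fixW_ok' : ∀ i : Fin 6, ∀ j < 24, (tetM i).testBit j = true →
    tbl (fixW i).1 j = j ∧ tbl (fixW i).2 j = j := by decide +kernel

theorem n64_trans : ∀ i : Fin 6, ∀ j1 < 24, ∀ j2 < 24, (tetM i).testBit j1 = true →
    (tetM i).testBit j2 = true → ∃ c ∈ n64, tbl c j1 = j2 := by decide +kernel

theorem N0'_comm {q r : Equiv.Perm GolayPt} (hq : q ∈ N0') (hr : r ∈ N0') : q * r = r * q :=
  comm_of_sq (sq_of_mem_PS (Subgroup.mem_inf.mp hq).2) (sq_of_mem_PS (Subgroup.mem_inf.mp hr).2)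
    (sq_of_mem_PS (Subgroup.mem_inf.mp (N0'.mul_mem hq hr)).2)

/-- an element commuting with `N0'` fixes every tetrad of the base sextet -/
theorem smul_tet_of_comm {g : Equiv.Perm GolayPt} (hg : ∀ q ∈ N0', g * q = q * g) (i : Fin 6) :
    g • tet i = tet i := by
  obtain ⟨hx, hy, hfix⟩ := fixW_ok i
  obtain ⟨hxN, hxT⟩ := n64_mem hx
  obtain ⟨hyN, hyT⟩ := n64_mem hy
  have hsub : g • tet i ⊆ tet i := by
    intro p hp
    obtain ⟨p0, hp0, rfl⟩ := Finset.mem_smul_finset.mp hp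
    have hb := mem_setOf.mp hp0
    obtain ⟨f1, f2⟩ := fixW_ok' i (idx p0) (idx_lt p0) hb
    have e1 : permOf (fixW i).1 p0 = p0 := by
      apply idx_injective
      rw [hxT p0, f1]
    have e2 : permOf (fixW i).2 p0 = p0 := by
      apply idx_injective
      rw [hyT p0, f2]
    have e3 : permOf (fixW i).1 (g p0) = g p0 := by
      rw [← comm_apply (hg _ hxN), e1]
    have e4 : permOf (fixW i).2 (g p0) = g p0 := by
      rw [← comm_apply (hg _ hyN), e2]
    have t1 : tbl (fixW i).1 (idx (g p0)) = idx (g p0) := by rw [← hxT (g p0), e3]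
    have t2 : tbl (fixW i).2 (idx (g p0)) = idx (g p0) := by rw [← hyT (g p0), e4]
    exact mem_setOf.mpr (hfix (idx (g p0)) (idx_lt _) t1 t2)
  exact Finset.eq_of_subset_of_card_le hsub (by rw [Finset.card_smul_finset])

/-- the group `N0'` is self-centralising -/
theorem cent_N0' {g : Equiv.Perm GolayPt} (hg : ∀ q ∈ N0', g * q = q * g) : g ∈ PS S0 := by
  intro p hp
  obtain ⟨t, ht, v, hv, hc, rfl⟩ := hp
  obtain ⟨i, rfl⟩ := mem_S0.mp ht
  have hgt := smul_tet_of_comm hg i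
  obtain ⟨a, ha⟩ : v.Nonempty := by
    rw [← Finset.card_pos, hc]
    norm_num
  have hat : a ∈ tet i := hv ha
  have hgat : g a ∈ tet i := by
    have h := Finset.smul_mem_smul_finset (a := g) hat
    rw [hgt] at h
    exact h
  obtain ⟨c, hc64, hcj⟩ := n64_trans i (idx a) (idx_lt a) (idx (g a)) (idx_lt _)
    (mem_setOf.mp hat) (mem_setOf.mp hgat)
  obtain ⟨hqN, hqT⟩ := n64_mem hc64
  have hqa : permOf c a = g a := by
    apply idx_injective
    rw [hqT a, hcj]
  have hagree : ∀ y ∈ tet i, g y = permOf c y := by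
    intro y hy
    obtain ⟨c', hc', hcj'⟩ := n64_trans i (idx a) (idx_lt a) (idx y) (idx_lt y)
      (mem_setOf.mp hat) (mem_setOf.mp hy)
    obtain ⟨hrN, hrT⟩ := n64_mem hc'
    have hra : permOf c' a = y := by
      apply idx_injective
      rw [hrT a, hcj']
    rw [← hra, comm_apply (hg _ hrN), ← hqa, comm_apply (N0'_comm hqN hrN)]
  have himg : ∀ w : Finset GolayPt, w ⊆ tet i → g • w = permOf c • w := by
    intro w hw
    ext y
    rw [Finset.mem_smul_finset, Finset.mem_smul_finset]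
    constructor
    · rintro ⟨x, hx, rfl⟩
      exact ⟨x, hx, (hagree x (hw hx)).symm⟩
    · rintro ⟨x, hx, rfl⟩
      exact ⟨x, hx, hagree x (hw hx)⟩
  have hq := (Subgroup.mem_inf.mp hqN).2 {v, tet i \ v} ⟨tet i, tet_mem i, v, hv, hc, rfl⟩
  rw [Finset.smul_finset_insert, Finset.smul_finset_singleton, himg v hv,
    himg _ Finset.sdiff_subset, ← Finset.smul_finset_singleton, ← Finset.smul_finset_insert]
  exact hq

/-! ### Transport to another sextet -/

theorem smul_mem_pairings' (g : Equiv.Perm GolayPt) {S : Finset (Finset GolayPt)}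
    {p : Finset (Finset GolayPt)} (hp : p ∈ pairings S) : g • p ∈ pairings (g • S) := by
  obtain ⟨t, ht, v, hv, hc, rfl⟩ := hp
  exact ⟨g • t, Finset.smul_mem_smul_finset ht, g • v, Finset.smul_finset_subset_smul_finset hv,
    by rw [Finset.card_smul_finset]; exact hc, smul_pair g t v⟩

theorem mem_PS_smul {u g : Equiv.Perm GolayPt} {S : Finset (Finset GolayPt)} :
    g ∈ PS (u • S) ↔ u⁻¹ * g * u ∈ PS S := by
  constructor
  · intro h p hp
    have h1 := h (u • p) (smul_mem_pairings' u hp)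
    rw [mul_smul, mul_smul, h1, inv_smul_smul]
  · intro h p hp
    have h0 : u⁻¹ • p ∈ pairings S := by
      have := smul_mem_pairings' u⁻¹ hp
      rwa [inv_smul_smul] at this
    have h1 := h (u⁻¹ • p) h0
    rw [mul_smul, mul_smul, smul_inv_smul] at h1
    exact smul_left_cancel u⁻¹ h1

/-- a fixed-point-free involution fixing every tetrad fixes every pairing -/
theorem mem_PS_of_fpf {g : Equiv.Perm GolayPt} {S : Finset (Finset GolayPt)}
    (h4 : ∀ t ∈ S, t.card = 4) (hsq : g * g = 1) (hfpf : ∀ p, g p ≠ p)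
    (hS : ∀ t ∈ S, g • t = t) : g ∈ PS S := by
  intro p hp
  obtain ⟨t, ht, v, hv, hc, rfl⟩ := hp
  rw [smul_pair, hS t ht]
  obtain ⟨a, b, hab, rfl⟩ := Finset.card_eq_two.mp hc
  have hat : a ∈ t := hv (Finset.mem_insert_self _ _)
  have hbt : b ∈ t := hv (Finset.mem_insert_of_mem (Finset.mem_singleton_self _))
  have hgg : ∀ y, g (g y) = y := fun y => by
    have := congrArg (fun f : Equiv.Perm GolayPt => f y) hsq
    simpa using this
  have hmem : ∀ y ∈ t, g y ∈ t := by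
    intro y hy
    have h := Finset.smul_mem_smul_finset (a := g) hy
    rw [hS t ht] at h
    exact h
  have hsm : g • ({a, b} : Finset GolayPt) = {g a, g b} := by
    rw [Finset.smul_finset_insert, Finset.smul_finset_singleton]
    rfl
  rw [hsm]
  by_cases h : g a = b
  · have h' : g b = a := by rw [← h, hgg]
    rw [h, h', Finset.pair_comm b a]
  · have hgb : g b ≠ a := fun e => h (by rw [← e, hgg])
    have hsub : ({g a, g b} : Finset GolayPt) ⊆ t \ {a, b} := by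
      intro y hy
      rw [Finset.mem_insert, Finset.mem_singleton] at hy
      rw [Finset.mem_sdiff, Finset.mem_insert, Finset.mem_singleton]
      rcases hy with rfl | rfl
      · exact ⟨hmem a hat, fun e => e.elim (hfpf a) h⟩
      · exact ⟨hmem b hbt, fun e => e.elim hgb (hfpf b)⟩
    have hcard : (t \ {a, b}).card ≤ ({g a, g b} : Finset GolayPt).card := by
      rw [Finset.card_sdiff_of_subset hv, h4 t ht, Finset.card_pair hab,
        Finset.card_pair (fun e => hab (g.injective e))]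
    have e := Finset.eq_of_subset_of_card_le hsub hcard
    rw [e, Finset.sdiff_sdiff_eq_self hv, Finset.pair_comm]

/-! ### Involutions without fixed points -/

/-- the elements of `M24` fixing every pairing of the sextet of `T0` -/
noncomputable def Q2 : Subgroup (Equiv.Perm GolayPt) := M24 ⊓ PS S5607.S0

theorem T0_local :
    IsPGroup 2 ↥(Subgroup.zpowers (⟨S5607.T0, S5607.T0_mem⟩ : ↥M24)) ∧
    ∃ Q' : Subgroup ↥(Subgroup.centralizer
        ((Subgroup.zpowers (⟨S5607.T0, S5607.T0_mem⟩ : ↥M24) : Subgroup ↥M24) : Set ↥M24)),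
      Q'.Normal ∧ IsPGroup 2 Q' ∧ Subgroup.centralizer (Q' : Set _) ≤ Q' := by
  obtain ⟨u, hu, hS⟩ := exists_smul_S0 S5607.S0_mem
  apply local_of_Q S5607.T0_mem Q2 (fun q hq => (Subgroup.mem_inf.mp hq).1)
  · exact Subgroup.mem_inf.mpr ⟨S5607.T0_mem,
      mem_PS_of_fpf S5607.S0_mem.2.1 S5607.T0_sq S5607.T0_fpf S5607.S0_inv⟩
  · intro q hq
    have hq2 := (Subgroup.mem_inf.mp hq).2
    rw [← hS] at hq2
    have h := sq_of_mem_PS (mem_PS_smul.mp hq2)
    have e : q * q = u * (u⁻¹ * q * u * (u⁻¹ * q * u)) * u⁻¹ := by group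
    rw [e, h]
    group
  · intro c hc hcz q hq
    have hcS : c • S5607.S0 = S5607.S0 := S5607.cent_S0 (Helper93.mem_centM.mpr ⟨hc, hcz⟩)
    have hcS' : c⁻¹ • S5607.S0 = S5607.S0 := by rw [inv_smul_eq_iff, hcS]
    obtain ⟨hq1, hq2⟩ := Subgroup.mem_inf.mp hq
    refine Subgroup.mem_inf.mpr ⟨M24.mul_mem (M24.mul_mem hc hq1) (M24.inv_mem hc), ?_⟩
    intro p hp
    have h1 := hq2 (c⁻¹ • p) (smul_mem_pairings hcS' hp)
    rw [mul_smul, mul_smul, h1, smul_inv_smul]
  · intro g hg hcomm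
    refine Subgroup.mem_inf.mpr ⟨hg, ?_⟩
    rw [← hS]
    apply mem_PS_smul.mpr
    apply cent_N0'
    intro q' hq'
    obtain ⟨hq1, hq2⟩ := Subgroup.mem_inf.mp hq'
    have hmem : u * q' * u⁻¹ ∈ Q2 := by
      refine Subgroup.mem_inf.mpr ⟨M24.mul_mem (M24.mul_mem hu hq1) (M24.inv_mem hu), ?_⟩
      rw [← hS]
      apply mem_PS_smul.mpr
      have e : u⁻¹ * (u * q' * u⁻¹) * u = q' := by group
      rw [e]
      exact hq2
    have h := hcomm _ hmem
    have e1 : u⁻¹ * g * u * q' = u⁻¹ * (g * (u * q' * u⁻¹)) * u := by group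
    have e2 : q' * (u⁻¹ * g * u) = u⁻¹ * (u * q' * u⁻¹ * g) * u := by group
    rw [e1, e2, h]

/-! ### The local hypothesis -/

theorem exists_rep {x : Equiv.Perm GolayPt} (hx : x ∈ M24) (ho : orderOf x = 2) :
    ∃ k ∈ M24, k * x * k⁻¹ = z1 ∨ k * x * k⁻¹ = S5607.T0 := by
  obtain ⟨k, hk, h | h⟩ := invol_conj hx ho
  · exact ⟨k, hk, Or.inl h⟩
  · have hT2 : orderOf S5607.T0 = 2 :=
      orderOf_eq_prime (by rw [sq]; exact S5607.T0_sq)
        (fun e => S5607.T0_fpf (pt 0) (by rw [e]; rfl))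
    obtain ⟨l, hl, h' | h'⟩ := invol_conj S5607.T0_mem hT2
    · exfalso
      have h5 : z1 (pt 5) = pt 5 := by
        apply (z1_fix (pt 5)).mpr
        apply mem_setOf.mpr
        rw [idx_pt (by norm_num)]
        decide
      have h6 := (fix_of_conj h' (l⁻¹ (pt 5))).mpr (by simpa using h5)
      exact S5607.T0_fpf _ h6
    · refine ⟨l⁻¹ * k, M24.mul_mem (M24.inv_mem hl) hk, Or.inr ?_⟩
      have e : l⁻¹ * k * x * (l⁻¹ * k)⁻¹ = l⁻¹ * (k * x * k⁻¹) * l := by group
      rw [e, h, ← h']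
      group

/-- every nontrivial 2-subgroup of `M24` contains an involution whose centraliser has a
self-centralising normal 2-subgroup -/
theorem hloc_M24 (D : Subgroup ↥M24) (hD : IsPGroup 2 D) (hne : D ≠ ⊥) :
    ∃ R : Subgroup ↥M24, IsPGroup 2 R ∧ Helper16.ConjLE R D ∧
      ∃ Q : Subgroup ↥(Subgroup.centralizer (R : Set ↥M24)), Q.Normal ∧ IsPGroup 2 Q ∧
        Subgroup.centralizer (Q : Set ↥(Subgroup.centralizer (R : Set ↥M24))) ≤ Q := by
  have hcard : 2 ∣ Nat.card D := by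
    rcases hD.card_eq_or_dvd with h | h
    · exact absurd (Subgroup.eq_bot_of_card_eq D h) hne
    · exact h
  obtain ⟨t, ht⟩ := exists_prime_orderOf_dvd_card' 2 hcard
  have ho : orderOf ((t : ↥M24) : Equiv.Perm GolayPt) = 2 := by
    rw [Subgroup.orderOf_coe, Subgroup.orderOf_coe]
    exact ht
  obtain ⟨k, hk, hcase⟩ := exists_rep (t : ↥M24).2 ho
  have key : ∀ (z : Equiv.Perm GolayPt) (hz : z ∈ M24),
      k * ((t : ↥M24) : Equiv.Perm GolayPt) * k⁻¹ = z →
      Helper16.ConjLE (Subgroup.zpowers (⟨z, hz⟩ : ↥M24)) D := by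
    intro z hz e
    refine ⟨(⟨k, hk⟩ : ↥M24)⁻¹, ?_⟩
    intro q hq
    obtain ⟨n, rfl⟩ := Subgroup.mem_zpowers_iff.mp hq
    have e1 : (⟨k, hk⟩ : ↥M24)⁻¹ * (⟨z, hz⟩ : ↥M24) * (⟨k, hk⟩ : ↥M24)⁻¹⁻¹ = (t : ↥M24) := by
      apply Subtype.ext
      show k⁻¹ * z * k⁻¹⁻¹ = _
      rw [← e]
      group
    rw [← conj_zpow, e1]
    exact D.zpow_mem t.2 n
  rcases hcase with h | h
  · obtain ⟨hR, hQ⟩ := local_of_Q z1_mem Q1 (fun q hq => (mem_Q1.mp hq).1) z1_mem_Q1 Q1_sq
      Q1_norm Q1_self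
    exact ⟨_, hR, key z1 z1_mem h, hQ⟩
  · obtain ⟨hR, hQ⟩ := T0_local
    exact ⟨_, hR, key _ S5607.T0_mem h, hQ⟩

end Cfsg.Agent.Helper27.M24Blk
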