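import Cfsg.Agent.Helper27.M24Odd
import Cfsg.Agent.Helper27.M24Local
import Cfsg.Agent.Helper27.M22BlkData

/-!
# The Mathieu group `M22` has a single 2-block: the ingredients

* `hloc_M22`: the centraliser of an involution `t` of `M22` has a self-centralising normal
  elementary abelian 2-subgroup (the pointwise stabiliser in `M24` of the fixed points of `t`).
* `conv22_one`, `conv22_odd`: the convolution of the indicator function of the involutions with a
  function of the numbers of fixed points of `g` and `g ^ 2` is odd at `1` and even at the other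
  elements of odd order.
-/

set_option autoImplicit false
open scoped Pointwise

namespace Cfsg.Agent.Helper27.M22Blk

open Cfsg Cfsg.Agent.Helper7 Cfsg.Agent.Helper27.M24Invol Cfsg.Agent.Helper27.M24Blk

theorem pt0_eq : pt 0 = (some 0 : GolayPt) := by decide

theorem pt23_eq : pt 23 = (none : GolayPt) := by decide

theorem mem_M22 {g : Equiv.Perm GolayPt} :
    g ∈ Spor.M22 ↔ g ∈ M24 ∧ g (pt 23) = pt 23 ∧ g (pt 0) = pt 0 := by
  have e1 : g ∈ Spor.M22 ↔ (g ∈ M24 ∧ g ∈ MulAction.stabilizer (Equiv.Perm GolayPt)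
      (none : GolayPt)) ∧ g ∈ MulAction.stabilizer (Equiv.Perm GolayPt) (some 0 : GolayPt) := by
    unfold Spor.M22 Spor.M23
    rw [Subgroup.mem_inf, Subgroup.mem_inf]
  rw [e1, MulAction.mem_stabilizer_iff, MulAction.mem_stabilizer_iff, pt23_eq, pt0_eq, and_assoc]
  rfl

theorem M22_le : Spor.M22 ≤ M24 := fun _ hg => (mem_M22.mp hg).1

/-! ### The local hypothesis -/

/-- the local data from a subgroup `Q` of exponent 2 containing `z`, normalised by the centraliser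
of `z` and self-centralising, inside a subgroup `K` -/
theorem local_of_QK (K : Subgroup (Equiv.Perm GolayPt)) {z : Equiv.Perm GolayPt} (hz : z ∈ K)
    (Q : Subgroup (Equiv.Perm GolayPt)) (hQK : Q ≤ K) (hzQ : z ∈ Q)
    (hsq : ∀ q ∈ Q, q * q = 1)
    (hnorm : ∀ c ∈ K, c * z = z * c → ∀ q ∈ Q, c * q * c⁻¹ ∈ Q)
    (hself : ∀ g ∈ K, (∀ q ∈ Q, g * q = q * g) → g ∈ Q) :
    IsPGroup 2 ↥(Subgroup.zpowers (⟨z, hz⟩ : ↥K)) ∧
    ∃ Q' : Subgroup ↥(Subgroup.centralizer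
        ((Subgroup.zpowers (⟨z, hz⟩ : ↥K) : Subgroup ↥K) : Set ↥K)),
      Q'.Normal ∧ IsPGroup 2 Q' ∧ Subgroup.centralizer (Q' : Set _) ≤ Q' := by
  have hsq' : ∀ x ∈ Q.subgroupOf K, x * x = 1 := by
    intro x hx
    exact Subtype.ext (hsq x.1 (Subgroup.mem_subgroupOf.mp hx))
  have hQ2 : IsPGroup 2 ↥(Q.subgroupOf K) := by
    intro g
    refine ⟨1, ?_⟩
    rw [pow_one, sq]
    exact Subtype.ext (hsq' g.1 g.2)
  have hRQ : Subgroup.zpowers (⟨z, hz⟩ : ↥K) ≤ Q.subgroupOf K := by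
    rw [Subgroup.zpowers_le]
    exact Subgroup.mem_subgroupOf.mpr hzQ
  refine ⟨hQ2.to_le hRQ, ?_⟩
  apply OneBlock.exists_local_of_abelian _ (Q.subgroupOf K) hRQ _ hQ2
  · intro c hc q hq
    rw [Subgroup.mem_centralizer_iff] at hc
    have h1 := hc ⟨z, hz⟩ (Subgroup.mem_zpowers _)
    have h2 : z * c.1 = c.1 * z := congrArg Subtype.val h1
    exact Subgroup.mem_subgroupOf.mpr (hnorm c.1 c.2 h2.symm q.1 (Subgroup.mem_subgroupOf.mp hq))
  · intro g hg
    apply Subgroup.mem_subgroupOf.mpr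
    apply hself g.1 g.2
    intro q hq
    have h1 := hg ⟨q, hQK hq⟩ (Subgroup.mem_subgroupOf.mpr hq)
    exact congrArg Subtype.val h1
  · intro x hx y hy
    exact comm_of_sq (hsq' x hx) (hsq' y hy) (hsq' _ (Subgroup.mul_mem _ hx hy))

/-- the elements of `M24` fixing the fixed points of `t` -/
def QF (t : Equiv.Perm GolayPt) : Subgroup (Equiv.Perm GolayPt) :=
  M24 ⊓ fixingSubgroup (Equiv.Perm GolayPt) {p : GolayPt | t p = p}

theorem mem_QF {t g : Equiv.Perm GolayPt} : g ∈ QF t ↔ g ∈ M24 ∧ ∀ p, t p = p → g p = p := by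
  unfold QF
  rw [Subgroup.mem_inf, mem_fixingSubgroup_iff]
  rfl

theorem mem_QF_iff {t k : Equiv.Perm GolayPt} (hk : k ∈ M24) (h : k * t * k⁻¹ = z1)
    (q : Equiv.Perm GolayPt) : q ∈ QF t ↔ k * q * k⁻¹ ∈ Q1 := by
  rw [mem_QF, mem_Q1]
  constructor
  · rintro ⟨hq, hfix⟩
    refine ⟨M24.mul_mem (M24.mul_mem hk hq) (M24.inv_mem hk), ?_⟩
    intro y hy
    have h1 : t (k⁻¹ y) = k⁻¹ y := by
      rw [fix_of_conj h]
      simpa using (z1_fix y).mpr hy
    rw [Equiv.Perm.mul_apply, Equiv.Perm.mul_apply, hfix _ h1]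
    simp
  · rintro ⟨hq, hfix⟩
    constructor
    · have e : q = k⁻¹ * (k * q * k⁻¹) * k := by group
      rw [e]
      exact M24.mul_mem (M24.mul_mem (M24.inv_mem hk) hq) hk
    · intro p hp
      have h1 : k p ∈ O1 := (z1_fix _).mp ((fix_of_conj h p).mp hp)
      have h2 := hfix (k p) h1
      rw [Equiv.Perm.mul_apply, Equiv.Perm.mul_apply] at h2
      rw [show k⁻¹ (k p) = p by simp] at h2
      exact k.injective h2

theorem QF_sq {t k : Equiv.Perm GolayPt} (hk : k ∈ M24) (h : k * t * k⁻¹ = z1) :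
    ∀ q ∈ QF t, q * q = 1 := by
  intro q hq
  have h1 := Q1_sq _ ((mem_QF_iff hk h q).mp hq)
  have e : q * q = k⁻¹ * (k * q * k⁻¹ * (k * q * k⁻¹)) * k := by group
  rw [e, h1]
  group

theorem QF_norm (t : Equiv.Perm GolayPt) :
    ∀ c ∈ M24, c * t = t * c → ∀ q ∈ QF t, c * q * c⁻¹ ∈ QF t := by
  intro c hc hct q hq
  rw [mem_QF] at hq ⊢
  refine ⟨M24.mul_mem (M24.mul_mem hc hq.1) (M24.inv_mem hc), ?_⟩
  intro y hy
  have h1 : t (c⁻¹ y) = c⁻¹ y := by
    have e : t * c⁻¹ = c⁻¹ * t := by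
      have h3 : c⁻¹ * (c * t) * c⁻¹ = c⁻¹ * (t * c) * c⁻¹ := by rw [hct]
      simpa [mul_assoc] using h3
    have e' := congrArg (fun f : Equiv.Perm GolayPt => f y) e
    simp only [Equiv.Perm.mul_apply] at e'
    rw [e', hy]
  rw [Equiv.Perm.mul_apply, Equiv.Perm.mul_apply, hq.2 _ h1]
  simp

theorem QF_self {t k : Equiv.Perm GolayPt} (hk : k ∈ M24) (h : k * t * k⁻¹ = z1) :
    ∀ g ∈ M24, (∀ q ∈ QF t, g * q = q * g) → g ∈ QF t := by
  intro g hg hcomm
  rw [mem_QF_iff hk h]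
  apply Q1_self _ (M24.mul_mem (M24.mul_mem hk hg) (M24.inv_mem hk))
  intro q' hq'
  have hq : k⁻¹ * q' * k ∈ QF t := by
    rw [mem_QF_iff hk h]
    have e : k * (k⁻¹ * q' * k) * k⁻¹ = q' := by group
    rw [e]
    exact hq'
  have h1 := hcomm _ hq
  have e1 : k * g * k⁻¹ * q' = k * (g * (k⁻¹ * q' * k)) * k⁻¹ := by group
  have e2 : q' * (k * g * k⁻¹) = k * (k⁻¹ * q' * k * g) * k⁻¹ := by group
  rw [e1, e2, h1]

/-- every nontrivial 2-subgroup of `M22` contains an involution whose centraliser has a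
self-centralising normal 2-subgroup -/
theorem hloc_M22 (D : Subgroup ↥Spor.M22) (hD : IsPGroup 2 D) (hne : D ≠ ⊥) :
    ∃ R : Subgroup ↥Spor.M22, IsPGroup 2 R ∧ Helper16.ConjLE R D ∧
      ∃ Q : Subgroup ↥(Subgroup.centralizer (R : Set ↥Spor.M22)), Q.Normal ∧ IsPGroup 2 Q ∧
        Subgroup.centralizer (Q : Set ↥(Subgroup.centralizer (R : Set ↥Spor.M22))) ≤ Q := by
  have hcard : 2 ∣ Nat.card D := by
    rcases hD.card_eq_or_dvd with h | h
    · exact absurd (Subgroup.eq_bot_of_card_eq D h) hne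
    · exact h
  obtain ⟨t, ht⟩ := exists_prime_orderOf_dvd_card' 2 hcard
  have ho : orderOf ((t : ↥Spor.M22) : Equiv.Perm GolayPt) = 2 := by
    rw [Subgroup.orderOf_coe, Subgroup.orderOf_coe]
    exact ht
  have htM := mem_M22.mp (t : ↥Spor.M22).2
  obtain ⟨k, hk, h⟩ : ∃ k ∈ M24, k * ((t : ↥Spor.M22) : Equiv.Perm GolayPt) * k⁻¹ = z1 := by
    obtain ⟨k, hk, h | h⟩ := invol_conj htM.1 ho
    · exact ⟨k, hk, h⟩
    · exact absurd htM.2.1 (fix_z2_conj h (pt 23))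
  have hQK : QF ((t : ↥Spor.M22) : Equiv.Perm GolayPt) ≤ Spor.M22 := by
    intro q hq
    rw [mem_QF] at hq
    exact mem_M22.mpr ⟨hq.1, hq.2 _ htM.2.1, hq.2 _ htM.2.2⟩
  have hzQ : ((t : ↥Spor.M22) : Equiv.Perm GolayPt) ∈ QF ((t : ↥Spor.M22) : Equiv.Perm GolayPt) :=
    mem_QF.mpr ⟨htM.1, fun p hp => hp⟩
  obtain ⟨hR, hQ⟩ := local_of_QK Spor.M22 (t : ↥Spor.M22).2 _ hQK hzQ (QF_sq hk h)
    (fun c hc => QF_norm _ c (M22_le hc)) (fun g hg => QF_self hk h g (M22_le hg))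
  refine ⟨_, hR, ⟨1, ?_⟩, hQ⟩
  intro q hq
  rw [one_mul, inv_one, mul_one]
  have hle : Subgroup.zpowers (⟨((t : ↥Spor.M22) : Equiv.Perm GolayPt), (t : ↥Spor.M22).2⟩ :
      ↥Spor.M22) ≤ D := by
    rw [Subgroup.zpowers_le]
    exact t.2
  exact hle hq

/-! ### The two class functions -/

open Classical in
/-- the indicator function of the involutions of `M22` -/
noncomputable def a22 (x : ↥Spor.M22) : ℂ := if (x : Equiv.Perm GolayPt) ∈ Lset then 1 else 0

theorem a22_class : IsClassFunction ↥Spor.M22 a22 := by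
  intro g h
  unfold a22
  have e : ((h * g * h⁻¹ : ↥Spor.M22) : Equiv.Perm GolayPt) ∈ Lset ↔
      (g : Equiv.Perm GolayPt) ∈ Lset := conj_mem_Lset (M22_le h.2) (g : Equiv.Perm GolayPt)
  by_cases hg : (g : Equiv.Perm GolayPt) ∈ Lset
  · rw [if_pos hg, if_pos (e.mpr hg)]
  · rw [if_neg hg, if_neg (fun h' => hg (e.mp h'))]

theorem a22_odd (g : ↥Spor.M22) (hg : ¬ 2 ∣ orderOf g) : a22 g = 0 := by
  unfold a22
  rw [if_neg]
  rintro ⟨i, hi, e⟩
  apply hg
  have h2 : orderOf (g : Equiv.Perm GolayPt) = 2 :=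
    orderOf_eq_prime (by rw [e, sq, P_sq hi]) (by rw [e]; exact P_ne_one hi)
  rw [← Subgroup.orderOf_coe, h2]

/-- the test on the numbers of fixed points of `g` and `g ^ 2` -/
def zt22 (m n : ℕ) : Bool := cond (Nat.beq m 8) true (cond (Nat.beq m 4) (Nat.beq n 8) false)

/-- a class function in terms of the numbers of fixed points of `g` and `g ^ 2` -/
noncomputable def b22 (x : ↥Spor.M22) : ℂ :=
  cond (zt22 (fixN (x : Equiv.Perm GolayPt))
    (fixN ((x : Equiv.Perm GolayPt) * (x : Equiv.Perm GolayPt)))) 1 0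

theorem b22_class : IsClassFunction ↥Spor.M22 b22 := by
  intro g h
  unfold b22
  have e1 : ((h * g * h⁻¹ : ↥Spor.M22) : Equiv.Perm GolayPt) =
      (h : Equiv.Perm GolayPt) * (g : Equiv.Perm GolayPt) * (h : Equiv.Perm GolayPt)⁻¹ := rfl
  have e2 : (h : Equiv.Perm GolayPt) * (g : Equiv.Perm GolayPt) * (h : Equiv.Perm GolayPt)⁻¹ *
      ((h : Equiv.Perm GolayPt) * (g : Equiv.Perm GolayPt) * (h : Equiv.Perm GolayPt)⁻¹) =
      (h : Equiv.Perm GolayPt) * ((g : Equiv.Perm GolayPt) * (g : Equiv.Perm GolayPt)) *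
        (h : Equiv.Perm GolayPt)⁻¹ := by group
  rw [e1, e2, fixN_conj, fixN_conj]

/-! ### Evaluation of the convolution -/

/-- the table fixes the indices `23` and `0` -/
def m22c (c : ℕ) : Bool := Nat.beq (tbl c 23) 23 && Nat.beq (tbl c 0) 0

theorem m22c_iff {σ : Equiv.Perm GolayPt} {c : ℕ} (hσ : σ ∈ M24) (hT : IsTbl σ c) :
    m22c c = true ↔ σ ∈ Spor.M22 := by
  unfold m22c
  rw [Bool.and_eq_true, mem_M22]
  have h23 := idx_apply_pt hT (show 23 < 24 by norm_num)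
  have h0 := idx_apply_pt hT (show 0 < 24 by norm_num)
  constructor
  · rintro ⟨h1, h2⟩
    refine ⟨hσ, ?_, ?_⟩
    · apply idx_injective
      rw [h23, Nat.eq_of_beq_eq_true h1, idx_pt (by norm_num)]
    · apply idx_injective
      rw [h0, Nat.eq_of_beq_eq_true h2, idx_pt (by norm_num)]
  · rintro ⟨-, h1, h2⟩
    rw [h1, idx_pt (by norm_num)] at h23
    rw [h2, idx_pt (by norm_num)] at h0
    rw [← h23, ← h0]
    exact ⟨Nat.beq_refl 23, Nat.beq_refl 0⟩

/-- the test on the product of an involution with table `c` and a permutation with table `e` -/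
def zq22 (e c : ℕ) : Bool := zt22 (agrF e c) (agrF (compF e (compF c e)) c)

/-- the summand of the convolution -/
def fz22 (e i c : ℕ) : ℕ := cond (Nat.blt i NA && m22c c) (cond (zq22 e c) 1 0) 0

theorem conv22_eq [Fintype ↥Spor.M22] {u : ↥Spor.M22} {e : ℕ}
    (hu : IsTbl (u : Equiv.Perm GolayPt) e) :
    Helper81.conv a22 b22 u = ((sumK (fz22 e) 0 12 : ℕ) : ℂ) := by
  classical
  unfold Helper81.conv
  let S : Finset ℕ := (Finset.range NA).filter (fun i => m22c (Lc i) = true)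
  have hS : ∀ i ∈ S, i < NA ∧ P i ∈ Spor.M22 := by
    intro i hi
    have h1 := Finset.mem_filter.mp hi
    have h2 : i < NA := Finset.mem_range.mp h1.1
    exact ⟨h2, (m22c_iff (P_mem i) (P_tbl h2)).mp h1.2⟩
  let Pm : ℕ → ↥Spor.M22 := fun i => if h : P i ∈ Spor.M22 then ⟨P i, h⟩ else 1
  have hPm : ∀ i ∈ S, ((Pm i : ↥Spor.M22) : Equiv.Perm GolayPt) = P i := by
    intro i hi
    simp only [Pm]
    rw [dif_pos (hS i hi).2]
  have hinj : Set.InjOn Pm S := by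
    intro i hi j hj h
    have h1 : ((Pm i : ↥Spor.M22) : Equiv.Perm GolayPt) = Pm j := congrArg Subtype.val h
    rw [hPm i hi, hPm j hj] at h1
    exact P_inj (hS i hi).1 (hS j hj).1 h1
  have h1 : ∑ x : ↥Spor.M22, a22 x * b22 (x⁻¹ * u) =
      ∑ x ∈ S.image Pm, a22 x * b22 (x⁻¹ * u) := by
    symm
    apply Finset.sum_subset (Finset.subset_univ _)
    intro x _ hx
    have : a22 x = 0 := by
      unfold a22
      rw [if_neg]
      rintro ⟨i, hi, e'⟩
      apply hx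
      have hiM : P i ∈ Spor.M22 := by rw [← e']; exact x.2
      have hiS : i ∈ S := Finset.mem_filter.mpr ⟨Finset.mem_range.mpr hi,
        (m22c_iff (P_mem i) (P_tbl hi)).mpr hiM⟩
      refine Finset.mem_image.mpr ⟨i, hiS, Subtype.ext ?_⟩
      rw [hPm i hiS, e']
    rw [this, zero_mul]
  rw [h1, Finset.sum_image hinj, sumK_spec, Nat.cast_sum]
  have hsub : S ⊆ Finset.range (1024 * 12) := by
    intro i hi
    have := (hS i hi).1
    unfold NA at this
    exact Finset.mem_range.mpr (by omega)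
  rw [← Finset.sum_subset hsub]
  · apply Finset.sum_congr rfl
    intro i hi
    obtain ⟨hi', hiM⟩ := hS i hi
    have ha : a22 (Pm i) = 1 := by
      unfold a22
      rw [if_pos]
      rw [hPm i hi]
      exact ⟨i, hi', rfl⟩
    have hinv : (P i)⁻¹ = P i := inv_eq_of_mul_eq_one_left (P_sq hi')
    have hb : b22 ((Pm i)⁻¹ * u) = cond (zq22 e (Lc i)) 1 0 := by
      unfold b22
      have e1 : (((Pm i)⁻¹ * u : ↥Spor.M22) : Equiv.Perm GolayPt) =
          P i * (u : Equiv.Perm GolayPt) := by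
        show ((Pm i : ↥Spor.M22) : Equiv.Perm GolayPt)⁻¹ * (u : Equiv.Perm GolayPt) = _
        rw [hPm i hi, hinv]
      rw [e1, fixN_mul (P_tbl hi') hu (P_sq hi'), fixN_mul_sq (P_tbl hi') hu (P_sq hi')]
      unfold zq22
      rw [agrF_eq, agrF_eq, ← cnt2_eq]
    rw [ha, one_mul, hb]
    have e0 : 1024 * 0 + i = i := by omega
    rw [e0]
    unfold fz22
    have hblt : Nat.blt i NA = true := by rw [Nat.blt_eq]; exact hi'
    have hm : m22c (Lc i) = true := (Finset.mem_filter.mp hi).2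
    rw [hblt, hm, Bool.and_true, cond_true]
    cases zq22 e (Lc i) <;> simp
  · intro i _ hi
    have e0 : 1024 * 0 + i = i := by omega
    rw [e0]
    unfold fz22
    have hfalse : (Nat.blt i NA && m22c (Lc i)) = false := by
      rw [Bool.eq_false_iff]
      intro hb
      rw [Bool.and_eq_true, Nat.blt_eq] at hb
      exact hi (Finset.mem_filter.mpr ⟨Finset.mem_range.mpr hb.1, hb.2⟩)
    rw [hfalse, cond_false, Nat.cast_zero]

/-! ### Elements of odd order -/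

theorem codes_ok : codeM24 Yv = true ∧ codeM24 vi = true ∧ codeM24 vc = true ∧
    (tbl Yv 0 = 23 ∧ tbl Yv 1 = 0 ∧ tbl Yv 2 = 2 ∧ tbl Yv 3 = 3) ∧
    (tbl vi 23 = 0 ∧ tbl vi 0 = 1 ∧ tbl vi 1 = 2 ∧ tbl vi 2 = 3) ∧
    (tbl vc 0 = 23 ∧ tbl vc 1 = 0 ∧ tbl vc 2 = 1 ∧ tbl vc 3 = 2 ∧ tbl vc 4 = 3) := by
  decide +kernel

theorem odd_normal22 {x : Equiv.Perm GolayPt} (hx : x ∈ Spor.M22) (h1 : x ≠ 1)
    (hodd : ¬ 2 ∣ orderOf x) :
    ∃ w ∈ Spor.M22, (w⁻¹ * x * w) (pt 1) = pt 2 ∧ (w⁻¹ * x * w) (pt 2) = pt 3 := by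
  obtain ⟨hxM, hx23, hx0⟩ := mem_M22.mp hx
  have hc2 : Nat.Coprime 2 (orderOf x) := (Nat.Prime.coprime_iff_not_dvd Nat.prime_two).mpr hodd
  obtain ⟨a, ha⟩ : ∃ a, x a ≠ a := by
    by_contra hcon
    push Not at hcon
    exact h1 (Equiv.ext hcon)
  have h2 : x (x a) ≠ a := by
    intro h
    apply ha
    apply fix_of_pow_fix hc2
    rw [sq, Equiv.Perm.mul_apply]
    exact h
  have inj : ∀ {p q : GolayPt}, x p = x q → p = q := fun h => x.injective h
  have n1 : a ≠ pt 23 := fun e => ha (by rw [e, hx23])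
  have n2 : a ≠ pt 0 := fun e => ha (by rw [e, hx0])
  have n3 : x a ≠ pt 23 := fun e => n1 (inj (e.trans hx23.symm))
  have n4 : x a ≠ pt 0 := fun e => n2 (inj (e.trans hx0.symm))
  have n5 : x (x a) ≠ pt 23 := fun e => n3 (inj (e.trans hx23.symm))
  have n6 : x (x a) ≠ pt 0 := fun e => n4 (inj (e.trans hx0.symm))
  have n7 : pt 23 ≠ pt 0 := by decide
  have hnd : [pt 23, pt 0, a, x a, x (x a)].Nodup := by
    simp only [List.nodup_cons, List.mem_cons, List.not_mem_nil, or_false, not_or,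
      List.nodup_nil, and_true, not_false_eq_true]
    exact ⟨⟨n7, fun h => n1 h.symm, fun h => n3 h.symm, fun h => n5 h.symm⟩,
      ⟨fun h => n2 h.symm, fun h => n4 h.symm, fun h => n6 h.symm⟩,
      ⟨fun h => ha h.symm, fun h => h2 h.symm⟩, fun h => ha (inj h).symm⟩
  obtain ⟨g1, hg1, hmap⟩ := five_trans _ rfl hnd
  rw [G3_eq] at hg1
  simp only [List.map_cons, List.map_nil, List.cons.injEq, and_true] at hmap
  obtain ⟨e0, e1, e2, e3, e4⟩ := hmap
  obtain ⟨-, -, hvc, -, -, t0, t1, t2, t3, t4⟩ := codes_ok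
  have hV := isTbl_permOf (validCode_of_codeM24 hvc)
  have v0 : (permOf vc)⁻¹ (pt 23) = pt 0 := by
    rw [Equiv.Perm.inv_eq_iff_eq, hV.apply_pt (by norm_num), t0]
  have v1 : (permOf vc)⁻¹ (pt 0) = pt 1 := by
    rw [Equiv.Perm.inv_eq_iff_eq, hV.apply_pt (by norm_num), t1]
  have v2 : (permOf vc)⁻¹ (pt 1) = pt 2 := by
    rw [Equiv.Perm.inv_eq_iff_eq, hV.apply_pt (by norm_num), t2]
  have v3 : (permOf vc)⁻¹ (pt 2) = pt 3 := by
    rw [Equiv.Perm.inv_eq_iff_eq, hV.apply_pt (by norm_num), t3]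
  have v4 : (permOf vc)⁻¹ (pt 3) = pt 4 := by
    rw [Equiv.Perm.inv_eq_iff_eq, hV.apply_pt (by norm_num), t4]
  have w23 : (g1 * (permOf vc)⁻¹) (pt 23) = pt 23 := by rw [Equiv.Perm.mul_apply, v0, e0]
  have w0 : (g1 * (permOf vc)⁻¹) (pt 0) = pt 0 := by rw [Equiv.Perm.mul_apply, v1, e1]
  have w1 : (g1 * (permOf vc)⁻¹) (pt 1) = a := by rw [Equiv.Perm.mul_apply, v2, e2]
  have w2 : (g1 * (permOf vc)⁻¹) (pt 2) = x a := by rw [Equiv.Perm.mul_apply, v3, e3]
  have w3 : (g1 * (permOf vc)⁻¹) (pt 3) = x (x a) := by rw [Equiv.Perm.mul_apply, v4, e4]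
  refine ⟨g1 * (permOf vc)⁻¹, mem_M22.mpr ⟨M24.mul_mem hg1 (M24.inv_mem (permOf_mem_M24 hvc)),
    w23, w0⟩, conj_apply w1 w2 rfl, conj_apply w2 w3 rfl⟩

/-- the tables of the elements of `M22` with `1 ↦ 2 ↦ 3` -/
def allE22 : List ℕ :=
  T4.flatMap (fun a => T5.flatMap (fun b => T6.map (fun c =>
    compF (compF Yv (compF (compF a b) c)) vi)))

theorem cand22 {y : Equiv.Perm GolayPt} (hy : y ∈ Spor.M22) (h1 : y (pt 1) = pt 2)
    (h2 : y (pt 2) = pt 3) : ∃ e ∈ allE22, IsTbl y e := by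
  obtain ⟨hyM, h23, h0⟩ := mem_M22.mp hy
  obtain ⟨hYv, hvi, -, ⟨a0, a1, a2, a3⟩, ⟨b23, b0, b1, b2⟩, -⟩ := codes_ok
  have hA := isTbl_permOf (validCode_of_codeM24 hYv)
  have hB := isTbl_permOf (validCode_of_codeM24 hvi)
  have hs : (permOf Yv)⁻¹ * y * (permOf vi)⁻¹ ∈ M24 ⊓ fixL [0, 1, 2, 3] := by
    refine Subgroup.mem_inf.mpr ⟨M24.mul_mem (M24.mul_mem (M24.inv_mem (permOf_mem_M24 hYv)) hyM)
      (M24.inv_mem (permOf_mem_M24 hvi)), ?_⟩
    rw [mem_fixL]
    intro j hj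
    simp only [List.mem_cons, List.not_mem_nil, or_false] at hj
    rw [Equiv.Perm.mul_apply, Equiv.Perm.mul_apply]
    rcases hj with rfl | rfl | rfl | rfl
    · have e1 : (permOf vi)⁻¹ (pt 0) = pt 23 := by
        rw [Equiv.Perm.inv_eq_iff_eq, hB.apply_pt (by norm_num), b23]
      rw [e1, h23, Equiv.Perm.inv_eq_iff_eq, hA.apply_pt (by norm_num), a0]
    · have e1 : (permOf vi)⁻¹ (pt 1) = pt 0 := by
        rw [Equiv.Perm.inv_eq_iff_eq, hB.apply_pt (by norm_num), b0]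
      rw [e1, h0, Equiv.Perm.inv_eq_iff_eq, hA.apply_pt (by norm_num), a1]
    · have e1 : (permOf vi)⁻¹ (pt 2) = pt 1 := by
        rw [Equiv.Perm.inv_eq_iff_eq, hB.apply_pt (by norm_num), b1]
      rw [e1, h1, Equiv.Perm.inv_eq_iff_eq, hA.apply_pt (by norm_num), a2]
    · have e1 : (permOf vi)⁻¹ (pt 3) = pt 2 := by
        rw [Equiv.Perm.inv_eq_iff_eq, hB.apply_pt (by norm_num), b2]
      rw [e1, h2, Equiv.Perm.inv_eq_iff_eq, hA.apply_pt (by norm_num), a3]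
  obtain ⟨a, ha, b, hb, c, hc, hT⟩ := stab4_decomp hs
  refine ⟨compF (compF Yv (compF (compF a b) c)) vi, ?_, ?_⟩
  · unfold allE22
    rw [List.mem_flatMap]
    refine ⟨a, ha, ?_⟩
    rw [List.mem_flatMap]
    refine ⟨b, hb, ?_⟩
    rw [List.mem_map]
    exact ⟨c, hc, rfl⟩
  · have e : y = permOf Yv * ((permOf Yv)⁻¹ * y * (permOf vi)⁻¹) * permOf vi := by group
    rw [e]
    exact (hA.mulF hT).mulF hB

/-- representative number `i` -/
def rep22 (i : ℕ) : ℕ := reps22L.getD i 0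

/-- the certificate check: the element is conjugate in `M22` to a representative, or a power of
it is an involution -/
def checkO22 (e : ℕ) (t : ℕ × ℕ × ℕ) : Bool :=
  cond (Nat.beq t.1 0)
    (Nat.blt t.2.2 6 && m22c (kOf t.2.1) &&
      Nat.beq (compF (kOf t.2.1) e) (compF (rep22 t.2.2) (kOf t.2.1)))
    (Nat.beq (compF (powF e t.1) (powF e t.1)) idCode && Nat.blt t.2.1 24 &&
      !(Nat.beq (tbl (powF e t.1) t.2.1) t.2.1))

theorem checkO22_spec {y : Equiv.Perm GolayPt} {e : ℕ} (he : IsTbl y e) {t : ℕ × ℕ × ℕ}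
    (h : checkO22 e t = true) (hodd : ¬ 2 ∣ orderOf y) :
    ∃ κ : Equiv.Perm GolayPt, κ ∈ Spor.M22 ∧ ∃ i < 6, IsTbl (κ * y * κ⁻¹) (rep22 i) := by
  unfold checkO22 at h
  by_cases hm : Nat.beq t.1 0 = true
  · rw [hm, cond_true, Bool.and_eq_true, Bool.and_eq_true, Nat.blt_eq] at h
    obtain ⟨κ, hκ, hκT⟩ := kOf_perm t.2.1
    exact ⟨κ, (m22c_iff hκ hκT).mp h.1.2, t.2.2, h.1.1,
      isTbl_conj hκT he (Nat.eq_of_beq_eq_true h.2)⟩
  · exfalso
    rw [Bool.not_eq_true] at hm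
    rw [hm, cond_false, Bool.and_eq_true, Bool.and_eq_true, Nat.blt_eq] at h
    obtain ⟨⟨hsq, hj⟩, hne⟩ := h
    have hpow := isTbl_powF he t.1
    have hsq' : y ^ t.1 * y ^ t.1 = 1 := by
      have h1 := hpow.mulF hpow
      rw [Nat.eq_of_beq_eq_true hsq] at h1
      exact h1.eq IsTbl.one
    have hne' : y ^ t.1 ≠ 1 := by
      apply ne_one_of_tbl hpow hj
      intro e'
      rw [e', Nat.beq_refl] at hne
      exact absurd hne (by decide)
    have hd : orderOf y ∣ 2 * t.1 := by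
      apply orderOf_dvd_of_pow_eq_one
      rw [two_mul, pow_add]
      exact hsq'
    have hc : Nat.Coprime (orderOf y) 2 :=
      ((Nat.Prime.coprime_iff_not_dvd Nat.prime_two).mpr hodd).symm
    exact hne' (orderOf_dvd_iff_pow_eq_one.mp (hc.dvd_of_dvd_mul_left hd))

set_option maxRecDepth 100000 in
theorem cert22_ok : (Nat.ble allE22.length cert22L.length &&
    (allE22.zip cert22L).all (fun p => checkO22 p.1 p.2)) = true := by decide +kernel

/-- every nontrivial element of odd order of `M22` is conjugate to one of the representatives -/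
theorem odd_conj22 {x : Equiv.Perm GolayPt} (hx : x ∈ Spor.M22) (h1 : x ≠ 1)
    (hodd : ¬ 2 ∣ orderOf x) :
    ∃ κ : Equiv.Perm GolayPt, κ ∈ Spor.M22 ∧ ∃ i < 6, IsTbl (κ * x * κ⁻¹) (rep22 i) := by
  obtain ⟨w, hw, c1, c2⟩ := odd_normal22 hx h1 hodd
  have hy : w⁻¹ * x * w ∈ Spor.M22 :=
    Spor.M22.mul_mem (Spor.M22.mul_mem (Spor.M22.inv_mem hw) hx) hw
  have hodd' : ¬ 2 ∣ orderOf (w⁻¹ * x * w) := by rw [orderOf_conj_inv]; exact hodd
  obtain ⟨e, he, hT⟩ := cand22 hy c1 c2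
  have hok := cert22_ok
  rw [Bool.and_eq_true] at hok
  obtain ⟨t, ht⟩ := zip_all (fun p => checkO22 p.1 p.2) allE22 cert22L
    (Nat.le_of_ble_eq_true hok.1) hok.2 e he
  obtain ⟨κ, hκ, i, hi, hT'⟩ := checkO22_spec hT ht hodd'
  refine ⟨κ * w⁻¹, Spor.M22.mul_mem hκ (Spor.M22.inv_mem hw), i, hi, ?_⟩
  have e' : κ * w⁻¹ * x * (κ * w⁻¹)⁻¹ = κ * (w⁻¹ * x * w) * κ⁻¹ := by group
  rw [e']
  exact hT'

/-! ### The values of the convolution -/

set_option maxRecDepth 100000 in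
theorem rep22_par0 : Nat.mod (sumK (fz22 (rep22 0)) 0 12) 2 = 0 := by decide +kernel

set_option maxRecDepth 100000 in
theorem rep22_par1 : Nat.mod (sumK (fz22 (rep22 1)) 0 12) 2 = 0 := by decide +kernel

set_option maxRecDepth 100000 in
theorem rep22_par2 : Nat.mod (sumK (fz22 (rep22 2)) 0 12) 2 = 0 := by decide +kernel

set_option maxRecDepth 100000 in
theorem rep22_par3 : Nat.mod (sumK (fz22 (rep22 3)) 0 12) 2 = 0 := by decide +kernel

set_option maxRecDepth 100000 in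
theorem rep22_par4 : Nat.mod (sumK (fz22 (rep22 4)) 0 12) 2 = 0 := by decide +kernel

set_option maxRecDepth 100000 in
theorem rep22_par5 : Nat.mod (sumK (fz22 (rep22 5)) 0 12) 2 = 0 := by decide +kernel

set_option maxRecDepth 100000 in
theorem one22_sum : sumK (fz22 idCode) 0 12 = 1155 := by decide +kernel

theorem rep22_par : ∀ i < 6, Nat.mod (sumK (fz22 (rep22 i)) 0 12) 2 = 0 := by
  intro i hi
  match i, hi with
  | 0, _ => exact rep22_par0
  | 1, _ => exact rep22_par1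
  | 2, _ => exact rep22_par2
  | 3, _ => exact rep22_par3
  | 4, _ => exact rep22_par4
  | 5, _ => exact rep22_par5
  | n + 6, h => exact absurd h (by omega)

theorem conv22_one [Fintype ↥Spor.M22] : Helper81.conv a22 b22 1 = ((1155 : ℕ) : ℂ) := by
  have h := conv22_eq (u := (1 : ↥Spor.M22)) (e := idCode) IsTbl.one
  rw [h, one22_sum]

theorem conv22_odd [Fintype ↥Spor.M22] (g : ↥Spor.M22) (h1 : g ≠ 1) (hodd : ¬ 2 ∣ orderOf g) :
    ∃ n : ℕ, Helper81.conv a22 b22 g = (n : ℂ) ∧ 2 ∣ n := by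
  have hx1 : (g : Equiv.Perm GolayPt) ≠ 1 := fun h => h1 (Subtype.ext h)
  have hoddx : ¬ 2 ∣ orderOf (g : Equiv.Perm GolayPt) := by
    rw [Subgroup.orderOf_coe]
    exact hodd
  obtain ⟨κ, hκ, i, hi, hT⟩ := odd_conj22 g.2 hx1 hoddx
  have hcl := Helper81.conv_isClassFunction a22_class b22_class g ⟨κ, hκ⟩
  refine ⟨sumK (fz22 (rep22 i)) 0 12, ?_, Nat.dvd_of_mod_eq_zero (rep22_par i hi)⟩
  rw [← hcl]
  exact conv22_eq (u := (⟨κ, hκ⟩ : ↥Spor.M22) * g * (⟨κ, hκ⟩ : ↥Spor.M22)⁻¹) hT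

end Cfsg.Agent.Helper27.M22Blk
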