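import Cfsg.Agent.Helper27.M24TwoB

/-!
# Fast evaluation of the summand of `M24TwoB`

The number of places where two tables agree is computed with a few operations on 120-bit numbers:
the 5-bit digits of the exclusive or that are nonzero are marked by one bit each, and the marks are
counted by reduction modulo `31`.
-/

set_option autoImplicit false

namespace Cfsg.Agent.Helper27.M24Blk

open Cfsg Cfsg.Agent.Helper7

theorem tbl_eq_pow (y j : ℕ) : tbl y j = y / 2 ^ (5 * j) % 2 ^ 5 := by
  show y / 32 ^ j % 32 = _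
  rw [pow_mul]
  norm_num

theorem testBit_tbl (y j i : ℕ) :
    (tbl y j).testBit i = (decide (i < 5) && y.testBit (i + 5 * j)) := by
  rw [tbl_eq_pow, Nat.testBit_mod_two_pow, Nat.testBit_div_two_pow]

theorem tbl_eq_zero_iff (x j : ℕ) : tbl x j = 0 ↔ ∀ i < 5, x.testBit (i + 5 * j) = false := by
  constructor
  · intro h i hi
    have h1 := testBit_tbl x j i
    rw [h, Nat.zero_testBit] at h1
    simpa [hi] using h1.symm
  · intro h
    apply Nat.eq_of_testBit_eq
    intro i
    rw [testBit_tbl, Nat.zero_testBit]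
    by_cases hi : i < 5
    · rw [h i hi]; simp
    · simp [hi]

/-- the lowest bit of each of the 24 digits -/
def mask24 : ℕ := 0x084210842108421084210842108421

/-- one bit for each nonzero 5-bit digit -/
def nz (x : ℕ) : ℕ :=
  Nat.land (Nat.lor x (Nat.lor (Nat.shiftRight x 1) (Nat.lor (Nat.shiftRight x 2)
    (Nat.lor (Nat.shiftRight x 3) (Nat.shiftRight x 4))))) mask24

theorem testBit_nz (x k : ℕ) : (nz x).testBit k =
    ((x.testBit k || (x.testBit (1 + k) || (x.testBit (2 + k) || (x.testBit (3 + k) ||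
      x.testBit (4 + k))))) && mask24.testBit k) := by
  show ((x ||| (x >>> 1 ||| (x >>> 2 ||| (x >>> 3 ||| x >>> 4)))) &&& mask24).testBit k = _
  simp only [Nat.testBit_and, Nat.testBit_or, Nat.testBit_shiftRight]

theorem mask_bit : ∀ j < 24, ∀ i < 5, mask24.testBit (i + 5 * j) = decide (i = 0) := by
  decide +kernel

theorem small_testBit {v i : ℕ} (hv : v ≤ 1) (hi : 1 ≤ i) : v.testBit i = false := by
  apply Nat.testBit_lt_two_pow
  have h2 : 2 ^ 1 ≤ 2 ^ i := Nat.pow_le_pow_right (by norm_num) hi
  omega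

theorem nz_tbl (x : ℕ) {j : ℕ} (hj : j < 24) :
    tbl (nz x) j = if tbl x j = 0 then 0 else 1 := by
  have hle : (if tbl x j = 0 then 0 else 1) ≤ 1 := by split_ifs <;> omega
  apply Nat.eq_of_testBit_eq
  intro i
  rw [testBit_tbl, testBit_nz]
  by_cases hi : i < 5
  · rw [mask_bit j hj i hi]
    by_cases hi0 : i = 0
    · subst hi0
      by_cases hz : tbl x j = 0
      · rw [if_pos hz, Nat.zero_testBit]
        have h := (tbl_eq_zero_iff x j).mp hz
        have b0 := h 0 (by norm_num)
        have b1 := h 1 (by norm_num)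
        have b2 := h 2 (by norm_num)
        have b3 := h 3 (by norm_num)
        have b4 := h 4 (by norm_num)
        simp only [Nat.zero_add] at b0 ⊢
        rw [b0, b1, b2, b3, b4]
        rfl
      · rw [if_neg hz]
        have h : ¬ ∀ i < 5, x.testBit (i + 5 * j) = false :=
          fun h => hz ((tbl_eq_zero_iff x j).mpr h)
        push Not at h
        obtain ⟨i', hi', hb⟩ := h
        have hb' : x.testBit (i' + 5 * j) = true := by simpa using hb
        simp only [Nat.zero_add]
        interval_cases i' <;> simp_all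
    · have hd : decide (i = 0) = false := by simp [hi0]
      rw [hd, Bool.and_false, Bool.and_false]
      exact (small_testBit hle (by omega)).symm
  · have hd : decide (i < 5) = false := by simp [hi]
    rw [hd, Bool.false_and]
    exact (small_testBit hle (by omega)).symm

theorem mod31 : ∀ (n y : ℕ), y < 32 ^ n → y % 31 = (∑ j ∈ Finset.range n, tbl y j) % 31
  | 0, y, h => by
      rw [pow_zero] at h
      have : y = 0 := by omega
      subst this
      rfl
  | n + 1, y, h => by
      have ih := mod31 n (y / 32) (by rw [pow_succ] at h; omega)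
      rw [Finset.sum_range_succ']
      have e : ∑ k ∈ Finset.range n, tbl y (k + 1) = ∑ k ∈ Finset.range n, tbl (y / 32) k :=
        Finset.sum_congr rfl (fun k _ => tbl_succ y k)
      rw [e, tbl_zero]
      omega

theorem tbl_xor (c e j : ℕ) : tbl (c ^^^ e) j = tbl c j ^^^ tbl e j := by
  rw [tbl_eq_pow, tbl_eq_pow, tbl_eq_pow, ← Nat.shiftRight_eq_div_pow, ← Nat.shiftRight_eq_div_pow,
    ← Nat.shiftRight_eq_div_pow, Nat.shiftRight_xor_distrib, Nat.xor_mod_two_pow]

theorem xor_eq_zero_iff' (a b : ℕ) : a ^^^ b = 0 ↔ a = b := by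
  constructor
  · intro h
    have h1 : a ^^^ (a ^^^ b) = b := Nat.xor_xor_cancel_left a b
    rw [h, Nat.xor_zero] at h1
    exact h1
  · rintro rfl
    exact Nat.xor_self a

/-- the number of places where two tables agree, fast -/
def agrF (e c : ℕ) : ℕ := Nat.sub 24 (Nat.mod (nz (Nat.xor c e)) 31)

theorem agrF_eq (e c : ℕ) : agrF e c = agr e c := by
  have hx : ∀ j, (tbl (c ^^^ e) j = 0) ↔ tbl e j = tbl c j := by
    intro j
    rw [tbl_xor, xor_eq_zero_iff']
    exact eq_comm
  have hlt : nz (c ^^^ e) < 32 ^ 24 := by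
    have h1 : nz (c ^^^ e) ≤ mask24 := Nat.and_le_right
    have h2 : mask24 < 32 ^ 24 := by decide
    omega
  have h31 := mod31 24 _ hlt
  have hB : ∑ j ∈ Finset.range 24, tbl (nz (c ^^^ e)) j =
      ∑ j ∈ Finset.range 24, if tbl e j = tbl c j then 0 else 1 := by
    apply Finset.sum_congr rfl
    intro j hj
    rw [nz_tbl _ (Finset.mem_range.mp hj)]
    simp only [hx j]
  have hAB : (∑ j ∈ Finset.range 24, if tbl e j = tbl c j then 1 else 0) +
      (∑ j ∈ Finset.range 24, if tbl e j = tbl c j then 0 else 1) = 24 := by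
    rw [← Finset.sum_add_distrib]
    have : ∀ j ∈ Finset.range 24, ((if tbl e j = tbl c j then 1 else 0) +
        (if tbl e j = tbl c j then 0 else 1) : ℕ) = 1 := by
      intro j _
      split_ifs <;> rfl
    rw [Finset.sum_congr rfl this]
    simp
  have hagr : agr e c = ∑ j ∈ Finset.range 24, if tbl e j = tbl c j then 1 else 0 := by
    unfold agr
    rw [sum24_eq]
    apply Finset.sum_congr rfl
    intro j _
    rw [cond_beq]
  rw [hagr]
  show 24 - nz (c ^^^ e) % 31 = _
  rw [h31, hB]
  omega

theorem cnt2_eq (e c : ℕ) : cnt2 e c = agr (compF e (compF c e)) c := by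
  unfold cnt2 agr
  rw [sum24_eq, sum24_eq]
  apply Finset.sum_congr rfl
  intro j hj
  have hj' : j < 24 := Finset.mem_range.mp hj
  rw [compF_eq, compF_eq, tbl_comp _ _ hj', tbl_comp _ _ hj']

/-- the test of `zq`, fast -/
def zqF (e c : ℕ) : Bool := zt (agrF e c) (agrF (compF e (compF c e)) c)

theorem zqF_eq (e c : ℕ) : zqF e c = zq e c := by
  unfold zqF zq
  rw [agrF_eq, agrF_eq, cnt2_eq]

/-- the summand of the convolution, fast -/
def fzF (e i c : ℕ) : ℕ := cond (Nat.blt i NA) (cond (zqF e c) 1 0) 0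

theorem fzF_eq : fzF = fz := by
  funext e i c
  unfold fzF fz
  rw [zqF_eq]

theorem conv_eqF [Fintype ↥M24] {u : ↥M24} {e : ℕ} (hu : IsTbl (u : Equiv.Perm GolayPt) e) :
    Helper81.conv aFun bFun u = ((sumK (fzF e) 0 12 : ℕ) : ℂ) := by
  rw [fzF_eq]
  exact conv_eq hu

end Cfsg.Agent.Helper27.M24Blk
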