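import Cfsg.Agent.Helper27.M24Fast
import Cfsg.Agent.Helper27.M24OddData
import Cfsg.Agent.Helper93.M24Rigid

/-!
# Elements of odd order in `M24` and the convolution of `M24TwoB`

Every nontrivial element of odd order of `M24` is conjugate to one of twelve representatives
(`odd_conj`), and the convolution `aFun * bFun` takes even values at them; its value at `1` is
`11385`.
-/

set_option autoImplicit false

namespace Cfsg.Agent.Helper27.M24Blk

open Cfsg Cfsg.Agent.Helper7 Cfsg.Agent.Helper27.M24Invol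

/-! ### Normal forms -/

theorem fix_of_pow_fix {g : Equiv.Perm GolayPt} {m : ℕ} (hm : Nat.Coprime m (orderOf g))
    {a : GolayPt} (h : (g ^ m) a = a) : g a = a := by
  obtain ⟨k, hk⟩ := exists_pow_eq_self_of_coprime hm
  have h2 := Equiv.Perm.pow_apply_eq_self_of_apply_eq_self h k
  rwa [hk] at h2

theorem card_univ_golay : (Finset.univ : Finset GolayPt).card = 24 := by
  rw [Finset.card_univ]
  rfl

theorem conj_apply {w x : Equiv.Perm GolayPt} {p q r s : GolayPt} (hp : w p = r) (hq : w q = s)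
    (h : x r = s) : (w⁻¹ * x * w) p = q := by
  rw [Equiv.Perm.mul_apply, Equiv.Perm.mul_apply, hp, h, ← hq]
  simp

theorem odd_normal {x : Equiv.Perm GolayPt} (hx : x ∈ M24) (h1 : x ≠ 1)
    (hodd : ¬ 2 ∣ orderOf x) :
    ∃ w ∈ M24, ((w⁻¹ * x * w) (pt 0) = pt 1 ∧ (w⁻¹ * x * w) (pt 1) = pt 2 ∧
        (w⁻¹ * x * w) (pt 2) = pt 3 ∧ (w⁻¹ * x * w) (pt 3) = pt 4) ∨
      ((w⁻¹ * x * w) (pt 0) = pt 1 ∧ (w⁻¹ * x * w) (pt 1) = pt 2 ∧
        (w⁻¹ * x * w) (pt 2) = pt 0 ∧ (w⁻¹ * x * w) (pt 3) = pt 4) := by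
  have hc2 : Nat.Coprime 2 (orderOf x) := (Nat.Prime.coprime_iff_not_dvd Nat.prime_two).mpr hodd
  have hc4 : Nat.Coprime 4 (orderOf x) := by
    have e : (4 : ℕ) = 2 ^ 2 := by norm_num
    rw [e]
    exact Nat.Coprime.pow_left 2 hc2
  obtain ⟨a, ha⟩ : ∃ a, x a ≠ a := by
    by_contra hcon
    push Not at hcon
    exact h1 (Equiv.ext hcon)
  have h2 : x (x a) ≠ a := by
    intro h
    apply ha
    apply fix_of_pow_fix hc2
    rw [sq, Equiv.Perm.mul_apply]
    exact h
  have h4 : x (x (x (x a))) ≠ a := by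
    intro h
    apply ha
    apply fix_of_pow_fix hc4
    have e : x ^ 4 = x * x * x * x := by rw [pow_succ, pow_succ, pow_succ, pow_one]
    rw [e]
    simp only [Equiv.Perm.mul_apply]
    exact h
  have inj : ∀ {p q : GolayPt}, x p = x q → p = q := fun h => x.injective h
  by_cases h3 : x (x (x a)) = a
  · -- a 3-cycle, and a further moved point
    obtain ⟨b, hb0, hb1, hb2, hb⟩ : ∃ b, b ≠ a ∧ b ≠ x a ∧ b ≠ x (x a) ∧ x b ≠ b := by
      by_contra hcon
      push Not at hcon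
      apply h1
      apply Helper93.eq_one_of_nine_fixed hx
      have hsub : Finset.univ \ ({a, x a, x (x a)} : Finset GolayPt) ⊆
          Finset.univ.filter (fun p => x p = p) := by
        intro b hb
        rw [Finset.mem_sdiff, Finset.mem_insert, Finset.mem_insert, Finset.mem_singleton] at hb
        rw [Finset.mem_filter]
        refine ⟨Finset.mem_univ _, hcon b (fun h => hb.2 (Or.inl h))
          (fun h => hb.2 (Or.inr (Or.inl h))) (fun h => hb.2 (Or.inr (Or.inr h)))⟩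
      have hc1 := Finset.le_card_sdiff ({a, x a, x (x a)} : Finset GolayPt) Finset.univ
      have hc2 : ({a, x a, x (x a)} : Finset GolayPt).card ≤ 3 := Finset.card_le_three
      have hc3 := Finset.card_le_card hsub
      rw [card_univ_golay] at hc1
      omega
    have hnd : [a, x a, x (x a), b, x b].Nodup := by
      simp only [List.nodup_cons, List.mem_cons, List.not_mem_nil, or_false, not_or,
        List.nodup_nil, and_true, not_false_eq_true]
      refine ⟨⟨fun h => ha h.symm, fun h => h2 h.symm, fun h => hb0 h.symm, ?_⟩,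
        ⟨fun h => ha (inj h).symm, fun h => hb1 h.symm, ?_⟩, ⟨fun h => hb2 h.symm, ?_⟩,
        fun h => hb h.symm⟩
      · intro h
        rw [← h3] at h
        exact hb2 (inj h.symm)
      · intro h
        exact hb0 (inj h.symm)
      · intro h
        exact hb1 (inj h.symm)
    obtain ⟨w, hw, hmap⟩ := five_trans _ rfl hnd
    rw [G3_eq] at hw
    simp only [List.map_cons, List.map_nil, List.cons.injEq, and_true] at hmap
    obtain ⟨e0, e1, e2, e3, e4⟩ := hmap
    exact ⟨w, hw, Or.inr ⟨conj_apply e0 e1 rfl, conj_apply e1 e2 rfl, conj_apply e2 e0 h3,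
      conj_apply e3 e4 rfl⟩⟩
  · have hnd : [a, x a, x (x a), x (x (x a)), x (x (x (x a)))].Nodup := by
      simp only [List.nodup_cons, List.mem_cons, List.not_mem_nil, or_false, not_or,
        List.nodup_nil, and_true, not_false_eq_true]
      refine ⟨⟨fun h => ha h.symm, fun h => h2 h.symm, fun h => h3 h.symm, fun h => h4 h.symm⟩,
        ⟨fun h => ha (inj h).symm, fun h => h2 (inj h).symm, fun h => h3 (inj h).symm⟩,
        ⟨fun h => ha (inj (inj h)).symm, fun h => h2 (inj (inj h)).symm⟩,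
        fun h => ha (inj (inj (inj h))).symm⟩
    obtain ⟨w, hw, hmap⟩ := five_trans _ rfl hnd
    rw [G3_eq] at hw
    simp only [List.map_cons, List.map_nil, List.cons.injEq, and_true] at hmap
    obtain ⟨e0, e1, e2, e3, e4⟩ := hmap
    exact ⟨w, hw, Or.inl ⟨conj_apply e0 e1 rfl, conj_apply e1 e2 rfl, conj_apply e2 e3 rfl,
      conj_apply e3 e4 rfl⟩⟩

/-! ### The candidates -/

/-- the tables of the coset of `X` modulo the stabiliser of the indices `0, 1, 2, 3` -/
def allEX (X : ℕ) : List ℕ :=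
  T4.flatMap (fun a => T5.flatMap (fun b => T6.map (fun c => compF X (compF (compF a b) c))))

theorem cand_of_normal {y : Equiv.Perm GolayPt} (hy : y ∈ M24) {X : ℕ} (hX : codeM24 X = true)
    (h0 : y (pt 0) = pt (tbl X 0)) (h1 : y (pt 1) = pt (tbl X 1)) (h2 : y (pt 2) = pt (tbl X 2))
    (h3 : y (pt 3) = pt (tbl X 3)) : ∃ e ∈ allEX X, IsTbl y e := by
  have hXT := isTbl_permOf (validCode_of_codeM24 hX)
  have hs : (permOf X)⁻¹ * y ∈ M24 ⊓ fixL [0, 1, 2, 3] := by
    refine Subgroup.mem_inf.mpr ⟨M24.mul_mem (M24.inv_mem (permOf_mem_M24 hX)) hy, ?_⟩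
    rw [mem_fixL]
    intro j hj
    simp only [List.mem_cons, List.not_mem_nil, or_false] at hj
    rw [Equiv.Perm.mul_apply, Equiv.Perm.inv_eq_iff_eq]
    rcases hj with rfl | rfl | rfl | rfl
    · rw [h0, hXT.apply_pt (by norm_num)]
    · rw [h1, hXT.apply_pt (by norm_num)]
    · rw [h2, hXT.apply_pt (by norm_num)]
    · rw [h3, hXT.apply_pt (by norm_num)]
  obtain ⟨a, ha, b, hb, c, hc, hT⟩ := stab4_decomp hs
  refine ⟨compF X (compF (compF a b) c), ?_, ?_⟩
  · unfold allEX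
    rw [List.mem_flatMap]
    refine ⟨a, ha, ?_⟩
    rw [List.mem_flatMap]
    refine ⟨b, hb, ?_⟩
    rw [List.mem_map]
    exact ⟨c, hc, rfl⟩
  · have e : y = permOf X * ((permOf X)⁻¹ * y) := by group
    rw [e]
    exact hXT.mulF hT

/-! ### Certificates -/

/-- fast powers of a table -/
def powF (c : ℕ) : ℕ → ℕ
  | 0 => idCode
  | n + 1 => compF c (powF c n)

theorem isTbl_powF {g : Equiv.Perm GolayPt} {c : ℕ} (hg : IsTbl g c) (n : ℕ) :
    IsTbl (g ^ n) (powF c n) := by
  induction n with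
  | zero => rw [pow_zero]; exact IsTbl.one
  | succ n ih => rw [pow_succ']; exact hg.mulF ih

theorem idCode_ok : codeM24 idCode = true := by decide +kernel

theorem U_ok : ∀ c ∈ U0 ++ U1 ++ U2 ++ U3, codeM24 c = true := by decide +kernel

theorem T_code {pre : List ℕ} {c Dm : ℕ} {T : List ℕ} (h : transCheck pre c Dm T = true) :
    ∀ code ∈ T, codeM24 code = true := by
  intro code hcode
  unfold transCheck at h
  rw [Bool.and_eq_true] at h
  have h1 := List.all_eq_true.mp h.1 code hcode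
  rw [Bool.and_eq_true] at h1
  exact h1.1

theorem getD_code {l : List ℕ} (h : ∀ c ∈ l, codeM24 c = true) (i : ℕ) :
    codeM24 (l.getD i idCode) = true := by
  rw [List.getD_eq_getElem?_getD]
  cases hi : l[i]? with
  | none => exact idCode_ok
  | some c => exact h c (List.mem_of_getElem? hi)

/-- the conjugating element coded by seven indices into the transversals -/
def kOf (x : ℕ) : ℕ :=
  compF (U0.getD (tbl x 0) idCode) (compF (U1.getD (tbl x 1) idCode)
    (compF (U2.getD (tbl x 2) idCode) (compF (U3.getD (tbl x 3) idCode)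
      (compF (T4.getD (tbl x 4) idCode) (compF (T5.getD (tbl x 5) idCode)
        (T6.getD (tbl x 6) idCode))))))

theorem code_perm {c : ℕ} (h : codeM24 c = true) :
    ∃ κ : Equiv.Perm GolayPt, κ ∈ M24 ∧ IsTbl κ c :=
  ⟨permOf c, permOf_mem_M24 h, isTbl_permOf (validCode_of_codeM24 h)⟩

theorem mul_perm {c d : ℕ} (hc : ∃ κ : Equiv.Perm GolayPt, κ ∈ M24 ∧ IsTbl κ c)
    (hd : ∃ κ : Equiv.Perm GolayPt, κ ∈ M24 ∧ IsTbl κ d) :
    ∃ κ : Equiv.Perm GolayPt, κ ∈ M24 ∧ IsTbl κ (compF c d) := by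
  obtain ⟨κ, hκ, hκT⟩ := hc
  obtain ⟨μ, hμ, hμT⟩ := hd
  exact ⟨κ * μ, M24.mul_mem hκ hμ, hκT.mulF hμT⟩

theorem kOf_perm (x : ℕ) : ∃ κ : Equiv.Perm GolayPt, κ ∈ M24 ∧ IsTbl κ (kOf x) := by
  have h0 : ∀ c ∈ U0, codeM24 c = true := fun c hc => U_ok c (by simp [hc])
  have h1 : ∀ c ∈ U1, codeM24 c = true := fun c hc => U_ok c (by simp [hc])
  have h2 : ∀ c ∈ U2, codeM24 c = true := fun c hc => U_ok c (by simp [hc])
  have h3 : ∀ c ∈ U3, codeM24 c = true := fun c hc => U_ok c (by simp [hc])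
  unfold kOf
  exact mul_perm (code_perm (getD_code h0 _)) (mul_perm (code_perm (getD_code h1 _))
    (mul_perm (code_perm (getD_code h2 _)) (mul_perm (code_perm (getD_code h3 _))
      (mul_perm (code_perm (getD_code (T_code T4_ok) _))
        (mul_perm (code_perm (getD_code (T_code T5_ok) _))
          (code_perm (getD_code (T_code T6_ok) _)))))))

/-- representative number `i` -/
def rep (i : ℕ) : ℕ := repsL.getD i 0

/-- the certificate check: the element is conjugate to a representative, or a power of it is an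
involution -/
def checkO (e : ℕ) (t : ℕ × ℕ × ℕ) : Bool :=
  cond (Nat.beq t.1 0)
    (Nat.blt t.2.2 12 && Nat.beq (compF (kOf t.2.1) e) (compF (rep t.2.2) (kOf t.2.1)))
    (Nat.beq (compF (powF e t.1) (powF e t.1)) idCode && Nat.blt t.2.1 24 &&
      !(Nat.beq (tbl (powF e t.1) t.2.1) t.2.1))

theorem checkO_spec {y : Equiv.Perm GolayPt} {e : ℕ} (he : IsTbl y e) {t : ℕ × ℕ × ℕ}
    (h : checkO e t = true) (hodd : ¬ 2 ∣ orderOf y) :
    ∃ κ : Equiv.Perm GolayPt, κ ∈ M24 ∧ ∃ i < 12, IsTbl (κ * y * κ⁻¹) (rep i) := by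
  unfold checkO at h
  by_cases hm : Nat.beq t.1 0 = true
  · rw [hm, cond_true, Bool.and_eq_true, Nat.blt_eq] at h
    obtain ⟨κ, hκ, hκT⟩ := kOf_perm t.2.1
    exact ⟨κ, hκ, t.2.2, h.1, isTbl_conj hκT he (Nat.eq_of_beq_eq_true h.2)⟩
  · exfalso
    rw [Bool.not_eq_true] at hm
    rw [hm, cond_false, Bool.and_eq_true, Bool.and_eq_true, Nat.blt_eq] at h
    obtain ⟨⟨hsq, hj⟩, hne⟩ := h
    have hpow := isTbl_powF he t.1
    have hsq' : y ^ t.1 * y ^ t.1 = 1 := by
      have h1 := hpow.mulF hpow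
      rw [Nat.eq_of_beq_eq_true hsq] at h1
      exact h1.eq IsTbl.one
    have hne' : y ^ t.1 ≠ 1 := by
      apply ne_one_of_tbl hpow hj
      intro e'
      rw [e', Nat.beq_refl] at hne
      exact absurd hne (by decide)
    have hd : orderOf y ∣ 2 * t.1 := by
      apply orderOf_dvd_of_pow_eq_one
      rw [two_mul, pow_add]
      exact hsq'
    have hc : Nat.Coprime (orderOf y) 2 :=
      ((Nat.Prime.coprime_iff_not_dvd Nat.prime_two).mpr hodd).symm
    exact hne' (orderOf_dvd_iff_pow_eq_one.mp (hc.dvd_of_dvd_mul_left hd))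

set_option maxRecDepth 100000 in
theorem certY_ok : (Nat.ble (allEX Yc).length certY.length &&
    ((allEX Yc).zip certY).all (fun p => checkO p.1 p.2)) = true := by decide +kernel

set_option maxRecDepth 100000 in
theorem certW_ok : (Nat.ble (allEX Wc).length certW.length &&
    ((allEX Wc).zip certW).all (fun p => checkO p.1 p.2)) = true := by decide +kernel

theorem cert_specX {X : ℕ} {cert : List (ℕ × ℕ × ℕ)}
    (hok : (Nat.ble (allEX X).length cert.length &&
      ((allEX X).zip cert).all (fun p => checkO p.1 p.2)) = true) {e : ℕ} (he : e ∈ allEX X) :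
    ∃ t, checkO e t = true := by
  rw [Bool.and_eq_true] at hok
  exact zip_all (fun p => checkO p.1 p.2) (allEX X) cert (Nat.le_of_ble_eq_true hok.1) hok.2 e he

theorem Yc_ok : codeM24 Yc = true ∧ tbl Yc 0 = 1 ∧ tbl Yc 1 = 2 ∧ tbl Yc 2 = 3 ∧ tbl Yc 3 = 4 := by
  decide +kernel

theorem Wc_ok : codeM24 Wc = true ∧ tbl Wc 0 = 1 ∧ tbl Wc 1 = 2 ∧ tbl Wc 2 = 0 ∧ tbl Wc 3 = 4 := by
  decide +kernel

theorem orderOf_conj_inv (w x : Equiv.Perm GolayPt) : orderOf (w⁻¹ * x * w) = orderOf x := by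
  have h := orderOf_injective (MulAut.conj w⁻¹).toMonoidHom (MulAut.conj w⁻¹).injective x
  simpa using h

/-- every nontrivial element of odd order is conjugate to one of the representatives -/
theorem odd_conj {x : Equiv.Perm GolayPt} (hx : x ∈ M24) (h1 : x ≠ 1) (hodd : ¬ 2 ∣ orderOf x) :
    ∃ κ : Equiv.Perm GolayPt, κ ∈ M24 ∧ ∃ i < 12, IsTbl (κ * x * κ⁻¹) (rep i) := by
  obtain ⟨w, hw, hcase⟩ := odd_normal hx h1 hodd
  have hy : w⁻¹ * x * w ∈ M24 := M24.mul_mem (M24.mul_mem (M24.inv_mem hw) hx) hw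
  have hodd' : ¬ 2 ∣ orderOf (w⁻¹ * x * w) := by rw [orderOf_conj_inv]; exact hodd
  have key : ∀ {e : ℕ}, IsTbl (w⁻¹ * x * w) e → (∃ t, checkO e t = true) →
      ∃ κ : Equiv.Perm GolayPt, κ ∈ M24 ∧ ∃ i < 12, IsTbl (κ * x * κ⁻¹) (rep i) := by
    intro e he ⟨t, ht⟩
    obtain ⟨κ, hκ, i, hi, hT⟩ := checkO_spec he ht hodd'
    refine ⟨κ * w⁻¹, M24.mul_mem hκ (M24.inv_mem hw), i, hi, ?_⟩
    have e' : κ * w⁻¹ * x * (κ * w⁻¹)⁻¹ = κ * (w⁻¹ * x * w) * κ⁻¹ := by group
    rw [e']
    exact hT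
  rcases hcase with ⟨c0, c1, c2, c3⟩ | ⟨c0, c1, c2, c3⟩
  · obtain ⟨hY, t0, t1, t2, t3⟩ := Yc_ok
    obtain ⟨e, he, hT⟩ := cand_of_normal hy hY (by rw [t0]; exact c0) (by rw [t1]; exact c1)
      (by rw [t2]; exact c2) (by rw [t3]; exact c3)
    exact key hT (cert_specX certY_ok he)
  · obtain ⟨hW, t0, t1, t2, t3⟩ := Wc_ok
    obtain ⟨e, he, hT⟩ := cand_of_normal hy hW (by rw [t0]; exact c0) (by rw [t1]; exact c1)
      (by rw [t2]; exact c2) (by rw [t3]; exact c3)
    exact key hT (cert_specX certW_ok he)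

/-! ### The values of the convolution -/

set_option maxRecDepth 100000 in
theorem rep_par0 : Nat.mod (sumK (fzF (rep 0)) 0 12) 2 = 0 := by decide +kernel

set_option maxRecDepth 100000 in
theorem rep_par1 : Nat.mod (sumK (fzF (rep 1)) 0 12) 2 = 0 := by decide +kernel

set_option maxRecDepth 100000 in
theorem rep_par2 : Nat.mod (sumK (fzF (rep 2)) 0 12) 2 = 0 := by decide +kernel

set_option maxRecDepth 100000 in
theorem rep_par3 : Nat.mod (sumK (fzF (rep 3)) 0 12) 2 = 0 := by decide +kernel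

set_option maxRecDepth 100000 in
theorem rep_par4 : Nat.mod (sumK (fzF (rep 4)) 0 12) 2 = 0 := by decide +kernel

set_option maxRecDepth 100000 in
theorem rep_par5 : Nat.mod (sumK (fzF (rep 5)) 0 12) 2 = 0 := by decide +kernel

set_option maxRecDepth 100000 in
theorem rep_par6 : Nat.mod (sumK (fzF (rep 6)) 0 12) 2 = 0 := by decide +kernel

set_option maxRecDepth 100000 in
theorem rep_par7 : Nat.mod (sumK (fzF (rep 7)) 0 12) 2 = 0 := by decide +kernel

set_option maxRecDepth 100000 in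
theorem rep_par8 : Nat.mod (sumK (fzF (rep 8)) 0 12) 2 = 0 := by decide +kernel

set_option maxRecDepth 100000 in
theorem rep_par9 : Nat.mod (sumK (fzF (rep 9)) 0 12) 2 = 0 := by decide +kernel

set_option maxRecDepth 100000 in
theorem rep_par10 : Nat.mod (sumK (fzF (rep 10)) 0 12) 2 = 0 := by decide +kernel

set_option maxRecDepth 100000 in
theorem rep_par11 : Nat.mod (sumK (fzF (rep 11)) 0 12) 2 = 0 := by decide +kernel

set_option maxRecDepth 100000 in
theorem one_sum : sumK (fzF idCode) 0 12 = 11385 := by decide +kernel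

theorem rep_par : ∀ i < 12, Nat.mod (sumK (fzF (rep i)) 0 12) 2 = 0 := by
  intro i hi
  match i, hi with
  | 0, _ => exact rep_par0
  | 1, _ => exact rep_par1
  | 2, _ => exact rep_par2
  | 3, _ => exact rep_par3
  | 4, _ => exact rep_par4
  | 5, _ => exact rep_par5
  | 6, _ => exact rep_par6
  | 7, _ => exact rep_par7
  | 8, _ => exact rep_par8
  | 9, _ => exact rep_par9
  | 10, _ => exact rep_par10
  | 11, _ => exact rep_par11
  | n + 12, h => exact absurd h (by omega)

theorem conv_one [Fintype ↥M24] : Helper81.conv aFun bFun 1 = ((11385 : ℕ) : ℂ) := by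
  have h := conv_eqF (u := (1 : ↥M24)) (e := idCode) IsTbl.one
  rw [h, one_sum]

theorem conv_odd [Fintype ↥M24] (g : ↥M24) (h1 : g ≠ 1) (hodd : ¬ 2 ∣ orderOf g) :
    ∃ n : ℕ, Helper81.conv aFun bFun g = (n : ℂ) ∧ 2 ∣ n := by
  have hx1 : (g : Equiv.Perm GolayPt) ≠ 1 := fun h => h1 (Subtype.ext h)
  have hoddx : ¬ 2 ∣ orderOf (g : Equiv.Perm GolayPt) := by
    rw [Subgroup.orderOf_coe]
    exact hodd
  obtain ⟨κ, hκ, i, hi, hT⟩ := odd_conj g.2 hx1 hoddx
  have hcl := Helper81.conv_isClassFunction aFun_class bFun_class g ⟨κ, hκ⟩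
  refine ⟨sumK (fzF (rep i)) 0 12, ?_, Nat.dvd_of_mod_eq_zero (rep_par i hi)⟩
  rw [← hcl]
  exact conv_eqF (u := (⟨κ, hκ⟩ : ↥M24) * g * (⟨κ, hκ⟩ : ↥M24)⁻¹) hT

end Cfsg.Agent.Helper27.M24Blk
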