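import Cfsg.Agent.Helper27.M24BlkData
import Cfsg.Agent.Helper27.M24Invol
import Cfsg.Agent.Helper7.M24
import Cfsg.Agent.Helper7.CodeFast

/-!
# The class of involutions with fixed points in `M24`, as a kernel-checked array

The array `chunks` lists table codes of `11385` involutions of `M24`; the set `Lset` of the
permutations they encode is closed under conjugation by `M24`.  Sums over the array are
evaluated by binary splitting.
-/

set_option autoImplicit false

namespace Cfsg.Agent.Helper27.M24Blk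

open Cfsg Cfsg.Agent.Helper7 Cfsg.Agent.Helper27.M24Invol

/-! ### Arrays of 120-bit entries -/

theorem entA_mod (A m i : ℕ) (hi : i < m) : entA (A % 2 ^ (120 * m)) i = entA A i := by
  show (A % 2 ^ (120 * m)) >>> (120 * i) % 2 ^ 120 = A >>> (120 * i) % 2 ^ 120
  rw [Nat.shiftRight_eq_div_pow, Nat.shiftRight_eq_div_pow]
  have e : 2 ^ (120 * m) = 2 ^ (120 * i) * 2 ^ (120 * (m - i)) := by
    rw [← pow_add]
    congr 1
    rw [← Nat.mul_add]
    congr 1
    omega
  rw [e, Nat.mod_mul_right_div_self]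
  apply Nat.mod_mod_of_dvd
  apply pow_dvd_pow 2
  have : 1 ≤ m - i := by omega
  nlinarith

theorem entA_shift (A m i : ℕ) : entA (A >>> (120 * m)) i = entA A (i + m) := by
  show (A >>> (120 * m)) >>> (120 * i) % 2 ^ 120 = A >>> (120 * (i + m)) % 2 ^ 120
  rw [← Nat.shiftRight_add]
  congr 2
  ring

theorem entA_zero (A : ℕ) : entA A 0 = Nat.mod A (Nat.pow 2 120) := by
  show A >>> (120 * 0) % 2 ^ 120 = A % 2 ^ 120
  rw [Nat.mul_zero, Nat.shiftRight_zero]

/-- a test on all `2 ^ d` entries of an array, by binary splitting -/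
def allS (p : ℕ → ℕ → Bool) : ℕ → ℕ → ℕ → Bool
  | 0, s, A => p s (Nat.mod A (Nat.pow 2 120))
  | d + 1, s, A => allS p d s (Nat.mod A (Nat.pow 2 (Nat.mul 120 (Nat.pow 2 d)))) &&
      allS p d (Nat.add s (Nat.pow 2 d)) (Nat.shiftRight A (Nat.mul 120 (Nat.pow 2 d)))

theorem allS_spec (p : ℕ → ℕ → Bool) : ∀ (d s A : ℕ), allS p d s A = true →
    ∀ i < 2 ^ d, p (s + i) (entA A i) = true
  | 0, s, A, h, i, hi => by
      have hi0 : i = 0 := by simpa using hi
      subst hi0
      rw [entA_zero]
      exact h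
  | d + 1, s, A, h, i, hi => by
      have h' : (allS p d s (A % 2 ^ (120 * 2 ^ d)) &&
          allS p d (s + 2 ^ d) (A >>> (120 * 2 ^ d))) = true := h
      rw [Bool.and_eq_true] at h'
      by_cases hc : i < 2 ^ d
      · have h1 := allS_spec p d s _ h'.1 i hc
        rwa [entA_mod A (2 ^ d) i hc] at h1
      · have hi' : i - 2 ^ d < 2 ^ d := by rw [pow_succ] at hi; omega
        have h1 := allS_spec p d (s + 2 ^ d) _ h'.2 (i - 2 ^ d) hi'
        rw [entA_shift] at h1
        have e1 : i - 2 ^ d + 2 ^ d = i := by omega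
        have e2 : s + 2 ^ d + (i - 2 ^ d) = s + i := by omega
        rwa [e1, e2] at h1

/-- a sum over all `2 ^ d` entries of an array, by binary splitting -/
def sumS (f : ℕ → ℕ → ℕ) : ℕ → ℕ → ℕ → ℕ
  | 0, s, A => f s (Nat.mod A (Nat.pow 2 120))
  | d + 1, s, A => Nat.add (sumS f d s (Nat.mod A (Nat.pow 2 (Nat.mul 120 (Nat.pow 2 d)))))
      (sumS f d (Nat.add s (Nat.pow 2 d)) (Nat.shiftRight A (Nat.mul 120 (Nat.pow 2 d))))

theorem sumS_spec (f : ℕ → ℕ → ℕ) : ∀ (d s A : ℕ),
    sumS f d s A = ∑ i ∈ Finset.range (2 ^ d), f (s + i) (entA A i)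
  | 0, s, A => by
      rw [pow_zero, Finset.sum_range_one, entA_zero]
      rfl
  | d + 1, s, A => by
      have h' : sumS f (d + 1) s A = sumS f d s (A % 2 ^ (120 * 2 ^ d)) +
          sumS f d (s + 2 ^ d) (A >>> (120 * 2 ^ d)) := rfl
      rw [h', sumS_spec f d, sumS_spec f d, pow_succ, mul_two, Finset.sum_range_add]
      congr 1
      · apply Finset.sum_congr rfl
        intro i hi
        rw [entA_mod A _ i (Finset.mem_range.mp hi)]
      · apply Finset.sum_congr rfl
        intro i _
        rw [entA_shift, add_assoc, add_comm i]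

/-! ### The array of involutions -/

/-- the number of entries -/
def NA : ℕ := 11385

/-- chunk `k` of the array -/
def chunk (k : ℕ) : ℕ := chunks.getD k 0

/-- entry `i` of the array -/
def Lc (i : ℕ) : ℕ := entA (chunk (Nat.div i 1024)) (Nat.mod i 1024)

theorem Lc_add (k j : ℕ) (hj : j < 1024) : Lc (1024 * k + j) = entA (chunk k) j := by
  have e1 : (1024 * k + j) / 1024 = k := by omega
  have e2 : (1024 * k + j) % 1024 = j := by omega
  show entA (chunk ((1024 * k + j) / 1024)) ((1024 * k + j) % 1024) = _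
  rw [e1, e2]

theorem Lc_lt (i : ℕ) : Lc i < 32 ^ 24 := by
  have h : Lc i < 2 ^ 120 := Nat.mod_lt _ (by norm_num)
  have e : (32 : ℕ) ^ 24 = 2 ^ 120 := by norm_num
  rw [e]
  exact h

/-- a test on the chunks `a, ..., a + n - 1` -/
def allK (p : ℕ → ℕ → Bool) (a : ℕ) : ℕ → Bool
  | 0 => true
  | k + 1 => allK p a k && allS p 10 (Nat.mul 1024 (Nat.add a k)) (chunk (Nat.add a k))

theorem allK_spec (p : ℕ → ℕ → Bool) (a : ℕ) : ∀ n : ℕ, allK p a n = true →
    ∀ i, 1024 * a ≤ i → i < 1024 * (a + n) → p i (Lc i) = true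
  | 0, _, i, h1, h2 => by omega
  | n + 1, h, i, h1, h2 => by
      have h' : (allK p a n && allS p 10 (1024 * (a + n)) (chunk (a + n))) = true := h
      rw [Bool.and_eq_true] at h'
      by_cases hc : i < 1024 * (a + n)
      · exact allK_spec p a n h'.1 i h1 hc
      · have h3 := allS_spec p 10 (1024 * (a + n)) (chunk (a + n)) h'.2 (i - 1024 * (a + n))
          (by norm_num; omega)
        have e : 1024 * (a + n) + (i - 1024 * (a + n)) = i := by omega
        rw [← Lc_add (a + n) (i - 1024 * (a + n)) (by omega), e] at h3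
        exact h3

/-- a sum over the chunks `a, ..., a + n - 1` -/
def sumK (f : ℕ → ℕ → ℕ) (a : ℕ) : ℕ → ℕ
  | 0 => 0
  | k + 1 => Nat.add (sumK f a k) (sumS f 10 (Nat.mul 1024 (Nat.add a k)) (chunk (Nat.add a k)))

theorem sumK_spec (f : ℕ → ℕ → ℕ) (a : ℕ) : ∀ n : ℕ,
    sumK f a n = ∑ i ∈ Finset.range (1024 * n), f (1024 * a + i) (Lc (1024 * a + i))
  | 0 => by
      show (0 : ℕ) = _
      rw [Nat.mul_zero, Finset.sum_range_zero]
  | n + 1 => by
      have h' : sumK f a (n + 1) = sumK f a n + sumS f 10 (1024 * (a + n)) (chunk (a + n)) := rfl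
      rw [h', sumK_spec f a n, sumS_spec, Nat.mul_succ, Finset.sum_range_add,
        show (2 : ℕ) ^ 10 = 1024 from by norm_num, Nat.add_left_cancel_iff]
      apply Finset.sum_congr rfl
      intro i hi
      have hi' : i < 1024 := Finset.mem_range.mp hi
      have e : 1024 * a + (1024 * n + i) = 1024 * (a + n) + i := by ring
      rw [e, Lc_add (a + n) i hi']

theorem allK_all {p : ℕ → ℕ → Bool} (h : allK p 0 12 = true) : ∀ i < NA, p i (Lc i) = true := by
  intro i hi
  unfold NA at hi
  exact allK_spec p 0 12 h i (by omega) (by omega)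

theorem allK_all2 {p : ℕ → ℕ → Bool} (h1 : allK p 0 6 = true) (h2 : allK p 6 6 = true) :
    ∀ i < NA, p i (Lc i) = true := by
  intro i hi
  unfold NA at hi
  by_cases hc : i < 6144
  · exact allK_spec p 0 6 h1 i (by omega) (by omega)
  · exact allK_spec p 6 6 h2 i (by omega) (by omega)

theorem ble_NA {i : ℕ} (hi : i < NA) : Nat.ble NA i = false := by
  rw [Bool.eq_false_iff]
  intro hb
  have := Nat.le_of_ble_eq_true hb
  omega

/-! ### The checks -/

/-- the entries are involutions -/
def chk1 (i c : ℕ) : Bool := Nat.ble NA i || (Nat.beq (compF c c) idCode && !(Nat.beq c idCode))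

/-- the entries are strictly increasing -/
def chk2 (i c : ℕ) : Bool := Nat.ble NA (Nat.succ i) || Nat.blt c (Lc (Nat.succ i))

/-- entry `i` of an array of 14-bit numbers -/
def piE (P i : ℕ) : ℕ := Nat.mod (Nat.shiftRight P (Nat.mul 14 i)) 16384

/-- conjugation by `g` sends entry `i` to entry `piE P i` -/
def chk3 (g P i c : ℕ) : Bool :=
  Nat.ble NA i || (Nat.blt (piE P i) NA && Nat.beq (compF g c) (compF (Lc (piE P i)) g))

/-- entry `i` of the tree array -/
def qE (i : ℕ) : ℕ := Nat.mod (Nat.shiftRight treeQ (Nat.mul 32 i)) 4294967296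

/-- the parent of `i` -/
def parQ (i : ℕ) : ℕ := Nat.mod (qE i) 16384

/-- the generator leading to `i` -/
def gamQ (i : ℕ) : ℕ := Nat.mod (Nat.div (qE i) 16384) 4

/-- the depth of `i` -/
def depQ (i : ℕ) : ℕ := Nat.div (qE i) 65536

/-- the permutation array of generator number `γ` -/
def piSel (γ : ℕ) : ℕ := cond (Nat.beq γ 0) piA (cond (Nat.beq γ 1) piB piC)

/-- the code of generator number `γ` -/
def cSel (γ : ℕ) : ℕ := cond (Nat.beq γ 0) cA (cond (Nat.beq γ 1) cB cC)

/-- the tree check: the root is `h0c`, the other entries are conjugates of their parents -/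
def chkT (i c : ℕ) : Bool :=
  Nat.ble NA i || cond (Nat.beq (depQ i) 0) (Nat.beq c h0c)
    (Nat.blt (parQ i) NA && Nat.blt (depQ (parQ i)) (depQ i) &&
      Nat.beq (piE (piSel (gamQ i)) (parQ i)) i)

set_option maxRecDepth 100000 in
theorem chk1_ok : allK chk1 0 12 = true := by decide +kernel

set_option maxRecDepth 100000 in
theorem chk2_ok : allK chk2 0 12 = true := by decide +kernel

set_option maxRecDepth 100000 in
theorem chk3A_ok1 : allK (chk3 cA piA) 0 6 = true := by decide +kernel

set_option maxRecDepth 100000 in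
theorem chk3A_ok2 : allK (chk3 cA piA) 6 6 = true := by decide +kernel

set_option maxRecDepth 100000 in
theorem chk3B_ok1 : allK (chk3 cB piB) 0 6 = true := by decide +kernel

set_option maxRecDepth 100000 in
theorem chk3B_ok2 : allK (chk3 cB piB) 6 6 = true := by decide +kernel

set_option maxRecDepth 100000 in
theorem chk3C_ok1 : allK (chk3 cC piC) 0 6 = true := by decide +kernel

set_option maxRecDepth 100000 in
theorem chk3C_ok2 : allK (chk3 cC piC) 6 6 = true := by decide +kernel

set_option maxRecDepth 100000 in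
theorem chkT_ok : allK chkT 0 12 = true := by decide +kernel

end Cfsg.Agent.Helper27.M24Blk
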