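import Cfsg.Agent.Helper27.M24TwoA
import Cfsg.Agent.Helper81.ClassAlgebra

/-!
# The class of involutions with fixed points in `M24`: class functions

The set `Lset` of the permutations encoded by the array of `M24TwoA` consists of involutions of
`M24` and is closed under conjugation by `M24`.  Its indicator function `aFun` is a class
function, and its convolution with the class function `bFun` (a function of the numbers of fixed
points of `g` and `g ^ 2`) is evaluated by a sum over the array.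
-/

set_option autoImplicit false

namespace Cfsg.Agent.Helper27.M24Blk

open Cfsg Cfsg.Agent.Helper7 Cfsg.Agent.Helper27.M24Invol

/-! ### Generalities on tables -/

theorem eq_of_tbl_eq : ∀ (n c d : ℕ), c < 32 ^ n → d < 32 ^ n →
    (∀ k < n, tbl c k = tbl d k) → c = d
  | 0, c, d, hc, hd, _ => by
      rw [pow_zero] at hc hd
      omega
  | n + 1, c, d, hc, hd, h => by
      have h0 := h 0 (Nat.succ_pos n)
      rw [tbl_zero, tbl_zero] at h0
      have h1 : c / 32 = d / 32 := by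
        apply eq_of_tbl_eq n
        · rw [pow_succ] at hc; omega
        · rw [pow_succ] at hd; omega
        · intro k hk
          have := h (k + 1) (by omega)
          rwa [tbl_succ, tbl_succ] at this
      omega

theorem idx_apply_pt {σ : Equiv.Perm GolayPt} {c : ℕ} (h : IsTbl σ c) {j : ℕ} (hj : j < 24) :
    idx (σ (pt j)) = tbl c j := by
  rw [h (pt j), idx_pt hj]

theorem isTbl_conj {γ σ : Equiv.Perm GolayPt} {g c c' : ℕ} (hγ : IsTbl γ g) (hσ : IsTbl σ c)
    (h : compF g c = compF c' g) : IsTbl (γ * σ * γ⁻¹) c' := by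
  intro p
  have h2 := (hγ.mulF hσ) (γ⁻¹ p)
  rw [h, compF_eq, tbl_comp c' g (idx_lt _), ← hγ (γ⁻¹ p)] at h2
  simpa using h2

theorem cond_beq (a b : ℕ) : (cond (Nat.beq a b) 1 0 : ℕ) = if a = b then 1 else 0 := by
  by_cases h : a = b
  · subst h
    rw [Nat.beq_refl, if_pos rfl]
    rfl
  · rw [if_neg h]
    have : Nat.beq a b = false := by
      rw [Bool.eq_false_iff]
      exact fun hb => h (Nat.eq_of_beq_eq_true hb)
    rw [this]
    rfl

/-! ### The permutations of the array -/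

theorem Lc_chk1 {i : ℕ} (hi : i < NA) : compF (Lc i) (Lc i) = idCode ∧ Lc i ≠ idCode := by
  have h := allK_all chk1_ok i hi
  unfold chk1 at h
  rw [ble_NA hi, Bool.false_or, Bool.and_eq_true] at h
  refine ⟨Nat.eq_of_beq_eq_true h.1, ?_⟩
  intro e
  have h2 := h.2
  rw [e, Nat.beq_refl] at h2
  exact absurd h2 (by decide)

theorem Lc_succ {i : ℕ} (hi : i + 1 < NA) : Lc i < Lc (i + 1) := by
  have h := allK_all chk2_ok i (by omega)
  unfold chk2 at h
  have hb : Nat.ble NA (Nat.succ i) = false := ble_NA hi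
  rw [hb, Bool.false_or, Nat.blt_eq] at h
  exact h

theorem Lc_strict : ∀ (j i : ℕ), i < j → j < NA → Lc i < Lc j
  | 0, i, h, _ => by omega
  | j + 1, i, h, hj => by
      have h1 := Lc_succ hj
      by_cases hc : i = j
      · subst hc; exact h1
      · exact lt_trans (Lc_strict j i (by omega) (by omega)) h1

theorem chk3_spec {g P : ℕ} (h1 : allK (chk3 g P) 0 6 = true) (h2 : allK (chk3 g P) 6 6 = true)
    {j : ℕ} (hj : j < NA) : piE P j < NA ∧ compF g (Lc j) = compF (Lc (piE P j)) g := by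
  have h := allK_all2 h1 h2 j hj
  unfold chk3 at h
  rw [ble_NA hj, Bool.false_or, Bool.and_eq_true, Nat.blt_eq] at h
  exact ⟨h.1, Nat.eq_of_beq_eq_true h.2⟩

theorem beq_false_of_ne {a b : ℕ} (h : a ≠ b) : Nat.beq a b = false := by
  rw [Bool.eq_false_iff]
  exact fun hb => h (Nat.eq_of_beq_eq_true hb)

theorem gen_data (γ : ℕ) : ∃ g : Equiv.Perm GolayPt, g ∈ M24 ∧ IsTbl g (cSel γ) ∧
    ∀ j < NA, piE (piSel γ) j < NA ∧
      compF (cSel γ) (Lc j) = compF (Lc (piE (piSel γ) j)) (cSel γ) := by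
  by_cases h0 : γ = 0
  · subst h0
    exact ⟨gA, gA_mem, isTbl_gA, fun j hj => chk3_spec chk3A_ok1 chk3A_ok2 hj⟩
  · by_cases h1 : γ = 1
    · subst h1
      exact ⟨projInv, projInv_mem, isTbl_projInv, fun j hj => chk3_spec chk3B_ok1 chk3B_ok2 hj⟩
    · have e1 : cSel γ = cC := by
        unfold cSel
        rw [beq_false_of_ne h0, beq_false_of_ne h1]
        rfl
      have e2 : piSel γ = piC := by
        unfold piSel
        rw [beq_false_of_ne h0, beq_false_of_ne h1]
        rfl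
      rw [e1, e2]
      exact ⟨cubeTwist, cubeTwist_mem, isTbl_cubeTwist,
        fun j hj => chk3_spec chk3C_ok1 chk3C_ok2 hj⟩

theorem chkT_spec {i : ℕ} (hi : i < NA) : (depQ i = 0 ∧ Lc i = h0c) ∨
    (depQ i ≠ 0 ∧ parQ i < NA ∧ depQ (parQ i) < depQ i ∧
      piE (piSel (gamQ i)) (parQ i) = i) := by
  have h := allK_all chkT_ok i hi
  unfold chkT at h
  rw [ble_NA hi, Bool.false_or] at h
  by_cases hd : depQ i = 0
  · left
    rw [hd, Nat.beq_refl, cond_true] at h
    exact ⟨hd, Nat.eq_of_beq_eq_true h⟩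
  · right
    rw [beq_false_of_ne hd, cond_false, Bool.and_eq_true, Bool.and_eq_true, Nat.blt_eq,
      Nat.blt_eq] at h
    exact ⟨hd, h.1.1, h.1.2, Nat.eq_of_beq_eq_true h.2⟩

theorem exists_perm_aux : ∀ (n i : ℕ), i < NA → depQ i ≤ n →
    ∃ σ : Equiv.Perm GolayPt, σ ∈ M24 ∧ IsTbl σ (Lc i)
  | 0, i, hi, hd => by
      rcases chkT_spec hi with ⟨-, h⟩ | ⟨h, -⟩
      · rw [h]; exact ⟨z1, z1_mem, z1_tbl⟩
      · omega
  | n + 1, i, hi, hd => by
      rcases chkT_spec hi with ⟨-, h⟩ | ⟨-, hp, hdp, hpi⟩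
      · rw [h]; exact ⟨z1, z1_mem, z1_tbl⟩
      · obtain ⟨σ, hσ, hσT⟩ := exists_perm_aux n (parQ i) hp (by omega)
        obtain ⟨g, hg, hgT, hdat⟩ := gen_data (gamQ i)
        obtain ⟨-, hc⟩ := hdat (parQ i) hp
        rw [hpi] at hc
        exact ⟨g * σ * g⁻¹, M24.mul_mem (M24.mul_mem hg hσ) (M24.inv_mem hg),
          isTbl_conj hgT hσT hc⟩

theorem exists_perm {i : ℕ} (hi : i < NA) :
    ∃ σ : Equiv.Perm GolayPt, σ ∈ M24 ∧ IsTbl σ (Lc i) :=
  exists_perm_aux (depQ i) i hi le_rfl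

/-- the permutation with table `Lc i` -/
noncomputable def P (i : ℕ) : Equiv.Perm GolayPt :=
  if h : i < NA then Classical.choose (exists_perm h) else 1

theorem P_mem (i : ℕ) : P i ∈ M24 := by
  unfold P
  split_ifs with h
  · exact (Classical.choose_spec (exists_perm h)).1
  · exact M24.one_mem

theorem P_tbl {i : ℕ} (hi : i < NA) : IsTbl (P i) (Lc i) := by
  unfold P
  rw [dif_pos hi]
  exact (Classical.choose_spec (exists_perm hi)).2

theorem P_sq {i : ℕ} (hi : i < NA) : P i * P i = 1 := by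
  have h := (P_tbl hi).mulF (P_tbl hi)
  rw [(Lc_chk1 hi).1] at h
  exact h.eq IsTbl.one

theorem P_ne_one {i : ℕ} (hi : i < NA) : P i ≠ 1 := by
  intro e
  have h := P_tbl hi
  rw [e] at h
  apply (Lc_chk1 hi).2
  apply eq_of_tbl_eq 24 _ _ (Lc_lt i) (by decide)
  intro k hk
  have h1 := idx_apply_pt h hk
  have h2 := idx_apply_pt IsTbl.one hk
  rw [← h1, ← h2]

theorem P_inj {i j : ℕ} (hi : i < NA) (hj : j < NA) (h : P i = P j) : i = j := by
  have e : Lc i = Lc j := by
    apply eq_of_tbl_eq 24 _ _ (Lc_lt i) (Lc_lt j)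
    intro k hk
    rw [← idx_apply_pt (P_tbl hi) hk, ← idx_apply_pt (P_tbl hj) hk, h]
  by_contra hne
  rcases Nat.lt_or_gt_of_ne hne with hlt | hlt
  · exact absurd e (ne_of_lt (Lc_strict j i hlt hj))
  · exact absurd e.symm (ne_of_lt (Lc_strict i j hlt hi))

/-- the set of the permutations of the array -/
def Lset : Set (Equiv.Perm GolayPt) := {σ | ∃ i < NA, σ = P i}

theorem Lset_finite : Lset.Finite := by
  apply ((Set.finite_Iio NA).image P).subset
  rintro σ ⟨i, hi, rfl⟩
  exact ⟨i, hi, rfl⟩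

/-- the permutations whose conjugation preserves a set -/
def conjStab (S : Set (Equiv.Perm GolayPt)) : Subgroup (Equiv.Perm GolayPt) where
  carrier := {k | ∀ σ, k * σ * k⁻¹ ∈ S ↔ σ ∈ S}
  mul_mem' := by
    intro a b ha hb σ
    have e : a * b * σ * (a * b)⁻¹ = a * (b * σ * b⁻¹) * a⁻¹ := by group
    rw [e, ha, hb]
  one_mem' := by
    intro σ
    rw [one_mul, inv_one, mul_one]
  inv_mem' := by
    intro a ha σ
    have h := ha (a⁻¹ * σ * a⁻¹⁻¹)
    have e : a * (a⁻¹ * σ * a⁻¹⁻¹) * a⁻¹ = σ := by group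
    rw [e] at h
    exact h.symm

theorem gen_mem_conjStab {g : Equiv.Perm GolayPt} {c Pt : ℕ} (hg : IsTbl g c)
    (h1 : allK (chk3 c Pt) 0 6 = true) (h2 : allK (chk3 c Pt) 6 6 = true) :
    g ∈ conjStab Lset := by
  have hfw : ∀ σ ∈ Lset, g * σ * g⁻¹ ∈ Lset := by
    rintro σ ⟨i, hi, rfl⟩
    obtain ⟨hj, hc⟩ := chk3_spec h1 h2 hi
    exact ⟨piE Pt i, hj, (isTbl_conj hg (P_tbl hi) hc).eq (P_tbl hj)⟩
  intro σ
  constructor
  · intro h
    have : Finite ↥Lset := Lset_finite.to_subtype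
    let f : ↥Lset → ↥Lset := fun τ => ⟨g * τ.1 * g⁻¹, hfw τ.1 τ.2⟩
    have hinj : Function.Injective f := by
      intro τ1 τ2 e
      have e' : g * τ1.1 * g⁻¹ = g * τ2.1 * g⁻¹ := congrArg Subtype.val e
      exact Subtype.ext (mul_left_cancel (mul_right_cancel e'))
    obtain ⟨τ, hτ⟩ := (Finite.injective_iff_surjective.mp hinj) ⟨g * σ * g⁻¹, h⟩
    have e' : g * τ.1 * g⁻¹ = g * σ * g⁻¹ := congrArg Subtype.val hτ
    have e2 : τ.1 = σ := mul_left_cancel (mul_right_cancel e')
    rw [← e2]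
    exact τ.2
  · exact hfw σ

theorem M24_le_conjStab : M24 ≤ conjStab Lset := by
  rw [← G3_eq, G3, Subgroup.closure_le]
  rintro g (rfl | rfl | rfl)
  · exact gen_mem_conjStab isTbl_gA chk3A_ok1 chk3A_ok2
  · exact gen_mem_conjStab isTbl_projInv chk3B_ok1 chk3B_ok2
  · exact gen_mem_conjStab isTbl_cubeTwist chk3C_ok1 chk3C_ok2

theorem conj_mem_Lset {k : Equiv.Perm GolayPt} (hk : k ∈ M24) (σ : Equiv.Perm GolayPt) :
    k * σ * k⁻¹ ∈ Lset ↔ σ ∈ Lset := M24_le_conjStab hk σ

/-! ### The two class functions -/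

open Classical in
/-- the indicator function of the class of involutions with fixed points -/
noncomputable def aFun (x : ↥M24) : ℂ := if (x : Equiv.Perm GolayPt) ∈ Lset then 1 else 0

theorem aFun_class : IsClassFunction ↥M24 aFun := by
  intro g h
  unfold aFun
  have e : ((h * g * h⁻¹ : ↥M24) : Equiv.Perm GolayPt) ∈ Lset ↔
      (g : Equiv.Perm GolayPt) ∈ Lset := conj_mem_Lset h.2 (g : Equiv.Perm GolayPt)
  by_cases hg : (g : Equiv.Perm GolayPt) ∈ Lset
  · rw [if_pos hg, if_pos (e.mpr hg)]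
  · rw [if_neg hg, if_neg (fun h' => hg (e.mp h'))]

theorem aFun_odd (g : ↥M24) (hg : ¬ 2 ∣ orderOf g) : aFun g = 0 := by
  unfold aFun
  rw [if_neg]
  rintro ⟨i, hi, e⟩
  apply hg
  have h2 : orderOf (g : Equiv.Perm GolayPt) = 2 :=
    orderOf_eq_prime (by rw [e, sq, P_sq hi]) (by rw [e]; exact P_ne_one hi)
  rw [← Subgroup.orderOf_coe, h2]

/-- the number of fixed points -/
noncomputable def fixN (σ : Equiv.Perm GolayPt) : ℕ :=
  (Finset.univ.filter (fun p => σ p = p)).card

theorem fixN_conj (h σ : Equiv.Perm GolayPt) : fixN (h * σ * h⁻¹) = fixN σ := by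
  unfold fixN
  refine Finset.card_nbij' (fun p => h⁻¹ p) (fun p => h p) ?_ ?_ ?_ ?_
  · intro p hp
    have hp' : (h * σ * h⁻¹) p = p := (Finset.mem_filter.mp (Finset.mem_coe.mp hp)).2
    refine Finset.mem_coe.mpr (Finset.mem_filter.mpr ⟨Finset.mem_univ _, ?_⟩)
    rw [Equiv.Perm.mul_apply, Equiv.Perm.mul_apply] at hp'
    rw [Equiv.Perm.eq_inv_iff_eq]
    exact hp'
  · intro p hp
    have hp' : σ p = p := (Finset.mem_filter.mp (Finset.mem_coe.mp hp)).2
    refine Finset.mem_coe.mpr (Finset.mem_filter.mpr ⟨Finset.mem_univ _, ?_⟩)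
    simp [Equiv.Perm.mul_apply, hp']
  · intro p _
    simp
  · intro p _
    simp

/-- the test on the numbers of fixed points of `g` and `g ^ 2` -/
def zt (m n : ℕ) : Bool :=
  cond (Nat.beq m 8) true
    (cond (Nat.beq m 0) (Nat.beq (Nat.land (Nat.shiftRight 0x114 n) 1) 1) false)

/-- a class function in terms of the numbers of fixed points of `g` and `g ^ 2` -/
noncomputable def bFun (x : ↥M24) : ℂ :=
  cond (zt (fixN (x : Equiv.Perm GolayPt))
    (fixN ((x : Equiv.Perm GolayPt) * (x : Equiv.Perm GolayPt)))) 1 0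

theorem bFun_class : IsClassFunction ↥M24 bFun := by
  intro g h
  unfold bFun
  have e1 : ((h * g * h⁻¹ : ↥M24) : Equiv.Perm GolayPt) =
      (h : Equiv.Perm GolayPt) * (g : Equiv.Perm GolayPt) * (h : Equiv.Perm GolayPt)⁻¹ := rfl
  have e2 : (h : Equiv.Perm GolayPt) * (g : Equiv.Perm GolayPt) * (h : Equiv.Perm GolayPt)⁻¹ *
      ((h : Equiv.Perm GolayPt) * (g : Equiv.Perm GolayPt) * (h : Equiv.Perm GolayPt)⁻¹) =
      (h : Equiv.Perm GolayPt) * ((g : Equiv.Perm GolayPt) * (g : Equiv.Perm GolayPt)) *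
        (h : Equiv.Perm GolayPt)⁻¹ := by group
  rw [e1, e2, fixN_conj, fixN_conj]

/-! ### Evaluation on tables -/

/-- a sum of 24 terms, written out -/
def sum24 (f : ℕ → ℕ) : ℕ := Nat.add (Nat.add (Nat.add (Nat.add (Nat.add (Nat.add (Nat.add (Nat.add (Nat.add (Nat.add (Nat.add (Nat.add (Nat.add (Nat.add (Nat.add (Nat.add (Nat.add (Nat.add (Nat.add (Nat.add (Nat.add (Nat.add (Nat.add (Nat.add (0) (f 0)) (f 1)) (f 2)) (f 3)) (f 4)) (f 5)) (f 6)) (f 7)) (f 8)) (f 9)) (f 10)) (f 11)) (f 12)) (f 13)) (f 14)) (f 15)) (f 16)) (f 17)) (f 18)) (f 19)) (f 20)) (f 21)) (f 22)) (f 23)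

theorem sum24_eq (f : ℕ → ℕ) : sum24 f = ∑ j ∈ Finset.range 24, f j := by
  simp only [Finset.sum_range_succ, Finset.sum_range_zero]
  rfl

theorem card_filter_pt (φ : GolayPt → Prop) [DecidablePred φ] :
    (Finset.univ.filter φ).card = ∑ j ∈ Finset.range 24, if φ (pt j) then 1 else 0 := by
  rw [Finset.card_filter]
  refine Finset.sum_nbij' (fun p => idx p) (fun j => pt j) ?_ ?_ ?_ ?_ ?_
  · intro p _; exact Finset.mem_range.mpr (idx_lt p)
  · intro j _; exact Finset.mem_univ _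
  · intro p _; exact pt_idx p
  · intro j hj; exact idx_pt (Finset.mem_range.mp hj)
  · intro p _; rw [pt_idx]

/-- the number of fixed points of the product of an involution with table `c` and a permutation
with table `e` -/
def agr (e c : ℕ) : ℕ := sum24 (fun j => cond (Nat.beq (tbl e j) (tbl c j)) 1 0)

/-- the number of fixed points of the square of that product -/
def cnt2 (e c : ℕ) : ℕ := sum24 (fun j => cond (Nat.beq (tbl e (tbl c (tbl e j))) (tbl c j)) 1 0)

/-- the test on the product of an involution with table `c` and a permutation with table `e` -/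
def zq (e c : ℕ) : Bool := zt (agr e c) (cnt2 e c)

theorem fixN_mul {σ u : Equiv.Perm GolayPt} {c e : ℕ} (hσ : IsTbl σ c) (hu : IsTbl u e)
    (hsq : σ * σ = 1) : fixN (σ * u) = agr e c := by
  unfold fixN agr
  rw [card_filter_pt, sum24_eq]
  apply Finset.sum_congr rfl
  intro j hj
  have hj' : j < 24 := Finset.mem_range.mp hj
  rw [cond_beq]
  have hiff : (σ * u) (pt j) = pt j ↔ tbl e j = tbl c j := by
    rw [← idx_apply_pt hu hj', ← idx_apply_pt hσ hj', Equiv.Perm.mul_apply]
    constructor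
    · intro h
      have h1 : σ (σ (u (pt j))) = σ (pt j) := congrArg σ h
      have h2 : σ (σ (u (pt j))) = u (pt j) := by
        rw [← Equiv.Perm.mul_apply, hsq, Equiv.Perm.one_apply]
      rw [← h2, h1]
    · intro h
      have h1 : u (pt j) = σ (pt j) := idx_injective h
      rw [h1, ← Equiv.Perm.mul_apply, hsq, Equiv.Perm.one_apply]
  simp only [hiff]

theorem fixN_mul_sq {σ u : Equiv.Perm GolayPt} {c e : ℕ} (hσ : IsTbl σ c) (hu : IsTbl u e)
    (hsq : σ * σ = 1) : fixN (σ * u * (σ * u)) = cnt2 e c := by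
  unfold fixN cnt2
  rw [card_filter_pt, sum24_eq]
  apply Finset.sum_congr rfl
  intro j hj
  have hj' : j < 24 := Finset.mem_range.mp hj
  rw [cond_beq]
  have e1 : idx (u (σ (u (pt j)))) = tbl e (tbl c (tbl e j)) := by
    rw [hu (σ (u (pt j))), hσ (u (pt j)), idx_apply_pt hu hj']
  have hiff : (σ * u * (σ * u)) (pt j) = pt j ↔ tbl e (tbl c (tbl e j)) = tbl c j := by
    rw [← e1, ← idx_apply_pt hσ hj']
    simp only [Equiv.Perm.mul_apply]
    constructor
    · intro h
      have h1 : σ (σ (u (σ (u (pt j))))) = σ (pt j) := congrArg σ h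
      have h2 : σ (σ (u (σ (u (pt j))))) = u (σ (u (pt j))) := by
        rw [← Equiv.Perm.mul_apply, hsq, Equiv.Perm.one_apply]
      rw [← h2, h1]
    · intro h
      have h1 : u (σ (u (pt j))) = σ (pt j) := idx_injective h
      rw [h1, ← Equiv.Perm.mul_apply, hsq, Equiv.Perm.one_apply]
  simp only [hiff]

/-- the summand of the convolution -/
def fz (e i c : ℕ) : ℕ := cond (Nat.blt i NA) (cond (zq e c) 1 0) 0

theorem conv_eq [Fintype ↥M24] {u : ↥M24} {e : ℕ} (hu : IsTbl (u : Equiv.Perm GolayPt) e) :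
    Helper81.conv aFun bFun u = ((sumK (fz e) 0 12 : ℕ) : ℂ) := by
  classical
  unfold Helper81.conv
  let Pm : ℕ → ↥M24 := fun i => ⟨P i, P_mem i⟩
  have hinj : Set.InjOn Pm (Finset.range NA) := by
    intro i hi j hj h
    exact P_inj (Finset.mem_range.mp hi) (Finset.mem_range.mp hj) (congrArg Subtype.val h)
  have h1 : ∑ x : ↥M24, aFun x * bFun (x⁻¹ * u) =
      ∑ x ∈ (Finset.range NA).image Pm, aFun x * bFun (x⁻¹ * u) := by
    symm
    apply Finset.sum_subset (Finset.subset_univ _)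
    intro x _ hx
    have : aFun x = 0 := by
      unfold aFun
      rw [if_neg]
      rintro ⟨i, hi, e'⟩
      exact hx (Finset.mem_image.mpr ⟨i, Finset.mem_range.mpr hi, Subtype.ext e'.symm⟩)
    rw [this, zero_mul]
  rw [h1, Finset.sum_image hinj, sumK_spec, Nat.cast_sum]
  have hsub : Finset.range NA ⊆ Finset.range (1024 * 12) := by
    apply Finset.range_subset_range.mpr
    unfold NA
    norm_num
  rw [← Finset.sum_subset hsub]
  · apply Finset.sum_congr rfl
    intro i hi
    have hi' : i < NA := Finset.mem_range.mp hi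
    have ha : aFun (Pm i) = 1 := by
      unfold aFun
      rw [if_pos]
      exact ⟨i, hi', rfl⟩
    have hinv : (P i)⁻¹ = P i := inv_eq_of_mul_eq_one_left (P_sq hi')
    have hb : bFun ((Pm i)⁻¹ * u) = cond (zq e (Lc i)) 1 0 := by
      unfold bFun
      have e1 : (((Pm i)⁻¹ * u : ↥M24) : Equiv.Perm GolayPt) = P i * (u : Equiv.Perm GolayPt) := by
        show (P i)⁻¹ * (u : Equiv.Perm GolayPt) = _
        rw [hinv]
      rw [e1, fixN_mul (P_tbl hi') hu (P_sq hi'), fixN_mul_sq (P_tbl hi') hu (P_sq hi')]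
      rfl
    rw [ha, one_mul, hb]
    have e0 : 1024 * 0 + i = i := by omega
    rw [e0]
    unfold fz
    have hblt : Nat.blt i NA = true := by rw [Nat.blt_eq]; exact hi'
    rw [hblt, cond_true]
    cases zq e (Lc i) <;> simp
  · intro i _ hi
    have hi' : ¬ i < NA := fun h => hi (Finset.mem_range.mpr h)
    have e0 : 1024 * 0 + i = i := by omega
    rw [e0]
    unfold fz
    have hblt : Nat.blt i NA = false := by
      rw [Bool.eq_false_iff]
      intro hb
      rw [Nat.blt_eq] at hb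
      exact hi' hb
    rw [hblt, cond_false, Nat.cast_zero]

end Cfsg.Agent.Helper27.M24Blk
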