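import Mathlib
import Cfsg.Agent.Helper27.SameOrderA

/-!
# Groups whose same-order classes have three sizes: the counting part (helper27)
-/

set_option autoImplicit false
set_option linter.unusedSectionVars false
set_option linter.unusedVariables false

namespace Cfsg.Agent.Helper27.SO

section Three

variable {H : Type*} [Group H] [Finite H]

theorem revalue {a b c c' : ℕ} (hc : c = a ∨ c = b) (hc' : c' = a ∨ c' = b) (hne : c' ≠ c)
    {x : ℕ} (hx : x = 0 ∨ x = a ∨ x = b) : x = 0 ∨ x = c ∨ x = c' := by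
  omega

theorem neg_one_ne_one_zmod {p : ℕ} (hp : p.Prime) (hp2 : p ≠ 2) : (-1 : ZMod p) ≠ 1 := by
  intro h
  apply two_ne_zero_zmod hp hp2
  linear_combination -h

theorem neg_one_ne_zero_zmod {p : ℕ} (hp : p.Prime) : (-1 : ZMod p) ≠ 0 := by
  intro h
  apply one_ne_zero_zmod hp
  linear_combination -h

/-- Two primes of the same colour. -/
theorem pair_same {p q : ℕ} (hp : p.Prime) (hq : q.Prime) (hpq : p ≠ q) (hp2 : p ≠ 2)
    (hpd : p ∣ Nat.card H) (hqd : q ∣ Nat.card H) (hc : sc H p = sc H q) :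
    ((sc H (p * q) : ℕ) : ZMod p) = 1 ∧ sc H (p * q) ≠ 0 ∧ sc H (p * q) ≠ sc H p := by
  have h1 := pq_cong hp hq hpq hpd hqd
  have h2 := prime_cong hp hpd
  rw [← hc] at h1
  have h3 : ((sc H (p * q) : ℕ) : ZMod p) = 1 := by linear_combination h1 - h2
  refine ⟨h3, ?_, ?_⟩
  · intro h0
    rw [h0, Nat.cast_zero] at h3
    exact one_ne_zero_zmod hp h3.symm
  · intro h0
    rw [h0, h2] at h3
    exact neg_one_ne_one_zmod hp hp2 h3

theorem sc_prime_mem {a b : ℕ} (hV : ∀ m, 3 ≤ m → sc H m = 0 ∨ sc H m = a ∨ sc H m = b)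
    {p : ℕ} (hp : p.Prime) (hp2 : p ≠ 2) (hpd : p ∣ Nat.card H) : sc H p = a ∨ sc H p = b := by
  have h3 : 3 ≤ p := by
    have := hp.two_le
    omega
  rcases hV p h3 with h | h | h
  · exact absurd h (sc_prime_ne_zero hp hpd)
  · exact Or.inl h
  · exact Or.inr h

/-- Three odd primes, two of which have the same colour, all have the same colour. -/
theorem triple_same {a b : ℕ} (hV : ∀ m, 3 ≤ m → sc H m = 0 ∨ sc H m = a ∨ sc H m = b)
    {p q r : ℕ} (hp : p.Prime) (hq : q.Prime) (hr : r.Prime) (hpq : p ≠ q) (hpr : p ≠ r)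
    (hqr : q ≠ r) (hp2 : p ≠ 2) (hq2 : q ≠ 2) (hr2 : r ≠ 2)
    (hpd : p ∣ Nat.card H) (hqd : q ∣ Nat.card H) (hrd : r ∣ Nat.card H)
    (hc : sc H p = sc H q) : sc H r = sc H p := by
  by_contra hne
  have hp3 : 3 ≤ p := by have := hp.two_le; omega
  have hq3 : 3 ≤ q := by have := hq.two_le; omega
  have hr3 : 3 ≤ r := by have := hr.two_le; omega
  obtain ⟨hc1p, hc0, hcc⟩ := pair_same hp hq hpq hp2 hpd hqd hc
  obtain ⟨hc1q, -, -⟩ := pair_same hq hp (Ne.symm hpq) hq2 hqd hpd hc.symm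
  rw [mul_comm q p] at hc1q
  have hpm := sc_prime_mem hV hp hp2 hpd
  have hrm := sc_prime_mem hV hr hr2 hrd
  have hpqm : sc H (p * q) = a ∨ sc H (p * q) = b := by
    rcases hV (p * q) (by nlinarith) with h | h | h
    · exact absurd h hc0
    · exact Or.inl h
    · exact Or.inr h
  have hrc : sc H r = sc H (p * q) := by omega
  -- revalued hypothesis
  have hV' : ∀ m, 3 ≤ m → sc H m = 0 ∨ sc H m = sc H p ∨ sc H m = sc H (p * q) :=
    fun m hm => revalue hpm hpqm hcc (hV m hm)
  have hcp := prime_cong hp hpd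
  have hcq := prime_cong hq hqd
  rw [← hc] at hcq
  have hcr := prime_cong hr hrd
  rw [hrc] at hcr
  -- `s_{pr} = c`
  have hpr1 := pq_cong hp hr hpr hpd hrd
  rw [hrc, hc1p] at hpr1
  have hprc : sc H (p * r) = sc H p := by
    rcases hV' (p * r) (by nlinarith) with h | h | h
    · rw [h, Nat.cast_zero] at hpr1
      exact absurd (by linear_combination hpr1) (one_ne_zero_zmod hp)
    · exact h
    · rw [h, hc1p] at hpr1
      exact absurd (by linear_combination hpr1) (two_ne_zero_zmod hp hp2)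
  -- `c ≡ 0 (mod r)`
  have hrp1 := pq_cong hr hp (Ne.symm hpr) hrd hpd
  rw [mul_comm r p, hprc] at hrp1
  have hc0r : ((sc H p : ℕ) : ZMod r) = 0 := by
    have : Fact r.Prime := ⟨hr⟩
    have h2 : (2 : ZMod r) * ((sc H p : ℕ) : ZMod r) = 0 := by linear_combination hrp1
    rcases mul_eq_zero.mp h2 with h | h
    · exact absurd h (two_ne_zero_zmod hr hr2)
    · exact h
  -- `s_{qr} = c`
  have hqr1 := pq_cong hq hr hqr hqd hrd
  rw [hrc, hc1q] at hqr1
  have hqrc : sc H (q * r) = sc H p := by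
    rcases hV' (q * r) (by nlinarith) with h | h | h
    · rw [h, Nat.cast_zero] at hqr1
      exact absurd (by linear_combination hqr1) (one_ne_zero_zmod hq)
    · exact h
    · rw [h, hc1q] at hqr1
      exact absurd (by linear_combination hqr1) (two_ne_zero_zmod hq hq2)
  -- `s_{pqr}`
  have h1 := pqr_cong hp hq hr hpq hpr hqr hpd hqd hrd
  rw [hqrc, hcp] at h1
  have h2 := pqr_cong hr hp hq (Ne.symm hpr) (Ne.symm hqr) hpq hrd hpd hqd
  rw [show r * (p * q) = p * (q * r) by ring, hcr] at h2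
  rcases hV' (p * (q * r)) (by nlinarith [Nat.mul_le_mul hq3 hr3]) with h | h | h
  · rw [h, Nat.cast_zero] at h1
    exact absurd (by linear_combination -h1) (one_ne_zero_zmod hp)
  · rw [h, hcp] at h1
    exact absurd (by linear_combination -h1) (two_ne_zero_zmod hp hp2)
  · rw [h, hcr] at h2
    exact absurd (by linear_combination -h2) (two_ne_zero_zmod hr hr2)

/-- An element of order `t ^ (i + 2)` gives an element of order `t ^ 2`. -/
theorem sc_pow_eq_zero {t : ℕ} (ht : t.Prime) (h2 : sc H (t ^ 2) = 0) (i : ℕ) :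
    sc H (t ^ (i + 2)) = 0 := by
  apply sc_eq_zero
  rintro ⟨g, hg⟩
  have h3 : orderOf (g ^ t ^ i) = t ^ 2 := by
    rw [orderOf_pow_of_dvd (pow_ne_zero i ht.ne_zero) (by rw [hg]; exact pow_dvd_pow t (by omega)),
      hg, pow_add, Nat.mul_div_cancel_left _ (pow_pos ht.pos i)]
  exact sc_ne_zero _ h3 h2

/-- If there is no element of order `t²`, the `t`-part of `|H|` divides `1 + s_t`. -/
theorem pow_dvd_of_sq {t : ℕ} (ht : t.Prime) (htd : t ∣ Nat.card H) (h2 : sc H (t ^ 2) = 0) :
    t ^ (Nat.card H).factorization t ∣ 1 + sc H t := by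
  have hcard : Nat.card H ≠ 0 := Nat.card_pos.ne'
  have hk : 1 ≤ (Nat.card H).factorization t :=
    (ht.dvd_iff_one_le_factorization hcard).mp htd
  obtain ⟨k, hk'⟩ : ∃ k, (Nat.card H).factorization t = k + 1 := ⟨_, (Nat.sub_add_cancel hk).symm⟩
  have h := frob (H := H) (Nat.ordProj_dvd (Nat.card H) t)
  rw [Nat.sum_divisors_prime_pow ht, hk', Finset.sum_range_succ', Finset.sum_range_succ'] at h
  have hz : ∑ i ∈ Finset.range k, sc H (t ^ (i + 1 + 1)) = 0 :=
    Finset.sum_eq_zero (fun i _ => sc_pow_eq_zero ht h2 i)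
  rw [hz] at h
  simp only [zero_add, pow_one, pow_zero, sc_one] at h
  rw [hk', add_comm 1 (sc H t)]
  exact h

/-- Two primes of the same colour: no elements of order `t²`. -/
theorem sc_sq_eq_zero_of_same {a b : ℕ}
    (hV : ∀ m, 3 ≤ m → sc H m = 0 ∨ sc H m = a ∨ sc H m = b)
    {t t' : ℕ} (ht : t.Prime) (ht' : t'.Prime) (htt : t ≠ t') (ht2 : t ≠ 2)
    (htd : t ∣ Nat.card H) (htd' : t' ∣ Nat.card H) (hc : sc H t = sc H t') :
    sc H (t ^ 2) = 0 := by
  by_contra hne
  have ht3 : 3 ≤ t := by have := ht.two_le; omega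
  obtain ⟨hc1, hc0, hcc⟩ := pair_same ht ht' htt ht2 htd htd' hc
  have htm := sc_prime_mem hV ht ht2 htd
  have hpqm : sc H (t * t') = a ∨ sc H (t * t') = b := by
    rcases hV (t * t') (by have := ht'.two_le; nlinarith) with h | h | h
    · exact absurd h hc0
    · exact Or.inl h
    · exact Or.inr h
  obtain ⟨g, hg⟩ := exists_of_sc_ne_zero hne
  have hd : t ^ 2 ∣ Nat.card H := by rw [← hg]; exact orderOf_dvd_natCard g
  have h1 := sq_cong ht hd
  rcases revalue htm hpqm hcc (hV (t ^ 2) (by nlinarith)) with h | h | h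
  · exact hne h
  · rw [h, prime_cong ht htd] at h1
    exact neg_one_ne_zero_zmod ht h1
  · rw [h, hc1] at h1
    exact one_ne_zero_zmod ht h1

theorem dvd_of_forall_prime_pow {n m : ℕ} (hn : n ≠ 0) (hm : m ≠ 0)
    (h : ∀ t : ℕ, t.Prime → t ∣ n → t ^ n.factorization t ∣ m) : n ∣ m := by
  rw [← Nat.factorization_le_iff_dvd hn hm]
  intro t
  by_cases ht : t.Prime
  · by_cases htd : t ∣ n
    · exact (ht.pow_dvd_iff_le_factorization hm).mp (h t ht htd)
    · rw [Nat.factorization_eq_zero_of_not_dvd htd]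
      exact Nat.zero_le _
  · rw [Nat.factorization_eq_zero_of_not_prime n ht]
    exact Nat.zero_le _

/-- `|H|` cannot divide `1 + s_t` when a second prime divides `|H|`. -/
theorem not_card_dvd {t t' : ℕ} (ht : t.Prime) (ht' : t'.Prime) (htt : t ≠ t')
    (htd' : t' ∣ Nat.card H) : ¬ Nat.card H ∣ 1 + sc H t := by
  intro h
  have h1 := sum_sc_le (H := H) {1, t, t'}
  rw [Finset.sum_insert (by simp [ht.ne_one.symm, ht'.ne_one.symm]),
    Finset.sum_insert (by simp [htt]), Finset.sum_singleton, sc_one] at h1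
  have h2 := sc_prime_ne_zero ht' htd'
  have h3 := Nat.le_of_dvd (by omega) h
  omega

/-- **Odd order**: at most two prime divisors. -/
theorem odd_primeFactors_le_two (hodd : Odd (Nat.card H)) {a b : ℕ}
    (hV : ∀ m, 3 ≤ m → sc H m = 0 ∨ sc H m = a ∨ sc H m = b) :
    (Nat.card H).primeFactors.card ≤ 2 := by
  by_contra hcon
  have h3 : 2 < (Nat.card H).primeFactors.card := by omega
  obtain ⟨p, q, r, hp, hq, hr, hpq, hpr, hqr⟩ := Finset.two_lt_card_iff.mp h3
  have hne2 : ∀ t : ℕ, t ∣ Nat.card H → t ≠ 2 := by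
    rintro t htd rfl
    exact (Nat.not_even_iff_odd.mpr hodd) (even_iff_two_dvd.mpr htd)
  have hpp := Nat.prime_of_mem_primeFactors hp
  have hqp := Nat.prime_of_mem_primeFactors hq
  have hrp := Nat.prime_of_mem_primeFactors hr
  have hpd := Nat.dvd_of_mem_primeFactors hp
  have hqd := Nat.dvd_of_mem_primeFactors hq
  have hrd := Nat.dvd_of_mem_primeFactors hr
  have hp2 := hne2 p hpd
  have hq2 := hne2 q hqd
  have hr2 := hne2 r hrd
  have hpm := sc_prime_mem hV hpp hp2 hpd
  have hqm := sc_prime_mem hV hqp hq2 hqd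
  have hrm := sc_prime_mem hV hrp hr2 hrd
  -- all three have the same colour
  have hall : sc H p = sc H q ∧ sc H r = sc H p := by
    by_cases h1 : sc H p = sc H q
    · exact ⟨h1, triple_same hV hpp hqp hrp hpq hpr hqr hp2 hq2 hr2 hpd hqd hrd h1⟩
    · by_cases h2 : sc H p = sc H r
      · exact absurd (triple_same hV hpp hrp hqp hpr hpq (Ne.symm hqr) hp2 hr2 hq2 hpd hrd hqd h2).symm h1
      · have h4 : sc H q = sc H r := by omega
        exact absurd (triple_same hV hqp hrp hpp hqr (Ne.symm hpq) (Ne.symm hpr) hq2 hr2 hp2 hqd hrd hpd h4) h1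
  -- every prime has this colour
  have hcol : ∀ t : ℕ, t.Prime → t ∣ Nat.card H → sc H t = sc H p := by
    intro t ht htd
    by_cases htp : t = p
    · rw [htp]
    · by_cases htq : t = q
      · rw [htq]; exact hall.1.symm
      · exact triple_same hV hpp hqp ht hpq (Ne.symm htp) (Ne.symm htq) hp2 hq2 (hne2 t htd) hpd hqd
          htd hall.1
  apply not_card_dvd (H := H) hpp hqp hpq hqd
  apply dvd_of_forall_prime_pow Nat.card_pos.ne' (by omega)
  intro t ht htd
  have hsq : sc H (t ^ 2) = 0 := by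
    by_cases htp : t = p
    · rw [htp]
      exact sc_sq_eq_zero_of_same hV hpp hqp hpq hp2 hpd hqd hall.1
    · exact sc_sq_eq_zero_of_same hV ht hpp htp (hne2 t htd) htd hpd (hcol t ht htd)
  have := pow_dvd_of_sq ht htd hsq
  rwa [hcol t ht htd] at this

end Three

end Cfsg.Agent.Helper27.SO
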