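import Mathlib
import Cfsg.Agent.Helper27.SameOrderC
import Cfsg.Agent.Helper20.NseALT4
import Cfsg.Agent.Helper20.NseALT5
import Cfsg.Agent.Helper20.NseISO4
import Cfsg.Agent.Helper20.NseNC
import Cfsg.Agent.Helper34.NseNO25
import Cfsg.Agent.Helper41.NseALT6
import Cfsg.Agent.Helper73.NseINV2
import Cfsg.Agent.Helper73.NseSIMP360
import Cfsg.Agent.Helper73.NseSIMP60
import Cfsg.Agent.Helper76.NseCYC
import Cfsg.Agent.Helper76.NseSYLMUL
import Cfsg.Agent.Helper76.NseTOT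
import Cfsg.Agent.Helper80.NseNO81

/-!
# The pieces of the same-order-count characterisation of `A₄`, `A₅`, `A₆` (helper27)

Restatements, under local names, of the lemmas proved by the seats that took the pieces of the
CALL for S3431 (helper20, helper34, helper41, helper73, helper76, helper80).
-/

set_option autoImplicit false
set_option linter.unusedSectionVars false

namespace Cfsg.Agent.Helper27.SO

variable {H : Type*} [Group H] [Finite H]

theorem pc_tot (d : ℕ) : d.totient ∣ sc H d :=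
  Cfsg.Agent.Helper76.totient_dvd_sc d

theorem pc_cyc {p : ℕ} [Fact p.Prime] (P : Sylow p H) {a : ℕ}
    (hP : Nat.card (P : Subgroup H) = p ^ a) (hne : sc H (p ^ a) ≠ 0) :
    sc H (p ^ a) = (p ^ a).totient * Nat.card (Sylow p H) ∧
      ∀ j : ℕ, sc H (p ^ j) ≤ (p ^ j).totient * Nat.card (Sylow p H) :=
  Cfsg.Agent.Helper76.sc_sylow_cyclic P hP hne

theorem pc_sylmul {p m : ℕ} [Fact p.Prime] (hpm : p.Coprime m) (P : Sylow p H)
    (hP : Nat.card (P : Subgroup H) = p) :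
    sc H (p * m) =
      sc H p * Nat.card {y : H // orderOf y = m ∧ ∀ x ∈ (P : Subgroup H), Commute x y} :=
  Cfsg.Agent.Helper76.sc_prime_mul hpm P hP

theorem pc_no25 (P : Subgroup H) (hP : Nat.card P = 25) (hexp : ∀ g ∈ P, g ^ 5 = 1)
    (h5 : sc H 5 = 24) (h2 : sc H 2 = 15) (h10 : sc H 10 ≤ 24) : False :=
  Cfsg.Agent.Helper34.nse_no_25 P hP hexp h5 h2 h10

theorem pc_no81 (P : Subgroup H) (hP : Nat.card P = 81) (hexp : ∀ g ∈ P, g ^ 3 = 1)
    (h3 : sc H 3 = 80) (h2 : sc H 2 = 45) (h6 : sc H 6 ≤ 144) : False :=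
  Cfsg.Agent.Helper80.nse_no_81 P hP hexp h3 h2 h6

theorem pc_inv2 (C : Subgroup H)
    (h2 : Nat.card {y : H // orderOf y = 2 ∧ y ∈ C} ≤ 1) (h4 : ∀ y ∈ C, orderOf y ≠ 4) :
    ¬ 4 ∣ Nat.card C :=
  Cfsg.Agent.Helper73.not_four_dvd_card C h2 h4

theorem pc_nc {p : ℕ} [Fact p.Prime] (P : Sylow p H)
    (hP : Nat.card (P : Subgroup H) = p) :
    Nat.card (Subgroup.normalizer ((P : Subgroup H) : Set H)) ∣
      (p - 1) * Nat.card (Subgroup.centralizer ((P : Subgroup H) : Set H)) :=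
  Cfsg.Agent.Helper20.card_normalizer_dvd P hP

theorem pc_alt4 :
    ((fun m : ℕ => Nat.card {g : ↥(alternatingGroup (Fin 4)) // orderOf g = m}) ''
      Set.range (orderOf : ↥(alternatingGroup (Fin 4)) → ℕ)) = {1, 3, 8} :=
  Cfsg.Agent.Helper20.nse_alt4

theorem pc_alt5 :
    ((fun m : ℕ => Nat.card {g : ↥(alternatingGroup (Fin 5)) // orderOf g = m}) ''
      Set.range (orderOf : ↥(alternatingGroup (Fin 5)) → ℕ)) = {1, 15, 20, 24} :=
  Cfsg.Agent.Helper20.nse_alt5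

theorem pc_alt6 :
    ((fun m : ℕ => Nat.card {g : ↥(alternatingGroup (Fin 6)) // orderOf g = m}) ''
      Set.range (orderOf : ↥(alternatingGroup (Fin 6)) → ℕ)) = {1, 45, 80, 90, 144} :=
  Cfsg.Agent.Helper41.nse_alt6

theorem pc_iso4 (hc : Nat.card H = 12) (h3 : sc H 3 = 8) :
    Nonempty (H ≃* ↥(alternatingGroup (Fin 4))) :=
  Cfsg.Agent.Helper20.iso_alt4_of_sc hc h3

theorem pc_simp60 (hc : Nat.card H = 60) (h2 : sc H 2 = 15) (h3 : sc H 3 = 20)
    (h5 : sc H 5 = 24) : IsSimpleGroup H :=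
  Cfsg.Agent.Helper73.simple_of_sc_60 hc h2 h3 h5

theorem pc_simp360 (hc : Nat.card H = 360) (h2 : sc H 2 = 45) (h3 : sc H 3 = 80)
    (h4 : sc H 4 = 90) (h5 : sc H 5 = 144) : IsSimpleGroup H :=
  Cfsg.Agent.Helper73.simple_of_sc_360 hc h2 h3 h4 h5

end Cfsg.Agent.Helper27.SO
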