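import Mathlib
import Cfsg.Agent.Helper27.NsePieces

/-!
# Same-order counts: general lemmas for the characterisation of `A₄`, `A₅`, `A₆` (helper27)
-/

set_option autoImplicit false
set_option linter.unusedSectionVars false

namespace Cfsg.Agent.Helper27.SO

variable {H : Type*} [Group H] [Finite H]

/-- Unpacking the hypothesis on the set of same-order class sizes. -/
theorem nse_unpack {S : Set ℕ}
    (h : ((fun m : ℕ => Nat.card {g : H // orderOf g = m}) '' Set.range (orderOf : H → ℕ)) = S) :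
    (∀ m, sc H m = 0 ∨ sc H m ∈ S) ∧ (∀ v ∈ S, ∃ g : H, sc H (orderOf g) = v) := by
  constructor
  · intro m
    by_cases h0 : sc H m = 0
    · exact Or.inl h0
    · right
      obtain ⟨g, hg⟩ := exists_of_sc_ne_zero h0
      rw [← h]
      exact ⟨m, ⟨g, hg⟩, rfl⟩
  · intro v hv
    rw [← h] at hv
    obtain ⟨m, ⟨g, hg⟩, hm⟩ := hv
    exact ⟨g, by rw [hg]; exact hm⟩

theorem sc_two_of_odd {v : ℕ} (hv : Odd v) (hv1 : v ≠ 1) (g : H) (hg : sc H (orderOf g) = v) :
    sc H 2 = v := by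
  have h0 : 0 < orderOf g := orderOf_pos g
  by_cases h3 : 3 ≤ orderOf g
  · have := even_sc (H := H) h3
    rw [hg] at this
    exact absurd hv (Nat.not_odd_iff_even.mpr this)
  · have h12 : orderOf g = 1 ∨ orderOf g = 2 := by omega
    rcases h12 with h | h
    · rw [h, sc_one] at hg
      exact absurd hg.symm hv1
    · rw [h] at hg
      exact hg

/-- An element whose order class has an even size other than `1`, `sc H 2` has order `≥ 3`. -/
theorem three_le_orderOf {v : ℕ} (hv1 : v ≠ 1) (hv2 : v ≠ sc H 2) (g : H)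
    (hg : sc H (orderOf g) = v) : 3 ≤ orderOf g := by
  have h0 : 0 < orderOf g := orderOf_pos g
  by_contra hcon
  have h12 : orderOf g = 1 ∨ orderOf g = 2 := by omega
  rcases h12 with h | h
  · rw [h, sc_one] at hg
    exact hv1 hg.symm
  · rw [h] at hg
    exact hv2 hg.symm

theorem card_eq_sum_sc (F : Finset ℕ) (hF : ∀ g : H, orderOf g ∈ F) :
    Nat.card H = ∑ d ∈ F, sc H d := by
  classical
  have : Fintype H := Fintype.ofFinite H
  simp only [sc_eq_card_filter]
  rw [Nat.card_eq_fintype_card, ← Finset.card_univ]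
  exact Finset.card_eq_sum_card_fiberwise (fun g _ => hF g)

theorem card_eq_sum_sc_divisors {n : ℕ} (hn : Nat.card H = n) :
    n = ∑ d ∈ n.divisors, sc H d := by
  subst hn
  exact card_eq_sum_sc _
    (fun g => Nat.mem_divisors.mpr ⟨orderOf_dvd_natCard g, Nat.card_pos.ne'⟩)

theorem sc_eq_zero_of_dvd {d e : ℕ} (hde : d ∣ e) (h : sc H d = 0) : sc H e = 0 := by
  apply sc_eq_zero
  rintro ⟨g, hg⟩
  have he : e ≠ 0 := by rw [← hg]; exact (orderOf_pos g).ne'
  have hd : d ≠ 0 := fun h0 => he (by rw [h0] at hde; exact zero_dvd_iff.mp hde)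
  have hed : e / d ≠ 0 :=
    (Nat.div_pos (Nat.le_of_dvd (Nat.pos_of_ne_zero he) hde) (Nat.pos_of_ne_zero hd)).ne'
  have h3 : orderOf (g ^ (e / d)) = d := by
    rw [orderOf_pow_of_dvd hed (by rw [hg]; exact Nat.div_dvd_of_dvd hde), hg,
      Nat.div_div_self hde he]
  exact sc_ne_zero _ h3 h

theorem dvd_card_of_sc_ne_zero {d : ℕ} (h : sc H d ≠ 0) : d ∣ Nat.card H := by
  obtain ⟨g, hg⟩ := exists_of_sc_ne_zero h
  rw [← hg]
  exact orderOf_dvd_natCard g

theorem sylow_card {p : ℕ} [Fact p.Prime] (P : Sylow p H) {a n' : ℕ}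
    (hn : Nat.card H = p ^ a * n') (hcop : ¬ p ∣ n') : Nat.card (P : Subgroup H) = p ^ a := by
  have hp := (Fact.out : p.Prime)
  have hn0 : n' ≠ 0 := by rintro rfl; exact hcop (dvd_zero p)
  rw [Sylow.card_eq_multiplicity, hn, Nat.factorization_mul (pow_ne_zero a hp.ne_zero) hn0,
    hp.factorization_pow]
  simp [Nat.factorization_eq_zero_of_not_dvd hcop]

theorem sylow_num_dvd {p : ℕ} [Fact p.Prime] (P : Sylow p H) {a n' : ℕ}
    (hn : Nat.card H = p ^ a * n') (hcop : ¬ p ∣ n') : Nat.card (Sylow p H) ∣ n' := by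
  have h1 := P.card_dvd_index
  have h2 := (P : Subgroup H).card_mul_index
  rw [sylow_card P hn hcop, hn] at h2
  have h3 : (P : Subgroup H).index = n' :=
    Nat.eq_of_mul_eq_mul_left (pow_pos (Fact.out : p.Prime).pos a) h2
  rwa [h3] at h1

theorem sylow_num_mul_normalizer {p : ℕ} [Fact p.Prime] (P : Sylow p H) :
    Nat.card (Sylow p H) * Nat.card (Subgroup.normalizer ((P : Subgroup H) : Set H)) =
      Nat.card H := by
  rw [Sylow.card_eq_index_normalizer P, mul_comm]
  exact Subgroup.card_mul_index _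

theorem exists_eq_pow_mul {p a n : ℕ} (h : p ^ a ∣ n) (h' : ¬ p ^ (a + 1) ∣ n) :
    ∃ n', n = p ^ a * n' ∧ ¬ p ∣ n' := by
  obtain ⟨n', rfl⟩ := h
  refine ⟨n', rfl, ?_⟩
  rintro ⟨c, rfl⟩
  exact h' ⟨c, by ring⟩

theorem exp_of_sc_sq_zero {p : ℕ} [Fact p.Prime] (P : Sylow p H) (h : sc H (p ^ 2) = 0) :
    ∀ g ∈ (P : Subgroup H), g ^ p = 1 := by
  intro g hg
  have hp := (Fact.out : p.Prime)
  obtain ⟨k, hk⟩ := (IsPGroup.iff_orderOf.mp P.isPGroup') ⟨g, hg⟩
  rw [Subgroup.orderOf_mk] at hk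
  have hk1 : k ≤ 1 := by
    by_contra hcon
    obtain ⟨i, rfl⟩ : ∃ i, k = i + 2 := ⟨k - 2, by omega⟩
    exact sc_ne_zero g hk (sc_pow_eq_zero hp h i)
  have h1 : orderOf g ∣ p := by
    rw [hk]
    have := pow_dvd_pow p hk1
    rwa [pow_one] at this
  exact orderOf_dvd_iff_pow_eq_one.mp h1

theorem card_le_of_exp {q : ℕ} (hq : q.Prime) (P : Subgroup H) (h : ∀ g ∈ P, g ^ q = 1) :
    Nat.card P ≤ sc H q + 1 := by
  classical
  have key : ∀ g ∈ P, orderOf g ≠ q → g = 1 := by
    intro g hg hne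
    have h1 : orderOf g ∣ q := orderOf_dvd_of_pow_eq_one (h g hg)
    rcases (Nat.dvd_prime hq).mp h1 with h2 | h2
    · exact orderOf_eq_one_iff.mp h2
    · exact absurd h2 hne
  let φ : P → Option {g : H // orderOf g = q} := fun g =>
    if hg : orderOf (g : H) = q then some ⟨g, hg⟩ else none
  have hφ : Function.Injective φ := by
    intro a b hab
    by_cases ha : orderOf (a : H) = q
    · by_cases hb : orderOf (b : H) = q
      · have e1 : φ a = some ⟨a, ha⟩ := dif_pos ha
        have e2 : φ b = some ⟨b, hb⟩ := dif_pos hb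
        rw [e1, e2] at hab
        have e3 : (⟨(a : H), ha⟩ : {g : H // orderOf g = q}) = ⟨(b : H), hb⟩ := Option.some.inj hab
        have e4 : (a : H) = (b : H) :=
          congrArg (fun z : {g : H // orderOf g = q} => (z : H)) e3
        exact Subtype.ext e4
      · have e1 : φ a = some ⟨a, ha⟩ := dif_pos ha
        have e2 : φ b = none := dif_neg hb
        rw [e1, e2] at hab
        exact absurd hab (by simp)
    · by_cases hb : orderOf (b : H) = q
      · have e1 : φ a = none := dif_neg ha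
        have e2 : φ b = some ⟨b, hb⟩ := dif_pos hb
        rw [e1, e2] at hab
        exact absurd hab (by simp)
      · exact Subtype.ext ((key a a.2 ha).trans (key b b.2 hb).symm)
  have h1 := Nat.card_le_card_of_injective φ hφ
  rw [Finite.card_option] at h1
  exact h1

theorem card_comm_ne_one {m : ℕ} (hm : 3 ≤ m) (P : Subgroup H) :
    Nat.card {y : H // orderOf y = m ∧ ∀ x ∈ P, Commute x y} ≠ 1 := by
  intro h1
  rw [Nat.card_eq_one_iff_unique] at h1
  obtain ⟨hsub, ⟨⟨y, hy, hc⟩⟩⟩ := h1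
  have h2 : (⟨y⁻¹, by rw [orderOf_inv]; exact hy, fun x hx => (hc x hx).inv_right⟩ :
      {y : H // orderOf y = m ∧ ∀ x ∈ P, Commute x y}) = ⟨y, hy, hc⟩ := Subsingleton.elim _ _
  have h3 : y⁻¹ = y := congrArg Subtype.val h2
  have h4 : y ^ 2 = 1 := by
    rw [pow_two]
    nth_rewrite 1 [← h3]
    exact inv_mul_cancel y
  have h5 := orderOf_dvd_of_pow_eq_one h4
  rw [hy] at h5
  have := Nat.le_of_dvd (by norm_num) h5
  omega

theorem card_comm_eq_zero {p m : ℕ} [Fact p.Prime] (hpm : p.Coprime m) (hm : 3 ≤ m)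
    (P : Sylow p H) (hP : Nat.card (P : Subgroup H) = p) (hlt : sc H (p * m) < 2 * sc H p) :
    Nat.card {y : H // orderOf y = m ∧ ∀ x ∈ (P : Subgroup H), Commute x y} = 0 := by
  have h1 := pc_sylmul hpm P hP
  have h2 := card_comm_ne_one hm (P : Subgroup H)
  by_contra h0
  have h3 : 2 ≤ Nat.card {y : H // orderOf y = m ∧ ∀ x ∈ (P : Subgroup H), Commute x y} := by
    omega
  have h4 := Nat.mul_le_mul_left (sc H p) h3
  omega

theorem not_dvd_card_centralizer {q : ℕ} (hq : q.Prime) (P : Subgroup H)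
    (h0 : Nat.card {y : H // orderOf y = q ∧ ∀ x ∈ P, Commute x y} = 0) :
    ¬ q ∣ Nat.card (Subgroup.centralizer (P : Set H)) := by
  intro hd
  have : Fact q.Prime := ⟨hq⟩
  obtain ⟨y, hy⟩ := exists_prime_orderOf_dvd_card' q hd
  have : Nonempty {y : H // orderOf y = q ∧ ∀ x ∈ P, Commute x y} :=
    ⟨⟨(y : H), by rw [Subgroup.orderOf_coe]; exact hy,
      fun x hx => Subgroup.mem_centralizer_iff.mp y.2 x hx⟩⟩
  exact Nat.card_pos.ne' h0

theorem card_comm_eq_centralizer (m : ℕ) (P : Subgroup H) :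
    Nat.card {y : H // orderOf y = m ∧ y ∈ Subgroup.centralizer (P : Set H)} =
      Nat.card {y : H // orderOf y = m ∧ ∀ x ∈ P, Commute x y} :=
  Nat.card_congr (Equiv.subtypeEquivRight
    (fun y => and_congr Iff.rfl Subgroup.mem_centralizer_iff))

theorem not_four_dvd_centralizer {p : ℕ} [Fact p.Prime] (hp2 : p ≠ 2) (P : Sylow p H)
    (hP : Nat.card (P : Subgroup H) = p) (h2 : sc H (p * 2) < 2 * sc H p)
    (h4 : sc H (p * 4) < 2 * sc H p) :
    ¬ 4 ∣ Nat.card (Subgroup.centralizer ((P : Subgroup H) : Set H)) := by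
  have hp := (Fact.out : p.Prime)
  have hc2 : p.Coprime 2 := (Nat.coprime_primes hp Nat.prime_two).mpr hp2
  have hc4 : p.Coprime 4 := by
    have : p.Coprime (2 ^ 2) := Nat.Coprime.pow_right 2 hc2
    simpa using this
  have k4 := card_comm_eq_zero hc4 (by norm_num) P hP h4
  have e2 := pc_sylmul hc2 P hP
  apply pc_inv2
  · rw [card_comm_eq_centralizer]
    by_contra hcon
    have h3 : 2 ≤ Nat.card {y : H // orderOf y = 2 ∧ ∀ x ∈ (P : Subgroup H), Commute x y} := by
      omega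
    have h5 := Nat.mul_le_mul_left (sc H p) h3
    omega
  · intro y hy h4'
    have : Nonempty {y : H // orderOf y = 4 ∧ ∀ x ∈ (P : Subgroup H), Commute x y} :=
      ⟨⟨y, h4', fun x hx => Subgroup.mem_centralizer_iff.mp hy x hx⟩⟩
    exact Nat.card_pos.ne' k4

/-! ### Explicit divisor sums -/

theorem sum_div_4 (f : ℕ → ℕ) : ∑ d ∈ Nat.divisors 4, f d = f 1 + f 2 + f 4 := by
  rw [show Nat.divisors 4 = {1, 2, 4} from by decide +kernel]
  rw [Finset.sum_insert (by decide), Finset.sum_insert (by decide), Finset.sum_singleton]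
  ring

theorem sum_div_8 (f : ℕ → ℕ) : ∑ d ∈ Nat.divisors 8, f d = f 1 + f 2 + f 4 + f 8 := by
  rw [show Nat.divisors 8 = {1, 2, 4, 8} from by decide +kernel]
  rw [Finset.sum_insert (by decide), Finset.sum_insert (by decide), Finset.sum_insert (by decide),
    Finset.sum_singleton]
  ring

theorem sum_div_16 (f : ℕ → ℕ) :
    ∑ d ∈ Nat.divisors 16, f d = f 1 + f 2 + f 4 + f 8 + f 16 := by
  rw [show Nat.divisors 16 = {1, 2, 4, 8, 16} from by decide +kernel]
  rw [Finset.sum_insert (by decide), Finset.sum_insert (by decide), Finset.sum_insert (by decide),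
    Finset.sum_insert (by decide), Finset.sum_singleton]
  ring

theorem sum_div_32 (f : ℕ → ℕ) :
    ∑ d ∈ Nat.divisors 32, f d = f 1 + f 2 + f 4 + f 8 + f 16 + f 32 := by
  rw [show Nat.divisors 32 = {1, 2, 4, 8, 16, 32} from by decide +kernel]
  rw [Finset.sum_insert (by decide), Finset.sum_insert (by decide), Finset.sum_insert (by decide),
    Finset.sum_insert (by decide), Finset.sum_insert (by decide), Finset.sum_singleton]
  ring

theorem sum_div_9 (f : ℕ → ℕ) : ∑ d ∈ Nat.divisors 9, f d = f 1 + f 3 + f 9 := by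
  rw [show Nat.divisors 9 = {1, 3, 9} from by decide +kernel]
  rw [Finset.sum_insert (by decide), Finset.sum_insert (by decide), Finset.sum_singleton]
  ring

theorem sum_div_27 (f : ℕ → ℕ) : ∑ d ∈ Nat.divisors 27, f d = f 1 + f 3 + f 9 + f 27 := by
  rw [show Nat.divisors 27 = {1, 3, 9, 27} from by decide +kernel]
  rw [Finset.sum_insert (by decide), Finset.sum_insert (by decide), Finset.sum_insert (by decide),
    Finset.sum_singleton]
  ring

theorem sum_div_25 (f : ℕ → ℕ) : ∑ d ∈ Nat.divisors 25, f d = f 1 + f 5 + f 25 := by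
  rw [show Nat.divisors 25 = {1, 5, 25} from by decide +kernel]
  rw [Finset.sum_insert (by decide), Finset.sum_insert (by decide), Finset.sum_singleton]
  ring

theorem sum_div_125 (f : ℕ → ℕ) :
    ∑ d ∈ Nat.divisors 125, f d = f 1 + f 5 + f 25 + f 125 := by
  rw [show Nat.divisors 125 = {1, 5, 25, 125} from by decide +kernel]
  rw [Finset.sum_insert (by decide), Finset.sum_insert (by decide), Finset.sum_insert (by decide),
    Finset.sum_singleton]
  ring

theorem sum_div_49 (f : ℕ → ℕ) : ∑ d ∈ Nat.divisors 49, f d = f 1 + f 7 + f 49 := by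
  rw [show Nat.divisors 49 = {1, 7, 49} from by decide +kernel]
  rw [Finset.sum_insert (by decide), Finset.sum_insert (by decide), Finset.sum_singleton]
  ring

theorem sum_div_12 (f : ℕ → ℕ) :
    ∑ d ∈ Nat.divisors 12, f d = f 1 + f 2 + f 3 + f 4 + f 6 + f 12 := by
  rw [show Nat.divisors 12 = {1, 2, 3, 4, 6, 12} from by decide +kernel]
  rw [Finset.sum_insert (by decide), Finset.sum_insert (by decide), Finset.sum_insert (by decide),
    Finset.sum_insert (by decide), Finset.sum_insert (by decide), Finset.sum_singleton]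
  ring

theorem sum_div_18 (f : ℕ → ℕ) :
    ∑ d ∈ Nat.divisors 18, f d = f 1 + f 2 + f 3 + f 6 + f 9 + f 18 := by
  rw [show Nat.divisors 18 = {1, 2, 3, 6, 9, 18} from by decide +kernel]
  rw [Finset.sum_insert (by decide), Finset.sum_insert (by decide), Finset.sum_insert (by decide),
    Finset.sum_insert (by decide), Finset.sum_insert (by decide), Finset.sum_singleton]
  ring

theorem sum_div_36 (f : ℕ → ℕ) :
    ∑ d ∈ Nat.divisors 36, f d = f 1 + f 2 + f 3 + f 4 + f 6 + f 9 + f 12 + f 18 + f 36 := by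
  rw [show Nat.divisors 36 = {1, 2, 3, 4, 6, 9, 12, 18, 36} from by decide +kernel]
  rw [Finset.sum_insert (by decide), Finset.sum_insert (by decide), Finset.sum_insert (by decide),
    Finset.sum_insert (by decide), Finset.sum_insert (by decide), Finset.sum_insert (by decide),
    Finset.sum_insert (by decide), Finset.sum_insert (by decide), Finset.sum_singleton]
  ring

theorem sum_div_120 (f : ℕ → ℕ) :
    ∑ d ∈ Nat.divisors 120, f d = f 1 + f 2 + f 3 + f 4 + f 5 + f 6 + f 8 + f 10 + f 12 + f 15 +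
      f 20 + f 24 + f 30 + f 40 + f 60 + f 120 := by
  rw [show Nat.divisors 120 = {1, 2, 3, 4, 5, 6, 8, 10, 12, 15, 20, 24, 30, 40, 60, 120} from by
    decide +kernel]
  rw [Finset.sum_insert (by decide), Finset.sum_insert (by decide), Finset.sum_insert (by decide),
    Finset.sum_insert (by decide), Finset.sum_insert (by decide), Finset.sum_insert (by decide),
    Finset.sum_insert (by decide), Finset.sum_insert (by decide), Finset.sum_insert (by decide),
    Finset.sum_insert (by decide), Finset.sum_insert (by decide), Finset.sum_insert (by decide),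
    Finset.sum_insert (by decide), Finset.sum_insert (by decide), Finset.sum_insert (by decide),
    Finset.sum_singleton]
  ring

/-! ### Arithmetic -/

theorem pow_fact_dvd {p k n M : ℕ} (hp : p.Prime) (hn : n ≠ 0) (h : ¬ p ^ (k + 1) ∣ n)
    (hM : p ^ k ∣ M) : p ^ n.factorization p ∣ M := by
  have hk : n.factorization p ≤ k := by
    by_contra hcon
    exact h ((hp.pow_dvd_iff_le_factorization hn).mpr (by omega))
  exact (pow_dvd_pow p hk).trans hM

theorem cases_120 {n : ℕ} (h : n ∣ 120) (hge : 60 ≤ n) : n = 60 ∨ n = 120 := by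
  have hle : n ≤ 120 := Nat.le_of_dvd (by norm_num) h
  interval_cases n <;> omega

theorem eq_648 {n : ℕ} (h : n ∣ 648) (hge : 360 ≤ n) : n = 648 := by
  obtain ⟨k, hk⟩ := h
  have hk0 : k ≠ 0 := by
    rintro rfl
    omega
  by_cases hk1 : k = 1
  · subst hk1
    omega
  · have h2 : 2 ≤ k := by omega
    have := Nat.mul_le_mul_left n h2
    omega

theorem arith_120 {s4 s6 s8 s10 s20 s40 k : ℕ} (h4 : s4 = 0 ∨ s4 = 20 ∨ s4 = 24)
    (h6 : s6 = 0 ∨ s6 = 20 ∨ s6 = 24) (h8 : s8 = 0 ∨ s8 = 20 ∨ s8 = 24)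
    (h10 : s10 = 0 ∨ s10 = 20 ∨ s10 = 24) (h20 : s20 = 0 ∨ s20 = 20 ∨ s20 = 24)
    (h40 : s40 = 0 ∨ s40 = 20 ∨ s40 = 24) (hsum : s4 + s6 + s8 + s10 + s20 + s40 = 60)
    (hk : s10 = 24 * k) (z1 : s10 = 0 → s20 = 0) (z2 : s8 = 0 → s40 = 0) : s8 = 20 := by
  rcases h4 with h4 | h4 | h4 <;> rcases h6 with h6 | h6 | h6 <;>
    rcases h8 with h8 | h8 | h8 <;> rcases h10 with h10 | h10 | h10 <;>
    rcases h20 with h20 | h20 | h20 <;> rcases h40 with h40 | h40 | h40 <;> omega

theorem arith_2grp {s4 s8 s16 s32 : ℕ} (h4 : s4 = 0 ∨ s4 = 20 ∨ s4 = 24)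
    (h8 : s8 = 0 ∨ s8 = 20 ∨ s8 = 24) (h16 : s16 = 0 ∨ s16 = 20 ∨ s16 = 24)
    (h32 : s32 = 0 ∨ s32 = 20 ∨ s32 = 24) (z1 : s4 = 0 → s8 = 0) (z2 : s8 = 0 → s16 = 0)
    (z3 : s16 = 0 → s32 = 0) (f8 : 8 ∣ 1 + 15 + s4 + s8) (f16 : 16 ∣ 1 + 15 + s4 + s8 + s16)
    (f32 : 32 ∣ 1 + 15 + s4 + s8 + s16 + s32) : s4 ≠ 20 ∧ s8 ≠ 20 ∧ s16 = 0 := by
  rcases h4 with h4 | h4 | h4 <;> rcases h8 with h8 | h8 | h8 <;>
    rcases h16 with h16 | h16 | h16 <;> rcases h32 with h32 | h32 | h32 <;> omega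

end Cfsg.Agent.Helper27.SO
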