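import Mathlib
import Cfsg.Agent.Helper27.NseBase

/-!
# Same-order counts `{1, 3, 8}` force order `12` with eight elements of order `3` (helper27)
-/

set_option autoImplicit false
set_option linter.unusedSectionVars false
set_option linter.unusedVariables false

namespace Cfsg.Agent.Helper27.SO

variable {H : Type*} [Group H] [Finite H]

theorem nse_core4
    (h : ((fun m : ℕ => Nat.card {g : H // orderOf g = m}) '' Set.range (orderOf : H → ℕ)) =
      {1, 3, 8}) :
    Nat.card H = 12 ∧ sc H 3 = 8 := by
  obtain ⟨hS, hA⟩ := nse_unpack h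
  have hS' : ∀ m, sc H m = 0 ∨ sc H m = 1 ∨ sc H m = 3 ∨ sc H m = 8 := by
    intro m
    rcases hS m with h0 | h0
    · exact Or.inl h0
    · right
      simpa using h0
  obtain ⟨g3, hg3⟩ := hA 3 (by simp)
  obtain ⟨g8, hg8⟩ := hA 8 (by simp)
  have h2 : sc H 2 = 3 := sc_two_of_odd (by decide) (by norm_num) g3 hg3
  have hV : ∀ m, 3 ≤ m → sc H m = 0 ∨ sc H m = 8 := by
    intro m hm
    have he := even_sc (H := H) hm
    rcases hS' m with h0 | h0 | h0 | h0
    · exact Or.inl h0
    · rw [h0] at he
      exact absurd he (by decide)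
    · rw [h0] at he
      exact absurd he (by decide)
    · exact Or.inr h0
  have hn0 : Nat.card H ≠ 0 := Nat.card_pos.ne'
  have hm8 : 3 ≤ orderOf g8 := three_le_orderOf (by norm_num) (by rw [h2]; norm_num) g8 hg8
  have hge : 12 ≤ Nat.card H := by
    have h1 := sum_sc_le (H := H) {1, 2, orderOf g8}
    rw [Finset.sum_insert (by simp; omega), Finset.sum_insert (by simp; omega),
      Finset.sum_singleton, sc_one, h2, hg8] at h1
    omega
  have h2d : 2 ∣ Nat.card H := dvd_card_of_sc_ne_zero (d := 2) (by rw [h2]; norm_num)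
  have hp3 : ∀ p : ℕ, p.Prime → p ∣ Nat.card H → p = 2 ∨ p = 3 := by
    intro p hp hpd
    by_cases hp2 : p = 2
    · exact Or.inl hp2
    right
    have h3 : 3 ≤ p := by
      have := hp.two_le
      omega
    have hs : sc H p = 8 := by
      rcases hV p h3 with h0 | h0
      · exact absurd h0 (sc_prime_ne_zero hp hpd)
      · exact h0
    have hc := prime_cong (H := H) hp hpd
    rw [hs] at hc
    have h9 : ((9 : ℕ) : ZMod p) = 0 := by
      push_cast
      linear_combination hc
    rw [ZMod.natCast_eq_zero_iff] at h9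
    exact (Nat.prime_dvd_prime_iff_eq hp Nat.prime_three).mp
      (hp.dvd_of_dvd_pow (show p ∣ 3 ^ 2 from h9))
  have hs3 : 3 ∣ Nat.card H → sc H 3 = 8 := by
    intro h3
    rcases hV 3 le_rfl with h0 | h0
    · exact absurd h0 (sc_prime_ne_zero Nat.prime_three h3)
    · exact h0
  have h8 : ¬ 8 ∣ Nat.card H := by
    intro h8
    have hf := frob (H := H) h8
    rw [sum_div_8, sc_one, h2] at hf
    rcases hV 4 (by norm_num) with h4 | h4 <;> rcases hV 8 (by norm_num) with h8' | h8' <;>
      rw [h4, h8'] at hf <;> omega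
  have h9 : 9 ∣ Nat.card H → sc H 9 = 0 := by
    intro h9
    have h3 := hs3 ((by norm_num : 3 ∣ 9).trans h9)
    have hf := frob (H := H) h9
    rw [sum_div_9, sc_one, h3] at hf
    rcases hV 9 (by norm_num) with h0 | h0
    · exact h0
    · rw [h0] at hf
      omega
  have h27 : ¬ 27 ∣ Nat.card H := by
    intro h27
    have h9d : 9 ∣ Nat.card H := (by norm_num : 9 ∣ 27).trans h27
    have h3 := hs3 ((by norm_num : 3 ∣ 27).trans h27)
    have hf := frob (H := H) h27
    rw [sum_div_27, sc_one, h3, h9 h9d, sc_eq_zero_of_dvd (by norm_num : 9 ∣ 27) (h9 h9d)] at hf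
    omega
  have hd36 : Nat.card H ∣ 36 := by
    apply dvd_of_forall_prime_pow hn0 (by norm_num)
    intro t ht htd
    rcases hp3 t ht htd with rfl | rfl
    · have hk : (Nat.card H).factorization 2 ≤ 2 := by
        by_contra hcon
        apply h8
        have := (Nat.prime_two.pow_dvd_iff_le_factorization hn0).mpr
          (show 3 ≤ (Nat.card H).factorization 2 by omega)
        simpa using this
      exact (pow_dvd_pow 2 hk).trans (by norm_num)
    · have hk : (Nat.card H).factorization 3 ≤ 2 := by
        by_contra hcon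
        apply h27
        have := (Nat.prime_three.pow_dvd_iff_le_factorization hn0).mpr
          (show 3 ≤ (Nat.card H).factorization 3 by omega)
        simpa using this
      exact (pow_dvd_pow 3 hk).trans (by norm_num)
  have hle : Nat.card H ≤ 36 := Nat.le_of_dvd (by norm_num) hd36
  have hcases : Nat.card H = 12 ∨ Nat.card H = 18 ∨ Nat.card H = 36 := by
    generalize Nat.card H = n at *
    interval_cases n <;> omega
  rcases hcases with hc | hc | hc
  · refine ⟨hc, ?_⟩
    exact hs3 (by rw [hc]; norm_num)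
  · exfalso
    have h3 := hs3 (by rw [hc]; norm_num)
    have hsum := card_eq_sum_sc_divisors hc
    rw [sum_div_18, sc_one, h2, h3] at hsum
    rcases hV 6 (by norm_num) with h6 | h6 <;> rcases hV 9 (by norm_num) with h9' | h9' <;>
      rcases hV 18 (by norm_num) with h18 | h18 <;> rw [h6, h9', h18] at hsum <;> omega
  · exfalso
    have h3 := hs3 (by rw [hc]; norm_num)
    have h90 := h9 (by rw [hc]; norm_num)
    have hsum := card_eq_sum_sc_divisors hc
    rw [sum_div_36, sc_one, h2, h3, h90, sc_eq_zero_of_dvd (by norm_num : 9 ∣ 18) h90,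
      sc_eq_zero_of_dvd (by norm_num : 9 ∣ 36) h90] at hsum
    have h4 : sc H 4 = 8 := by
      rcases hV 4 (by norm_num) with h4 | h4 <;> rcases hV 6 (by norm_num) with h6 | h6 <;>
        rcases hV 12 (by norm_num) with h12 | h12 <;> rw [h4, h6, h12] at hsum <;> omega
    have : Fact (Nat.Prime 2) := ⟨Nat.prime_two⟩
    obtain ⟨P⟩ : Nonempty (Sylow 2 H) := inferInstance
    have hn : Nat.card H = 2 ^ 2 * 9 := by rw [hc]; norm_num
    have hP := sylow_card P hn (by norm_num)
    have hnum := sylow_num_dvd P hn (by norm_num)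
    have hcyc := (pc_cyc P hP (by rw [show (2 : ℕ) ^ 2 = 4 from rfl, h4]; norm_num)).1
    rw [show (2 : ℕ) ^ 2 = 4 from rfl, h4, show Nat.totient 4 = 2 from by decide] at hcyc
    have h4' : Nat.card (Sylow 2 H) = 4 := by omega
    rw [h4'] at hnum
    omega

end Cfsg.Agent.Helper27.SO
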