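import Mathlib
import Cfsg.Agent.Helper27.NseBase

/-!
# Same-order counts `{1, 15, 20, 24}` force order `60` (helper27)
-/

set_option autoImplicit false
set_option linter.unusedSectionVars false
set_option linter.unusedVariables false

namespace Cfsg.Agent.Helper27.SO

variable {H : Type*} [Group H] [Finite H]

theorem nse_core5
    (h : ((fun m : ℕ => Nat.card {g : H // orderOf g = m}) '' Set.range (orderOf : H → ℕ)) =
      {1, 15, 20, 24}) :
    Nat.card H = 60 ∧ sc H 2 = 15 ∧ sc H 3 = 20 ∧ sc H 5 = 24 := by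
  obtain ⟨hS, hA⟩ := nse_unpack h
  have hS' : ∀ m, sc H m = 0 ∨ sc H m = 1 ∨ sc H m = 15 ∨ sc H m = 20 ∨ sc H m = 24 := by
    intro m
    rcases hS m with h0 | h0
    · exact Or.inl h0
    · right
      simpa using h0
  obtain ⟨g15, hg15⟩ := hA 15 (by simp)
  obtain ⟨g20, hg20⟩ := hA 20 (by simp)
  obtain ⟨g24, hg24⟩ := hA 24 (by simp)
  have h2 : sc H 2 = 15 := sc_two_of_odd (by decide) (by norm_num) g15 hg15
  have hV : ∀ m, 3 ≤ m → sc H m = 0 ∨ sc H m = 20 ∨ sc H m = 24 := by
    intro m hm
    have he := even_sc (H := H) hm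
    rcases hS' m with h0 | h0 | h0 | h0 | h0
    · exact Or.inl h0
    · rw [h0] at he
      exact absurd he (by decide)
    · rw [h0] at he
      exact absurd he (by decide)
    · exact Or.inr (Or.inl h0)
    · exact Or.inr (Or.inr h0)
  have hn0 : Nat.card H ≠ 0 := Nat.card_pos.ne'
  have hm20 : 3 ≤ orderOf g20 := three_le_orderOf (by norm_num) (by rw [h2]; norm_num) g20 hg20
  have hm24 : 3 ≤ orderOf g24 := three_le_orderOf (by norm_num) (by rw [h2]; norm_num) g24 hg24
  have hge : 60 ≤ Nat.card H := by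
    have hnotin : orderOf g20 ∉ ({orderOf g24} : Finset ℕ) := by
      rw [Finset.mem_singleton]
      intro he
      rw [he, hg24] at hg20
      omega
    have h1 := sum_sc_le (H := H) {1, 2, orderOf g20, orderOf g24}
    rw [Finset.sum_insert (by simp; omega), Finset.sum_insert (by simp; omega),
      Finset.sum_insert hnotin, Finset.sum_singleton, sc_one, h2, hg20, hg24] at h1
    omega
  have hp35 : ∀ p : ℕ, p.Prime → p ∣ Nat.card H → p ≠ 2 →
      (p = 3 ∧ sc H 3 = 20) ∨ (p = 5 ∧ sc H 5 = 24) := by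
    intro p hp hpd hp2
    have h3 : 3 ≤ p := by
      have := hp.two_le
      omega
    have hc := prime_cong (H := H) hp hpd
    rcases hV p h3 with h0 | h0 | h0
    · exact absurd h0 (sc_prime_ne_zero hp hpd)
    · left
      rw [h0] at hc
      have h21 : ((21 : ℕ) : ZMod p) = 0 := by
        push_cast
        linear_combination hc
      rw [ZMod.natCast_eq_zero_iff] at h21
      rcases (Nat.Prime.dvd_mul hp).mp (show p ∣ 3 * 7 from h21) with h | h
      · have := (Nat.prime_dvd_prime_iff_eq hp Nat.prime_three).mp h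
        subst this
        exact ⟨rfl, h0⟩
      · have := (Nat.prime_dvd_prime_iff_eq hp (by norm_num : Nat.Prime 7)).mp h
        subst this
        have ht := pc_tot (H := H) 7
        rw [h0, Nat.totient_prime (by norm_num)] at ht
        norm_num at ht
    · right
      rw [h0] at hc
      have h25 : ((25 : ℕ) : ZMod p) = 0 := by
        push_cast
        linear_combination hc
      rw [ZMod.natCast_eq_zero_iff] at h25
      have := (Nat.prime_dvd_prime_iff_eq hp (by norm_num : Nat.Prime 5)).mp
        (hp.dvd_of_dvd_pow (show p ∣ 5 ^ 2 from h25))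
      subst this
      exact ⟨rfl, h0⟩
  have hs3 : 3 ∣ Nat.card H → sc H 3 = 20 := by
    intro h3
    rcases hp35 3 Nat.prime_three h3 (by norm_num) with ⟨_, h⟩ | ⟨h, _⟩
    · exact h
    · omega
  have hs5 : 5 ∣ Nat.card H → sc H 5 = 24 := by
    intro h5
    rcases hp35 5 (by norm_num) h5 (by norm_num) with ⟨h, _⟩ | ⟨_, h⟩
    · omega
    · exact h
  have h9 : ¬ 9 ∣ Nat.card H := by
    intro h9
    have h3 := hs3 ((by norm_num : 3 ∣ 9).trans h9)
    have hf := frob (H := H) h9
    rw [sum_div_9, sc_one, h3] at hf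
    have h9s : sc H 9 = 24 := by
      rcases hV 9 (by norm_num) with h0 | h0 | h0 <;> omega
    have h27 : ¬ 27 ∣ Nat.card H := by
      intro h27
      have hf := frob (H := H) h27
      rw [sum_div_27, sc_one, h3, h9s] at hf
      rcases hV 27 (by norm_num) with h0 | h0 | h0 <;> omega
    obtain ⟨n', hn', hcop⟩ := exists_eq_pow_mul (p := 3) (a := 2) (by simpa using h9)
      (by simpa using h27)
    have : Fact (Nat.Prime 3) := ⟨Nat.prime_three⟩
    obtain ⟨P⟩ : Nonempty (Sylow 3 H) := inferInstance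
    have hP := sylow_card P hn' hcop
    have hcyc := pc_cyc P hP (by rw [show (3 : ℕ) ^ 2 = 9 from rfl, h9s]; norm_num)
    have h1 := hcyc.1
    have h2' := hcyc.2 1
    rw [show (3 : ℕ) ^ 2 = 9 from rfl, h9s, show Nat.totient 9 = 6 from by decide] at h1
    rw [pow_one, h3, show Nat.totient 3 = 2 from by decide] at h2'
    omega
  have h25s : 25 ∣ Nat.card H → sc H 25 = 0 := by
    intro h25
    have h5 := hs5 ((by norm_num : 5 ∣ 25).trans h25)
    have hf := frob (H := H) h25
    rw [sum_div_25, sc_one, h5] at hf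
    rcases hV 25 (by norm_num) with h0 | h0 | h0 <;> omega
  have h125 : ¬ 125 ∣ Nat.card H := by
    intro h125
    have h25d : 25 ∣ Nat.card H := (by norm_num : 25 ∣ 125).trans h125
    have h5 := hs5 ((by norm_num : 5 ∣ 125).trans h125)
    have hf := frob (H := H) h125
    rw [sum_div_125, sc_one, h5, h25s h25d,
      sc_eq_zero_of_dvd (by norm_num : 25 ∣ 125) (h25s h25d)] at hf
    omega
  have h5d : 5 ∣ Nat.card H := by
    by_contra h5
    by_cases h3 : 3 ∣ Nat.card H
    · obtain ⟨n', hn', hcop⟩ := exists_eq_pow_mul (p := 3) (a := 1) (by simpa using h3)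
        (by simpa using h9)
      have : Fact (Nat.Prime 3) := ⟨Nat.prime_three⟩
      obtain ⟨P⟩ : Nonempty (Sylow 3 H) := inferInstance
      have hP := sylow_card P hn' hcop
      have hnum := sylow_num_dvd P hn' hcop
      have hcyc := (pc_cyc P hP (by rw [pow_one, hs3 h3]; norm_num)).1
      rw [pow_one, hs3 h3, show Nat.totient 3 = 2 from by decide] at hcyc
      have h10 : Nat.card (Sylow 3 H) = 10 := by omega
      rw [h10] at hnum
      apply h5
      rw [hn']
      exact (by norm_num : 5 ∣ 10).trans (hnum.trans (dvd_mul_left _ _))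
    · have hall : ∀ {d : ℕ}, d.Prime → d ∣ Nat.card H → d = 2 := by
        intro d hd hdd
        by_contra hd2
        rcases hp35 d hd hdd hd2 with ⟨rfl, _⟩ | ⟨rfl, _⟩
        · exact h3 hdd
        · exact h5 hdd
      have hpow := Nat.eq_prime_pow_of_unique_prime_dvd hn0 hall
      generalize (Nat.card H).primeFactorsList.length = a at hpow
      have ha6 : 6 ≤ a := by
        by_contra hcon
        have ha5 : a ≤ 5 := by omega
        have h32 := Nat.pow_le_pow_right (by norm_num : 1 ≤ 2) ha5
        rw [hpow] at hge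
        norm_num at h32
        omega
      have h32 : 32 ∣ Nat.card H := by
        rw [hpow]
        exact (show (32 : ℕ) = 2 ^ 5 from rfl) ▸ pow_dvd_pow 2 (by omega)
      have h8 : 8 ∣ Nat.card H := (by norm_num : 8 ∣ 32).trans h32
      have h16 : 16 ∣ Nat.card H := (by norm_num : 16 ∣ 32).trans h32
      have hf8 := frob (H := H) h8
      have hf16 := frob (H := H) h16
      have hf32 := frob (H := H) h32
      rw [sum_div_8, sc_one, h2] at hf8
      rw [sum_div_16, sc_one, h2] at hf16
      rw [sum_div_32, sc_one, h2] at hf32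
      have key := arith_2grp (hV 4 (by norm_num)) (hV 8 (by norm_num)) (hV 16 (by norm_num))
        (hV 32 (by norm_num)) (sc_eq_zero_of_dvd (by norm_num)) (sc_eq_zero_of_dvd (by norm_num))
        (sc_eq_zero_of_dvd (by norm_num)) hf8 hf16 hf32
      have hd := orderOf_dvd_natCard g20
      rw [hpow] at hd
      obtain ⟨j, hj, hjm⟩ := (Nat.dvd_prime_pow Nat.prime_two).mp hd
      rw [hjm] at hg20
      have hj' : j = 0 ∨ j = 1 ∨ j = 2 ∨ j = 3 ∨ 4 ≤ j := by omega
      rcases hj' with rfl | rfl | rfl | rfl | h4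
      · rw [pow_zero, sc_one] at hg20
        omega
      · rw [pow_one, h2] at hg20
        omega
      · exact key.1 hg20
      · exact key.2.1 hg20
      · have := sc_eq_zero_of_dvd (H := H)
          (show 16 ∣ 2 ^ j from (show (16 : ℕ) = 2 ^ 4 from rfl) ▸ pow_dvd_pow 2 h4) key.2.2
        omega
  have h25 : ¬ 25 ∣ Nat.card H := by
    intro h25
    obtain ⟨n', hn', hcop⟩ := exists_eq_pow_mul (p := 5) (a := 2) (by simpa using h25)
      (by simpa using h125)
    have : Fact (Nat.Prime 5) := ⟨by norm_num⟩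
    obtain ⟨P⟩ : Nonempty (Sylow 5 H) := inferInstance
    have hP := sylow_card P hn' hcop
    have hexp := exp_of_sc_sq_zero P (by rw [show (5 : ℕ) ^ 2 = 25 from rfl]; exact h25s h25)
    refine pc_no25 (P : Subgroup H) (by rw [hP]; norm_num) hexp (hs5 h5d) h2 ?_
    rcases hV 10 (by norm_num) with h0 | h0 | h0 <;> omega
  have : Fact (Nat.Prime 5) := ⟨by norm_num⟩
  have : Fact (Nat.Prime 3) := ⟨by norm_num⟩
  have h5 := hs5 h5d
  obtain ⟨n5, hn5, hcop5⟩ := exists_eq_pow_mul (p := 5) (a := 1) (by simpa using h5d)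
    (by simpa using h25)
  obtain ⟨P5⟩ : Nonempty (Sylow 5 H) := inferInstance
  have hP5 := sylow_card P5 hn5 hcop5
  have hnum5 := sylow_num_dvd P5 hn5 hcop5
  have hcyc5 := (pc_cyc P5 hP5 (by rw [pow_one, h5]; norm_num)).1
  rw [pow_one, h5, show Nat.totient 5 = 4 from by decide] at hcyc5
  have hn5' : Nat.card (Sylow 5 H) = 6 := by omega
  have h3d : 3 ∣ Nat.card H := by
    rw [hn5'] at hnum5
    rw [hn5]
    exact (by norm_num : 3 ∣ 6).trans (hnum5.trans (dvd_mul_left _ _))
  have h3 := hs3 h3d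
  obtain ⟨n3, hn3, hcop3⟩ := exists_eq_pow_mul (p := 3) (a := 1) (by simpa using h3d)
    (by simpa using h9)
  obtain ⟨P3⟩ : Nonempty (Sylow 3 H) := inferInstance
  have hP3 := sylow_card P3 hn3 hcop3
  have hcyc3 := (pc_cyc P3 hP3 (by rw [pow_one, h3]; norm_num)).1
  rw [pow_one, h3, show Nat.totient 3 = 2 from by decide] at hcyc3
  have hn3' : Nat.card (Sylow 3 H) = 10 := by omega
  have hN3 := sylow_num_mul_normalizer P3
  rw [hn3'] at hN3
  rw [pow_one] at hP3 hP5
  have hC3 : ¬ 4 ∣ Nat.card (Subgroup.centralizer ((P3 : Subgroup H) : Set H)) := by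
    apply not_four_dvd_centralizer (by norm_num) P3 hP3
    · rw [h3]
      show sc H 6 < 2 * 20
      rcases hV 6 (by norm_num) with h0 | h0 | h0 <;> omega
    · rw [h3]
      show sc H 12 < 2 * 20
      rcases hV 12 (by norm_num) with h0 | h0 | h0 <;> omega
  have hNC3 := pc_nc P3 hP3
  have h16 : ¬ 16 ∣ Nat.card H := by
    intro h16
    rw [← hN3] at h16
    have h8N : 8 ∣ Nat.card (Subgroup.normalizer ((P3 : Subgroup H) : Set H)) := by omega
    have h8C : 8 ∣ 2 * Nat.card (Subgroup.centralizer ((P3 : Subgroup H) : Set H)) :=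
      h8N.trans hNC3
    apply hC3
    omega
  have hd120 : Nat.card H ∣ 120 := by
    apply dvd_of_forall_prime_pow hn0 (by norm_num)
    intro t ht htd
    by_cases ht2 : t = 2
    · subst ht2
      exact pow_fact_dvd Nat.prime_two hn0 (k := 3) h16 (by norm_num)
    · rcases hp35 t ht htd ht2 with ⟨rfl, _⟩ | ⟨rfl, _⟩
      · exact pow_fact_dvd Nat.prime_three hn0 (k := 1) h9 (by norm_num)
      · exact pow_fact_dvd (by norm_num) hn0 (k := 1) h25 (by norm_num)
  rcases cases_120 hd120 hge with hc | hc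
  · exact ⟨hc, h2, h3, h5⟩
  · exfalso
    have hsum := card_eq_sum_sc_divisors hc
    rw [sum_div_120, sc_one, h2, h3, h5] at hsum
    have e15a := pc_sylmul (H := H) (p := 5) (m := 3) (by norm_num) P5 hP5
    have e15b := pc_sylmul (H := H) (p := 3) (m := 5) (by norm_num) P3 hP3
    rw [h5] at e15a
    rw [h3] at e15b
    have s15 : sc H 15 = 0 := by
      have e1 : sc H 15 = 24 * _ := e15a
      have e2 : sc H 15 = 20 * _ := e15b
      rcases hV 15 (by norm_num) with h0 | h0 | h0
      · exact h0
      · omega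
      · omega
    have s12 : sc H 12 = 0 := by
      have k4 := card_comm_eq_zero (H := H) (p := 3) (m := 4) (by norm_num) (by norm_num) P3 hP3
        (by
          rw [h3]
          show sc H 12 < 2 * 20
          rcases hV 12 (by norm_num) with h0 | h0 | h0 <;> omega)
      have e := pc_sylmul (H := H) (p := 3) (m := 4) (by norm_num) P3 hP3
      rw [k4, mul_zero] at e
      exact e
    have e10 := pc_sylmul (H := H) (p := 5) (m := 2) (by norm_num) P5 hP5
    rw [h5] at e10
    have e10' : sc H 10 = 24 * _ := e10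
    rw [s15, s12, sc_eq_zero_of_dvd (by norm_num : 15 ∣ 30) s15,
      sc_eq_zero_of_dvd (by norm_num : 15 ∣ 60) s15,
      sc_eq_zero_of_dvd (by norm_num : 15 ∣ 120) s15,
      sc_eq_zero_of_dvd (by norm_num : 12 ∣ 24) s12] at hsum
    have s8 : sc H 8 = 20 :=
      arith_120 (hV 4 (by norm_num)) (hV 6 (by norm_num)) (hV 8 (by norm_num))
        (hV 10 (by norm_num)) (hV 20 (by norm_num)) (hV 40 (by norm_num)) (by omega) e10'
        (sc_eq_zero_of_dvd (by norm_num)) (sc_eq_zero_of_dvd (by norm_num))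
    have : Fact (Nat.Prime 2) := ⟨Nat.prime_two⟩
    obtain ⟨P2⟩ : Nonempty (Sylow 2 H) := inferInstance
    have hn2 : Nat.card H = 2 ^ 3 * 15 := by rw [hc]; norm_num
    have hP2 := sylow_card P2 hn2 (by norm_num)
    have hcyc2 := pc_cyc P2 hP2 (by rw [show (2 : ℕ) ^ 3 = 8 from rfl, s8]; norm_num)
    have h1 := hcyc2.1
    have h2' := hcyc2.2 1
    rw [show (2 : ℕ) ^ 3 = 8 from rfl, s8, show Nat.totient 8 = 4 from by decide] at h1
    rw [pow_one, h2, show Nat.totient 2 = 1 from by decide] at h2'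
    omega

end Cfsg.Agent.Helper27.SO
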