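import Mathlib
import Cfsg.Agent.Helper27.NseBase

/-!
# Same-order counts `{1, 45, 80, 90, 144}` force order `360` (helper27)
-/

set_option autoImplicit false
set_option linter.unusedSectionVars false
set_option linter.unusedVariables false

namespace Cfsg.Agent.Helper27.SO

variable {H : Type*} [Group H] [Finite H]

theorem nse_core6
    (h : ((fun m : ℕ => Nat.card {g : H // orderOf g = m}) '' Set.range (orderOf : H → ℕ)) =
      {1, 45, 80, 90, 144}) :
    Nat.card H = 360 ∧ sc H 2 = 45 ∧ sc H 3 = 80 ∧ sc H 4 = 90 ∧ sc H 5 = 144 := by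
  obtain ⟨hS, hA⟩ := nse_unpack h
  have hS' : ∀ m, sc H m = 0 ∨ sc H m = 1 ∨ sc H m = 45 ∨ sc H m = 80 ∨ sc H m = 90 ∨
      sc H m = 144 := by
    intro m
    rcases hS m with h0 | h0
    · exact Or.inl h0
    · right
      simpa using h0
  obtain ⟨g45, hg45⟩ := hA 45 (by simp)
  obtain ⟨g80, hg80⟩ := hA 80 (by simp)
  obtain ⟨g90, hg90⟩ := hA 90 (by simp)
  obtain ⟨g144, hg144⟩ := hA 144 (by simp)
  have h2 : sc H 2 = 45 := sc_two_of_odd (by decide) (by norm_num) g45 hg45
  have hV : ∀ m, 3 ≤ m → sc H m = 0 ∨ sc H m = 80 ∨ sc H m = 90 ∨ sc H m = 144 := by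
    intro m hm
    have he := even_sc (H := H) hm
    rcases hS' m with h0 | h0 | h0 | h0 | h0 | h0
    · exact Or.inl h0
    · rw [h0] at he
      exact absurd he (by decide)
    · rw [h0] at he
      exact absurd he (by decide)
    · exact Or.inr (Or.inl h0)
    · exact Or.inr (Or.inr (Or.inl h0))
    · exact Or.inr (Or.inr (Or.inr h0))
  have hn0 : Nat.card H ≠ 0 := Nat.card_pos.ne'
  have hm80 : 3 ≤ orderOf g80 := three_le_orderOf (by norm_num) (by rw [h2]; norm_num) g80 hg80
  have hm90 : 3 ≤ orderOf g90 := three_le_orderOf (by norm_num) (by rw [h2]; norm_num) g90 hg90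
  have hm144 : 3 ≤ orderOf g144 :=
    three_le_orderOf (by norm_num) (by rw [h2]; norm_num) g144 hg144
  have hge : 360 ≤ Nat.card H := by
    have hnotin1 : orderOf g90 ∉ ({orderOf g144} : Finset ℕ) := by
      rw [Finset.mem_singleton]
      intro he
      rw [he, hg144] at hg90
      omega
    have hnotin2 : orderOf g80 ∉ ({orderOf g90, orderOf g144} : Finset ℕ) := by
      rw [Finset.mem_insert, Finset.mem_singleton]
      rintro (he | he)
      · rw [he, hg90] at hg80
        omega
      · rw [he, hg144] at hg80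
        omega
    have h1 := sum_sc_le (H := H) {1, 2, orderOf g80, orderOf g90, orderOf g144}
    rw [Finset.sum_insert (by simp; omega), Finset.sum_insert (by simp; omega),
      Finset.sum_insert hnotin2, Finset.sum_insert hnotin1, Finset.sum_singleton, sc_one, h2,
      hg80, hg90, hg144] at h1
    omega
  have hp357 : ∀ p : ℕ, p.Prime → p ∣ Nat.card H → p ≠ 2 →
      (p = 3 ∧ sc H 3 = 80) ∨ (p = 5 ∧ sc H 5 = 144) ∨ (p = 7 ∧ sc H 7 = 90) := by
    intro p hp hpd hp2
    have h3 : 3 ≤ p := by
      have := hp.two_le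
      omega
    have hc := prime_cong (H := H) hp hpd
    rcases hV p h3 with h0 | h0 | h0 | h0
    · exact absurd h0 (sc_prime_ne_zero hp hpd)
    · left
      rw [h0] at hc
      have h81 : ((81 : ℕ) : ZMod p) = 0 := by
        push_cast
        linear_combination hc
      rw [ZMod.natCast_eq_zero_iff] at h81
      have := (Nat.prime_dvd_prime_iff_eq hp Nat.prime_three).mp
        (hp.dvd_of_dvd_pow (show p ∣ 3 ^ 4 from h81))
      subst this
      exact ⟨rfl, h0⟩
    · right
      right
      rw [h0] at hc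
      have h91 : ((91 : ℕ) : ZMod p) = 0 := by
        push_cast
        linear_combination hc
      rw [ZMod.natCast_eq_zero_iff] at h91
      rcases (Nat.Prime.dvd_mul hp).mp (show p ∣ 7 * 13 from h91) with h | h
      · have := (Nat.prime_dvd_prime_iff_eq hp (by norm_num : Nat.Prime 7)).mp h
        subst this
        exact ⟨rfl, h0⟩
      · have := (Nat.prime_dvd_prime_iff_eq hp (by norm_num : Nat.Prime 13)).mp h
        subst this
        have ht := pc_tot (H := H) 13
        rw [h0, Nat.totient_prime (by norm_num)] at ht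
        norm_num at ht
    · right
      left
      rw [h0] at hc
      have h145 : ((145 : ℕ) : ZMod p) = 0 := by
        push_cast
        linear_combination hc
      rw [ZMod.natCast_eq_zero_iff] at h145
      rcases (Nat.Prime.dvd_mul hp).mp (show p ∣ 5 * 29 from h145) with h | h
      · have := (Nat.prime_dvd_prime_iff_eq hp (by norm_num : Nat.Prime 5)).mp h
        subst this
        exact ⟨rfl, h0⟩
      · have := (Nat.prime_dvd_prime_iff_eq hp (by norm_num : Nat.Prime 29)).mp h
        subst this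
        have ht := pc_tot (H := H) 29
        rw [h0, Nat.totient_prime (by norm_num)] at ht
        norm_num at ht
  have hs3 : 3 ∣ Nat.card H → sc H 3 = 80 := by
    intro h3
    rcases hp357 3 Nat.prime_three h3 (by norm_num) with ⟨_, h⟩ | ⟨h, _⟩ | ⟨h, _⟩
    · exact h
    · omega
    · omega
  have hs5 : 5 ∣ Nat.card H → sc H 5 = 144 := by
    intro h5
    rcases hp357 5 (by norm_num) h5 (by norm_num) with ⟨h, _⟩ | ⟨_, h⟩ | ⟨h, _⟩
    · omega
    · exact h
    · omega
  have hs7 : 7 ∣ Nat.card H → sc H 7 = 90 := by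
    intro h7
    rcases hp357 7 (by norm_num) h7 (by norm_num) with ⟨h, _⟩ | ⟨h, _⟩ | ⟨_, h⟩
    · omega
    · omega
    · exact h
  have h4s : 4 ∣ Nat.card H → sc H 4 = 90 := by
    intro h4
    have hf := frob (H := H) h4
    rw [sum_div_4, sc_one, h2] at hf
    rcases hV 4 (by norm_num) with h0 | h0 | h0 | h0 <;> omega
  have h16 : ¬ 16 ∣ Nat.card H := by
    intro h16
    have h4 := h4s ((by norm_num : 4 ∣ 16).trans h16)
    have hf8 := frob (H := H) ((by norm_num : 8 ∣ 16).trans h16)
    have hf16 := frob (H := H) h16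
    rw [sum_div_8, sc_one, h2, h4] at hf8
    rw [sum_div_16, sc_one, h2, h4] at hf16
    rcases hV 8 (by norm_num) with e8 | e8 | e8 | e8 <;>
      rcases hV 16 (by norm_num) with e16 | e16 | e16 | e16 <;> omega
  have h49 : ¬ 49 ∣ Nat.card H := by
    intro h49
    have h7 := hs7 ((by norm_num : 7 ∣ 49).trans h49)
    have hf := frob (H := H) h49
    rw [sum_div_49, sc_one, h7] at hf
    rcases hV 49 (by norm_num) with h0 | h0 | h0 | h0 <;> omega
  have h25 : ¬ 25 ∣ Nat.card H := by
    intro h25
    have h5 := hs5 ((by norm_num : 5 ∣ 25).trans h25)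
    have hf := frob (H := H) h25
    rw [sum_div_25, sc_one, h5] at hf
    have h25s : sc H 25 = 80 := by
      rcases hV 25 (by norm_num) with h0 | h0 | h0 | h0 <;> omega
    have h125 : ¬ 125 ∣ Nat.card H := by
      intro h125
      have hf := frob (H := H) h125
      rw [sum_div_125, sc_one, h5, h25s] at hf
      rcases hV 125 (by norm_num) with h0 | h0 | h0 | h0 <;> omega
    obtain ⟨n', hn', hcop⟩ := exists_eq_pow_mul (p := 5) (a := 2) (by simpa using h25)
      (by simpa using h125)
    have : Fact (Nat.Prime 5) := ⟨by norm_num⟩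
    obtain ⟨P⟩ : Nonempty (Sylow 5 H) := inferInstance
    have hP := sylow_card P hn' hcop
    have hcyc := (pc_cyc P hP (by rw [show (5 : ℕ) ^ 2 = 25 from rfl, h25s]; norm_num)).1
    rw [show (5 : ℕ) ^ 2 = 25 from rfl, h25s, show Nat.totient 25 = 20 from by decide] at hcyc
    have h4 : Nat.card (Sylow 5 H) = 4 := by omega
    have hmod := card_sylow_modEq_one 5 H
    rw [h4] at hmod
    exact absurd hmod (by decide)
  have h9s : sc H 9 = 0 := by
    by_contra hne
    have h9d : 9 ∣ Nat.card H := dvd_card_of_sc_ne_zero hne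
    have h3 := hs3 ((by norm_num : 3 ∣ 9).trans h9d)
    have hf := frob (H := H) h9d
    rw [sum_div_9, sc_one, h3] at hf
    have h9v : sc H 9 = 90 ∨ sc H 9 = 144 := by
      rcases hV 9 (by norm_num) with h0 | h0 | h0 | h0 <;> omega
    have h27 : ¬ 27 ∣ Nat.card H := by
      intro h27
      have hf := frob (H := H) h27
      rw [sum_div_27, sc_one, h3] at hf
      rcases h9v with h0 | h0 <;> rcases hV 27 (by norm_num) with e | e | e | e <;> omega
    obtain ⟨n', hn', hcop⟩ := exists_eq_pow_mul (p := 3) (a := 2) (by simpa using h9d)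
      (by simpa using h27)
    have : Fact (Nat.Prime 3) := ⟨by norm_num⟩
    obtain ⟨P⟩ : Nonempty (Sylow 3 H) := inferInstance
    have hP := sylow_card P hn' hcop
    have hcyc := pc_cyc P hP (by rw [show (3 : ℕ) ^ 2 = 9 from rfl]; exact hne)
    have h1 := hcyc.1
    have h2' := hcyc.2 1
    rw [show (3 : ℕ) ^ 2 = 9 from rfl, show Nat.totient 9 = 6 from by decide] at h1
    rw [pow_one, h3, show Nat.totient 3 = 2 from by decide] at h2'
    rcases h9v with h0 | h0 <;> omega
  have h243 : ¬ 243 ∣ Nat.card H := by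
    intro h243
    have h3 := hs3 ((by norm_num : 3 ∣ 243).trans h243)
    have : Fact (Nat.Prime 3) := ⟨by norm_num⟩
    obtain ⟨P⟩ : Nonempty (Sylow 3 H) := inferInstance
    have hexp := exp_of_sc_sq_zero P (by rw [show (3 : ℕ) ^ 2 = 9 from rfl]; exact h9s)
    have hle := card_le_of_exp Nat.prime_three (P : Subgroup H) hexp
    rw [h3] at hle
    have hdvd : 243 ∣ Nat.card (P : Subgroup H) := by
      rw [Sylow.card_eq_multiplicity]
      exact (show (243 : ℕ) = 3 ^ 5 from rfl) ▸ pow_dvd_pow 3
        ((Nat.prime_three.pow_dvd_iff_le_factorization hn0).mp (by simpa using h243))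
    have := Nat.le_of_dvd Nat.card_pos hdvd
    omega
  have h5d : 5 ∣ Nat.card H := by
    by_contra h5
    have h7 : ¬ 7 ∣ Nat.card H := by
      intro h7
      obtain ⟨n', hn', hcop⟩ := exists_eq_pow_mul (p := 7) (a := 1) (by simpa using h7)
        (by simpa using h49)
      have : Fact (Nat.Prime 7) := ⟨by norm_num⟩
      obtain ⟨P⟩ : Nonempty (Sylow 7 H) := inferInstance
      have hP := sylow_card P hn' hcop
      have hnum := sylow_num_dvd P hn' hcop
      have hcyc := (pc_cyc P hP (by rw [pow_one, hs7 h7]; norm_num)).1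
      rw [pow_one, hs7 h7, show Nat.totient 7 = 6 from by decide] at hcyc
      have h15 : Nat.card (Sylow 7 H) = 15 := by omega
      rw [h15] at hnum
      apply h5
      rw [hn']
      exact (by norm_num : 5 ∣ 15).trans (hnum.trans (dvd_mul_left _ _))
    have hd648 : Nat.card H ∣ 648 := by
      apply dvd_of_forall_prime_pow hn0 (by norm_num)
      intro t ht htd
      by_cases ht2 : t = 2
      · subst ht2
        exact pow_fact_dvd Nat.prime_two hn0 (k := 3) h16 (by norm_num)
      · rcases hp357 t ht htd ht2 with ⟨rfl, _⟩ | ⟨rfl, _⟩ | ⟨rfl, _⟩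
        · exact pow_fact_dvd Nat.prime_three hn0 (k := 4) h243 (by norm_num)
        · exact absurd htd h5
        · exact absurd htd h7
    have hc : Nat.card H = 648 := eq_648 hd648 hge
    have h3 := hs3 (by rw [hc]; norm_num)
    have : Fact (Nat.Prime 3) := ⟨by norm_num⟩
    obtain ⟨P⟩ : Nonempty (Sylow 3 H) := inferInstance
    have hP := sylow_card P (show Nat.card H = 3 ^ 4 * 8 by rw [hc]; norm_num) (by norm_num)
    have hexp := exp_of_sc_sq_zero P (by rw [show (3 : ℕ) ^ 2 = 9 from rfl]; exact h9s)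
    refine pc_no81 (P : Subgroup H) (by rw [hP]; norm_num) hexp h3 h2 ?_
    rcases hV 6 (by norm_num) with h0 | h0 | h0 | h0 <;> omega
  have : Fact (Nat.Prime 5) := ⟨by norm_num⟩
  have h5 := hs5 h5d
  obtain ⟨n5, hn5, hcop5⟩ := exists_eq_pow_mul (p := 5) (a := 1) (by simpa using h5d)
    (by simpa using h25)
  obtain ⟨P5⟩ : Nonempty (Sylow 5 H) := inferInstance
  have hP5 := sylow_card P5 hn5 hcop5
  have hcyc5 := (pc_cyc P5 hP5 (by rw [pow_one, h5]; norm_num)).1
  rw [pow_one, h5, show Nat.totient 5 = 4 from by decide] at hcyc5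
  have hn5' : Nat.card (Sylow 5 H) = 36 := by omega
  have hN5 := sylow_num_mul_normalizer P5
  rw [hn5'] at hN5
  rw [pow_one] at hP5
  have hNC5 := pc_nc P5 hP5
  have hq : ∀ q : ℕ, q.Prime → q ≠ 2 → q ≠ 5 → sc H (5 * q) < 288 →
      ¬ q ∣ Nat.card (Subgroup.normalizer ((P5 : Subgroup H) : Set H)) := by
    intro q hq hq2 hq5 hlt hqd
    have hq3 : 3 ≤ q := by
      have := hq.two_le
      omega
    have hcop : Nat.Coprime 5 q := (Nat.coprime_primes (by norm_num) hq).mpr (Ne.symm hq5)
    have k0 := card_comm_eq_zero hcop hq3 P5 hP5 (by rw [h5]; exact hlt)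
    have hC := not_dvd_card_centralizer hq (P5 : Subgroup H) k0
    rcases (Nat.Prime.dvd_mul hq).mp (hqd.trans hNC5) with h4 | hc
    · have h4' : q ∣ 2 ^ 2 := h4
      exact hq2 ((Nat.prime_dvd_prime_iff_eq hq Nat.prime_two).mp (hq.dvd_of_dvd_pow h4'))
    · exact hC hc
  have h7 : ¬ 7 ∣ Nat.card H := by
    intro h7
    have h7N : 7 ∣ Nat.card (Subgroup.normalizer ((P5 : Subgroup H) : Set H)) := by
      rw [← hN5] at h7
      omega
    refine hq 7 (by norm_num) (by norm_num) (by norm_num) ?_ h7N
    show sc H 35 < 288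
    rcases hV 35 (by norm_num) with h0 | h0 | h0 | h0 <;> omega
  have h27 : ¬ 27 ∣ Nat.card H := by
    intro h27
    have h3N : 3 ∣ Nat.card (Subgroup.normalizer ((P5 : Subgroup H) : Set H)) := by
      rw [← hN5] at h27
      omega
    refine hq 3 (by norm_num) (by norm_num) (by norm_num) ?_ h3N
    show sc H 15 < 288
    rcases hV 15 (by norm_num) with h0 | h0 | h0 | h0 <;> omega
  have hd360 : Nat.card H ∣ 360 := by
    apply dvd_of_forall_prime_pow hn0 (by norm_num)
    intro t ht htd
    by_cases ht2 : t = 2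
    · subst ht2
      exact pow_fact_dvd Nat.prime_two hn0 (k := 3) h16 (by norm_num)
    · rcases hp357 t ht htd ht2 with ⟨rfl, _⟩ | ⟨rfl, _⟩ | ⟨rfl, _⟩
      · exact pow_fact_dvd Nat.prime_three hn0 (k := 2) h27 (by norm_num)
      · exact pow_fact_dvd (by norm_num) hn0 (k := 1) h25 (by norm_num)
      · exact absurd htd h7
  have hc : Nat.card H = 360 := le_antisymm (Nat.le_of_dvd (by norm_num) hd360) hge
  exact ⟨hc, h2, hs3 (by rw [hc]; norm_num), h4s (by rw [hc]; norm_num), h5⟩

end Cfsg.Agent.Helper27.SO
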