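import Mathlib
import Cfsg.Agent.Helper9.OrdTools

/-! CALL S0496 (helper27), piece O720D1: in a simple group of order 720 with ten Sylow
3-subgroups meeting pairwise trivially, only the identity fixes three distinct Sylow
3-subgroups. -/

set_option autoImplicit false

namespace Cfsg.Agent.Helper27.O1092

open Cfsg.Agent.Helper9

/-- An even involution has a number of fixed points congruent to the degree modulo 4. -/
theorem o720d_inv_fix {α : Type*} [Fintype α] [DecidableEq α] (σ : Equiv.Perm α)
    (h2 : σ ^ 2 = 1) (hs : Equiv.Perm.sign σ = 1) :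
    ∃ k : ℕ, (Finset.univ.filter (fun x => σ x = x)).card + 4 * k = Fintype.card α := by
  have hsupp : (Finset.univ.filter (fun x => σ x = x)).card + σ.support.card =
      Fintype.card α := by
    have h1 := Finset.card_filter_add_card_filter_not (s := (Finset.univ : Finset α))
      (fun x => σ x = x)
    have h' : σ.support = Finset.univ.filter (fun x => ¬ σ x = x) := by
      ext x
      simp [Equiv.Perm.mem_support]
    rw [h', ← Finset.card_univ]
    exact h1
  have h4 : 4 ∣ σ.support.card := by
    by_cases h1 : σ = 1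
    · subst h1
      simp
    · have ho : orderOf σ = 2 := orderOf_eq_prime h2 h1
      have hp : (orderOf σ).Prime := by rw [ho]; exact Nat.prime_two
      obtain ⟨n, hn⟩ := Equiv.Perm.cycleType_prime_order hp
      have hsign := Equiv.Perm.sign_of_cycleType σ
      rw [hn, hs, ho] at hsign
      simp only [Multiset.sum_replicate, Multiset.card_replicate, smul_eq_mul] at hsign
      have hev : Even ((n + 1) * 2 + (n + 1)) := by
        rw [← neg_one_pow_eq_one_iff_even (R := ℤˣ) (by decide)]
        exact hsign.symm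
      have hsum := Equiv.Perm.sum_cycleType σ
      rw [hn, ho] at hsum
      simp only [Multiset.sum_replicate, smul_eq_mul] at hsum
      rw [← hsum]
      obtain ⟨r, hr⟩ := hev
      exact ⟨r - n - 1 + (n + 1) - r + (n + 1) / 2, by omega⟩
  obtain ⟨k, hk⟩ := h4
  exact ⟨k, by omega⟩

variable {G : Type*} [Group G] [Finite G] [IsSimpleGroup G]

/-- PIECE O720D1 -/
theorem o720_stab3 (hG : ¬ IsMulCommutative G) (h : Nat.card G = 720)
    (h10 : Nat.card (Sylow 3 G) = 10)
    (hti : ∀ P Q : Sylow 3 G, P ≠ Q → (P : Subgroup G) ⊓ (Q : Subgroup G) = ⊥) :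
    ∀ a b c : Sylow 3 G, a ≠ b → a ≠ c → b ≠ c →
      ∀ g : G, g • a = a → g • b = b → g • c = c → g = 1 := by
  intro a b c hab hac hbc g hga hgb hgc
  have : Fact (Nat.Prime 3) := ⟨by norm_num⟩
  have hna : ∃ x y : G, x * y ≠ y * x := by
    by_contra hcon
    push Not at hcon
    exact hG ⟨⟨hcon⟩⟩
  by_contra hg1
  have hord : orderOf g ≠ 1 := fun h1 => hg1 (orderOf_eq_one_iff.mp h1)
  obtain ⟨q, hq, hqd⟩ := Nat.exists_prime_and_dvd hord
  have hsq : orderOf (g ^ (orderOf g / q)) = q :=
    orderOf_pow_orderOf_div (orderOf_pos g).ne' hqd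
  have hsfix : ∀ Q : Sylow 3 G, g • Q = Q → (g ^ (orderOf g / q)) • Q = Q := by
    intro Q hQ
    have h1 : g ∈ MulAction.stabilizer G Q := hQ
    exact (pow_mem h1 _ : g ^ (orderOf g / q) ∈ MulAction.stabilizer G Q)
  have hsa := hsfix a hga
  have hsb := hsfix b hgb
  have hsc := hsfix c hgc
  generalize g ^ (orderOf g / q) = s at hsq hsa hsb hsc
  have hs1 : s ≠ 1 := by
    intro h1
    rw [h1, orderOf_one] at hsq
    exact hq.one_lt.ne hsq
  have hq720 : q ∣ 720 := by
    rw [← h, ← hsq]
    exact orderOf_dvd_natCard s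
  have hqcases : q = 2 ∨ q = 3 ∨ q = 5 := by
    have h720 : (720 : ℕ) = 2 ^ 4 * 3 ^ 2 * 5 := by norm_num
    rw [h720] at hq720
    rcases (Nat.Prime.dvd_mul hq).mp hq720 with h1 | h1
    · rcases (Nat.Prime.dvd_mul hq).mp h1 with h2 | h2
      · left
        exact (Nat.prime_dvd_prime_iff_eq hq Nat.prime_two).mp (hq.dvd_of_dvd_pow h2)
      · right; left
        exact (Nat.prime_dvd_prime_iff_eq hq Nat.prime_three).mp (hq.dvd_of_dvd_pow h2)
    · right; right
      exact (Nat.prime_dvd_prime_iff_eq hq Nat.prime_five).mp h1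
  -- a 3-element normalizing a Sylow 3-subgroup lies in it
  have L1 : ∀ x : G, IsPGroup 3 (Subgroup.zpowers x) → ∀ Q : Sylow 3 G, x • Q = Q →
      x ∈ (Q : Subgroup G) := by
    intro x hx Q hxQ
    rw [Sylow.smul_eq_iff_mem_normalizer] at hxQ
    have h1 := hx.inf_normalizer_sylow Q
    have h2 : x ∈ Subgroup.zpowers x ⊓ Subgroup.normalizer (Q : Set G) :=
      ⟨Subgroup.mem_zpowers x, hxQ⟩
    rw [h1] at h2
    exact h2.2
  have hcarda : Nat.card (a : Subgroup G) = 9 := by
    have := OrdTools.sylow_card (p := 3) 2 80 (by rw [h]; norm_num) (by norm_num) a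
    simpa using this
  rcases hqcases with rfl | rfl | rfl
  · -- involution
    have hs2 : s ^ 2 = 1 := by rw [← hsq]; exact pow_orderOf_eq_one s
    have hap : ∀ x : G, x ∈ (a : Subgroup G) → IsPGroup 3 (Subgroup.zpowers x) := by
      intro x hx
      exact a.2.to_le (by rw [Subgroup.zpowers_le]; exact hx)
    have hmove : ∀ x : G, x ∈ (a : Subgroup G) → x • a = a := by
      intro x hx
      rw [Sylow.smul_eq_iff_mem_normalizer]
      exact Subgroup.le_normalizer hx
    -- L2: a acts semiregularly at b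
    have L2 : ∀ x y : G, x ∈ (a : Subgroup G) → y ∈ (a : Subgroup G) → x • b = y • b →
        x = y := by
      intro x y hx hy hxy
      have h1 : (y⁻¹ * x) • b = b := by rw [mul_smul, hxy, inv_smul_smul]
      have h2 : y⁻¹ * x ∈ (a : Subgroup G) := mul_mem (inv_mem hy) hx
      have h3 : y⁻¹ * x ∈ (b : Subgroup G) := L1 _ (hap _ h2) b h1
      have h4 : y⁻¹ * x ∈ (a : Subgroup G) ⊓ (b : Subgroup G) := ⟨h2, h3⟩
      rw [hti a b hab, Subgroup.mem_bot] at h4
      calc x = y * (y⁻¹ * x) := by group
        _ = y := by rw [h4, mul_one]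
    have hne : ∀ x : G, x ∈ (a : Subgroup G) → x • b ≠ a := by
      intro x hx hxb
      apply hab
      have h1 : x • b = x • a := by rw [hxb, hmove x hx]
      exact (smul_left_cancel x h1).symm
    -- L3: a is transitive on the other Sylow subgroups
    have L3 : ∀ Q : Sylow 3 G, Q ≠ a → ∃ x : G, x ∈ (a : Subgroup G) ∧ x • b = Q := by
      let f : ↥(a : Subgroup G) → {Q : Sylow 3 G // Q ≠ a} :=
        fun x => ⟨(x : G) • b, hne x x.2⟩
      have hinj : Function.Injective f := by
        intro x y hxy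
        have h1 : (x : G) • b = (y : G) • b := congrArg Subtype.val hxy
        exact Subtype.ext (L2 _ _ x.2 y.2 h1)
      have hle : Nat.card {Q : Sylow 3 G // Q ≠ a} ≤ Nat.card ↥(a : Subgroup G) := by
        have := Finite.card_subtype_lt (p := fun Q : Sylow 3 G => Q ≠ a) (x := a) (by simp)
        rw [h10] at this
        rw [hcarda]
        omega
      have hbij := hinj.bijective_of_nat_card_le hle
      intro Q hQ
      obtain ⟨x, hx⟩ := hbij.2 ⟨Q, hQ⟩
      exact ⟨x, x.2, congrArg Subtype.val hx⟩
    have hsN : s ∈ Subgroup.normalizer (a : Set G) := Sylow.smul_eq_iff_mem_normalizer.mp hsa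
    have hconj : ∀ x : G, x ∈ (a : Subgroup G) → s * x * s⁻¹ ∈ (a : Subgroup G) :=
      fun x hx => (Subgroup.mem_normalizer_iff.mp hsN x).mp hx
    have hsinvb : s⁻¹ • b = b := by
      calc s⁻¹ • b = s⁻¹ • (s • b) := by rw [hsb]
        _ = b := inv_smul_smul s b
    -- the centralizer of s in a
    let C : Subgroup G := (a : Subgroup G) ⊓ Subgroup.centralizer {s}
    have hCmem : ∀ x : G, x ∈ C → s * x = x * s := by
      intro x hx
      exact (Subgroup.mem_centralizer_iff.mp hx.2) s rfl
    have hFwd : ∀ x : G, x ∈ C → (x • b ≠ a ∧ s • (x • b) = x • b) := by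
      intro x hx
      refine ⟨hne x hx.1, ?_⟩
      rw [← mul_smul, hCmem x hx, mul_smul, hsb]
    let F : ↥C → {Q : Sylow 3 G // Q ≠ a ∧ s • Q = Q} := fun x => ⟨(x : G) • b, hFwd x x.2⟩
    have hFinj : Function.Injective F := by
      intro x y hxy
      have h1 : (x : G) • b = (y : G) • b := congrArg Subtype.val hxy
      exact Subtype.ext (L2 _ _ x.2.1 y.2.1 h1)
    have hFsurj : Function.Surjective F := by
      rintro ⟨Q, hQa, hQs⟩
      obtain ⟨x, hxa, hxb⟩ := L3 Q hQa
      have h1 : (s * x * s⁻¹) • b = x • b := by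
        rw [mul_smul, mul_smul, hsinvb, hxb, hQs]
      have h2 : s * x * s⁻¹ = x := L2 _ _ (hconj x hxa) hxa h1
      have h3 : x ∈ C := by
        refine ⟨hxa, ?_⟩
        show x ∈ Subgroup.centralizer {s}
        rw [Subgroup.mem_centralizer_iff]
        intro y hy
        rw [Set.mem_singleton_iff] at hy
        subst hy
        calc y * x = (y * x * y⁻¹) * y := by group
          _ = x * y := by rw [h2]
      exact ⟨⟨x, h3⟩, Subtype.ext hxb⟩
    have hcardC : Nat.card ↥C = Nat.card {Q : Sylow 3 G // Q ≠ a ∧ s • Q = Q} :=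
      Nat.card_congr (Equiv.ofBijective F ⟨hFinj, hFsurj⟩)
    have hCdvd : Nat.card ↥C ∣ 9 := by
      rw [← hcarda]
      exact Subgroup.card_dvd_of_le inf_le_left
    -- C is nontrivial, because of c
    have hCne : Nat.card ↥C ≠ 1 := by
      intro hC1
      obtain ⟨⟨x, hxC⟩, hx⟩ := hFsurj ⟨c, fun hca => hac hca.symm, hsc⟩
      have hxb : x • b = c := congrArg Subtype.val hx
      have hbot : C = ⊥ := Subgroup.card_eq_one.mp hC1
      rw [hbot, Subgroup.mem_bot] at hxC
      rw [hxC, one_smul] at hxb
      exact hbc hxb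
    classical
    have : Fintype (Sylow 3 G) := Fintype.ofFinite _
    have hsign : Equiv.Perm.sign (MulAction.toPermHom G (Sylow 3 G) s) = 1 :=
      OrdTools.hom_trivial hna (Equiv.Perm.sign.comp (MulAction.toPermHom G (Sylow 3 G))) s
    have hsq2 : (MulAction.toPermHom G (Sylow 3 G) s) ^ 2 = 1 := by
      rw [← map_pow, hs2, map_one]
    obtain ⟨k, hk⟩ := o720d_inv_fix _ hsq2 hsign
    rw [← Nat.card_eq_fintype_card, h10] at hk
    have hfilt : (Finset.univ.filter (fun Q : Sylow 3 G =>
        (MulAction.toPermHom G (Sylow 3 G) s) Q = Q)) =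
        Finset.univ.filter (fun Q : Sylow 3 G => s • Q = Q) := by
      ext Q
      simp [MulAction.toPermHom_apply]
    rw [hfilt] at hk
    have hamem : a ∈ Finset.univ.filter (fun Q : Sylow 3 G => s • Q = Q) := by
      simp [hsa]
    have herase : Nat.card {Q : Sylow 3 G // Q ≠ a ∧ s • Q = Q} =
        ((Finset.univ.filter (fun Q : Sylow 3 G => s • Q = Q)).erase a).card := by
      apply Nat.subtype_card
      intro Q
      simp
    rw [Finset.card_erase_of_mem hamem] at herase
    have hpos : 0 < (Finset.univ.filter (fun Q : Sylow 3 G => s • Q = Q)).card :=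
      Finset.card_pos.mpr ⟨a, hamem⟩
    have hCpos : 0 < Nat.card ↥C := Nat.card_pos
    have hCle : Nat.card ↥C ≤ 9 := Nat.le_of_dvd (by norm_num) hCdvd
    have hall : (Finset.univ.filter (fun Q : Sylow 3 G => s • Q = Q)).card = 10 := by
      generalize Nat.card ↥C = m at *
      generalize (Finset.univ.filter (fun Q : Sylow 3 G => s • Q = Q)).card = t at *
      interval_cases m <;> omega
    have huniv : Finset.univ.filter (fun Q : Sylow 3 G => s • Q = Q) = Finset.univ := by
      apply Finset.eq_univ_of_card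
      rw [hall, ← Nat.card_eq_fintype_card, h10]
    apply hs1
    apply OrdTools.eq_one_of_smul_sylow (p := 3) (by rw [h10]; norm_num) s
    intro Q
    have : Q ∈ Finset.univ.filter (fun Q : Sylow 3 G => s • Q = Q) := by
      rw [huniv]; exact Finset.mem_univ Q
    simpa using this
  · -- element of order 3 fixing a and b lies in a ⊓ b
    have hp3 : IsPGroup 3 (Subgroup.zpowers s) := by
      apply IsPGroup.of_card (n := 1)
      rw [Nat.card_zpowers, hsq, pow_one]
    have h1 : s ∈ (a : Subgroup G) ⊓ (b : Subgroup G) := ⟨L1 s hp3 a hsa, L1 s hp3 b hsb⟩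
    rw [hti a b hab, Subgroup.mem_bot] at h1
    exact hs1 h1
  · -- element of order 5 in the normalizer of order 72
    have hsN : s ∈ Subgroup.normalizer (a : Set G) := Sylow.smul_eq_iff_mem_normalizer.mp hsa
    have hidx : (Subgroup.normalizer (a : Set G)).index = 10 := by
      rw [← Sylow.card_eq_index_normalizer a, h10]
    have hmul := Subgroup.card_mul_index (Subgroup.normalizer (a : Set G))
    rw [hidx, h] at hmul
    have hdvd : orderOf s ∣ Nat.card ↥(Subgroup.normalizer (a : Set G)) :=
      Subgroup.orderOf_dvd_natCard _ hsN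
    rw [hsq] at hdvd
    omega

end Cfsg.Agent.Helper27.O1092
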