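import Mathlib
import Cfsg.Agent.Helper72.O983Aux2
import Cfsg.Agent.Helper9.BrauerP

/-!
# No simple group of order 756 (helper27; CALL S0496, piece O756)

`n₇ = 36`, `|N(P₇) : C(P₇)| = 3`, and Brauer's theorem on groups whose order is exactly divisible
by `p` (`Helper9.BrauerP.brauer_list`, `p = 7`, `m = 3`) has no arithmetic solution.
-/

set_option autoImplicit false
set_option linter.style.haveILetI false
set_option linter.unusedVariables false

namespace Cfsg.Agent.Helper27.O1092

open Subgroup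

theorem o756_deg : ∀ f : ℕ, f ≤ 27 → 2 ≤ f → f ∣ 756 → (f % 7 = 1 ∨ (f + 1) % 7 = 0) →
    (f + 1) % 7 = 0 ∧ (f = 6 ∨ f = 27) := by
  decide +kernel

theorem o756_le {f n : ℕ} (h : f ^ 2 ≤ n) (hn : n < 784) : f ≤ 27 := by
  by_contra hcon
  have h28 : 28 ≤ f := by omega
  have := Nat.mul_le_mul h28 h28
  rw [pow_two] at h
  omega

theorem no_simple_756 {G : Type*} [Group G] [Finite G] [IsSimpleGroup G]
    (hG : ¬ IsMulCommutative G) (h : Nat.card G = 756) : False := by
  haveI : Fact (Nat.Prime 7) := ⟨by norm_num⟩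
  obtain ⟨P⟩ : Nonempty (Sylow 7 G) := inferInstance
  obtain ⟨hP, e, c, hd, hmod, hne, he, he1, hec, hC, hN⟩ :=
    Cfsg.Agent.Helper72.o983_data 108 (h.trans (by norm_num)) (by norm_num) (by norm_num) P
  have key : ∀ n ≤ 108, n ∣ 108 → n % 7 = 1 → n = 1 ∨ n = 36 := by decide +kernel
  have h36 : Nat.card (Sylow 7 G) = 36 := by
    rcases key _ (Nat.le_of_dvd (by norm_num) hd) hd hmod with h1 | h1
    · exact absurd h1 hne
    · exact h1
  rw [h36] at hec
  have he6 : e ≤ 6 := Nat.le_of_dvd (by norm_num) he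
  have he3 : e = 3 ∧ c = 1 := by
    interval_cases e <;> omega
  obtain ⟨rfl, rfl⟩ := he3
  have hrel := Cfsg.Agent.Helper9.BrauerP.relIndex_of_card (P : Subgroup G) (e := 3)
    (by rw [hN, hC])
  obtain ⟨l, D, d, δ, hδ, -, hl, hD2, hDd, hDm, hsq, hdeg, hsum⟩ :=
    Cfsg.Agent.Helper9.BrauerP.brauer_list (Cfsg.Agent.Helper72.o983_hna hG) P hP 3
      (by norm_num) hrel
  rw [h] at hsum hDd
  have hS := Cfsg.Agent.Helper9.BrauerP.list_sq_nonneg l
  have ht : ((7 - 1) / 3 : ℕ) = 2 := by norm_num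
  rw [ht] at hsq hdeg hsum
  push_cast at hsq hdeg
  -- `d ∈ {0, δ}` and the squares of the coefficients sum to `2`
  have hd01 : (d = 0 ∨ d = δ) ∧ (l.map (fun x => x.1 ^ 2)).sum = 2 := by
    rcases hδ with rfl | rfl
    · have h0 : 0 ≤ d := by
        by_contra hcon
        nlinarith
      have h1 : d ≤ 1 := by
        by_contra hcon
        nlinarith
      interval_cases d
      · exact ⟨Or.inl rfl, by linarith⟩
      · exact ⟨Or.inr rfl, by linarith⟩
    · have h0 : d ≤ 0 := by
        by_contra hcon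
        nlinarith
      have h1 : -1 ≤ d := by
        by_contra hcon
        nlinarith
      interval_cases d
      · exact ⟨Or.inr rfl, by linarith⟩
      · exact ⟨Or.inl rfl, by linarith⟩
  obtain ⟨hd', hS2⟩ := hd01
  obtain ⟨x, y, rfl, hx1, hy1⟩ :=
    Cfsg.Agent.Helper9.BrauerP.list_sq_two l (fun z hz => (hl z hz).1) hS2
  obtain ⟨-, hx2, hxd, hxm⟩ := hl x (by simp)
  obtain ⟨-, hy2, hyd, hym⟩ := hl y (by simp)
  simp only [List.map_cons, List.map_nil, List.sum_cons, List.sum_nil, add_zero] at hsum hdeg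
  rw [h] at hxd hyd
  have hxle : x.2 ≤ 27 := o756_le (n := 755) (by omega) (by norm_num)
  have hyle : y.2 ≤ 27 := o756_le (n := 755) (by omega) (by norm_num)
  have hx7 : x.2 % 7 = 1 ∨ (x.2 + 1) % 7 = 0 := by
    rcases hx1 with hx1 | hx1
    · left
      rw [hx1] at hxm
      exact Cfsg.Agent.Helper9.BrauerP.mod_of_modEq_one (by norm_num) hxm
    · right
      rw [hx1] at hxm
      exact Cfsg.Agent.Helper9.BrauerP.mod_of_modEq_neg_one hxm
  have hy7 : y.2 % 7 = 1 ∨ (y.2 + 1) % 7 = 0 := by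
    rcases hy1 with hy1 | hy1
    · left
      rw [hy1] at hym
      exact Cfsg.Agent.Helper9.BrauerP.mod_of_modEq_one (by norm_num) hym
    · right
      rw [hy1] at hym
      exact Cfsg.Agent.Helper9.BrauerP.mod_of_modEq_neg_one hym
  obtain ⟨hx6, hxv⟩ := o756_deg x.2 hxle hx2 hxd hx7
  obtain ⟨hy6, hyv⟩ := o756_deg y.2 hyle hy2 hyd hy7
  -- the coefficients are `-1`
  have hxm1 : x.1 = -1 := by
    rcases hx1 with hx1 | hx1
    · rw [hx1] at hxm
      have := Cfsg.Agent.Helper9.BrauerP.mod_of_modEq_one (by norm_num) hxm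
      omega
    · exact hx1
  have hym1 : y.1 = -1 := by
    rcases hy1 with hy1 | hy1
    · rw [hy1] at hym
      have := Cfsg.Agent.Helper9.BrauerP.mod_of_modEq_one (by norm_num) hym
      omega
    · exact hy1
  have hD0 : 0 ≤ D ^ 2 := Nat.zero_le _
  have hx6' : x.2 = 6 := by
    rcases hxv with hv | hv
    · exact hv
    · rw [hv] at hsum
      rcases hyv with hw | hw <;> rw [hw] at hsum <;> omega
  have hy6' : y.2 = 6 := by
    rcases hyv with hv | hv
    · exact hv
    · rw [hv] at hsum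
      rw [hx6'] at hsum
      omega
  rw [hxm1, hym1, hx6', hy6'] at hdeg
  push_cast at hdeg
  have hD11 : D = 11 := by
    rcases hδ with rfl | rfl <;> rcases hd' with rfl | rfl <;> omega
  rw [hD11] at hDd
  omega

end Cfsg.Agent.Helper27.O1092
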