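import Mathlib
import Cfsg.Agent.Helper59.Sharp3Idx

/-!
# A simple group has no sharply 3-transitive action of even degree (helper27; CALL S0496, SHARP3)

Pointwise form of the hypotheses; the content is `Helper59.Sharp3Even.exists_normal_index_two`.
-/

set_option autoImplicit false

namespace Cfsg.Agent.Helper27.O1092

open MulAction

theorem no_simple_sharp3 {G : Type*} [Group G] [Finite G] [IsSimpleGroup G]
    (hG : ¬ IsMulCommutative G) {Ω : Type*} [Finite Ω] [MulAction G Ω]
    (heven : Even (Nat.card Ω)) (h4 : 4 ≤ Nat.card Ω)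
    (htrans : ∀ a b c a' b' c' : Ω, a ≠ b → a ≠ c → b ≠ c → a' ≠ b' → a' ≠ c' → b' ≠ c' →
      ∃ g : G, g • a = a' ∧ g • b = b' ∧ g • c = c')
    (hsharp : ∀ a b c : Ω, a ≠ b → a ≠ c → b ≠ c →
      ∀ g : G, g • a = a → g • b = b → g • c = c → g = 1) : False := by
  classical
  haveI : Fintype Ω := Fintype.ofFinite Ω
  have hcard : Fintype.card Ω = Nat.card Ω := (Nat.card_eq_fintype_card).symm
  obtain ⟨a, b, c, hab, hac, hbc⟩ :=
    Fintype.two_lt_card_iff.mp (show 2 < Fintype.card Ω by omega)
  let ρ : G →* Equiv.Perm Ω := MulAction.toPermHom G Ω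
  have hρ : ∀ (g : G) (x : Ω), ρ g x = g • x := fun g x => rfl
  let H : Subgroup (Equiv.Perm Ω) := ρ.range
  have h3 : IsMultiplyPretransitive H Ω 3 := by
    rw [isMultiplyPretransitive_iff]
    intro x y
    obtain ⟨g, h0, h1, h2⟩ := htrans (x 0) (x 1) (x 2) (y 0) (y 1) (y 2)
      (x.injective.ne (by decide)) (x.injective.ne (by decide)) (x.injective.ne (by decide))
      (y.injective.ne (by decide)) (y.injective.ne (by decide)) (y.injective.ne (by decide))
    refine ⟨⟨ρ g, g, rfl⟩, ?_⟩
    ext i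
    fin_cases i
    · exact h0
    · exact h1
    · exact h2
  have hst : ∀ x : Fin 3 ↪ Ω, stabilizer H x = ⊥ := by
    intro x
    rw [eq_bot_iff]
    rintro ⟨σ, g, rfl⟩ hσ
    rw [mem_stabilizer_iff] at hσ
    have hfix : ∀ i, g • x i = x i := fun i => by
      have := congrArg (fun e : Fin 3 ↪ Ω => e i) hσ
      exact this
    have hg : g = 1 := hsharp (x 0) (x 1) (x 2) (x.injective.ne (by decide))
      (x.injective.ne (by decide)) (x.injective.ne (by decide)) g (hfix 0) (hfix 1) (hfix 2)
    rw [Subgroup.mem_bot]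
    apply Subtype.ext
    simp [hg]
  obtain ⟨N, hNn, hN2⟩ := Cfsg.Agent.Helper59.Sharp3Even.exists_normal_index_two
    (by rw [hcard]; exact heven) (by rw [hcard]; exact h4) H h3 hst
  let N' : Subgroup G := N.comap ρ.rangeRestrict
  have hN'n : N'.Normal := hNn.comap _
  have hN'2 : N'.index = 2 := by
    rw [Subgroup.index_comap_of_surjective N ρ.rangeRestrict_surjective]
    exact hN2
  rcases hN'n.eq_bot_or_eq_top with hb | ht
  · rw [hb, Subgroup.index_bot] at hN'2
    haveI : Fact (Nat.Prime 2) := ⟨Nat.prime_two⟩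
    haveI := isCyclic_of_prime_card (α := G) hN'2
    exact hG IsCyclic.isMulCommutative
  · rw [ht, Subgroup.index_top] at hN'2
    omega

end Cfsg.Agent.Helper27.O1092
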