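import Mathlib
import Cfsg.Agent.Helper72.O1092BIG
import Cfsg.Agent.Helper72.O1092SYLA
import Cfsg.Agent.Helper72.O1092SYLB
import Cfsg.Agent.Helper72.O1092SYLC
import Cfsg.Agent.Helper72.O1092SYLD
import Cfsg.Agent.Helper72.O1092CENT
import Cfsg.Agent.Helper72.O1092O720D2
import Cfsg.Agent.Helper34.O1092TWO
import Cfsg.Agent.Helper41.O1092O720A
import Cfsg.Agent.Helper41.O1092O720C
import Cfsg.Agent.Helper19.O1092O720B
import Cfsg.Agent.Helper27.O1092SHARP3
import Cfsg.Agent.Helper27.O1092O756
import Cfsg.Agent.Helper27.O1092O720D1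

/-!
# Pieces of the proof that a non-abelian simple group of order at most 1092 has order
60, 168, 360, 504, 660 or 1092 (helper27; CALL S0496)
-/

set_option autoImplicit false

namespace Cfsg.Agent.Helper27.O1092

variable {G : Type*} [Group G] [Finite G] [IsSimpleGroup G]

theorem pc_big_prime (hG : ¬ IsMulCommutative G) (p : ℕ) (hp : p.Prime)
    (hpd : p ∣ Nat.card G) (hlt : Nat.card G < p ^ 3) (hle : Nat.card G ≤ 1092) :
    Nat.card G = 60 ∨ Nat.card G = 168 ∨ Nat.card G = 660 ∨ Nat.card G = 1092 :=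
  Cfsg.Agent.Helper72.o1092_big_prime hG p hp hpd hlt hle

theorem pc_no_simple_180 (hG : ¬ IsMulCommutative G) (h : Nat.card G = 180) : False :=
  Cfsg.Agent.Helper72.no_simple_180 hG h

theorem pc_no_simple_240 (hG : ¬ IsMulCommutative G) (h : Nat.card G = 240) : False :=
  Cfsg.Agent.Helper34.no_simple_240 hG h

theorem pc_no_simple_300 (hG : ¬ IsMulCommutative G) (h : Nat.card G = 300) : False :=
  Cfsg.Agent.Helper72.no_simple_300 hG h

theorem pc_no_simple_420 (hG : ¬ IsMulCommutative G) (h : Nat.card G = 420) : False :=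
  Cfsg.Agent.Helper72.no_simple_420 hG h

theorem pc_no_simple_480 (hG : ¬ IsMulCommutative G) (h : Nat.card G = 480) : False :=
  Cfsg.Agent.Helper34.no_simple_480 hG h

theorem pc_no_simple_540 (hG : ¬ IsMulCommutative G) (h : Nat.card G = 540) : False :=
  Cfsg.Agent.Helper72.no_simple_540 hG h

theorem pc_no_simple_560 (hG : ¬ IsMulCommutative G) (h : Nat.card G = 560) : False :=
  Cfsg.Agent.Helper72.no_simple_560 hG h

theorem pc_no_simple_588 (hG : ¬ IsMulCommutative G) (h : Nat.card G = 588) : False :=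
  Cfsg.Agent.Helper72.no_simple_588 hG h

theorem pc_no_simple_600 (hG : ¬ IsMulCommutative G) (h : Nat.card G = 600) : False :=
  Cfsg.Agent.Helper72.no_simple_600 hG h

theorem pc_no_simple_672 (hG : ¬ IsMulCommutative G) (h : Nat.card G = 672) : False :=
  Cfsg.Agent.Helper72.no_simple_672 hG h

theorem pc_no_simple_756 (hG : ¬ IsMulCommutative G) (h : Nat.card G = 756) : False :=
  Cfsg.Agent.Helper27.O1092.no_simple_756 hG h

theorem pc_no_simple_840 (hG : ¬ IsMulCommutative G) (h : Nat.card G = 840) : False :=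
  Cfsg.Agent.Helper72.no_simple_840 hG h

theorem pc_no_simple_900 (hG : ¬ IsMulCommutative G) (h : Nat.card G = 900) : False :=
  Cfsg.Agent.Helper72.no_simple_900 hG h

theorem pc_no_simple_945 (hG : ¬ IsMulCommutative G) (h : Nat.card G = 945) : False :=
  Cfsg.Agent.Helper72.no_simple_945 hG h

theorem pc_no_simple_960 (hG : ¬ IsMulCommutative G) (h : Nat.card G = 960) : False :=
  Cfsg.Agent.Helper34.no_simple_960 hG h

theorem pc_no_simple_1008 (hG : ¬ IsMulCommutative G) (h : Nat.card G = 1008) : False :=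
  Cfsg.Agent.Helper72.no_simple_1008 hG h

theorem pc_no_simple_1080 (hG : ¬ IsMulCommutative G) (h : Nat.card G = 1080) : False :=
  Cfsg.Agent.Helper72.no_simple_1080 hG h

theorem pc_no_simple_720 (hG : ¬ IsMulCommutative G) (h : Nat.card G = 720) : False := by
  rcases Cfsg.Agent.Helper41.o720_n3 hG h with h10 | h40
  · have hti := Cfsg.Agent.Helper41.o720_ti hG h h10
    have hstab := Cfsg.Agent.Helper27.O1092.o720_stab3 hG h h10 hti
    have htrans := Cfsg.Agent.Helper72.o720_trans3 hG h h10 hti hstab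
    exact Cfsg.Agent.Helper27.O1092.no_simple_sharp3 hG (Ω := Sylow 3 G)
      (by rw [h10]; decide) (by rw [h10]; norm_num) htrans hstab
  · exact Cfsg.Agent.Helper19.o720_n3_ne_40 hG h h40

/-- The eighteen orders left by the arithmetic sieve. -/
theorem pc_hard (hG : ¬ IsMulCommutative G)
    (h : Nat.card G = 180 ∨ Nat.card G = 240 ∨ Nat.card G = 300 ∨ Nat.card G = 420 ∨
      Nat.card G = 480 ∨ Nat.card G = 540 ∨ Nat.card G = 560 ∨ Nat.card G = 588 ∨
      Nat.card G = 600 ∨ Nat.card G = 672 ∨ Nat.card G = 720 ∨ Nat.card G = 756 ∨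
      Nat.card G = 840 ∨ Nat.card G = 900 ∨ Nat.card G = 945 ∨ Nat.card G = 960 ∨
      Nat.card G = 1008 ∨ Nat.card G = 1080) : False := by
  rcases h with h | h | h | h | h | h | h | h | h | h | h | h | h | h | h | h | h | h
  · exact pc_no_simple_180 hG h
  · exact pc_no_simple_240 hG h
  · exact pc_no_simple_300 hG h
  · exact pc_no_simple_420 hG h
  · exact pc_no_simple_480 hG h
  · exact pc_no_simple_540 hG h
  · exact pc_no_simple_560 hG h
  · exact pc_no_simple_588 hG h
  · exact pc_no_simple_600 hG h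
  · exact pc_no_simple_672 hG h
  · exact pc_no_simple_720 hG h
  · exact pc_no_simple_756 hG h
  · exact pc_no_simple_840 hG h
  · exact pc_no_simple_900 hG h
  · exact pc_no_simple_945 hG h
  · exact pc_no_simple_960 hG h
  · exact pc_no_simple_1008 hG h
  · exact pc_no_simple_1080 hG h

end Cfsg.Agent.Helper27.O1092
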