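import Cfsg.Agent.Helper73.FPBlock
import Cfsg.Agent.Helper75.ThirdMain
import Cfsg.Agent.Helper76.Fong
import Cfsg.Agent.Helper73.HKUnique
import Cfsg.Agent.Helper16.DefectZero
import Cfsg.Agent.Helper16.DefectGroup

/-!
# A criterion for a finite group to have a single `p`-block

* `mem_principal_of_local`: if no block has defect zero and every nontrivial `p`-subgroup contains
  (up to conjugacy) a `p`-subgroup whose centraliser has a self-centralising normal `p`-subgroup,
  then every irreducible character lies in the principal block.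
* `blockDefect_ne_zero_of_conv`: a class-sum criterion excluding blocks of defect zero.
* `exists_local_of_abelian`: the local hypothesis from an abelian self-centralising subgroup.
-/

set_option autoImplicit false

namespace Cfsg.Agent.Helper27.OneBlock

open Cfsg

universe u

section Main

variable {G : Type u} [Group G] [Fintype G] {p : ℕ} [Fact p.Prime] {M : Ideal AlgInt}

/-- every irreducible character lies in the principal block if every block has positive defect
and every nontrivial `p`-subgroup contains up to conjugacy a `p`-subgroup whose centraliser has a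
self-centralising normal `p`-subgroup -/
theorem mem_principal_of_local (hM : IsPModular p M)
    (hloc : ∀ D : Subgroup G, IsPGroup p D → D ≠ ⊥ → ∃ R : Subgroup G, IsPGroup p R ∧
      Helper16.ConjLE R D ∧ ∃ Q : Subgroup ↥(Subgroup.centralizer (R : Set G)), Q.Normal ∧
        IsPGroup p Q ∧ Subgroup.centralizer (Q : Set ↥(Subgroup.centralizer (R : Set G))) ≤ Q)
    (hzero : ∀ B : Set (IrrCharacter G), IsPBlock M B → blockDefect p B ≠ 0)
    (χ : IrrCharacter G) : χ ∈ principalBlock M G := by
  classical
  have hmax := hM.2.1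
  have hB : IsPBlock M (blockOf M (χ : G → ℂ)) := ⟨χ, rfl⟩
  have hχB : χ ∈ blockOf M (χ : G → ℂ) := Helper16.sameBlock_refl hmax _
  obtain ⟨D, hD⟩ := Helper16.exists_isDefectGroup (p := p) hmax hB
  obtain ⟨g, hdc, -, hcard, hDp⟩ := Helper16.isDefectGroup_exists_data hD
  have hfac := Helper16.factorization_centralizer_of_isDefectClass hM hB hdc
  have hDne : D ≠ ⊥ := by
    rintro rfl
    rw [hfac, Subgroup.card_bot] at hcard
    have h0 := hzero _ hB
    have hp1 : 1 < p := (Fact.out : p.Prime).one_lt
    have : 1 < p ^ blockDefect p (blockOf M (χ : G → ℂ)) := Nat.one_lt_pow h0 hp1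
    omega
  obtain ⟨R, hR, hRD, Q, hQn, hQp, hQc⟩ := hloc D hDp hDne
  obtain ⟨f, hf⟩ := Helper73.fp_exists_centralizer hM hB hD R hR hRD
  have hfB : IsPBlock M f := hf.1
  obtain ⟨ξ, hξ⟩ := Helper16.exists_mem_of_isPBlock hmax hfB
  have hf1 : f = principalBlock M ↥(Subgroup.centralizer (R : Set G)) := by
    rw [Helper16.eq_blockOf_of_mem hmax hfB hξ]
    have hξ1 : ξ ∈ blockOf M (fun _ : ↥(Subgroup.centralizer (R : Set G)) => (1 : ℂ)) :=
      Helper76.sameBlock_one_of_centralizer_le hM Q hQp hQc ξ
    exact Helper16.blockOf_eq_of_mem hmax hξ1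
  have h3 := (Helper75.third_main hM (Subgroup.centralizer (R : Set G)) f ⟨_, hf⟩).mpr hf1
  have hBP : blockOf M (χ : G → ℂ) = principalBlock M G :=
    Helper73.hk_induced_unique hmax _ hf h3
  rw [← hBP]
  exact hχB

/-- under the hypotheses of `mem_principal_of_local`, there is a single block -/
theorem sameBlock_of_local (hM : IsPModular p M)
    (hloc : ∀ D : Subgroup G, IsPGroup p D → D ≠ ⊥ → ∃ R : Subgroup G, IsPGroup p R ∧
      Helper16.ConjLE R D ∧ ∃ Q : Subgroup ↥(Subgroup.centralizer (R : Set G)), Q.Normal ∧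
        IsPGroup p Q ∧ Subgroup.centralizer (Q : Set ↥(Subgroup.centralizer (R : Set G))) ≤ Q)
    (hzero : ∀ B : Set (IrrCharacter G), IsPBlock M B → blockDefect p B ≠ 0)
    (χ ψ : IrrCharacter G) : SameBlock M (χ : G → ℂ) (ψ : G → ℂ) :=
  Helper16.sameBlock_trans hM.2.1
    (Helper16.sameBlock_symm (mem_principal_of_local hM hloc hzero χ))
    (mem_principal_of_local hM hloc hzero ψ)

/-- a criterion excluding blocks of defect zero: `a` is a class function supported on the
`p`-singular elements, `b` is any class function, and the convolution `a * b` takes a value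
prime to `p` at `1` and values divisible by `p` at the other `p`-regular elements -/
theorem blockDefect_ne_zero_of_conv (hM : IsPModular p M) {a b : G → ℂ}
    (ha : IsClassFunction G a) (hb : IsClassFunction G b)
    (ha0 : ∀ g, ¬ p ∣ orderOf g → a g = 0)
    (n1 : ℕ) (h1 : Helper81.conv a b 1 = (n1 : ℂ)) (hn1 : ¬ p ∣ n1)
    (hF : ∀ g : G, g ≠ 1 → ¬ p ∣ orderOf g → ∃ n : ℕ, Helper81.conv a b g = (n : ℂ) ∧ p ∣ n)
    (B : Set (IrrCharacter G)) (hB : IsPBlock M B) : blockDefect p B ≠ 0 := by
  classical
  intro hd
  have hmax := hM.2.1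
  obtain ⟨χ, hχ⟩ := Helper16.exists_mem_of_isPBlock hmax hB
  have hvan : ∀ g : G, p ∣ orderOf g → (χ : G → ℂ) g = 0 := fun g hg =>
    Helper16.irr_eq_zero_of_blockDefect_zero hM.1 hd hχ hg
  have hωa : Helper81.omega (χ : G → ℂ) a = 0 := by
    unfold Helper81.omega
    rw [Finset.sum_eq_zero, zero_div]
    intro g _
    by_cases hg : p ∣ orderOf g
    · rw [hvan g hg, mul_zero]
    · rw [ha0 g hg, zero_mul]
  have hconv : Helper81.omega (χ : G → ℂ) (Helper81.conv a b) = 0 := by
    rw [Helper81.omega_conv χ ha hb, hωa, zero_mul]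
  have hcab := Helper81.conv_isClassFunction ha hb
  let c : G → ℂ := fun g =>
    if p ∣ orderOf g then 0 else (Helper81.conv a b g - Helper81.deltaOne (n1 : ℂ) g)
  have hc : IsClassFunction G c := by
    intro g h
    have ho : orderOf (h * g * h⁻¹) = orderOf g := by
      have := orderOf_injective (MulAut.conj h).toMonoidHom (MulAut.conj h).injective g
      simpa using this
    have hd1 : Helper81.deltaOne (n1 : ℂ) (h * g * h⁻¹) = Helper81.deltaOne (n1 : ℂ) g := by
      unfold Helper81.deltaOne
      have : h * g * h⁻¹ = 1 ↔ g = 1 := by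
        constructor
        · intro e
          have : g = h⁻¹ * (h * g * h⁻¹) * h := by group
          rw [this, e]; group
        · rintro rfl; group
      simp only [this]
    simp only [c]
    rw [ho, hcab g h, hd1]
  have hcI : ∀ g, MemLocalIdeal M (c g) := by
    intro g
    simp only [c]
    split_ifs with hg
    · exact Helper77.memLocalIdeal_zero hmax
    · by_cases hg1 : g = 1
      · subst hg1
        rw [h1]
        simp only [Helper81.deltaOne, if_true, sub_self]
        exact Helper77.memLocalIdeal_zero hmax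
      · obtain ⟨n, hn, hpn⟩ := hF g hg1 hg
        rw [hn]
        simp only [Helper81.deltaOne, hg1, if_false, sub_zero]
        exact Helper81.memLocalIdeal_natCast_of_dvd hM hpn
  have hω : Helper81.omega (χ : G → ℂ) c =
      Helper81.omega (χ : G → ℂ) (Helper81.conv a b - Helper81.deltaOne (n1 : ℂ)) := by
    unfold Helper81.omega
    congr 1
    apply Finset.sum_congr rfl
    intro g _
    simp only [c, Pi.sub_apply]
    split_ifs with hg
    · rw [hvan g hg, mul_zero, mul_zero]
    · rfl
  have h2 := Helper16.omega_memLocalIdeal hmax χ hc hcI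
  rw [hω, Helper81.omega_sub, hconv, Helper81.omega_deltaOne, zero_sub] at h2
  have h3 : MemLocalIdeal M (n1 : ℂ) := by
    have := Helper77.memLocalIdeal_sub hmax (Helper77.memLocalIdeal_zero hmax) h2
    simpa using this
  exact Helper77.not_memLocalIdeal_natCast hM hn1 h3

end Main

section Local

variable {G : Type u} [Group G]

/-- the local hypothesis from an abelian subgroup `Q` containing `R`, normalised by the
centraliser of `R` and self-centralising -/
theorem exists_local_of_abelian {p : ℕ} (R Q : Subgroup G) (hRQ : R ≤ Q)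
    (hab : ∀ x ∈ Q, ∀ y ∈ Q, x * y = y * x) (hQ : IsPGroup p Q)
    (hnorm : ∀ c ∈ Subgroup.centralizer (R : Set G), ∀ q ∈ Q, c * q * c⁻¹ ∈ Q)
    (hself : ∀ g : G, (∀ q ∈ Q, g * q = q * g) → g ∈ Q) :
    ∃ Q' : Subgroup ↥(Subgroup.centralizer (R : Set G)), Q'.Normal ∧ IsPGroup p Q' ∧
      Subgroup.centralizer (Q' : Set ↥(Subgroup.centralizer (R : Set G))) ≤ Q' := by
  have hQC : Q ≤ Subgroup.centralizer (R : Set G) := by
    intro q hq
    rw [Subgroup.mem_centralizer_iff]
    intro r hr
    exact hab r (hRQ hr) q hq
  refine ⟨Q.subgroupOf (Subgroup.centralizer (R : Set G)), ?_, ?_, ?_⟩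
  · constructor
    intro n hn c
    rw [Subgroup.mem_subgroupOf] at hn ⊢
    exact hnorm c.1 c.2 n.1 hn
  · exact hQ.comap_subtype
  · intro c hc
    rw [Subgroup.mem_subgroupOf]
    apply hself
    intro q hq
    rw [Subgroup.mem_centralizer_iff] at hc
    have h := hc ⟨q, hQC hq⟩ (Subgroup.mem_subgroupOf.mpr hq)
    have h' := congrArg Subtype.val h
    exact h'.symm

end Local

end Cfsg.Agent.Helper27.OneBlock
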