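import Mathlib
import Cfsg.Prelude.Def_Classical
import Cfsg.Prelude.Def_SporadicB

set_option autoImplicit false
set_option linter.unusedSectionVars false

/-!
Orthogonal groups over `ZMod 2` (isometry groups `Cfsg.isometryGroup (ZMod 2) Q` of a quadratic
form `Q` with nondegenerate polar form `B`): orthogonal transvections `T w` (`Q w = 1`), their
characterisation by `rank (g - 1) = 1`, the 3-transposition relations, transitivity on nonsingular
vectors, and "move" lemmas used to prove that the transvections generate the isometry group.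
-/

namespace Cfsg.Agent.Helper27.OrthF2

open Matrix

variable {ι : Type} [Fintype ι] [DecidableEq ι]

/-- A quadratic form `Q` over `ZMod 2` with nondegenerate polar form `B`. -/
structure QF (Q : (ι → ZMod 2) → ZMod 2) (B : (ι → ZMod 2) → (ι → ZMod 2) → ZMod 2) : Prop where
  polar : ∀ u v, Q (u + v) = Q u + Q v + B u v
  add_left : ∀ u u' v, B (u + u') v = B u v + B u' v
  nondeg : ∀ u, (∀ v, B u v = 0) → u = 0

theorem z2_add_self (a : ZMod 2) : a + a = 0 := by revert a; decide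

theorem z2_cases (a : ZMod 2) : a = 0 ∨ a = 1 := by revert a; decide

theorem z2_mul_self (a : ZMod 2) : a * a = a := by revert a; decide

theorem z2_ne_zero {a : ZMod 2} (h : a ≠ 0) : a = 1 := by
  rcases z2_cases a with h0 | h1
  · exact absurd h0 h
  · exact h1

theorem z2_ne_one {a : ZMod 2} (h : a ≠ 1) : a = 0 := by
  rcases z2_cases a with h0 | h1
  · exact h0
  · exact absurd h1 h

theorem v_add_self (x : ι → ZMod 2) : x + x = 0 := by
  funext i; exact z2_add_self (x i)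

theorem v_add_cancel (x y : ι → ZMod 2) : x + (x + y) = y := by
  rw [← add_assoc, v_add_self, zero_add]

section Form

variable {Q : (ι → ZMod 2) → ZMod 2} {B : (ι → ZMod 2) → (ι → ZMod 2) → ZMod 2}

theorem B_zero_left (h : QF Q B) (v : ι → ZMod 2) : B 0 v = 0 := by
  have h1 := h.add_left 0 0 v
  rw [add_zero] at h1
  have h2 := z2_add_self (B 0 v)
  rw [← h1] at h2
  exact h2

theorem Q_zero (h : QF Q B) : Q 0 = 0 := by
  have h1 := h.polar 0 0
  rw [add_zero, B_zero_left h, add_zero] at h1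
  have h2 := z2_add_self (Q 0)
  rw [← h1] at h2
  exact h2

theorem B_eq (h : QF Q B) (u v : ι → ZMod 2) : B u v = Q (u + v) + Q u + Q v := by
  rw [h.polar u v]
  generalize Q u = a
  generalize Q v = b
  generalize B u v = c
  revert a b c
  decide

theorem B_symm (h : QF Q B) (u v : ι → ZMod 2) : B u v = B v u := by
  rw [B_eq h u v, B_eq h v u, add_comm u v]
  generalize Q (v + u) = a
  generalize Q u = b
  generalize Q v = c
  revert a b c
  decide

theorem B_self (h : QF Q B) (u : ι → ZMod 2) : B u u = 0 := by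
  rw [B_eq h u u, v_add_self, Q_zero h, zero_add, z2_add_self]

theorem B_add_left (h : QF Q B) (u u' v : ι → ZMod 2) : B (u + u') v = B u v + B u' v :=
  h.add_left u u' v

theorem B_add_right (h : QF Q B) (u v v' : ι → ZMod 2) : B u (v + v') = B u v + B u v' := by
  rw [B_symm h u (v + v'), h.add_left, B_symm h v u, B_symm h v' u]

theorem B_zero_right (h : QF Q B) (v : ι → ZMod 2) : B v 0 = 0 := by
  rw [B_symm h, B_zero_left h]

theorem B_smul_left (h : QF Q B) (c : ZMod 2) (u v : ι → ZMod 2) : B (c • u) v = c * B u v := by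
  rcases z2_cases c with rfl | rfl
  · rw [zero_smul, B_zero_left h, zero_mul]
  · rw [one_smul, one_mul]

theorem B_smul_right (h : QF Q B) (c : ZMod 2) (u v : ι → ZMod 2) : B u (c • v) = c * B u v := by
  rw [B_symm h u (c • v), B_smul_left h, B_symm h v u]

theorem Q_smul (h : QF Q B) (c : ZMod 2) (u : ι → ZMod 2) : Q (c • u) = c * Q u := by
  rcases z2_cases c with rfl | rfl
  · rw [zero_smul, Q_zero h, zero_mul]
  · rw [one_smul, one_mul]

theorem ne_zero_of_Q (h : QF Q B) {u : ι → ZMod 2} (hu : Q u = 1) : u ≠ 0 := by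
  rintro rfl
  rw [Q_zero h] at hu
  exact zero_ne_one hu

theorem exists_B_eq_one (h : QF Q B) {u : ι → ZMod 2} (hu : u ≠ 0) : ∃ x, B u x = 1 := by
  by_contra hcon
  apply hu
  apply h.nondeg
  intro v
  by_contra hv
  exact hcon ⟨v, z2_ne_zero hv⟩

/-- `B x w` as a dot product with the row vector of `B (·) w`. -/
theorem B_dot (h : QF Q B) (w x : ι → ZMod 2) :
    (fun j => B (Pi.single j 1) w) ⬝ᵥ x = B x w := by
  let φ : (ι → ZMod 2) →+ ZMod 2 := AddMonoidHom.mk' (fun x => B x w) (fun a b => h.add_left a b w)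
  have h1 : B x w = φ x := rfl
  rw [h1, ← Finset.univ_sum_single x, map_sum]
  unfold dotProduct
  apply Finset.sum_congr rfl
  intro j _
  show B (Pi.single j 1) w * (∑ i, Pi.single i (x i)) j = B (Pi.single j (x j)) w
  rw [Finset.univ_sum_single x]
  rcases z2_cases (x j) with h0 | h0
  · rw [h0, mul_zero, Pi.single_zero, B_zero_left h]
  · rw [h0, mul_one]

/-- Key lemma: among `a`, `a + c₁`, `a + c₂`, `a + c₁ + c₂` one is nonsingular when `B c₁ c₂ = 1`. -/
theorem exists_nonsing (h : QF Q B) (a c₁ c₂ : ι → ZMod 2) (hc : B c₁ c₂ = 1) :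
    Q a = 1 ∨ Q (a + c₁) = 1 ∨ Q (a + c₂) = 1 ∨ Q (a + c₁ + c₂) = 1 := by
  have h1 := h.polar (a + c₁) c₂
  have h2 := h.polar a c₂
  have h3 := h.polar a c₁
  rw [B_add_left h, hc] at h1
  rw [h1, h2, h3]
  generalize Q a = x
  generalize Q c₁ = y
  generalize Q c₂ = z
  generalize B a c₁ = s
  generalize B a c₂ = t
  revert x y z s t
  decide

end Form

/-! ### The isometry group and its action -/

/-- the isometry group as a type -/
abbrev O (Q : (ι → ZMod 2) → ZMod 2) := ↥(Cfsg.isometryGroup (ZMod 2) Q)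

section Act

variable {Q : (ι → ZMod 2) → ZMod 2} {B : (ι → ZMod 2) → (ι → ZMod 2) → ZMod 2}

/-- the action on column vectors -/
def act (g : O Q) (x : ι → ZMod 2) : ι → ZMod 2 :=
  ((g : GL ι (ZMod 2)) : Matrix ι ι (ZMod 2)) *ᵥ x

theorem act_mul (g k : O Q) (x : ι → ZMod 2) : act (g * k) x = act g (act k x) := by
  unfold act
  rw [Subgroup.coe_mul, Units.val_mul, mulVec_mulVec]

theorem act_one (x : ι → ZMod 2) : act (1 : O Q) x = x := by
  unfold act
  rw [Subgroup.coe_one, Units.val_one, one_mulVec]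

theorem act_add (g : O Q) (x y : ι → ZMod 2) : act g (x + y) = act g x + act g y :=
  mulVec_add _ _ _

theorem act_smul (g : O Q) (c : ZMod 2) (x : ι → ZMod 2) : act g (c • x) = c • act g x :=
  mulVec_smul _ _ _

theorem act_zero (g : O Q) : act g (0 : ι → ZMod 2) = 0 := mulVec_zero _

theorem act_inv_act (g : O Q) (x : ι → ZMod 2) : act g⁻¹ (act g x) = x := by
  rw [← act_mul, inv_mul_cancel, act_one]

theorem act_act_inv (g : O Q) (x : ι → ZMod 2) : act g (act g⁻¹ x) = x := by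
  rw [← act_mul, mul_inv_cancel, act_one]

theorem Q_act (g : O Q) (x : ι → ZMod 2) : Q (act g x) = Q x := g.2 x x

theorem B_act (h : QF Q B) (g : O Q) (x y : ι → ZMod 2) : B (act g x) (act g y) = B x y := by
  rw [B_eq h, B_eq h x y, ← act_add, Q_act g (x + y), Q_act g x, Q_act g y]

theorem O_ext {g k : O Q} (H : ∀ x, act g x = act k x) : g = k := by
  apply Subtype.ext
  apply Units.ext
  apply Matrix.mulVec_injective
  funext x
  exact H x

theorem eq_one_of_fix_single {g : O Q} (H : ∀ a : ι, act g (Pi.single a 1) = Pi.single a 1) :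
    g = 1 := by
  apply O_ext
  intro x
  rw [act_one]
  have hx := Finset.univ_sum_single x
  have : ∀ a : ι, act g (Pi.single a (x a)) = Pi.single a (x a) := by
    intro a
    rcases z2_cases (x a) with h0 | h0
    · rw [h0, Pi.single_zero, act_zero]
    · rw [h0]; exact H a
  calc act g x = act g (∑ a, Pi.single a (x a)) := by rw [hx]
    _ = ∑ a, act g (Pi.single a (x a)) := by
        unfold act
        rw [Matrix.mulVec_sum]
    _ = ∑ a, Pi.single a (x a) := Finset.sum_congr rfl (fun a _ => this a)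
    _ = x := hx

end Act

/-! ### Orthogonal transvections -/

section Transv

variable {Q : (ι → ZMod 2) → ZMod 2} {B : (ι → ZMod 2) → (ι → ZMod 2) → ZMod 2}

/-- the matrix of `x ↦ x + B x w • w` -/
def Tmat (B : (ι → ZMod 2) → (ι → ZMod 2) → ZMod 2) (w : ι → ZMod 2) : Matrix ι ι (ZMod 2) :=
  1 + vecMulVec w (fun j => B (Pi.single j 1) w)

theorem Tmat_mulVec (h : QF Q B) (w x : ι → ZMod 2) : Tmat B w *ᵥ x = x + B x w • w := by
  unfold Tmat
  rw [add_mulVec, one_mulVec, vecMulVec_mulVec, op_smul_eq_smul, B_dot h]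

theorem Tmat_sq (h : QF Q B) (w : ι → ZMod 2) : Tmat B w * Tmat B w = 1 := by
  apply Matrix.mulVec_injective
  funext x
  rw [← mulVec_mulVec, Tmat_mulVec h, Tmat_mulVec h, one_mulVec, B_add_left h, B_smul_left h,
    B_self h, mul_zero, add_zero, add_assoc, ← add_smul, z2_add_self, zero_smul, add_zero]

/-- the transvection as an element of `GL` -/
def TGL (h : QF Q B) (w : ι → ZMod 2) : GL ι (ZMod 2) :=
  ⟨Tmat B w, Tmat B w, Tmat_sq h w, Tmat_sq h w⟩

theorem TGL_mem (h : QF Q B) {w : ι → ZMod 2} (hw : Q w = 1) :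
    TGL h w ∈ Cfsg.isometryGroup (ZMod 2) Q := by
  intro u _
  show Q (Tmat B w *ᵥ u) = Q u
  rw [Tmat_mulVec h, h.polar, Q_smul h, hw, B_smul_right h, mul_one]
  generalize Q u = a
  generalize B u w = b
  revert a b
  decide

open Classical in
/-- the orthogonal transvection `x ↦ x + B x w • w` (for `Q w = 1`; the identity otherwise) -/
noncomputable def T (h : QF Q B) (w : ι → ZMod 2) : O Q :=
  if hw : Q w = 1 then ⟨TGL h w, TGL_mem h hw⟩ else 1

theorem act_T (h : QF Q B) {w : ι → ZMod 2} (hw : Q w = 1) (x : ι → ZMod 2) :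
    act (T h w) x = x + B x w • w := by
  unfold T
  rw [dif_pos hw]
  exact Tmat_mulVec h w x

theorem T_of_ne (h : QF Q B) {w : ι → ZMod 2} (hw : ¬ Q w = 1) : T h w = 1 := by
  unfold T
  rw [dif_neg hw]

theorem T_mul_self (h : QF Q B) (w : ι → ZMod 2) : T h w * T h w = 1 := by
  by_cases hw : Q w = 1
  · apply O_ext
    intro x
    rw [act_mul, act_T h hw, act_T h hw, act_one, B_add_left h, B_smul_left h, B_self h, mul_zero,
      add_zero, add_assoc, ← add_smul, z2_add_self, zero_smul, add_zero]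
  · rw [T_of_ne h hw, mul_one]

theorem T_inv (h : QF Q B) (w : ι → ZMod 2) : (T h w)⁻¹ = T h w :=
  inv_eq_of_mul_eq_one_left (T_mul_self h w)

theorem T_ne_one (h : QF Q B) {w : ι → ZMod 2} (hw : Q w = 1) : T h w ≠ 1 := by
  intro h1
  obtain ⟨x, hx⟩ := exists_B_eq_one h (ne_zero_of_Q h hw)
  have h2 := act_T h hw x
  rw [h1, act_one, B_symm h, hx, one_smul] at h2
  have h3 : w = 0 := by
    have h4 : x + x = x + (x + w) := congrArg (fun y => x + y) h2
    rw [v_add_self, v_add_cancel] at h4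
    exact h4.symm
  exact ne_zero_of_Q h hw h3

theorem orderOf_T (h : QF Q B) {w : ι → ZMod 2} (hw : Q w = 1) : orderOf (T h w) = 2 := by
  apply orderOf_eq_prime
  · rw [pow_two]; exact T_mul_self h w
  · exact T_ne_one h hw

theorem conj_T (h : QF Q B) (g : O Q) {w : ι → ZMod 2} (hw : Q w = 1) :
    g * T h w * g⁻¹ = T h (act g w) := by
  have hw' : Q (act g w) = 1 := by rw [Q_act g w]; exact hw
  apply O_ext
  intro x
  rw [act_mul, act_mul, act_T h hw, act_T h hw', act_add, act_smul, act_act_inv]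
  congr 2
  rw [← B_act h g (act g⁻¹ x) w, act_act_inv]

theorem T_fix (h : QF Q B) {w s : ι → ZMod 2} (hs : B s w = 0) : act (T h w) s = s := by
  by_cases hw : Q w = 1
  · rw [act_T h hw, hs, zero_smul, add_zero]
  · rw [T_of_ne h hw, act_one]

theorem T_step (h : QF Q B) {a b : ι → ZMod 2} (hq : Q (a + b) = 1) (hab : B a b = 1) :
    act (T h (a + b)) a = b := by
  rw [act_T h hq, B_add_right h, B_self h, hab, zero_add, one_smul, v_add_cancel]

theorem T_comm (h : QF Q B) {u v : ι → ZMod 2} (hv : Q v = 1) (huv : B u v = 0) :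
    T h u * T h v = T h v * T h u := by
  have h1 := conj_T h (T h u) hv
  rw [T_fix h (by rw [B_symm h]; exact huv), T_inv] at h1
  calc T h u * T h v = T h u * T h v * (T h u * T h u) := by rw [T_mul_self, mul_one]
    _ = (T h u * T h v * T h u) * T h u := by simp only [mul_assoc]
    _ = T h v * T h u := by rw [h1]

theorem T_braid (h : QF Q B) {u v : ι → ZMod 2} (hu : Q u = 1) (hv : Q v = 1) (huv : B u v = 1) :
    T h u * T h v * T h u = T h (u + v) := by
  have h1 := conj_T h (T h u) hv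
  rw [T_inv, act_T h hu, B_symm h, huv, one_smul, add_comm] at h1
  exact h1

theorem T_pair (h : QF Q B) {u v : ι → ZMod 2} (hu : Q u = 1) (hv : Q v = 1) :
    (T h u * T h v) ^ 2 = 1 ∨ (T h u * T h v) ^ 3 = 1 := by
  rcases z2_cases (B u v) with h0 | h1
  · left
    rw [pow_two]
    calc T h u * T h v * (T h u * T h v) = T h u * T h v * (T h v * T h u) := by
          rw [T_comm h hv h0]
      _ = T h u * (T h v * T h v) * T h u := by simp only [mul_assoc]
      _ = 1 := by rw [T_mul_self, mul_one, T_mul_self]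
  · right
    have e1 := T_braid h hu hv h1
    have e2 := T_braid h hv hu (by rw [B_symm h]; exact h1)
    rw [add_comm] at e2
    calc (T h u * T h v) ^ 3 = (T h u * T h v * T h u) * (T h v * T h u * T h v) := by
          simp only [pow_succ, pow_zero, one_mul, mul_assoc]
      _ = 1 := by rw [e1, e2, T_mul_self]

theorem T_sub_one (h : QF Q B) {w : ι → ZMod 2} (hw : Q w = 1) :
    (((T h w : O Q) : GL ι (ZMod 2)) : Matrix ι ι (ZMod 2)) - 1 =
      vecMulVec w (fun j => B (Pi.single j 1) w) := by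
  unfold T
  rw [dif_pos hw]
  show Tmat B w - 1 = _
  unfold Tmat
  rw [add_sub_cancel_left]

theorem rank_T_sub_one (h : QF Q B) {w : ι → ZMod 2} (hw : Q w = 1) :
    ((((T h w : O Q) : GL ι (ZMod 2)) : Matrix ι ι (ZMod 2)) - 1).rank = 1 := by
  rw [T_sub_one h hw]
  unfold Matrix.rank
  have hr : LinearMap.range (vecMulVec w (fun j => B (Pi.single j 1) w)).mulVecLin =
      Submodule.span (ZMod 2) {w} := by
    ext y
    rw [Submodule.mem_span_singleton, LinearMap.mem_range]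
    constructor
    · rintro ⟨x, rfl⟩
      refine ⟨B x w, ?_⟩
      rw [Matrix.mulVecLin_apply, vecMulVec_mulVec, op_smul_eq_smul, B_dot h]
    · rintro ⟨a, rfl⟩
      obtain ⟨x, hx⟩ := exists_B_eq_one h (ne_zero_of_Q h hw)
      refine ⟨a • x, ?_⟩
      rw [Matrix.mulVecLin_apply, vecMulVec_mulVec, op_smul_eq_smul, B_dot h, B_smul_left h,
        B_symm h, hx, mul_one]
  rw [hr]
  exact finrank_span_singleton (ne_zero_of_Q h hw)

theorem eq_T_of_rank (h : QF Q B) {g : O Q}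
    (hr : (((g : GL ι (ZMod 2)) : Matrix ι ι (ZMod 2)) - 1).rank = 1) :
    ∃ w : ι → ZMod 2, Q w = 1 ∧ g = T h w := by
  unfold Matrix.rank at hr
  rw [finrank_eq_one_iff'] at hr
  obtain ⟨⟨u, hu_mem⟩, hu0, hspan⟩ := hr
  have hu : u ≠ 0 := fun h0 => hu0 (Subtype.ext h0)
  have hc : ∀ x : ι → ZMod 2, act g x = x ∨ act g x = x + u := by
    intro x
    obtain ⟨c, hc⟩ := hspan ⟨(((g : GL ι (ZMod 2)) : Matrix ι ι (ZMod 2)) - 1) *ᵥ x, ⟨x, rfl⟩⟩
    have h1 : c • u = (((g : GL ι (ZMod 2)) : Matrix ι ι (ZMod 2)) - 1) *ᵥ x :=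
      congrArg Subtype.val hc
    rw [sub_mulVec, one_mulVec] at h1
    have h2 : act g x = x + c • u := by
      unfold act
      rw [h1]; abel
    rcases z2_cases c with rfl | rfl
    · left; rw [h2, zero_smul, add_zero]
    · right; rw [h2, one_smul]
  obtain ⟨y₀, hy₀⟩ := hu_mem
  have hy₀' : act g y₀ = y₀ + u := by
    have h1 : (((g : GL ι (ZMod 2)) : Matrix ι ι (ZMod 2)) - 1) *ᵥ y₀ = u := hy₀
    rw [sub_mulVec, one_mulVec] at h1
    unfold act
    rw [← h1]; abel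
  -- on moved vectors `B x u = Q u`
  have hmov : ∀ x, act g x = x + u → B x u = Q u := by
    intro x hx
    have h1 := Q_act g x
    rw [hx, h.polar] at h1
    generalize Q x = a at h1
    generalize Q u = b at h1 ⊢
    generalize B x u = c at h1 ⊢
    revert a b c
    decide
  -- on fixed vectors `B x u = 0`
  have hfix : ∀ x, act g x = x → B x u = 0 := by
    intro x hx
    have h1 : act g (x + y₀) = (x + y₀) + u := by rw [act_add, hx, hy₀', add_assoc]
    have h2 := hmov _ h1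
    rw [B_add_left h, hmov y₀ hy₀'] at h2
    generalize B x u = a at h2 ⊢
    generalize Q u = b at h2
    revert a b
    decide
  have hQu : Q u = 1 := by
    by_contra hne
    have h0 : Q u = 0 := z2_ne_one hne
    apply hu
    apply h.nondeg
    intro v
    rw [B_symm h]
    rcases hc v with h1 | h1
    · exact hfix v h1
    · rw [hmov v h1, h0]
  refine ⟨u, hQu, O_ext fun x => ?_⟩
  rw [act_T h hQu]
  rcases hc x with h1 | h1
  · rw [h1, hfix x h1, zero_smul, add_zero]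
  · rw [h1, hmov x h1, hQu, one_smul]

/-- the set of orthogonal transvections -/
def Dset (h : QF Q B) : Set (O Q) := {g | ∃ w : ι → ZMod 2, Q w = 1 ∧ g = T h w}

theorem Dset_eq (h : QF Q B) :
    {g : ↥(Cfsg.isometryGroup (ZMod 2) Q) |
      (((g : GL ι (ZMod 2)) : Matrix ι ι (ZMod 2)) - 1).rank = 1} = Dset h := by
  ext g
  constructor
  · intro hg
    exact eq_T_of_rank h hg
  · rintro ⟨w, hw, rfl⟩
    exact rank_T_sub_one h hw

theorem T_mem_closure (h : QF Q B) (w : ι → ZMod 2) : T h w ∈ Subgroup.closure (Dset h) := by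
  by_cases hw : Q w = 1
  · exact Subgroup.subset_closure ⟨w, hw, rfl⟩
  · rw [T_of_ne h hw]; exact Subgroup.one_mem _

/-- The transvections form a class of 3-transpositions once they generate and the group is
transitive on nonsingular vectors. -/
theorem threeTransp (h : QF Q B) (hgen : Subgroup.closure (Dset h) = ⊤)
    (htrans : ∀ u u' : ι → ZMod 2, Q u = 1 → Q u' = 1 → ∃ g : O Q, act g u = u')
    (w₀ : ι → ZMod 2) (hw₀ : Q w₀ = 1) :
    Cfsg.IsThreeTranspositionClass {g : ↥(Cfsg.isometryGroup (ZMod 2) Q) |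
      (((g : GL ι (ZMod 2)) : Matrix ι ι (ZMod 2)) - 1).rank = 1} := by
  rw [Dset_eq h]
  refine ⟨⟨?_, ?_⟩, ?_, hgen⟩
  · rintro d ⟨u, hu, rfl⟩
    exact orderOf_T h hu
  · rintro d ⟨u, hu, rfl⟩ e' ⟨v, hv, rfl⟩
    exact T_pair h hu hv
  · refine ⟨T h w₀, ⟨w₀, hw₀, rfl⟩, ?_⟩
    ext g
    show g ∈ Dset h ↔ IsConj (T h w₀) g
    rw [isConj_iff]
    constructor
    · rintro ⟨u, hu, rfl⟩
      obtain ⟨k, hk⟩ := htrans w₀ u hw₀ hu
      exact ⟨k, by rw [conj_T h k hw₀, hk]⟩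
    · rintro ⟨k, rfl⟩
      rw [conj_T h k hw₀]
      exact ⟨_, by rw [Q_act k w₀]; exact hw₀, rfl⟩

end Transv

/-! ### Moving vectors by products of transvections -/

section Moves

variable {Q : (ι → ZMod 2) → ZMod 2} {B : (ι → ZMod 2) → (ι → ZMod 2) → ZMod 2}

/-- moving a singular vector to another one (both with partners), fixing a set `S` -/
theorem moveHyp1 (h : QF Q B) (S : Set (ι → ZMod 2)) (u u' v v' : ι → ZMod 2)
    (hQu : Q u = 0) (hQu' : Q u' = 0)
    (hu : ∀ s ∈ S, B s u = 0) (hu' : ∀ s ∈ S, B s u' = 0)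
    (hv : ∀ s ∈ S, B s v = 0) (hv' : ∀ s ∈ S, B s v' = 0)
    (huv : B u v = 1) (hu'v' : B u' v' = 1) :
    ∃ k ∈ Subgroup.closure (Dset h), (∀ s ∈ S, act k s = s) ∧ act k u = u' := by
  by_cases heq : u = u'
  · exact ⟨1, one_mem _, fun s _ => act_one s, by rw [act_one, heq]⟩
  rcases z2_cases (B u u') with h0 | h1
  · obtain ⟨a0, ha0S, ha0u, ha0u'⟩ :
        ∃ a0, (∀ s ∈ S, B s a0 = 0) ∧ B u a0 = 1 ∧ B u' a0 = 1 := by
      rcases z2_cases (B u' v) with h2 | h2
      · rcases z2_cases (B u v') with h3 | h3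
        · refine ⟨v + v', fun s hs => ?_, ?_, ?_⟩
          · rw [B_add_right h, hv s hs, hv' s hs, add_zero]
          · rw [B_add_right h, huv, h3, add_zero]
          · rw [B_add_right h, h2, hu'v', zero_add]
        · exact ⟨v', hv', h3, hu'v'⟩
      · exact ⟨v, hv, huv, h2⟩
    obtain ⟨a, haS, hau, hau', hQa⟩ :
        ∃ a, (∀ s ∈ S, B s a = 0) ∧ B u a = 1 ∧ B u' a = 1 ∧ Q a = 1 := by
      rcases z2_cases (Q a0) with hq | hq
      · refine ⟨a0 + u, fun s hs => ?_, ?_, ?_, ?_⟩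
        · rw [B_add_right h, ha0S s hs, hu s hs, add_zero]
        · rw [B_add_right h, ha0u, B_self h, add_zero]
        · rw [B_add_right h, ha0u', B_symm h u' u, h0, add_zero]
        · rw [h.polar, hq, hQu, B_symm h a0 u, ha0u]; decide
      · exact ⟨a0, ha0S, ha0u, ha0u', hq⟩
    have hQua : Q (u + a) = 0 := by rw [h.polar, hQu, hQa, hau]; decide
    have hQb : Q (u + a + u') = 1 := by
      rw [h.polar, hQua, hQu', B_add_left h, h0, B_symm h a u', hau']; decide
    refine ⟨T h (u + a + u') * T h a,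
      Subgroup.mul_mem _ (T_mem_closure h _) (T_mem_closure h _), fun s hs => ?_, ?_⟩
    · have e2 : B s (u + a + u') = 0 := by
        rw [B_add_right h, B_add_right h, hu s hs, haS s hs, hu' s hs, add_zero, add_zero]
      rw [act_mul, T_fix h (haS s hs), T_fix h e2]
    · rw [act_mul, act_T h hQa, hau, one_smul]
      exact T_step h hQb (by rw [B_add_left h, h0, B_symm h a u', hau', zero_add])
  · have hq : Q (u + u') = 1 := by rw [h.polar, hQu, hQu', h1]; decide
    exact ⟨T h (u + u'), T_mem_closure h _,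
      fun s hs => T_fix h (by rw [B_add_right h, hu s hs, hu' s hs, add_zero]), T_step h hq h1⟩

/-- moving the second vector of a hyperbolic pair, fixing the first one and a set `S`; uses an
anisotropic helper plane `z₁, z₂` orthogonal to `S` and to the target pair. -/
theorem moveHyp2 (h : QF Q B) (S : Set (ι → ZMod 2)) (u' v₁ v' z₁ z₂ : ι → ZMod 2)
    (hQu' : Q u' = 0) (hQv₁ : Q v₁ = 0) (hQv' : Q v' = 0)
    (hu' : ∀ s ∈ S, B s u' = 0) (hv₁ : ∀ s ∈ S, B s v₁ = 0) (hv' : ∀ s ∈ S, B s v' = 0)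
    (h1 : B u' v₁ = 1) (h2 : B u' v' = 1)
    (hz₁ : Q z₁ = 1) (hz₂ : Q z₂ = 1) (hz : B z₁ z₂ = 1)
    (hSz₁ : ∀ s ∈ S, B s z₁ = 0) (hSz₂ : ∀ s ∈ S, B s z₂ = 0)
    (hu'z₁ : B u' z₁ = 0) (hu'z₂ : B u' z₂ = 0) (hv'z₁ : B v' z₁ = 0) (hv'z₂ : B v' z₂ = 0) :
    ∃ k ∈ Subgroup.closure (Dset h), (∀ s ∈ S, act k s = s) ∧ act k u' = u' ∧ act k v₁ = v' := by
  by_cases heq : v₁ = v'
  · exact ⟨1, one_mem _, fun s _ => act_one s, act_one _, by rw [act_one, heq]⟩
  rcases z2_cases (B v₁ v') with h0 | h3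
  · obtain ⟨z, hQz, hSz, hu'z, hv'z, hv₁z⟩ : ∃ z, Q z = 1 ∧ (∀ s ∈ S, B s z = 0) ∧ B u' z = 0 ∧
        B v' z = 0 ∧ B v₁ z = 0 := by
      rcases z2_cases (B v₁ z₁) with ha | ha
      · exact ⟨z₁, hz₁, hSz₁, hu'z₁, hv'z₁, ha⟩
      · rcases z2_cases (B v₁ z₂) with hb | hb
        · exact ⟨z₂, hz₂, hSz₂, hu'z₂, hv'z₂, hb⟩
        · refine ⟨z₁ + z₂, ?_, fun s hs => ?_, ?_, ?_, ?_⟩
          · rw [h.polar, hz₁, hz₂, hz]; decide
          · rw [B_add_right h, hSz₁ s hs, hSz₂ s hs, add_zero]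
          · rw [B_add_right h, hu'z₁, hu'z₂, add_zero]
          · rw [B_add_right h, hv'z₁, hv'z₂, add_zero]
          · rw [B_add_right h, ha, hb]; decide
    have hQa : Q (u' + z) = 1 := by rw [h.polar, hQu', hQz, hu'z]; decide
    have hv₁a : B v₁ (u' + z) = 1 := by
      rw [B_add_right h, B_symm h v₁ u', h1, hv₁z, add_zero]
    have hQv₁a : Q (v₁ + (u' + z)) = 0 := by rw [h.polar, hQv₁, hQa, hv₁a]; decide
    have hav' : B (u' + z) v' = 1 := by rw [B_add_left h, h2, B_symm h z v', hv'z, add_zero]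
    have hQb : Q (v₁ + (u' + z) + v') = 1 := by
      rw [h.polar, hQv₁a, hQv', B_add_left h, h0, hav']; decide
    refine ⟨T h (v₁ + (u' + z) + v') * T h (u' + z),
      Subgroup.mul_mem _ (T_mem_closure h _) (T_mem_closure h _), fun s hs => ?_, ?_, ?_⟩
    · have e1 : B s (u' + z) = 0 := by rw [B_add_right h, hu' s hs, hSz s hs, add_zero]
      have e2 : B s (v₁ + (u' + z) + v') = 0 := by
        rw [B_add_right h, B_add_right h, hv₁ s hs, e1, hv' s hs]; decide
      rw [act_mul, T_fix h e1, T_fix h e2]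
    · have e1 : B u' (u' + z) = 0 := by rw [B_add_right h, B_self h, hu'z, add_zero]
      have e2 : B u' (v₁ + (u' + z) + v') = 0 := by
        rw [B_add_right h, B_add_right h, h1, e1, h2]; decide
      rw [act_mul, T_fix h e1, T_fix h e2]
    · rw [act_mul, act_T h hQa, hv₁a, one_smul]
      exact T_step h hQb (by rw [B_add_left h, h0, hav', zero_add])
  · have hq : Q (v₁ + v') = 1 := by rw [h.polar, hQv₁, hQv', h3]; decide
    refine ⟨T h (v₁ + v'), T_mem_closure h _,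
      fun s hs => T_fix h (by rw [B_add_right h, hv₁ s hs, hv' s hs, add_zero]), ?_,
      T_step h hq h3⟩
    exact T_fix h (by rw [B_add_right h, h1, h2]; decide)

/-- moving a hyperbolic pair to another one, fixing a set `S` -/
theorem moveHyp (h : QF Q B) (S : Set (ι → ZMod 2)) (u u' v v' z₁ z₂ : ι → ZMod 2)
    (hQu : Q u = 0) (hQu' : Q u' = 0) (hQv : Q v = 0) (hQv' : Q v' = 0)
    (hu : ∀ s ∈ S, B s u = 0) (hu' : ∀ s ∈ S, B s u' = 0)
    (hv : ∀ s ∈ S, B s v = 0) (hv' : ∀ s ∈ S, B s v' = 0)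
    (huv : B u v = 1) (hu'v' : B u' v' = 1)
    (hz₁ : Q z₁ = 1) (hz₂ : Q z₂ = 1) (hz : B z₁ z₂ = 1)
    (hSz₁ : ∀ s ∈ S, B s z₁ = 0) (hSz₂ : ∀ s ∈ S, B s z₂ = 0)
    (hu'z₁ : B u' z₁ = 0) (hu'z₂ : B u' z₂ = 0) (hv'z₁ : B v' z₁ = 0) (hv'z₂ : B v' z₂ = 0) :
    ∃ k ∈ Subgroup.closure (Dset h), (∀ s ∈ S, act k s = s) ∧ act k u = u' ∧ act k v = v' := by
  obtain ⟨k₁, hk₁, hS₁, hu₁⟩ := moveHyp1 h S u u' v v' hQu hQu' hu hu' hv hv' huv hu'v'
  have hv₁ : ∀ s ∈ S, B s (act k₁ v) = 0 := by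
    intro s hs
    have := B_act h k₁ s v
    rw [hS₁ s hs] at this
    rw [this]; exact hv s hs
  have h1 : B u' (act k₁ v) = 1 := by
    rw [← hu₁, B_act h]; exact huv
  obtain ⟨k₂, hk₂, hS₂, hu₂, hv₂⟩ := moveHyp2 h S u' (act k₁ v) v' z₁ z₂ hQu'
    (by rw [Q_act k₁ v]; exact hQv) hQv' hu' hv₁ hv' h1 hu'v' hz₁ hz₂ hz hSz₁ hSz₂
    hu'z₁ hu'z₂ hv'z₁ hv'z₂
  refine ⟨k₂ * k₁, Subgroup.mul_mem _ hk₂ hk₁, fun s hs => ?_, ?_, ?_⟩
  · rw [act_mul, hS₁ s hs, hS₂ s hs]
  · rw [act_mul, hu₁, hu₂]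
  · rw [act_mul, hv₂]

/-- moving the second vector of an elliptic pair, fixing the first one and a set `S` -/
theorem moveEll2 (h : QF Q B) (S : Set (ι → ZMod 2)) (u' v₁ v' : ι → ZMod 2)
    (hQu' : Q u' = 1) (hQv₁ : Q v₁ = 1) (hQv' : Q v' = 1)
    (hu' : ∀ s ∈ S, B s u' = 0) (hv₁ : ∀ s ∈ S, B s v₁ = 0) (hv' : ∀ s ∈ S, B s v' = 0)
    (h1 : B u' v₁ = 1) (h2 : B u' v' = 1) :
    ∃ k ∈ Subgroup.closure (Dset h), (∀ s ∈ S, act k s = s) ∧ act k u' = u' ∧ act k v₁ = v' := by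
  by_cases heq : v₁ = v'
  · exact ⟨1, one_mem _, fun s _ => act_one s, act_one _, by rw [act_one, heq]⟩
  rcases z2_cases (B v₁ v') with h0 | h3
  · have hQc : Q (v₁ + u') = 1 := by rw [h.polar, hQv₁, hQu', B_symm h, h1]; decide
    have hQb : Q (v₁ + u' + v') = 1 := by
      rw [h.polar, hQc, hQv', B_add_left h, h0, h2]; decide
    refine ⟨T h (v₁ + u' + v') * T h u',
      Subgroup.mul_mem _ (T_mem_closure h _) (T_mem_closure h _), fun s hs => ?_, ?_, ?_⟩
    · have e2 : B s (v₁ + u' + v') = 0 := by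
        rw [B_add_right h, B_add_right h, hv₁ s hs, hu' s hs, hv' s hs]; decide
      rw [act_mul, T_fix h (hu' s hs), T_fix h e2]
    · have e2 : B u' (v₁ + u' + v') = 0 := by
        rw [B_add_right h, B_add_right h, h1, B_self h, h2]; decide
      rw [act_mul, T_fix h (B_self h u'), T_fix h e2]
    · rw [act_mul, act_T h hQu', B_symm h v₁ u', h1, one_smul]
      exact T_step h hQb (by rw [B_add_left h, h0, h2, zero_add])
  · have hq : Q (v₁ + v') = 1 := by rw [h.polar, hQv₁, hQv', h3]; decide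
    refine ⟨T h (v₁ + v'), T_mem_closure h _,
      fun s hs => T_fix h (by rw [B_add_right h, hv₁ s hs, hv' s hs, add_zero]), ?_,
      T_step h hq h3⟩
    exact T_fix h (by rw [B_add_right h, h1, h2]; decide)

/-- moving an elliptic pair to another one whose first vectors are equal or non-orthogonal -/
theorem moveEllNear (h : QF Q B) (S : Set (ι → ZMod 2)) (u u' v v' : ι → ZMod 2)
    (hQu : Q u = 1) (hQu' : Q u' = 1) (hQv : Q v = 1) (hQv' : Q v' = 1)
    (hu : ∀ s ∈ S, B s u = 0) (hu' : ∀ s ∈ S, B s u' = 0)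
    (hv : ∀ s ∈ S, B s v = 0) (hv' : ∀ s ∈ S, B s v' = 0)
    (huv : B u v = 1) (hu'v' : B u' v' = 1) (hnear : u = u' ∨ B u u' = 1) :
    ∃ k ∈ Subgroup.closure (Dset h), (∀ s ∈ S, act k s = s) ∧ act k u = u' ∧ act k v = v' := by
  obtain ⟨k₁, hk₁, hS₁, hu₁⟩ :
      ∃ k₁ ∈ Subgroup.closure (Dset h), (∀ s ∈ S, act k₁ s = s) ∧ act k₁ u = u' := by
    rcases hnear with heq | h1
    · exact ⟨1, one_mem _, fun s _ => act_one s, by rw [act_one, heq]⟩
    · have hq : Q (u + u') = 1 := by rw [h.polar, hQu, hQu', h1]; decide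
      exact ⟨T h (u + u'), T_mem_closure h _,
        fun s hs => T_fix h (by rw [B_add_right h, hu s hs, hu' s hs, add_zero]), T_step h hq h1⟩
  have hv₁ : ∀ s ∈ S, B s (act k₁ v) = 0 := by
    intro s hs
    have := B_act h k₁ s v
    rw [hS₁ s hs] at this
    rw [this]; exact hv s hs
  have h1 : B u' (act k₁ v) = 1 := by
    rw [← hu₁, B_act h]; exact huv
  obtain ⟨k₂, hk₂, hS₂, hu₂, hv₂⟩ := moveEll2 h S u' (act k₁ v) v' hQu'
    (by rw [Q_act k₁ v]; exact hQv) hQv' hu' hv₁ hv' h1 hu'v'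
  refine ⟨k₂ * k₁, Subgroup.mul_mem _ hk₂ hk₁, fun s hs => ?_, ?_, ?_⟩
  · rw [act_mul, hS₁ s hs, hS₂ s hs]
  · rw [act_mul, hu₁, hu₂]
  · rw [act_mul, hv₂]

/-! ### Transitivity on nonsingular vectors -/

/-- the polar form as a bilinear form -/
def Bf (h : QF Q B) : LinearMap.BilinForm (ZMod 2) (ι → ZMod 2) :=
  LinearMap.mk₂ (ZMod 2) B (B_add_left h) (B_smul_left h) (B_add_right h) (B_smul_right h)

theorem Bf_apply (h : QF Q B) (u v : ι → ZMod 2) : Bf h u v = B u v := rfl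

theorem Bf_nondeg (h : QF Q B) : (Bf h).Nondegenerate := by
  refine ⟨fun u hu => h.nondeg u hu, fun u hu => h.nondeg u (fun v => ?_)⟩
  rw [B_symm h]; exact hu v

theorem finrank_ker_ge (f : (ι → ZMod 2) →ₗ[ZMod 2] ZMod 2) :
    Fintype.card ι ≤ Module.finrank (ZMod 2) (LinearMap.ker f) + 1 := by
  have h1 := LinearMap.finrank_range_add_finrank_ker f
  rw [Module.finrank_fintype_fun_eq_card] at h1
  have h2 : Module.finrank (ZMod 2) (LinearMap.range f) ≤ 1 := by
    have := Submodule.finrank_le (LinearMap.range f)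
    rwa [Module.finrank_self] at this
  omega

theorem exists_pair_perp2 (h : QF Q B) (hdim : 5 ≤ Fintype.card ι) (u u' : ι → ZMod 2) :
    ∃ c₁ c₂ : ι → ZMod 2, B u c₁ = 0 ∧ B u' c₁ = 0 ∧ B u c₂ = 0 ∧ B u' c₂ = 0 ∧ B c₁ c₂ = 1 := by
  by_contra hcon
  set K : Submodule (ZMod 2) (ι → ZMod 2) :=
    LinearMap.ker (Bf h u) ⊓ LinearMap.ker (Bf h u') with hK
  have hmem : ∀ c, c ∈ K ↔ B u c = 0 ∧ B u' c = 0 := by
    intro c
    rw [hK, Submodule.mem_inf, LinearMap.mem_ker, LinearMap.mem_ker]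
    rfl
  have hiso : K ≤ (Bf h).orthogonal K := by
    intro c hc
    rw [LinearMap.BilinForm.mem_orthogonal_iff]
    intro d hd
    show B d c = 0
    by_contra hne
    exact hcon ⟨d, c, ((hmem d).mp hd).1, ((hmem d).mp hd).2, ((hmem c).mp hc).1,
      ((hmem c).mp hc).2, z2_ne_zero hne⟩
  have h1 := Submodule.finrank_mono hiso
  rw [LinearMap.BilinForm.finrank_orthogonal (Bf_nondeg h),
    Module.finrank_fintype_fun_eq_card] at h1
  have h2 := finrank_ker_ge (Bf h u)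
  have h3 := finrank_ker_ge (Bf h u')
  have h4 := Submodule.finrank_sup_add_finrank_inf_eq (LinearMap.ker (Bf h u))
    (LinearMap.ker (Bf h u'))
  have h5 : Module.finrank (ZMod 2) ↥(LinearMap.ker (Bf h u) ⊔ LinearMap.ker (Bf h u')) ≤
      Fintype.card ι := by
    have := Submodule.finrank_le (LinearMap.ker (Bf h u) ⊔ LinearMap.ker (Bf h u'))
    rwa [Module.finrank_fintype_fun_eq_card] at this
  have h6 : Module.finrank (ZMod 2) ↥K =
      Module.finrank (ZMod 2) ↥(LinearMap.ker (Bf h u) ⊓ LinearMap.ker (Bf h u')) := by rw [hK]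
  omega

/-- In dimension at least 5 the transvection group is transitive on nonsingular vectors. -/
theorem trans_nonsing (h : QF Q B) (hdim : 5 ≤ Fintype.card ι) (u u' : ι → ZMod 2)
    (hQu : Q u = 1) (hQu' : Q u' = 1) :
    ∃ k ∈ Subgroup.closure (Dset h), act k u = u' := by
  by_cases heq : u = u'
  · exact ⟨1, one_mem _, by rw [act_one, heq]⟩
  rcases z2_cases (B u u') with h0 | h1
  · obtain ⟨x, hx⟩ := exists_B_eq_one h (ne_zero_of_Q h hQu)
    obtain ⟨y, hy⟩ := exists_B_eq_one h (ne_zero_of_Q h hQu')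
    obtain ⟨a0, ha0u, ha0u'⟩ : ∃ a0, B u a0 = 1 ∧ B u' a0 = 1 := by
      rcases z2_cases (B u' x) with h2 | h2
      · rcases z2_cases (B u y) with h3 | h3
        · exact ⟨x + y, by rw [B_add_right h, hx, h3, add_zero],
            by rw [B_add_right h, h2, hy, zero_add]⟩
        · exact ⟨y, h3, hy⟩
      · exact ⟨x, hx, h2⟩
    obtain ⟨c₁, c₂, hc1u, hc1u', hc2u, hc2u', hc⟩ := exists_pair_perp2 h hdim u u'
    obtain ⟨a, hau, hau', hQa⟩ : ∃ a, B u a = 1 ∧ B u' a = 1 ∧ Q a = 1 := by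
      rcases exists_nonsing h a0 c₁ c₂ hc with hq | hq | hq | hq
      · exact ⟨a0, ha0u, ha0u', hq⟩
      · exact ⟨a0 + c₁, by rw [B_add_right h, ha0u, hc1u, add_zero],
          by rw [B_add_right h, ha0u', hc1u', add_zero], hq⟩
      · exact ⟨a0 + c₂, by rw [B_add_right h, ha0u, hc2u, add_zero],
          by rw [B_add_right h, ha0u', hc2u', add_zero], hq⟩
      · exact ⟨a0 + c₁ + c₂,
          by rw [B_add_right h, B_add_right h, ha0u, hc1u, hc2u, add_zero, add_zero],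
          by rw [B_add_right h, B_add_right h, ha0u', hc1u', hc2u', add_zero, add_zero], hq⟩
    have hQua : Q (u + a) = 1 := by rw [h.polar, hQu, hQa, hau]; decide
    have hQb : Q (u + a + u') = 1 := by
      rw [h.polar, hQua, hQu', B_add_left h, h0, B_symm h a u', hau']; decide
    refine ⟨T h (u + a + u') * T h a,
      Subgroup.mul_mem _ (T_mem_closure h _) (T_mem_closure h _), ?_⟩
    rw [act_mul, act_T h hQa, hau, one_smul]
    exact T_step h hQb (by rw [B_add_left h, h0, B_symm h a u', hau', zero_add])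
  · have hq : Q (u + u') = 1 := by rw [h.polar, hQu, hQu', h1]; decide
    exact ⟨T h (u + u'), T_mem_closure h _, T_step h hq h1⟩

end Moves

/-! ### Generation: fixing a frame step by step -/

section Frame

variable {Q : (ι → ZMod 2) → ZMod 2} {B : (ι → ZMod 2) → (ι → ZMod 2) → ZMod 2}

/-- Every isometry fixing `S₀` pointwise can be corrected by transvections so as to fix, in
addition, any finite family of mutually orthogonal hyperbolic pairs `(e i, f i)` orthogonal to `S₀`,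
provided an anisotropic helper plane `z₁, z₂` orthogonal to everything is available. -/
theorem fix_pairs (h : QF Q B) {κ : Type} [DecidableEq κ] (e f : κ → (ι → ZMod 2))
    (S₀ : Set (ι → ZMod 2)) (z₁ z₂ : ι → ZMod 2)
    (hQe : ∀ i, Q (e i) = 0) (hQf : ∀ i, Q (f i) = 0)
    (hee : ∀ i j, B (e i) (e j) = 0) (hff : ∀ i j, B (f i) (f j) = 0)
    (hef : ∀ i j, B (e i) (f j) = if i = j then 1 else 0)
    (hSe : ∀ s ∈ S₀, ∀ i, B s (e i) = 0) (hSf : ∀ s ∈ S₀, ∀ i, B s (f i) = 0)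
    (hz₁ : Q z₁ = 1) (hz₂ : Q z₂ = 1) (hz : B z₁ z₂ = 1)
    (hSz₁ : ∀ s ∈ S₀, B s z₁ = 0) (hSz₂ : ∀ s ∈ S₀, B s z₂ = 0)
    (hez₁ : ∀ i, B (e i) z₁ = 0) (hez₂ : ∀ i, B (e i) z₂ = 0)
    (hfz₁ : ∀ i, B (f i) z₁ = 0) (hfz₂ : ∀ i, B (f i) z₂ = 0)
    (g : O Q) (hg : ∀ s ∈ S₀, act g s = s) (t : Finset κ) :
    ∃ k ∈ Subgroup.closure (Dset h), (∀ s ∈ S₀, act (k * g) s = s) ∧
      ∀ i ∈ t, act (k * g) (e i) = e i ∧ act (k * g) (f i) = f i := by
  induction t using Finset.induction_on with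
  | empty =>
    exact ⟨1, one_mem _, fun s hs => by rw [one_mul]; exact hg s hs,
      fun i hi => absurd hi (Finset.notMem_empty i)⟩
  | insert a t ha ih =>
    obtain ⟨k₀, hk₀, hS₀, hfix⟩ := ih
    obtain ⟨g', hg'⟩ : ∃ g' : O Q, g' = k₀ * g := ⟨_, rfl⟩
    rw [← hg'] at hS₀ hfix
    let S : Set (ι → ZMod 2) := S₀ ∪ {s | ∃ i ∈ t, s = e i ∨ s = f i}
    have hSfix : ∀ s ∈ S, act g' s = s := by
      rintro s (hs | ⟨i, hi, rfl | rfl⟩)
      · exact hS₀ s hs
      · exact (hfix i hi).1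
      · exact (hfix i hi).2
    have hne : ∀ i ∈ t, i ≠ a := fun i hi hia => ha (hia ▸ hi)
    have hSe' : ∀ s ∈ S, B s (e a) = 0 := by
      rintro s (hs | ⟨i, hi, rfl | rfl⟩)
      · exact hSe s hs a
      · exact hee i a
      · rw [B_symm h, hef, if_neg (fun hai => hne i hi hai.symm)]
    have hSf' : ∀ s ∈ S, B s (f a) = 0 := by
      rintro s (hs | ⟨i, hi, rfl | rfl⟩)
      · exact hSf s hs a
      · rw [hef, if_neg (hne i hi)]
      · exact hff i a
    have hSz₁' : ∀ s ∈ S, B s z₁ = 0 := by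
      rintro s (hs | ⟨i, hi, rfl | rfl⟩)
      · exact hSz₁ s hs
      · exact hez₁ i
      · exact hfz₁ i
    have hSz₂' : ∀ s ∈ S, B s z₂ = 0 := by
      rintro s (hs | ⟨i, hi, rfl | rfl⟩)
      · exact hSz₂ s hs
      · exact hez₂ i
      · exact hfz₂ i
    have key : ∀ x, (∀ s ∈ S, B s x = 0) → ∀ s ∈ S, B s (act g' x) = 0 := by
      intro x hx s hs
      have := B_act h g' s x
      rw [hSfix s hs] at this
      rw [this]; exact hx s hs
    have huv : B (act g' (e a)) (act g' (f a)) = 1 := by rw [B_act h, hef, if_pos rfl]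
    have hu'v' : B (e a) (f a) = 1 := by rw [hef, if_pos rfl]
    obtain ⟨k, hk, hkS, hke, hkf⟩ := moveHyp h S (act g' (e a)) (e a) (act g' (f a)) (f a) z₁ z₂
      (by rw [Q_act g' (e a)]; exact hQe a) (hQe a) (by rw [Q_act g' (f a)]; exact hQf a) (hQf a)
      (key _ hSe') hSe' (key _ hSf') hSf' huv hu'v' hz₁ hz₂ hz hSz₁' hSz₂'
      (hez₁ a) (hez₂ a) (hfz₁ a) (hfz₂ a)
    have hmul : ∀ x, act (k * k₀ * g) x = act k (act g' x) := fun x => by
      rw [mul_assoc, ← hg', act_mul]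
    refine ⟨k * k₀, Subgroup.mul_mem _ hk hk₀, fun s hs => ?_, fun i hi => ?_⟩
    · rw [hmul, hS₀ s hs]; exact hkS s (Or.inl hs)
    · rw [hmul, hmul]
      rcases Finset.mem_insert.mp hi with rfl | hit
      · exact ⟨hke, hkf⟩
      · rw [(hfix i hit).1, (hfix i hit).2]
        exact ⟨hkS _ (Or.inr ⟨i, hit, Or.inl rfl⟩), hkS _ (Or.inr ⟨i, hit, Or.inr rfl⟩)⟩

/-- If `S₀`, the hyperbolic pairs `(e i, f i)` and the anisotropic plane `z₁, z₂` form a frame of
the space, then every isometry fixing `S₀` pointwise is a product of transvections. -/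
theorem mem_closure_of_frame (h : QF Q B) {κ : Type} [Fintype κ] [DecidableEq κ]
    (e f : κ → (ι → ZMod 2)) (S₀ : Set (ι → ZMod 2)) (z₁ z₂ : ι → ZMod 2)
    (hQe : ∀ i, Q (e i) = 0) (hQf : ∀ i, Q (f i) = 0)
    (hee : ∀ i j, B (e i) (e j) = 0) (hff : ∀ i j, B (f i) (f j) = 0)
    (hef : ∀ i j, B (e i) (f j) = if i = j then 1 else 0)
    (hSe : ∀ s ∈ S₀, ∀ i, B s (e i) = 0) (hSf : ∀ s ∈ S₀, ∀ i, B s (f i) = 0)
    (hz₁ : Q z₁ = 1) (hz₂ : Q z₂ = 1) (hz : B z₁ z₂ = 1)
    (hSz₁ : ∀ s ∈ S₀, B s z₁ = 0) (hSz₂ : ∀ s ∈ S₀, B s z₂ = 0)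
    (hez₁ : ∀ i, B (e i) z₁ = 0) (hez₂ : ∀ i, B (e i) z₂ = 0)
    (hfz₁ : ∀ i, B (f i) z₁ = 0) (hfz₂ : ∀ i, B (f i) z₂ = 0)
    (hperp : ∀ x : ι → ZMod 2, (∀ s ∈ S₀, B s x = 0) → (∀ i, B (e i) x = 0) →
      (∀ i, B (f i) x = 0) → x = 0 ∨ x = z₁ ∨ x = z₂ ∨ x = z₁ + z₂)
    (hspan : ∀ k : O Q, (∀ s ∈ S₀, act k s = s) → (∀ i, act k (e i) = e i) →
      (∀ i, act k (f i) = f i) → act k z₁ = z₁ → act k z₂ = z₂ → k = 1)
    (g : O Q) (hg : ∀ s ∈ S₀, act g s = s) : g ∈ Subgroup.closure (Dset h) := by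
  obtain ⟨k₀, hk₀, hS₀, hfix⟩ := fix_pairs h e f S₀ z₁ z₂ hQe hQf hee hff hef hSe hSf hz₁ hz₂ hz
    hSz₁ hSz₂ hez₁ hez₂ hfz₁ hfz₂ g hg Finset.univ
  obtain ⟨g', hg'⟩ : ∃ g' : O Q, g' = k₀ * g := ⟨_, rfl⟩
  rw [← hg'] at hS₀ hfix
  let S : Set (ι → ZMod 2) := S₀ ∪ {s | ∃ i, s = e i ∨ s = f i}
  have hSfix : ∀ s ∈ S, act g' s = s := by
    rintro s (hs | ⟨i, rfl | rfl⟩)
    · exact hS₀ s hs
    · exact (hfix i (Finset.mem_univ i)).1
    · exact (hfix i (Finset.mem_univ i)).2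
  have hSz₁' : ∀ s ∈ S, B s z₁ = 0 := by
    rintro s (hs | ⟨i, rfl | rfl⟩)
    · exact hSz₁ s hs
    · exact hez₁ i
    · exact hfz₁ i
  have hSz₂' : ∀ s ∈ S, B s z₂ = 0 := by
    rintro s (hs | ⟨i, rfl | rfl⟩)
    · exact hSz₂ s hs
    · exact hez₂ i
    · exact hfz₂ i
  have key : ∀ x, (∀ s ∈ S, B s x = 0) → ∀ s ∈ S, B s (act g' x) = 0 := by
    intro x hx s hs
    have := B_act h g' s x
    rw [hSfix s hs] at this
    rw [this]; exact hx s hs
  have hE : ∀ x, (∀ s ∈ S, B s x = 0) → Q x = 1 → x = z₁ ∨ x = z₂ ∨ x = z₁ + z₂ := by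
    intro x hx hQx
    rcases hperp x (fun s hs => hx s (Or.inl hs)) (fun i => hx _ (Or.inr ⟨i, Or.inl rfl⟩))
      (fun i => hx _ (Or.inr ⟨i, Or.inr rfl⟩)) with h0 | h1
    · exact absurd h0 (ne_zero_of_Q h hQx)
    · exact h1
  have hQ1 : Q (act g' z₁) = 1 := by rw [Q_act g' z₁]; exact hz₁
  have hQ2 : Q (act g' z₂) = 1 := by rw [Q_act g' z₂]; exact hz₂
  have hnear : act g' z₁ = z₁ ∨ B (act g' z₁) z₁ = 1 := by
    rcases hE (act g' z₁) (key z₁ hSz₁') hQ1 with h1 | h1 | h1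
    · left; exact h1
    · right; rw [h1, B_symm h]; exact hz
    · right; rw [h1, B_add_left h, B_self h, B_symm h z₂ z₁, hz, zero_add]
  obtain ⟨k, hk, hkS, hk1, hk2⟩ := moveEllNear h S (act g' z₁) z₁ (act g' z₂) z₂ hQ1 hz₁ hQ2 hz₂
    (key z₁ hSz₁') hSz₁' (key z₂ hSz₂') hSz₂' (by rw [B_act h]; exact hz) hz hnear
  have hone : k * g' = 1 := by
    apply hspan
    · intro s hs; rw [act_mul, hS₀ s hs]; exact hkS s (Or.inl hs)
    · intro i; rw [act_mul, (hfix i (Finset.mem_univ i)).1]; exact hkS _ (Or.inr ⟨i, Or.inl rfl⟩)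
    · intro i; rw [act_mul, (hfix i (Finset.mem_univ i)).2]; exact hkS _ (Or.inr ⟨i, Or.inr rfl⟩)
    · rw [act_mul]; exact hk1
    · rw [act_mul]; exact hk2
  have h2 : g = (k * k₀)⁻¹ := by
    apply eq_inv_of_mul_eq_one_right
    rw [mul_assoc, ← hg']; exact hone
  rw [h2]
  exact Subgroup.inv_mem _ (Subgroup.mul_mem _ hk hk₀)

end Frame

end Cfsg.Agent.Helper27.OrthF2
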