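import Cfsg.Agent.Helper27.OrthF2

set_option autoImplicit false
set_option linter.unusedSectionVars false
set_option linter.unusedSimpArgs false

/-!
The minus-type orthogonal group over `ZMod 2` (`Cfsg.quadFormMinus m (ZMod 2) 1 1`): it is
generated by its orthogonal transvections, which form a class of 3-transpositions for `m ≥ 2`.
-/

namespace Cfsg.Agent.Helper27.OrthF2

open Matrix

/-- coordinates of the minus-type space -/
abbrev IM (m : ℕ) := (Fin m ⊕ Fin m) ⊕ Fin 2

/-- the polar form of the minus-type quadratic form -/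
def Bm (m : ℕ) (u v : IM m → ZMod 2) : ZMod 2 :=
  (∑ i : Fin m, (u (.inl (.inl i)) * v (.inl (.inr i)) + u (.inl (.inr i)) * v (.inl (.inl i))))
    + (u (.inr 0) * v (.inr 1) + u (.inr 1) * v (.inr 0))

/-- the partner coordinate -/
def pm (m : ℕ) : IM m → IM m
  | .inl (.inl i) => .inl (.inr i)
  | .inl (.inr i) => .inl (.inl i)
  | .inr j => .inr (if j = 0 then 1 else 0)

theorem pm_pm (m : ℕ) (a : IM m) : pm m (pm m a) = a := by
  rcases a with (i | i) | j
  · rfl
  · rfl
  · fin_cases j <;> rfl

theorem Bm_single_left (m : ℕ) (a : IM m) (v : IM m → ZMod 2) :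
    Bm m (Pi.single a 1) v = v (pm m a) := by
  unfold Bm
  rcases a with (j | j) | j
  · simp [Pi.single_apply, pm]
  · simp [Pi.single_apply, pm]
  · fin_cases j <;> simp [Pi.single_apply, pm]

theorem Bm_comm (m : ℕ) (u v : IM m → ZMod 2) : Bm m u v = Bm m v u := by
  unfold Bm
  congr 1
  · apply Finset.sum_congr rfl
    intro i _
    ring
  · ring

theorem Bm_add_left (m : ℕ) (u u' v : IM m → ZMod 2) :
    Bm m (u + u') v = Bm m u v + Bm m u' v := by
  unfold Bm
  have hs : ∑ i : Fin m, ((u + u') (.inl (.inl i)) * v (.inl (.inr i)) +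
        (u + u') (.inl (.inr i)) * v (.inl (.inl i))) =
      (∑ i : Fin m, (u (.inl (.inl i)) * v (.inl (.inr i)) + u (.inl (.inr i)) * v (.inl (.inl i))))
      + ∑ i : Fin m, (u' (.inl (.inl i)) * v (.inl (.inr i)) +
        u' (.inl (.inr i)) * v (.inl (.inl i))) := by
    rw [← Finset.sum_add_distrib]
    apply Finset.sum_congr rfl
    intro i _
    simp only [Pi.add_apply]
    ring
  rw [hs]
  simp only [Pi.add_apply]
  ring

theorem minus_polar (m : ℕ) (u v : IM m → ZMod 2) :
    Cfsg.quadFormMinus m (ZMod 2) 1 1 (u + v) =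
      Cfsg.quadFormMinus m (ZMod 2) 1 1 u + Cfsg.quadFormMinus m (ZMod 2) 1 1 v + Bm m u v := by
  unfold Cfsg.quadFormMinus Bm
  have hs : ∑ i : Fin m, (u + v) (.inl (.inl i)) * (u + v) (.inl (.inr i)) =
      (∑ i : Fin m, u (.inl (.inl i)) * u (.inl (.inr i))) +
      (∑ i : Fin m, v (.inl (.inl i)) * v (.inl (.inr i))) +
      ∑ i : Fin m, (u (.inl (.inl i)) * v (.inl (.inr i)) + u (.inl (.inr i)) * v (.inl (.inl i))) := by
    rw [← Finset.sum_add_distrib, ← Finset.sum_add_distrib]
    apply Finset.sum_congr rfl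
    intro i _
    simp only [Pi.add_apply]
    ring
  have hz : ∀ a b c d : ZMod 2, (a + c) ^ 2 + 1 * (a + c) * (b + d) + 1 * (b + d) ^ 2 =
      (a ^ 2 + 1 * a * b + 1 * b ^ 2) + (c ^ 2 + 1 * c * d + 1 * d ^ 2) + (a * d + b * c) := by
    decide
  rw [hs]
  simp only [Pi.add_apply]
  rw [hz]
  ring

theorem minus_QF (m : ℕ) : QF (Cfsg.quadFormMinus m (ZMod 2) 1 1) (Bm m) where
  polar := minus_polar m
  add_left := Bm_add_left m
  nondeg := by
    intro u hu
    funext b
    have h1 := hu (Pi.single (pm m b) 1)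
    rw [Bm_comm, Bm_single_left, pm_pm] at h1
    exact h1

/-- the standard vectors -/
def em (m : ℕ) (i : Fin m) : IM m → ZMod 2 := Pi.single (.inl (.inl i)) 1

/-- the standard vectors -/
def fm (m : ℕ) (i : Fin m) : IM m → ZMod 2 := Pi.single (.inl (.inr i)) 1

/-- the standard vectors of the anisotropic plane -/
def zm (m : ℕ) (j : Fin 2) : IM m → ZMod 2 := Pi.single (.inr j) 1

theorem Q_em (m : ℕ) (i : Fin m) : Cfsg.quadFormMinus m (ZMod 2) 1 1 (em m i) = 0 := by
  unfold Cfsg.quadFormMinus em
  simp [Pi.single_apply]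

theorem Q_fm (m : ℕ) (i : Fin m) : Cfsg.quadFormMinus m (ZMod 2) 1 1 (fm m i) = 0 := by
  unfold Cfsg.quadFormMinus fm
  simp [Pi.single_apply]

theorem Q_zm (m : ℕ) (j : Fin 2) : Cfsg.quadFormMinus m (ZMod 2) 1 1 (zm m j) = 1 := by
  unfold Cfsg.quadFormMinus zm
  fin_cases j <;> simp [Pi.single_apply]

theorem minus_closure (m : ℕ) : Subgroup.closure (Dset (minus_QF m)) = ⊤ := by
  rw [eq_top_iff]
  intro g _
  refine mem_closure_of_frame (minus_QF m) (em m) (fm m) (∅ : Set (IM m → ZMod 2)) (zm m 0) (zm m 1)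
    (Q_em m) (Q_fm m) ?_ ?_ ?_ (fun s hs => absurd hs (Set.notMem_empty s))
    (fun s hs => absurd hs (Set.notMem_empty s)) (Q_zm m 0) (Q_zm m 1) ?_
    (fun s hs => absurd hs (Set.notMem_empty s)) (fun s hs => absurd hs (Set.notMem_empty s))
    ?_ ?_ ?_ ?_ ?_ ?_ g (fun s hs => absurd hs (Set.notMem_empty s))
  · intro i j; unfold em; rw [Bm_single_left]; simp [pm, Pi.single_apply]
  · intro i j; unfold fm; rw [Bm_single_left]; simp [pm, Pi.single_apply]
  · intro i j; unfold em fm; rw [Bm_single_left]; simp [pm, Pi.single_apply, eq_comm]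
  · unfold zm; rw [Bm_single_left]; simp [pm, Pi.single_apply]
  · intro i; unfold em zm; rw [Bm_single_left]; simp [pm, Pi.single_apply]
  · intro i; unfold em zm; rw [Bm_single_left]; simp [pm, Pi.single_apply]
  · intro i; unfold fm zm; rw [Bm_single_left]; simp [pm, Pi.single_apply]
  · intro i; unfold fm zm; rw [Bm_single_left]; simp [pm, Pi.single_apply]
  · intro x _ he hf
    have h1 : ∀ i : Fin m, x (.inl (.inr i)) = 0 := by
      intro i
      have := he i
      unfold em at this
      rwa [Bm_single_left] at this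
    have h2 : ∀ i : Fin m, x (.inl (.inl i)) = 0 := by
      intro i
      have := hf i
      unfold fm at this
      rwa [Bm_single_left] at this
    have key : ∀ (y : IM m → ZMod 2), y (.inr 0) = x (.inr 0) → y (.inr 1) = x (.inr 1) →
        (∀ i : Fin m, y (.inl (.inl i)) = 0) → (∀ i : Fin m, y (.inl (.inr i)) = 0) → x = y := by
      intro y hy0 hy1 hy2 hy3
      funext b
      rcases b with (i | i) | j
      · rw [h2 i, hy2 i]
      · rw [h1 i, hy3 i]
      · obtain rfl | rfl : j = 0 ∨ j = 1 := by
          revert j; decide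
        · exact hy0.symm
        · exact hy1.symm
    rcases z2_cases (x (.inr 0)) with h0 | h0 <;> rcases z2_cases (x (.inr 1)) with h3 | h3
    · left
      exact key 0 (by rw [h0]; rfl) (by rw [h3]; rfl) (fun i => rfl) (fun i => rfl)
    · right; right; left
      exact key (zm m 1) (by rw [h0]; simp [zm, Pi.single_apply])
        (by rw [h3]; simp [zm, Pi.single_apply]) (fun i => by simp [zm, Pi.single_apply])
        (fun i => by simp [zm, Pi.single_apply])
    · right; left
      exact key (zm m 0) (by rw [h0]; simp [zm, Pi.single_apply])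
        (by rw [h3]; simp [zm, Pi.single_apply]) (fun i => by simp [zm, Pi.single_apply])
        (fun i => by simp [zm, Pi.single_apply])
    · right; right; right
      exact key (zm m 0 + zm m 1) (by rw [h0]; simp [zm, Pi.single_apply])
        (by rw [h3]; simp [zm, Pi.single_apply]) (fun i => by simp [zm, Pi.single_apply])
        (fun i => by simp [zm, Pi.single_apply])
  · intro k _ he hf hz1 hz2
    apply eq_one_of_fix_single
    intro a
    rcases a with (i | i) | j
    · exact he i
    · exact hf i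
    · fin_cases j
      · exact hz1
      · exact hz2

/-- The orthogonal transvections of the minus-type orthogonal group over `ZMod 2` (`m ≥ 2`)
form a generating conjugacy class of 3-transpositions. -/
theorem minus_threeTransp (m : ℕ) (hm : 2 ≤ m) :
    Cfsg.IsThreeTranspositionClass {g : ↥(Cfsg.isometryGroup (ZMod 2)
        (Cfsg.quadFormMinus m (ZMod 2) 1 1)) |
      (((g : GL (IM m) (ZMod 2)) : Matrix (IM m) (IM m) (ZMod 2)) - 1).rank = 1} := by
  refine threeTransp (minus_QF m) (minus_closure m) ?_ (zm m 0) (Q_zm m 0)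
  intro u u' hu hu'
  have hdim : 5 ≤ Fintype.card (IM m) := by
    simp only [Fintype.card_sum, Fintype.card_fin]
    omega
  obtain ⟨k, -, hk⟩ := trans_nonsing (minus_QF m) hdim u u' hu hu'
  exact ⟨k, hk⟩

end Cfsg.Agent.Helper27.OrthF2
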