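import Cfsg.Agent.Helper27.OrthF2

set_option autoImplicit false
set_option linter.unusedSectionVars false
set_option linter.unusedSimpArgs false

/-!
The plus-type orthogonal group over `ZMod 2` (`Cfsg.quadFormPlus m (ZMod 2)`): it is
generated by its orthogonal transvections, which form a class of 3-transpositions for `m ≥ 3`.
-/

namespace Cfsg.Agent.Helper27.OrthF2

open Matrix

/-- coordinates of the plus-type space -/
abbrev IP (m : ℕ) := Fin m ⊕ Fin m

/-- the polar form of the plus-type quadratic form -/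
def Bp (m : ℕ) (u v : IP m → ZMod 2) : ZMod 2 :=
  ∑ i : Fin m, (u (.inl i) * v (.inr i) + u (.inr i) * v (.inl i))

/-- the partner coordinate -/
def pp (m : ℕ) : IP m → IP m
  | .inl i => .inr i
  | .inr i => .inl i

theorem pp_pp (m : ℕ) (a : IP m) : pp m (pp m a) = a := by
  rcases a with i | i <;> rfl

theorem Bp_single_left (m : ℕ) (a : IP m) (v : IP m → ZMod 2) :
    Bp m (Pi.single a 1) v = v (pp m a) := by
  unfold Bp
  rcases a with j | j
  · simp [Pi.single_apply, pp]
  · simp [Pi.single_apply, pp]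

theorem Bp_comm (m : ℕ) (u v : IP m → ZMod 2) : Bp m u v = Bp m v u := by
  unfold Bp
  apply Finset.sum_congr rfl
  intro i _
  ring

theorem Bp_add_left (m : ℕ) (u u' v : IP m → ZMod 2) :
    Bp m (u + u') v = Bp m u v + Bp m u' v := by
  unfold Bp
  rw [← Finset.sum_add_distrib]
  apply Finset.sum_congr rfl
  intro i _
  simp only [Pi.add_apply]
  ring

theorem Bp_add_right (m : ℕ) (u v v' : IP m → ZMod 2) :
    Bp m u (v + v') = Bp m u v + Bp m u v' := by
  rw [Bp_comm, Bp_add_left, Bp_comm m v, Bp_comm m v']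

theorem plus_polar (m : ℕ) (u v : IP m → ZMod 2) :
    Cfsg.quadFormPlus m (ZMod 2) (u + v) =
      Cfsg.quadFormPlus m (ZMod 2) u + Cfsg.quadFormPlus m (ZMod 2) v + Bp m u v := by
  unfold Cfsg.quadFormPlus Bp
  rw [← Finset.sum_add_distrib, ← Finset.sum_add_distrib]
  apply Finset.sum_congr rfl
  intro i _
  simp only [Pi.add_apply]
  ring

theorem plus_QF (m : ℕ) : QF (Cfsg.quadFormPlus m (ZMod 2)) (Bp m) where
  polar := plus_polar m
  add_left := Bp_add_left m
  nondeg := by
    intro u hu
    funext b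
    have h1 := hu (Pi.single (pp m b) 1)
    rw [Bp_comm, Bp_single_left, pp_pp] at h1
    exact h1

/-- the standard vectors -/
def ep (m : ℕ) (i : Fin m) : IP m → ZMod 2 := Pi.single (.inl i) 1

/-- the standard vectors -/
def fp (m : ℕ) (i : Fin m) : IP m → ZMod 2 := Pi.single (.inr i) 1

theorem Q_ep (m : ℕ) (i : Fin m) : Cfsg.quadFormPlus m (ZMod 2) (ep m i) = 0 := by
  unfold Cfsg.quadFormPlus ep
  simp [Pi.single_apply]

theorem Q_fp (m : ℕ) (i : Fin m) : Cfsg.quadFormPlus m (ZMod 2) (fp m i) = 0 := by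
  unfold Cfsg.quadFormPlus fp
  simp [Pi.single_apply]

theorem z2_one_add_one : (1 : ZMod 2) + 1 = 0 := by decide

section Frame

variable (m : ℕ) (i0 i1 : Fin m)

/-- first vector of the fixed elliptic pair -/
def pv : IP m → ZMod 2 := ep m i0 + fp m i0

/-- second vector of the fixed elliptic pair -/
def qv : IP m → ZMod 2 := ep m i0 + ep m i1 + fp m i1

/-- first vector of the helper anisotropic plane -/
def z1v : IP m → ZMod 2 := ep m i1 + fp m i1

/-- second vector of the helper anisotropic plane -/
def z2v : IP m → ZMod 2 := ep m i0 + fp m i0 + ep m i1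

variable {m} {i0 i1}

theorem Q_pv : Cfsg.quadFormPlus m (ZMod 2) (pv m i0) = 1 := by
  unfold pv
  rw [plus_polar, Q_ep, Q_fp]
  unfold ep fp
  rw [Bp_single_left]
  simp [pp, Pi.single_apply]

theorem Q_qv (h01 : i0 ≠ i1) : Cfsg.quadFormPlus m (ZMod 2) (qv m i0 i1) = 1 := by
  unfold qv
  rw [plus_polar, plus_polar, Q_ep, Q_fp, Q_ep]
  unfold ep fp
  rw [Bp_add_left, Bp_single_left, Bp_single_left, Bp_single_left]
  simp [pp, Pi.single_apply, h01, h01.symm]

theorem Q_z1v : Cfsg.quadFormPlus m (ZMod 2) (z1v m i1) = 1 := by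
  unfold z1v
  rw [plus_polar, Q_ep, Q_fp]
  unfold ep fp
  rw [Bp_single_left]
  simp [pp, Pi.single_apply]

theorem Q_z2v (h01 : i0 ≠ i1) : Cfsg.quadFormPlus m (ZMod 2) (z2v m i0 i1) = 1 := by
  unfold z2v
  rw [plus_polar, plus_polar, Q_ep, Q_fp, Q_ep]
  unfold ep fp
  rw [Bp_add_left, Bp_single_left, Bp_single_left, Bp_single_left]
  simp [pp, Pi.single_apply, h01, h01.symm]

theorem B_pv_qv (h01 : i0 ≠ i1) : Bp m (pv m i0) (qv m i0 i1) = 1 := by
  unfold pv qv ep fp
  rw [Bp_add_left, Bp_single_left, Bp_single_left]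
  simp [pp, Pi.single_apply, h01, h01.symm]

theorem B_z1v_z2v (h01 : i0 ≠ i1) : Bp m (z1v m i1) (z2v m i0 i1) = 1 := by
  unfold z1v z2v ep fp
  rw [Bp_add_left, Bp_single_left, Bp_single_left]
  simp [pp, Pi.single_apply, h01, h01.symm]

theorem B_pv_z1v (h01 : i0 ≠ i1) : Bp m (pv m i0) (z1v m i1) = 0 := by
  unfold pv z1v ep fp
  rw [Bp_add_left, Bp_single_left, Bp_single_left]
  simp [pp, Pi.single_apply, h01, h01.symm]

theorem B_pv_z2v (h01 : i0 ≠ i1) : Bp m (pv m i0) (z2v m i0 i1) = 0 := by
  unfold pv z2v ep fp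
  rw [Bp_add_left, Bp_single_left, Bp_single_left]
  simp [pp, Pi.single_apply, h01, h01.symm, z2_one_add_one]

theorem B_qv_z1v (h01 : i0 ≠ i1) : Bp m (qv m i0 i1) (z1v m i1) = 0 := by
  unfold qv z1v ep fp
  rw [Bp_add_left, Bp_add_left, Bp_single_left, Bp_single_left, Bp_single_left]
  simp [pp, Pi.single_apply, h01, h01.symm, z2_one_add_one]

theorem B_qv_z2v (h01 : i0 ≠ i1) : Bp m (qv m i0 i1) (z2v m i0 i1) = 0 := by
  unfold qv z2v ep fp
  rw [Bp_add_left, Bp_add_left, Bp_single_left, Bp_single_left, Bp_single_left]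
  simp [pp, Pi.single_apply, h01, h01.symm, z2_one_add_one]

theorem plus_closure (h01 : i0 ≠ i1) (hm : 3 ≤ m) :
    Subgroup.closure (Dset (plus_QF m)) = ⊤ := by
  rw [eq_top_iff]
  intro g _
  have hdim : 5 ≤ Fintype.card (IP m) := by
    simp only [Fintype.card_sum, Fintype.card_fin]
    omega
  have hQ := plus_QF m
  -- move the image of `p` back
  obtain ⟨k₁, hk₁, h1⟩ := trans_nonsing hQ hdim (act g (pv m i0)) (pv m i0)
    (by rw [Q_act g]; exact Q_pv) Q_pv
  have hp1 : act (k₁ * g) (pv m i0) = pv m i0 := by rw [act_mul, h1]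
  have hB1 : Bp m (pv m i0) (act (k₁ * g) (qv m i0 i1)) = 1 := by
    have := B_act hQ (k₁ * g) (pv m i0) (qv m i0 i1)
    rw [hp1] at this
    rw [this]; exact B_pv_qv h01
  obtain ⟨k₂, hk₂, -, h2p, h2q⟩ := moveEll2 hQ (∅ : Set (IP m → ZMod 2)) (pv m i0)
    (act (k₁ * g) (qv m i0 i1)) (qv m i0 i1) Q_pv
    (by rw [Q_act (k₁ * g)]; exact Q_qv h01) (Q_qv h01)
    (fun s hs => absurd hs (Set.notMem_empty s)) (fun s hs => absurd hs (Set.notMem_empty s))
    (fun s hs => absurd hs (Set.notMem_empty s)) hB1 (B_pv_qv h01)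
  have hfixp : act (k₂ * (k₁ * g)) (pv m i0) = pv m i0 := by rw [act_mul, hp1, h2p]
  have hfixq : act (k₂ * (k₁ * g)) (qv m i0 i1) = qv m i0 i1 := by rw [act_mul, h2q]
  have hmem : k₂ * (k₁ * g) ∈ Subgroup.closure (Dset hQ) := by
    refine mem_closure_of_frame hQ (κ := {i : Fin m // i ≠ i0 ∧ i ≠ i1})
      (fun i => ep m i.1) (fun i => fp m i.1)
      ({pv m i0, qv m i0 i1} : Set (IP m → ZMod 2)) (z1v m i1) (z2v m i0 i1)
      (fun i => Q_ep m i.1) (fun i => Q_fp m i.1) ?_ ?_ ?_ ?_ ?_ Q_z1v (Q_z2v h01)
      (B_z1v_z2v h01) ?_ ?_ ?_ ?_ ?_ ?_ ?_ ?_ (k₂ * (k₁ * g)) ?_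
    · intro i j; unfold ep; rw [Bp_single_left]; simp [pp, Pi.single_apply]
    · intro i j; unfold fp; rw [Bp_single_left]; simp [pp, Pi.single_apply]
    · intro i j; unfold ep fp; rw [Bp_single_left]
      simp [pp, Pi.single_apply, Subtype.ext_iff, eq_comm]
    · rintro s (rfl | rfl) i
      · unfold pv ep fp
        rw [Bp_add_left, Bp_single_left, Bp_single_left]
        simp [pp, Pi.single_apply, i.2.1, i.2.2, Ne.symm i.2.1, Ne.symm i.2.2]
      · unfold qv ep fp
        rw [Bp_add_left, Bp_add_left, Bp_single_left, Bp_single_left, Bp_single_left]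
        simp [pp, Pi.single_apply, i.2.1, i.2.2, Ne.symm i.2.1, Ne.symm i.2.2]
    · rintro s (rfl | rfl) i
      · unfold pv ep fp
        rw [Bp_add_left, Bp_single_left, Bp_single_left]
        simp [pp, Pi.single_apply, i.2.1, i.2.2, Ne.symm i.2.1, Ne.symm i.2.2]
      · unfold qv ep fp
        rw [Bp_add_left, Bp_add_left, Bp_single_left, Bp_single_left, Bp_single_left]
        simp [pp, Pi.single_apply, i.2.1, i.2.2, Ne.symm i.2.1, Ne.symm i.2.2]
    · rintro s (rfl | rfl)
      · exact B_pv_z1v h01
      · exact B_qv_z1v h01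
    · rintro s (rfl | rfl)
      · exact B_pv_z2v h01
      · exact B_qv_z2v h01
    · intro i; unfold z1v ep fp; rw [Bp_single_left]
      simp [pp, Pi.single_apply, i.2.1, i.2.2, Ne.symm i.2.1, Ne.symm i.2.2]
    · intro i; unfold z2v ep fp; rw [Bp_single_left]
      simp [pp, Pi.single_apply, i.2.1, i.2.2, Ne.symm i.2.1, Ne.symm i.2.2]
    · intro i; unfold z1v ep fp; rw [Bp_single_left]
      simp [pp, Pi.single_apply, i.2.1, i.2.2, Ne.symm i.2.1, Ne.symm i.2.2]
    · intro i; unfold z2v ep fp; rw [Bp_single_left]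
      simp [pp, Pi.single_apply, i.2.1, i.2.2, Ne.symm i.2.1, Ne.symm i.2.2]
    · intro x hS he hf
      have hp := hS (pv m i0) (Or.inl rfl)
      have hq := hS (qv m i0 i1) (Or.inr rfl)
      have hp' : x (.inr i0) + x (.inl i0) = 0 := by
        unfold pv ep fp at hp
        rw [Bp_add_left, Bp_single_left, Bp_single_left] at hp
        exact hp
      have hq' : x (.inr i0) + x (.inr i1) + x (.inl i1) = 0 := by
        unfold qv ep fp at hq
        rw [Bp_add_left, Bp_add_left, Bp_single_left, Bp_single_left, Bp_single_left] at hq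
        exact hq
      have h1 : ∀ i, i ≠ i0 → i ≠ i1 → x (.inr i) = 0 := by
        intro i h0 h1
        have := he ⟨i, h0, h1⟩
        unfold ep at this
        rwa [Bp_single_left] at this
      have h2 : ∀ i, i ≠ i0 → i ≠ i1 → x (.inl i) = 0 := by
        intro i h0 h1
        have := hf ⟨i, h0, h1⟩
        unfold fp at this
        rwa [Bp_single_left] at this
      have hb : x (.inr i0) = x (.inl i1) + x (.inr i1) := by
        have : ∀ a b c : ZMod 2, a + b + c = 0 → a = c + b := by decide
        exact this _ _ _ hq'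
      have ha : x (.inl i0) = x (.inr i0) := by
        have : ∀ a b : ZMod 2, a + b = 0 → b = a := by decide
        exact this _ _ hp'
      have key : ∀ y : IP m → ZMod 2, y (.inl i0) = x (.inl i0) → y (.inr i0) = x (.inr i0) →
          y (.inl i1) = x (.inl i1) → y (.inr i1) = x (.inr i1) →
          (∀ i, i ≠ i0 → i ≠ i1 → y (.inl i) = 0 ∧ y (.inr i) = 0) → x = y := by
        intro y a b c d hy
        funext t
        rcases t with i | i
        · by_cases h0 : i = i0
          · subst h0; exact a.symm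
          · by_cases h1' : i = i1
            · subst h1'; exact c.symm
            · rw [h2 i h0 h1', (hy i h0 h1').1]
        · by_cases h0 : i = i0
          · subst h0; exact b.symm
          · by_cases h1' : i = i1
            · subst h1'; exact d.symm
            · rw [h1 i h0 h1', (hy i h0 h1').2]
      rcases z2_cases (x (.inl i1)) with hc | hc <;> rcases z2_cases (x (.inr i1)) with hd | hd
      · left
        refine key 0 ?_ ?_ ?_ ?_ (fun i _ _ => ⟨rfl, rfl⟩)
        · rw [ha, hb, hc, hd]; rfl
        · rw [hb, hc, hd]; rfl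
        · rw [hc]; rfl
        · rw [hd]; rfl
      · right; right; right
        refine key (z1v m i1 + z2v m i0 i1) ?_ ?_ ?_ ?_ ?_
        · rw [ha, hb, hc, hd]
          simp [z1v, z2v, ep, fp, Pi.single_apply, h01, h01.symm, z2_one_add_one]
        · rw [hb, hc, hd]
          simp [z1v, z2v, ep, fp, Pi.single_apply, h01, h01.symm, z2_one_add_one]
        · rw [hc]
          simp [z1v, z2v, ep, fp, Pi.single_apply, h01, h01.symm, z2_one_add_one]
        · rw [hd]
          simp [z1v, z2v, ep, fp, Pi.single_apply, h01, h01.symm, z2_one_add_one]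
        · intro i h0 h1'
          simp [z1v, z2v, ep, fp, Pi.single_apply, h0, h1']
      · right; right; left
        refine key (z2v m i0 i1) ?_ ?_ ?_ ?_ ?_
        · rw [ha, hb, hc, hd]
          simp [z2v, ep, fp, Pi.single_apply, h01, h01.symm, z2_one_add_one]
        · rw [hb, hc, hd]
          simp [z2v, ep, fp, Pi.single_apply, h01, h01.symm, z2_one_add_one]
        · rw [hc]
          simp [z2v, ep, fp, Pi.single_apply, h01, h01.symm, z2_one_add_one]
        · rw [hd]
          simp [z2v, ep, fp, Pi.single_apply, h01, h01.symm, z2_one_add_one]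
        · intro i h0 h1'
          simp [z2v, ep, fp, Pi.single_apply, h0, h1']
      · right; left
        refine key (z1v m i1) ?_ ?_ ?_ ?_ ?_
        · rw [ha, hb, hc, hd]
          simp [z1v, ep, fp, Pi.single_apply, h01, h01.symm, z2_one_add_one]
        · rw [hb, hc, hd]
          simp [z1v, ep, fp, Pi.single_apply, h01, h01.symm, z2_one_add_one]
        · rw [hc]
          simp [z1v, ep, fp, Pi.single_apply, h01, h01.symm, z2_one_add_one]
        · rw [hd]
          simp [z1v, ep, fp, Pi.single_apply, h01, h01.symm, z2_one_add_one]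
        · intro i h0 h1'
          simp [z1v, ep, fp, Pi.single_apply, h0, h1']
    · intro k hS he hf hz1 hz2
      have hp := hS (pv m i0) (Or.inl rfl)
      have hq := hS (qv m i0 i1) (Or.inr rfl)
      have e0 : act k (ep m i0) = ep m i0 := by
        have : ep m i0 = qv m i0 i1 + z1v m i1 := by
          unfold qv z1v
          funext t
          simp only [Pi.add_apply]
          have : ∀ a b c : ZMod 2, a = a + b + c + (b + c) := by decide
          exact this _ _ _
        rw [this, act_add, hq, hz1]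
      have f0 : act k (fp m i0) = fp m i0 := by
        have : fp m i0 = pv m i0 + ep m i0 := by
          unfold pv
          funext t
          simp only [Pi.add_apply]
          have : ∀ a b : ZMod 2, b = a + b + a := by decide
          exact this _ _
        rw [this, act_add, hp, e0]
      have e1 : act k (ep m i1) = ep m i1 := by
        have : ep m i1 = pv m i0 + z2v m i0 i1 := by
          unfold pv z2v
          funext t
          simp only [Pi.add_apply]
          have : ∀ a b c : ZMod 2, c = a + b + (a + b + c) := by decide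
          exact this _ _ _
        rw [this, act_add, hp, hz2]
      have f1 : act k (fp m i1) = fp m i1 := by
        have : fp m i1 = z1v m i1 + ep m i1 := by
          unfold z1v
          funext t
          simp only [Pi.add_apply]
          have : ∀ a b : ZMod 2, b = a + b + a := by decide
          exact this _ _
        rw [this, act_add, hz1, e1]
      apply eq_one_of_fix_single
      intro a
      rcases a with i | i
      · by_cases h0 : i = i0
        · subst h0; exact e0
        · by_cases h1' : i = i1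
          · subst h1'; exact e1
          · exact he ⟨i, h0, h1'⟩
      · by_cases h0 : i = i0
        · subst h0; exact f0
        · by_cases h1' : i = i1
          · subst h1'; exact f1
          · exact hf ⟨i, h0, h1'⟩
    · rintro s (rfl | rfl)
      · exact hfixp
      · exact hfixq
  have hg : g = k₁⁻¹ * (k₂⁻¹ * (k₂ * (k₁ * g))) := by group
  rw [hg]
  exact Subgroup.mul_mem _ (Subgroup.inv_mem _ hk₁)
    (Subgroup.mul_mem _ (Subgroup.inv_mem _ hk₂) hmem)

end Frame

/-- The orthogonal transvections of the plus-type orthogonal group over `ZMod 2` (`m ≥ 3`)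
form a generating conjugacy class of 3-transpositions. -/
theorem plus_threeTransp (m : ℕ) (hm : 3 ≤ m) :
    Cfsg.IsThreeTranspositionClass {g : ↥(Cfsg.isometryGroup (ZMod 2)
        (Cfsg.quadFormPlus m (ZMod 2))) |
      (((g : GL (IP m) (ZMod 2)) : Matrix (IP m) (IP m) (ZMod 2)) - 1).rank = 1} := by
  have h01 : (⟨0, by omega⟩ : Fin m) ≠ ⟨1, by omega⟩ := by
    intro h
    have h2 := congrArg Fin.val h
    simp only at h2
    omega
  refine threeTransp (plus_QF m) (plus_closure h01 hm) ?_ (pv m ⟨0, by omega⟩) Q_pv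
  intro u u' hu hu'
  have hdim : 5 ≤ Fintype.card (IP m) := by
    simp only [Fintype.card_sum, Fintype.card_fin]
    omega
  obtain ⟨k, -, hk⟩ := trans_nonsing (plus_QF m) hdim u u' hu hu'
  exact ⟨k, hk⟩

end Cfsg.Agent.Helper27.OrthF2
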