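import Cfsg.Agent.Helper89.Gens3

/-!
# A coset table certificate for `PSL(2, 11)`

Two elements `a, b` of a finite group satisfying the five relators `rels` (the first four are
the relators `a^11, b^2, (a b)^3, (a^4 b a^6 b)^2` of a presentation of `PSL(2, 11)`; the fifth
is a consequence that makes unit propagation succeed) generate a subgroup of order dividing
`660`: a table of the 60 cosets of the subgroup generated by `a`, checked with helper89's
verified Todd-Coxeter certificate checker.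
-/

set_option autoImplicit false

namespace Cfsg.Agent.Helper27.PSL211

open Cfsg.Agent.Helper89

/-- the coset table, six bits per entry -/
def ctab : ℕ := 0xdf7efbdb6ebad75e79d34e38efbcecebaab1e79a30e38be7b2c9378e396baaada3a28d629e78348617e079e869cf3dde75dc9fc71776924b5cc306f5befd1a71c6a56599b2a69673cb2c585d7c16bae5ad555baf514aeeb6db14aeb4aa9a6a514d34684109e69653e43cf8ce8a239334d8a182040d7df78c6db5cb30c2dd28a71b69a2956182592086175965484925071864d24511901451cf38e3451043092cb10a2492031c70860821410c30440000c2041000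

/-- the spanning tree: parents -/
def parv : ℕ := 0xdf6d74b2aa279238e281f79e75d71b69a6596165955144914503ce38d34c2cb28a2482071861451040c2041000

/-- the spanning tree: generator symbols -/
def gamv : ℕ := 0x82082040001002041000081080040040080041002081001002001002041040080002041080081080040040080

/-- the relators (symbols `0, 1, 2, 3` are `a, a⁻¹, b, b⁻¹`) -/
def rels : List (List ℕ) := [[0, 0, 0, 0, 0, 0, 0, 0, 0, 0, 0], [2, 2], [0, 2, 0, 2, 0, 2], [0, 0, 0, 0, 2, 0, 0, 0, 0, 0, 0, 2, 0, 0, 0, 0, 2, 0, 0, 0, 0, 0, 0, 2], [2, 0, 0, 0, 2, 1, 1, 1, 3, 0, 0, 0, 3, 1, 1, 1]]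

/-- the deduction steps -/
def steps : List (ℕ × ℕ × ℕ) := [(0, 1, 1), (0, 2, 3), (1, 0, 5), (2, 1, 1), (4, 1, 1), (4, 2, 3), (5, 1, 1), (5, 2, 4), (6, 1, 1), (6, 2, 3), (7, 0, 5), (8, 1, 1), (8, 2, 3), (10, 1, 1), (10, 2, 3), (12, 1, 0), (13, 1, 1), (13, 2, 3), (13, 3, 20), (15, 1, 1), (16, 1, 1), (16, 2, 3), (19, 1, 0), (20, 1, 1), (20, 2, 4), (21, 1, 1), (23, 1, 1), (25, 1, 1), (28, 1, 0), (29, 1, 1), (30, 1, 1), (32, 3, 1), (35, 1, 1), (35, 2, 4), (39, 1, 0), (52, 1, 1), (52, 2, 4), (53, 1, 1), (54, 1, 1), (55, 1, 1), (0, 4, 6), (2, 4, 9), (4, 4, 5), (9, 3, 4), (11, 0, 4), (15, 4, 8), (16, 4, 8), (17, 0, 7), (17, 3, 4), (18, 3, 16), (19, 3, 4), (19, 4, 11), (20, 3, 14), (21, 2, 3), (23, 2, 3), (23, 4, 8), (30, 2, 3), (40, 2, 2), (42, 2, 2), (51, 2, 2)]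

/-- the edges known after the prefix check -/
def E0 : ℕ := 0x888856652811228383133283732997733b732b5713b63b73b797a77733b7

theorem pre_ok : CT2.preChk 60 4 (tbl 6 4 ctab) (vec 6 parv) (vec 6 gamv) [0, 1] = some E0 := by
  decide +kernel

theorem run_ok : CT2.runSteps (tbl 6 4 ctab) 4 rels E0 steps = some (2 ^ (60 * 4) - 1) := by
  decide +kernel

theorem rel0_mem : [0, 0, 0, 0, 0, 0, 0, 0, 0, 0, 0] ∈ rels := by decide

/-- two elements satisfying the relators generate a group of order dividing `660` -/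
theorem card_dvd {G : Type*} [Group G] [Finite G] (a b : G)
    (hrel : ∀ ρ ∈ rels, ev (gens3 a b 1) ρ = 1) :
    Nat.card (Subgroup.closure (gens3 a b 1 '' Set.Iio 4)) ∣ 660 := by
  have hle : Subgroup.zpowers a ≤ Subgroup.closure (gens3 a b 1 '' Set.Iio 4) := by
    rw [Subgroup.zpowers_le]
    exact Subgroup.subset_closure ⟨0, by simp, by simp [gens3]⟩
  have h := CT2.card_closure_dvd (gens3 a b 1) (gens3_inv a b 1) 60 4 (tbl 6 4 ctab) (vec 6 parv)
    (vec 6 gamv) [0, 1] rels steps E0 pre_ok run_ok (Subgroup.zpowers a) ?_ hle hrel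
  · have ha : a ^ 11 = 1 := by
      have := hrel _ rel0_mem
      simp only [ev, gens3, if_true, mul_one] at this
      rw [← this]
      simp only [pow_succ, pow_zero, one_mul, mul_assoc]
    have h11 : Nat.card (Subgroup.zpowers a) ∣ 11 := by
      rw [Nat.card_zpowers]
      exact orderOf_dvd_of_pow_eq_one ha
    exact h.trans (by
      have := Nat.mul_dvd_mul_left 60 h11
      simpa using this)
  · intro j hj
    simp only [List.mem_cons, List.not_mem_nil, or_false] at hj
    rcases hj with rfl | rfl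
    · simp [gens3]
    · simp [gens3]

end Cfsg.Agent.Helper27.PSL211
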