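import Cfsg.Agent.Helper27.PSL211Mat
import Cfsg.Agent.Helper27.PairStab

/-!
# The stabiliser of a point in the 12-point action of `M11` is `PSL(2, 11)`

`L0 = M12grp ⊓ fixL [0, 5]` has order 660 and contains two elements `s, t` satisfying the
relators of `PSL211Cert`.  The subgroup of `PSL(2, 11) × Perm` generated by the pairs
`(SP, s), (TP, t)` has order dividing 660, projects onto `PSL(2, 11)` and (by simplicity)
injects into `L0`.
-/

set_option autoImplicit false
open scoped Pointwise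

namespace Cfsg.Agent.Helper27.PSL211

open Cfsg Cfsg.Agent.Helper7 Cfsg.Agent.Helper27.M12Tab

/-! ### The two elements of `L0` -/

/-- the stabiliser of `pt 0` and `pt 5` in `M12grp` -/
def L0 : Subgroup (Equiv.Perm GolayPt) := M12grp ⊓ fixL [0, 5]

/-- table of an element of order 11 -/
def sc : ℕ := 0x988b1cea249d576ba8fb20b064a20

/-- table of its inverse -/
def sci : ℕ := 0x61e299082442963a35e6758b59c2e0

/-- table of an involution -/
def tc : ℕ := 0x61eb494e235a1577b52eb18a180880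

theorem sc_ok : codeM12 sc = true := by decide +kernel
theorem sci_ok : codeM12 sci = true := by decide +kernel
theorem tc_ok : codeM12 tc = true := by decide +kernel

/-- an element of order 11 of `L0` -/
noncomputable def s : Equiv.Perm GolayPt := permOf sc

/-- an involution of `L0` -/
noncomputable def t : Equiv.Perm GolayPt := permOf tc

theorem s_tbl : IsTbl s sc := (codeM12_spec sc_ok).2
theorem t_tbl : IsTbl t tc := (codeM12_spec tc_ok).2

theorem s_inv_tbl : IsTbl s⁻¹ sci := by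
  have h1 : IsTbl (permOf sci) sci := (codeM12_spec sci_ok).2
  have h2 : s * permOf sci = 1 := by
    have h := s_tbl.mul h1
    have e : Helper7.comp sc sci = idCode := by decide +kernel
    rw [e] at h
    exact h.eq IsTbl.one
  rw [← eq_inv_of_mul_eq_one_right h2]
  exact h1

theorem t_inv_tbl : IsTbl t⁻¹ tc := by
  have h2 : t * t = 1 := by
    have h := t_tbl.mul t_tbl
    have e : Helper7.comp tc tc = idCode := by decide +kernel
    rw [e] at h
    exact h.eq IsTbl.one
  rw [← eq_inv_of_mul_eq_one_right h2]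
  exact t_tbl

theorem s_mem : s ∈ L0 :=
  Subgroup.mem_inf.mpr ⟨(codeM12_spec sc_ok).1, mem_fixL_of_tbl s_tbl (by decide +kernel)⟩

theorem t_mem : t ∈ L0 :=
  Subgroup.mem_inf.mpr ⟨(codeM12_spec tc_ok).1, mem_fixL_of_tbl t_tbl (by decide +kernel)⟩

theorem s_ne_one : s ≠ 1 := ne_one_of_tbl s_tbl (j := 1) (by norm_num) (by decide +kernel)

/-- tables of the four generator symbols -/
def gC (j : ℕ) : ℕ :=
  if j = 0 then sc else if j = 1 then sci else if j = 2 then tc else if j = 3 then tc else idCode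

/-- table of the value of a word -/
def evC : List ℕ → ℕ
  | [] => idCode
  | j :: w => Helper7.comp (gC j) (evC w)

theorem gens_tbl (j : ℕ) : IsTbl (Helper89.gens3 s t 1 j) (gC j) := by
  unfold Helper89.gens3 gC
  split_ifs
  · exact s_tbl
  · exact s_inv_tbl
  · exact t_tbl
  · exact t_inv_tbl
  · exact IsTbl.one
  · rw [inv_one]; exact IsTbl.one
  · exact IsTbl.one

theorem ev_tbl (w : List ℕ) : IsTbl (Helper89.ev (Helper89.gens3 s t 1) w) (evC w) := by
  induction w with
  | nil => exact IsTbl.one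
  | cons j w ih => exact (gens_tbl j).mul ih

theorem rels_C : ∀ ρ ∈ rels, evC ρ = idCode := by decide +kernel

theorem rels_L : ∀ ρ ∈ rels, Helper89.ev (Helper89.gens3 s t 1) ρ = 1 := by
  intro ρ hρ
  have h := ev_tbl ρ
  rw [rels_C ρ hρ] at h
  exact h.eq IsTbl.one

theorem gens_mem (j : ℕ) : Helper89.gens3 s t 1 j ∈ L0 := by
  unfold Helper89.gens3
  split_ifs
  · exact s_mem
  · exact L0.inv_mem s_mem
  · exact t_mem
  · exact L0.inv_mem t_mem
  · exact L0.one_mem
  · exact L0.inv_mem L0.one_mem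
  · exact L0.one_mem

/-! ### The order of `L0` -/

theorem card_L0 : Nat.card ↥L0 = 660 := by
  have c := card_level M12grp [0] 5 (lvD 0x50efe0 [0]) (by
      intro g hg
      rw [mem_lvD]
      exact ⟨M12grp_compl g hg.1 _ (by decide +kernel),
        fix_not_mem hg.2 (by norm_num) (by decide) (by decide)⟩)
    (lv_h2' m12levelB1 le_rfl)
  have hc : (lvD 0x50efe0 [0]).card = 12 := by decide +kernel
  rw [card_M11grp, hc] at c
  simp only [List.cons_append, List.nil_append] at c
  show Nat.card ↥(M12grp ⊓ fixL [0, 5]) = 660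
  omega

/-! ### The diagonal subgroup -/

/-- the pair of first generators -/
noncomputable def aD : P × Equiv.Perm GolayPt := (SP, s)

/-- the pair of second generators -/
noncomputable def bD : P × Equiv.Perm GolayPt := (TP, t)

theorem gens_fst (j : ℕ) : (Helper89.gens3 aD bD 1 j).1 = Helper89.gens3 SP TP 1 j := by
  unfold Helper89.gens3
  split_ifs <;> rfl

theorem gens_snd (j : ℕ) : (Helper89.gens3 aD bD 1 j).2 = Helper89.gens3 s t 1 j := by
  unfold Helper89.gens3
  split_ifs <;> rfl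

theorem rels_D : ∀ ρ ∈ rels, Helper89.ev (Helper89.gens3 aD bD 1) ρ = 1 := by
  intro ρ hρ
  apply Prod.ext
  · have h := Helper89.map_ev (MonoidHom.fst P (Equiv.Perm GolayPt)) (Helper89.gens3 aD bD 1) ρ
    rw [MonoidHom.coe_fst] at h
    rw [h, Helper89.ev_congr (fun j => gens_fst j) ρ, rels_P ρ hρ]
    rfl
  · have h := Helper89.map_ev (MonoidHom.snd P (Equiv.Perm GolayPt)) (Helper89.gens3 aD bD 1) ρ
    rw [MonoidHom.coe_snd] at h
    rw [h, Helper89.ev_congr (fun j => gens_snd j) ρ, rels_L ρ hρ]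
    rfl

/-- the diagonal subgroup -/
noncomputable def Dl : Subgroup (P × Equiv.Perm GolayPt) :=
  Subgroup.closure (Helper89.gens3 aD bD 1 '' Set.Iio 4)

theorem card_Dl_dvd : Nat.card ↥Dl ∣ 660 := card_dvd aD bD rels_D

theorem aD_mem : aD ∈ Dl := Subgroup.subset_closure ⟨0, by simp, by simp [Helper89.gens3]⟩
theorem bD_mem : bD ∈ Dl := Subgroup.subset_closure ⟨2, by simp, by simp [Helper89.gens3]⟩

/-- the first projection -/
noncomputable def pi1 : ↥Dl →* P := (MonoidHom.fst P (Equiv.Perm GolayPt)).comp Dl.subtype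

/-- the second projection -/
noncomputable def pi2 : ↥Dl →* Equiv.Perm GolayPt :=
  (MonoidHom.snd P (Equiv.Perm GolayPt)).comp Dl.subtype

theorem pi1_surjective : Function.Surjective pi1 := by
  rw [← MonoidHom.range_eq_top, eq_top_iff, ← gen_P, Subgroup.closure_le]
  intro x hx
  simp only [Set.mem_insert_iff, Set.mem_singleton_iff] at hx
  rcases hx with rfl | rfl
  · exact ⟨⟨aD, aD_mem⟩, rfl⟩
  · exact ⟨⟨bD, bD_mem⟩, rfl⟩

theorem card_Dl : Nat.card ↥Dl = 660 := by
  have h1 := Nat.card_le_card_of_surjective pi1 pi1_surjective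
  rw [card_P] at h1
  exact le_antisymm (Nat.le_of_dvd (by norm_num) card_Dl_dvd) h1

theorem pi1_bijective : Function.Bijective pi1 :=
  (Nat.bijective_iff_surjective_and_card pi1).mpr ⟨pi1_surjective, by rw [card_Dl, card_P]⟩

theorem pi2_injective : Function.Injective pi2 := by
  rw [← MonoidHom.ker_eq_bot_iff]
  have hN : (pi2.ker.map pi1).Normal := Subgroup.Normal.map (MonoidHom.normal_ker pi2) pi1
    pi1_surjective
  rcases hN.eq_bot_or_eq_top with h | h
  · exact (Subgroup.map_eq_bot_iff_of_injective _ pi1_bijective.1).mp h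
  · exfalso
    have hmem : pi1 ⟨aD, aD_mem⟩ ∈ pi2.ker.map pi1 := by rw [h]; trivial
    obtain ⟨y, hy, hyx⟩ := hmem
    have : y = ⟨aD, aD_mem⟩ := pi1_bijective.1 hyx
    rw [this] at hy
    exact s_ne_one (MonoidHom.mem_ker.mp hy)

theorem pi2_range : pi2.range = L0 := by
  apply Subgroup.eq_of_le_of_card_ge
  · rintro x ⟨y, rfl⟩
    have hle : Dl ≤ L0.comap (MonoidHom.snd P (Equiv.Perm GolayPt)) := by
      unfold Dl
      rw [Subgroup.closure_le]
      rintro z ⟨j, -, rfl⟩
      show (Helper89.gens3 aD bD 1 j).2 ∈ L0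
      rw [gens_snd]
      exact gens_mem j
    exact hle y.2
  · rw [card_L0, ← card_Dl]
    exact le_of_eq (Nat.card_congr (MonoidHom.ofInjective pi2_injective).toEquiv)

/-- the isomorphism of `L0` with `PSL(2, 11)` -/
noncomputable def L0iso : ↥L0 ≃* P :=
  (MulEquiv.subgroupCongr pi2_range.symm).trans
    ((MonoidHom.ofInjective pi2_injective).symm.trans (MulEquiv.ofBijective pi1 pi1_bijective))

/-! ### Transport -/

theorem exists_flag3 {d : Finset GolayPt} (hd : d ∈ dodecads) {p q : GolayPt} (hp : p ∈ d)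
    (hq : q ∉ d) :
    ∃ u ∈ M24, u • Helper7.setOf D1 = d ∧ u (pt 0) = p ∧ u (pt 5) = q := by
  obtain ⟨h, hh, rfl, rfl⟩ := dodecad_flag hd hp
  have hq1 : h⁻¹ q ∉ Helper7.setOf D1 := fun hc => hq (Finset.inv_smul_mem_iff.mp hc)
  obtain ⟨k, hk, hkq⟩ := m12levelB1 (h⁻¹ q) (mem_setOf_compl.mpr hq1) (by
    simp only [List.map_cons, List.map_nil, List.mem_cons, List.not_mem_nil, or_false]
    intro h0
    exact hq1 (h0 ▸ pt0_mem_D1))
  have hk0 : k (pt 0) = pt 0 := (mem_fixL.mp hk.2) 0 (by simp)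
  refine ⟨h * k, M24.mul_mem hh hk.1.1, ?_, ?_, ?_⟩
  · rw [mul_smul, M12grp_smul hk.1]
  · rw [Equiv.Perm.mul_apply, hk0]
  · rw [Equiv.Perm.mul_apply, hkq]
    simp

theorem toL0 {u g : Equiv.Perm GolayPt} (hu : u ∈ M24) (hg : g ∈ M24)
    (h1 : g • (u • Helper7.setOf D1) = u • Helper7.setOf D1) (h2 : g (u (pt 0)) = u (pt 0))
    (h3 : g (u (pt 5)) = u (pt 5)) : u⁻¹ * g * u ∈ L0 := by
  refine Subgroup.mem_inf.mpr ⟨conj_mem_M12grp hu hg h1, ?_⟩
  rw [mem_fixL]
  intro j hj
  simp only [List.mem_cons, List.not_mem_nil, or_false] at hj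
  rcases hj with rfl | rfl
  · simp only [Equiv.Perm.mul_apply]
    rw [h2]
    simp
  · simp only [Equiv.Perm.mul_apply]
    rw [h3]
    simp

theorem ofL0 {u k : Equiv.Perm GolayPt} (hu : u ∈ M24) (hk : k ∈ L0) :
    u * k * u⁻¹ ∈ M24 ∧ (u * k * u⁻¹) • (u • Helper7.setOf D1) = u • Helper7.setOf D1 ∧
      (u * k * u⁻¹) (u (pt 0)) = u (pt 0) ∧ (u * k * u⁻¹) (u (pt 5)) = u (pt 5) := by
  have h0 : k (pt 0) = pt 0 := (mem_fixL.mp hk.2) 0 (by simp)
  have h5 : k (pt 5) = pt 5 := (mem_fixL.mp hk.2) 5 (by simp)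
  refine ⟨M24.mul_mem (M24.mul_mem hu hk.1.1) (M24.inv_mem hu), conj_M12grp_smul hk.1, ?_, ?_⟩
  · simp only [Equiv.Perm.mul_apply]
    simp [h0]
  · simp only [Equiv.Perm.mul_apply]
    simp [h5]

/-- the stabiliser of a general configuration is isomorphic to `L0` -/
noncomputable def stabEquivL0 {u : Equiv.Perm GolayPt} (hu : u ∈ M24) :
    ↥(MulAction.stabilizer (↥M24) (u • Helper7.setOf D1) ⊓ MulAction.stabilizer (↥M24) (u (pt 0)) ⊓
        MulAction.stabilizer (↥M24) (u (pt 5))) ≃* ↥L0 where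
  toFun := fun x => ⟨u⁻¹ * x.1.1 * u, toL0 hu x.1.2 x.2.1.1 x.2.1.2 x.2.2⟩
  invFun := fun k => ⟨⟨u * k.1 * u⁻¹, (ofL0 hu k.2).1⟩,
    ⟨⟨(ofL0 hu k.2).2.1, (ofL0 hu k.2).2.2.1⟩, (ofL0 hu k.2).2.2.2⟩⟩
  left_inv := fun x => Subtype.ext (Subtype.ext (by simp [mul_assoc]))
  right_inv := fun k => Subtype.ext (by simp [mul_assoc])
  map_mul' := fun x y => Subtype.ext (by simp [mul_assoc])

/-- In the 3-transitive action of `M11` on the complementary dodecad, a point stabiliser is
isomorphic to `PSL(2, 11)`. -/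
theorem stab_psl (d : Finset GolayPt) (hd : d ∈ dodecads) (p q : GolayPt) (hp : p ∈ d)
    (hq : q ∉ d) :
    Nonempty (↥(MulAction.stabilizer (↥M24) d ⊓ MulAction.stabilizer (↥M24) p ⊓
      MulAction.stabilizer (↥M24) q) ≃* Matrix.ProjectiveSpecialLinearGroup (Fin 2) (ZMod 11)) := by
  obtain ⟨u, hu, rfl, rfl, rfl⟩ := exists_flag3 hd hp hq
  exact ⟨(stabEquivL0 hu).trans L0iso⟩

end Cfsg.Agent.Helper27.PSL211
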