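import Cfsg.Agent.Helper27.PSL211Cert
import Cfsg.Agent.Helper24.SL2Mat
import Cfsg.Agent.Helper5.SLCard

/-!
# `PSL(2, 11)`: generators, relators, order

The images `SP, TP` of the matrices `S0 = u(1)` and `T0 = (0, -1; 1, 0)` generate
`PSL(2, ZMod 11)` and satisfy the relators of `PSL211Cert`.
-/

set_option autoImplicit false

namespace Cfsg.Agent.Helper27.PSL211

open Cfsg.Agent.Helper89 Cfsg.Agent.Helper24

instance fact11 : Fact (Nat.Prime 11) := ⟨by norm_num⟩

/-- the translation `x ↦ x + 1` -/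
def S0 : SL2 (ZMod 11) := uM 1

/-- the inversion `x ↦ -1 / x` -/
def T0 : SL2 (ZMod 11) := mkSL2 0 (-1) 1 0 (by ring)

/-- `SL(2, F)` is generated by the elementary matrices -/
theorem sl2_gen {F : Type*} [Field F] (R : Subgroup (SL2 F)) (hu : ∀ t : F, uM t ∈ R)
    (hv : ∀ s : F, vM s ∈ R) (x : SL2 F) : x ∈ R := by
  have key : ∀ y : SL2 F, y 1 0 ≠ 0 → y ∈ R := by
    intro y hy
    have hd := sl2_det y
    have e : y = uM ((y 0 0 - 1) / y 1 0) * vM (y 1 0) * uM ((y 1 1 - 1) / y 1 0) := by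
      apply sl2_ext
      · simp
        field_simp
        ring
      · simp
        field_simp
        linear_combination -hd
      · simp
      · simp
        field_simp
        ring
    rw [e]
    exact mul_mem (mul_mem (hu _) (hv _)) (hu _)
  by_cases h : x 1 0 = 0
  · have h00 : x 0 0 ≠ 0 := by
      intro h0
      have := upper_diag h
      rw [h0, zero_mul] at this
      exact zero_ne_one this
    have h1 : vM 1 * x ∈ R := by
      apply key
      simp [h]
      exact h00
    have e : x = (vM 1)⁻¹ * (vM 1 * x) := by group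
    rw [e]
    exact mul_mem (inv_mem (hv 1)) h1
  · exact key x h

theorem gen_SL : Subgroup.closure ({S0, T0} : Set (SL2 (ZMod 11))) = ⊤ := by
  rw [eq_top_iff]
  intro x _
  have hS : S0 ∈ Subgroup.closure ({S0, T0} : Set (SL2 (ZMod 11))) :=
    Subgroup.subset_closure (by simp)
  have hT : T0 ∈ Subgroup.closure ({S0, T0} : Set (SL2 (ZMod 11))) :=
    Subgroup.subset_closure (by simp)
  have hu : ∀ t : ZMod 11, uM t ∈ Subgroup.closure ({S0, T0} : Set (SL2 (ZMod 11))) := by
    intro t
    have e : uM t = S0 ^ t.val := by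
      unfold S0
      rw [uM_pow, mul_one, ZMod.natCast_zmod_val]
    rw [e]
    exact Subgroup.pow_mem _ hS _
  apply sl2_gen _ hu
  intro s
  have e : vM s = T0 * uM (-s) * T0⁻¹ := by
    apply sl2_ext <;> simp [T0]
  rw [e]
  exact mul_mem (mul_mem hT (hu _)) (inv_mem hT)

/-! ### Relators -/

/-- product of matrices given by their four entries -/
def qmul (x y : ZMod 11 × ZMod 11 × ZMod 11 × ZMod 11) : ZMod 11 × ZMod 11 × ZMod 11 × ZMod 11 :=
  (x.1 * y.1 + x.2.1 * y.2.2.1, x.1 * y.2.1 + x.2.1 * y.2.2.2,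
    x.2.2.1 * y.1 + x.2.2.2 * y.2.2.1, x.2.2.1 * y.2.1 + x.2.2.2 * y.2.2.2)

/-- entries of the four generator symbols -/
def qgen (j : ℕ) : ZMod 11 × ZMod 11 × ZMod 11 × ZMod 11 :=
  if j = 0 then (1, 1, 0, 1) else if j = 1 then (1, -1, 0, 1) else if j = 2 then (0, -1, 1, 0)
  else if j = 3 then (0, 1, -1, 0) else (1, 0, 0, 1)

/-- entries of the value of a word -/
def qev : List ℕ → ZMod 11 × ZMod 11 × ZMod 11 × ZMod 11
  | [] => (1, 0, 0, 1)
  | j :: w => qmul (qgen j) (qev w)

/-- the four entries of a matrix -/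
def entries (x : SL2 (ZMod 11)) : ZMod 11 × ZMod 11 × ZMod 11 × ZMod 11 :=
  (x 0 0, x 0 1, x 1 0, x 1 1)

theorem entries_mul (x y : SL2 (ZMod 11)) : entries (x * y) = qmul (entries x) (entries y) := by
  simp [entries, qmul]

theorem entries_gens (j : ℕ) : entries (gens3 S0 T0 1 j) = qgen j := by
  unfold gens3 qgen
  split_ifs <;> simp [entries, S0, T0]

theorem entries_ev (w : List ℕ) : entries (ev (gens3 S0 T0 1) w) = qev w := by
  induction w with
  | nil => simp [ev, entries, qev]
  | cons j w ih => rw [ev, entries_mul, entries_gens, ih, qev]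

theorem rels_q : ∀ ρ ∈ rels, qev ρ = (1, 0, 0, 1) ∨ qev ρ = (-1, 0, 0, -1) := by decide +kernel

theorem central_of_entries {x : SL2 (ZMod 11)} (h : x 0 0 = x 1 1) (h01 : x 0 1 = 0)
    (h10 : x 1 0 = 0) : x ∈ Subgroup.center (SL2 (ZMod 11)) := by
  rw [Subgroup.mem_center_iff]
  intro g
  apply sl2_ext <;> simp [h01, h10, h] <;> ring

theorem rels_central : ∀ ρ ∈ rels, ev (gens3 S0 T0 1) ρ ∈ Subgroup.center (SL2 (ZMod 11)) := by
  intro ρ hρ
  have h := entries_ev ρ
  rcases rels_q ρ hρ with h1 | h1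
  · rw [h1] at h
    simp only [entries, Prod.mk.injEq] at h
    exact central_of_entries (by rw [h.1, h.2.2.2]) h.2.1 h.2.2.1
  · rw [h1] at h
    simp only [entries, Prod.mk.injEq] at h
    exact central_of_entries (by rw [h.1, h.2.2.2]) h.2.1 h.2.2.1

/-! ### The projective group -/

/-- `PSL(2, 11)` -/
abbrev P : Type := Matrix.ProjectiveSpecialLinearGroup (Fin 2) (ZMod 11)

/-- the quotient map -/
def mkP : SL2 (ZMod 11) →* P := QuotientGroup.mk' (Subgroup.center (SL2 (ZMod 11)))

/-- the image of `S0` -/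
def SP : P := mkP S0

/-- the image of `T0` -/
def TP : P := mkP T0

theorem rels_P : ∀ ρ ∈ rels, ev (gens3 SP TP 1) ρ = 1 := by
  intro ρ hρ
  have e : ev (gens3 SP TP 1) ρ = mkP (ev (gens3 S0 T0 1) ρ) := by
    rw [map_ev]
    apply ev_congr
    intro j
    rw [map_gens3, map_one]
    rfl
  rw [e]
  exact (QuotientGroup.eq_one_iff _).mpr (rels_central ρ hρ)

theorem gen_P : Subgroup.closure ({SP, TP} : Set P) = ⊤ := by
  have h := congrArg (Subgroup.map mkP) gen_SL
  rw [MonoidHom.map_closure, Subgroup.map_top_of_surjective mkP (QuotientGroup.mk'_surjective _),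
    Set.image_pair] at h
  exact h

theorem card_P : Nat.card P = 660 := by
  have h1 := Cfsg.Agent.Helper5.card_PSL2_mul (F := ZMod 11)
  rw [Cfsg.Agent.Helper5.card_center_SL2 (by decide), ZMod.card] at h1
  have h2 : Nat.card P * 2 = 660 * 2 := by
    rw [show (660 * 2 : ℕ) = 11 * (11 ^ 2 - 1) by norm_num]
    exact h1
  exact Nat.eq_of_mul_eq_mul_right (by norm_num) h2

instance simple_P : IsSimpleGroup P :=
  Matrix.ProjectiveSpecialLinearGroup.rank_two_simple (by
    rw [Nat.card_eq_fintype_card, ZMod.card]; norm_num)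

end Cfsg.Agent.Helper27.PSL211
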