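import Mathlib
import Cfsg.Agent.Helper8.S4504Defs
import Cfsg.Agent.Helper14.S4504BDefs

/-! SUB-CALL S4504B (helper14), piece KAPPA: the sign sums. -/

set_option autoImplicit false
open Cfsg Cfsg.Agent.Helper8 Cfsg.Agent.Helper14.S4504B
open scoped ComplexConjugate

universe u

namespace Cfsg.Agent.Helper27.S4504BKAPPA

/-! ### PIECE KAPPA (the signs) -/

theorem s4504b_kappa {H : Type u} [Group H] [Finite H] (p : ℕ) [Fact p.Prime] (x : H)
    (χ : H → ℂ) (d : ℕ) (hp : p = 2 * d + 1) (T : S4504Tab p d x χ) :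
    (∑ b ∈ bset p, kap χ x b = 0) ∧
    (∑ b ∈ bset p, kap χ x b * χ (x ^ b) = (d : ℂ) * (χ x - (T.χ₂ : H → ℂ) x)) ∧
    (∑ b ∈ bset p, kap χ x b * (T.χ₂ : H → ℂ) (x ^ b)
      = (d : ℂ) * ((T.χ₂ : H → ℂ) x - χ x)) := by
  classical
  have hpp : p.Prime := Fact.out
  have hA : ((bset p).filter (fun b => χ (x ^ b) = χ x)).card = d := by
    have e : (bset p).filter (fun b => χ (x ^ b) = χ x)
        = (Finset.range p).filter (fun b => b ≠ 0 ∧ χ (x ^ b) = χ x) := by
      ext b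
      simp [bset, and_assoc]
    rw [e]
    convert T.hhalf
  have hB : ((bset p).filter (fun b => ¬ χ (x ^ b) = χ x)).card = d := by
    have e := Finset.card_filter_add_card_filter_not (s := bset p)
      (fun b => χ (x ^ b) = χ x)
    rw [hA, card_bset p hpp.pos] at e
    omega
  have hsplit : ∀ F : ℕ → ℂ, ∑ b ∈ bset p, F b
      = ∑ b ∈ (bset p).filter (fun b => χ (x ^ b) = χ x), F b
        + ∑ b ∈ (bset p).filter (fun b => ¬ χ (x ^ b) = χ x), F b :=
    fun F => (Finset.sum_filter_add_sum_filter_not _ _ F).symm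
  have hconstA : ∀ c : ℂ, ∑ _b ∈ (bset p).filter (fun b => χ (x ^ b) = χ x), c = (d : ℂ) * c := by
    intro c
    rw [Finset.sum_const, hA, nsmul_eq_mul]
  have hconstB : ∀ c : ℂ, ∑ _b ∈ (bset p).filter (fun b => ¬ χ (x ^ b) = χ x), c
      = (d : ℂ) * c := by
    intro c
    rw [Finset.sum_const, hB, nsmul_eq_mul]
  refine ⟨?_, ?_, ?_⟩
  · have e1 : ∑ b ∈ (bset p).filter (fun b => χ (x ^ b) = χ x), kap χ x b
        = ∑ _b ∈ (bset p).filter (fun b => χ (x ^ b) = χ x), (1 : ℂ) :=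
      Finset.sum_congr rfl (fun b hb => kap_pos (Finset.mem_filter.mp hb).2)
    have e2 : ∑ b ∈ (bset p).filter (fun b => ¬ χ (x ^ b) = χ x), kap χ x b
        = ∑ _b ∈ (bset p).filter (fun b => ¬ χ (x ^ b) = χ x), (-1 : ℂ) :=
      Finset.sum_congr rfl (fun b hb => kap_neg (Finset.mem_filter.mp hb).2)
    rw [hsplit, e1, e2, hconstA, hconstB]
    ring
  · have e1 : ∑ b ∈ (bset p).filter (fun b => χ (x ^ b) = χ x), kap χ x b * χ (x ^ b)
        = ∑ _b ∈ (bset p).filter (fun b => χ (x ^ b) = χ x), χ x :=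
      Finset.sum_congr rfl (fun b hb => by
        have h2 := (Finset.mem_filter.mp hb).2
        rw [kap_pos h2, h2, one_mul])
    have e2 : ∑ b ∈ (bset p).filter (fun b => ¬ χ (x ^ b) = χ x), kap χ x b * χ (x ^ b)
        = ∑ _b ∈ (bset p).filter (fun b => ¬ χ (x ^ b) = χ x), -(T.χ₂ : H → ℂ) x :=
      Finset.sum_congr rfl (fun b hb => by
        obtain ⟨h1, h2⟩ := Finset.mem_filter.mp hb
        rw [kap_neg h2, (T.hswap b (not_dvd_of_mem_bset h1) h2).1, neg_one_mul])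
    rw [hsplit, e1, e2, hconstA, hconstB]
    ring
  · have e1 : ∑ b ∈ (bset p).filter (fun b => χ (x ^ b) = χ x),
          kap χ x b * (T.χ₂ : H → ℂ) (x ^ b)
        = ∑ _b ∈ (bset p).filter (fun b => χ (x ^ b) = χ x), (T.χ₂ : H → ℂ) x :=
      Finset.sum_congr rfl (fun b hb => by
        obtain ⟨h1, h2⟩ := Finset.mem_filter.mp hb
        rw [kap_pos h2, T.hkeep b (not_dvd_of_mem_bset h1) h2, one_mul])
    have e2 : ∑ b ∈ (bset p).filter (fun b => ¬ χ (x ^ b) = χ x),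
          kap χ x b * (T.χ₂ : H → ℂ) (x ^ b)
        = ∑ _b ∈ (bset p).filter (fun b => ¬ χ (x ^ b) = χ x), -χ x :=
      Finset.sum_congr rfl (fun b hb => by
        obtain ⟨h1, h2⟩ := Finset.mem_filter.mp hb
        rw [kap_neg h2, (T.hswap b (not_dvd_of_mem_bset h1) h2).2, neg_one_mul])
    rw [hsplit, e1, e2, hconstA, hconstB]
    ring

end Cfsg.Agent.Helper27.S4504BKAPPA
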