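import Mathlib
import Cfsg.Agent.Helper8.S4504Defs
import Cfsg.Agent.Helper14.S4504BDefs
import Cfsg.Agent.Helper76.CentralChar

/-! SUB-CALL S4504B (helper14), piece LAM: the central character of an irreducible character. -/

set_option autoImplicit false
open Cfsg Cfsg.Agent.Helper8 Cfsg.Agent.Helper14.S4504B
open scoped ComplexConjugate

universe u

namespace Cfsg.Agent.Helper27.S4504BLAM

/-! ### PIECE LAM (pure; Helper76.CentralChar: exists_central_scalar, scalar_mul, scalar_norm) -/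

theorem s4504b_lam {H : Type u} [Group H] [Finite H] (χ : Cfsg.IrrCharacter H) :
    (∀ z w : Subgroup.center H,
      lam (χ : H → ℂ) (z * w) = lam (χ : H → ℂ) z * lam (χ : H → ℂ) w) ∧
    (∀ z : Subgroup.center H, lam (χ : H → ℂ) z * conj (lam (χ : H → ℂ) z) = 1) ∧
    (∀ z : Subgroup.center H, ‖lam (χ : H → ℂ) z‖ = 1) ∧
    (∀ (z : Subgroup.center H) (g : H),
      (χ : H → ℂ) (g * (z : H)) = lam (χ : H → ℂ) z * (χ : H → ℂ) g) := by
  obtain ⟨c, hc⟩ := Cfsg.Agent.Helper76.exists_central_scalar (Subgroup.center H).subtype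
    (fun z => z.2) χ
  have h1ne : (χ : H → ℂ) 1 ≠ 0 := Cfsg.Agent.Helper76.irr_one_ne_zero χ
  have hlam : ∀ z : Subgroup.center H, lam (χ : H → ℂ) z = c z := by
    intro z
    have h := hc z 1
    rw [one_mul] at h
    unfold lam
    have h' : (χ : H → ℂ) (z : H) = c z * (χ : H → ℂ) 1 := h
    rw [h', mul_div_assoc, div_self h1ne, mul_one]
  obtain ⟨hc1, hcmul⟩ := Cfsg.Agent.Helper76.scalar_mul (Subgroup.center H).subtype
    (χ : H → ℂ) h1ne c hc
  refine ⟨?_, ?_, ?_, ?_⟩
  · intro z w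
    rw [hlam, hlam, hlam, hcmul]
  · intro z
    rw [hlam]
    exact Cfsg.Agent.Helper76.scalar_norm c hc1 hcmul z
  · intro z
    rw [hlam]
    have h2 : c z ^ Nat.card (Subgroup.center H) = 1 := by
      rw [← Cfsg.Agent.Helper76.scalar_pow c hc1 hcmul, pow_card_eq_one', hc1]
    exact Complex.norm_eq_one_of_pow_eq_one h2 Nat.card_pos.ne'
  · intro z g
    rw [hlam]
    exact hc z g

end Cfsg.Agent.Helper27.S4504BLAM
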