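import Mathlib
import Cfsg.Agent.Helper8.S4504Defs
import Cfsg.Agent.Helper14.S4504BDefs
import Cfsg.Agent.Helper81.Blocks

/-! SUB-CALL S4504B (helper14), piece RHSA: the characters trivial on the centre that do not
vanish at `x`. -/

set_option autoImplicit false
open Cfsg Cfsg.Agent.Helper8 Cfsg.Agent.Helper14.S4504B
open scoped ComplexConjugate

universe u

namespace Cfsg.Agent.Helper27.S4504BRHSA

/-! ### PIECE RHSA (the characters trivial on the centre that do not vanish at `x`) -/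

theorem s4504b_rhsa {H : Type u} [Group H] [Finite H] (p : ℕ) [Fact p.Prime] (x : H)
    (χ : H → ℂ) (h : S4504Hyp p x χ) (d : ℕ) (hd : Cfsg.charDegree χ = d) (hd2 : 2 ≤ d)
    (T : S4504Tab p d x χ)
    (hcp : ∀ z ∈ Subgroup.center H, ¬ p ∣ orderOf z)
    (S : Finset (Cfsg.IrrCharacter H))
    (hS : ∀ ξ : Cfsg.IrrCharacter H, ξ ∈ S ↔ HasCC (ξ : H → ℂ) (fun _ => 1))
    (f : (H → ℂ) → ℂ) (hf : ∀ ξ : Cfsg.IrrCharacter H, (ξ : H → ℂ) x = 0 → f (ξ : H → ℂ) = 0) :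
    ∑ ξ ∈ S, f (ξ : H → ℂ)
      = f (fun _ => 1) + ∑ ξ ∈ T.X1, f (ξ : H → ℂ) + ∑ ξ ∈ T.X2, f (ξ : H → ℂ)
        + f (T.ψ₁ : H → ℂ) + f (T.ψ₂ : H → ℂ) := by
  classical
  have hpp : p.Prime := Fact.out
  have hp1 : ¬ p ∣ 1 := fun hdvd => hpp.one_lt.ne' (Nat.dvd_one.mp hdvd)
  have hpd : p = 2 * d + 1 := by rw [← hd]; exact h.hdeg.symm
  have hψ21 : (T.ψ₂ : H → ℂ) 1 = (T.ψ₁ : H → ℂ) 1 :=
    T.hψreg 1 (by rw [orderOf_one]; exact hp1)
  obtain ⟨t, ht⟩ : ∃ t : Cfsg.IrrCharacter H, t = Cfsg.Agent.Helper81.trivIrr H := ⟨_, rfl⟩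
  have htfun : (t : H → ℂ) = fun _ => 1 := by rw [ht]; rfl
  -- degrees
  have hdegT : Cfsg.charDegree (t : H → ℂ) = 1 := by
    have h3 := Cfsg.Agent.Helper81.irr_one_eq_charDegree t
    rw [htfun] at h3
    have h4 : ((1 : ℕ) : ℂ) = (Cfsg.charDegree (fun _ : H => (1 : ℂ)) : ℂ) := by
      rw [Nat.cast_one]; exact h3
    rw [htfun]
    exact_mod_cast h4.symm
  have hdegψ1 : Cfsg.charDegree (T.ψ₁ : H → ℂ) = d + 1 ∨ Cfsg.charDegree (T.ψ₁ : H → ℂ) = d := by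
    rw [T.hψdeg]; split_ifs <;> simp
  have hdegψ2 : Cfsg.charDegree (T.ψ₂ : H → ℂ) = Cfsg.charDegree (T.ψ₁ : H → ℂ) := by
    have h3 := hψ21
    rw [Cfsg.Agent.Helper81.irr_one_eq_charDegree, Cfsg.Agent.Helper81.irr_one_eq_charDegree] at h3
    exact_mod_cast h3
  -- membership in `S`
  have hmemS : ∀ ξ : Cfsg.IrrCharacter H,
      (∀ z ∈ Subgroup.center H, (ξ : H → ℂ) z = (ξ : H → ℂ) 1) → ξ ∈ S := by
    intro ξ hξ
    rw [hS]
    intro z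
    rw [one_mul]
    exact hξ z z.2
  have hS' : ∀ ξ ∈ S, ∀ z ∈ Subgroup.center H, (ξ : H → ℂ) z = (ξ : H → ℂ) 1 := by
    intro ξ hξ z hz
    have h3 := (hS ξ).mp hξ ⟨z, hz⟩
    rw [one_mul] at h3
    exact h3
  have htS : t ∈ S := hmemS _ (fun z _ => by rw [htfun])
  have hX1S : ∀ ξ ∈ T.X1, ξ ∈ S := fun ξ hξ => hmemS ξ (T.hX1Z ξ hξ)
  have hX2S : ∀ ξ ∈ T.X2, ξ ∈ S := fun ξ hξ => hmemS ξ (T.hX2Z ξ hξ)
  have hψ1S : T.ψ₁ ∈ S := hmemS _ T.hψZ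
  have hψ2S : T.ψ₂ ∈ S :=
    hmemS _ (fun z hz => by rw [T.hψreg z (hcp z hz), T.hψZ z hz, hψ21])
  -- disjointness by degrees
  have htX1 : t ∉ T.X1 := fun hmem => by
    have h3 := T.hX1deg _ hmem
    omega
  have htX2 : t ∉ T.X2 := fun hmem => by
    have h3 := T.hX2deg _ hmem
    omega
  have hX12 : Disjoint T.X1 T.X2 := by
    rw [Finset.disjoint_left]
    intro ξ h1 h2
    have e1 := T.hX1deg ξ h1
    have e2 := T.hX2deg ξ h2
    omega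
  have hψ1X1 : T.ψ₁ ∉ T.X1 := fun hmem => by
    have h3 := T.hX1deg _ hmem
    omega
  have hψ1X2 : T.ψ₁ ∉ T.X2 := fun hmem => by
    have h3 := T.hX2deg _ hmem
    omega
  have hψ2X1 : T.ψ₂ ∉ T.X1 := fun hmem => by
    have h3 := T.hX1deg _ hmem
    omega
  have hψ2X2 : T.ψ₂ ∉ T.X2 := fun hmem => by
    have h3 := T.hX2deg _ hmem
    omega
  have hψ1t : T.ψ₁ ≠ t := fun he => by
    have h3 : Cfsg.charDegree (T.ψ₁ : H → ℂ) = 1 := by rw [he]; exact hdegT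
    omega
  have hψ2t : T.ψ₂ ≠ t := fun he => by
    have h3 : Cfsg.charDegree (T.ψ₂ : H → ℂ) = 1 := by rw [he]; exact hdegT
    omega
  have hUS : ({t} ∪ T.X1 ∪ T.X2 ∪ {T.ψ₁, T.ψ₂} : Finset (Cfsg.IrrCharacter H)) ⊆ S := by
    intro ξ hξ
    simp only [Finset.mem_union, Finset.mem_singleton, Finset.mem_insert] at hξ
    rcases hξ with ((h1 | h1) | h2) | (h3 | h3)
    · rw [h1]; exact htS
    · exact hX1S ξ h1
    · exact hX2S ξ h2
    · rw [h3]; exact hψ1S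
    · rw [h3]; exact hψ2S
  have hd1 : Disjoint ({t} : Finset (Cfsg.IrrCharacter H)) T.X1 :=
    Finset.disjoint_singleton_left.mpr htX1
  have hd2' : Disjoint ({t} ∪ T.X1) T.X2 := by
    rw [Finset.disjoint_union_left]
    exact ⟨Finset.disjoint_singleton_left.mpr htX2, hX12⟩
  have hd3 : Disjoint ({t} ∪ T.X1 ∪ T.X2) ({T.ψ₁, T.ψ₂} : Finset (Cfsg.IrrCharacter H)) := by
    rw [Finset.disjoint_right]
    intro ξ hξ hmem
    simp only [Finset.mem_insert, Finset.mem_singleton] at hξ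
    simp only [Finset.mem_union, Finset.mem_singleton] at hmem
    rcases hξ with h3 | h3
    · rw [h3] at hmem
      rcases hmem with (h1 | h1) | h1
      · exact hψ1t h1
      · exact hψ1X1 h1
      · exact hψ1X2 h1
    · rw [h3] at hmem
      rcases hmem with (h1 | h1) | h1
      · exact hψ2t h1
      · exact hψ2X1 h1
      · exact hψ2X2 h1
  have hzero : ∀ ξ ∈ S, ξ ∉ ({t} ∪ T.X1 ∪ T.X2 ∪ {T.ψ₁, T.ψ₂} : Finset (Cfsg.IrrCharacter H)) →
      f (ξ : H → ℂ) = 0 := by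
    intro ξ hξS hξU
    apply hf
    simp only [Finset.mem_union, Finset.mem_singleton, Finset.mem_insert, not_or] at hξU
    obtain ⟨⟨⟨ht', hx1⟩, hx2⟩, hp1', hp2'⟩ := hξU
    refine T.hcomplete ξ (hS' ξ hξS) (fun hfun => ht' ?_) hx1 hx2 hp1' hp2'
    apply Subtype.ext
    rw [hfun, htfun]
  rw [← Finset.sum_subset hUS hzero, Finset.sum_union hd3, Finset.sum_union hd2',
    Finset.sum_union hd1, Finset.sum_singleton, Finset.sum_pair T.hψne, ← add_assoc, htfun]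

end Cfsg.Agent.Helper27.S4504BRHSA
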