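import Mathlib
import Cfsg.Agent.Helper8.S4504Defs
import Cfsg.Agent.Helper14.S4504BDefs
import Cfsg.Agent.Helper81.Blocks

/-! SUB-CALL S4504B (helper14), piece RHSB: evaluation of the right-hand side. -/

set_option autoImplicit false
open Cfsg Cfsg.Agent.Helper8 Cfsg.Agent.Helper14.S4504B
open scoped ComplexConjugate

universe u

namespace Cfsg.Agent.Helper27.S4504BRHSB

theorem bset_sum_pow {H : Type u} [Group H] (p : ℕ) (hp : 0 < p) (ξ : H → ℂ) (x : H) :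
    ∑ b ∈ bset p, (1 : ℂ) * ξ (x ^ b) = ∑ b ∈ Finset.range p, ξ (x ^ b) - ξ 1 := by
  have h : bset p = (Finset.range p).erase 0 := by
    ext b
    simp [bset, and_comm]
  have e := Finset.sum_erase_eq_sub (f := fun b => ξ (x ^ b)) (Finset.mem_range.2 hp)
  simp only [pow_zero] at e
  rw [h, ← e]
  exact Finset.sum_congr rfl (fun b _ => one_mul _)

/-! ### PIECE RHSB (evaluation) -/

theorem s4504b_rhsb {H : Type u} [Group H] [Finite H] (p : ℕ) [Fact p.Prime] (x : H)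
    (χ : H → ℂ) (h : S4504Hyp p x χ) (d : ℕ) (hd : Cfsg.charDegree χ = d) (hd2 : 2 ≤ d)
    (T : S4504Tab p d x χ) (g : H) (hg : ¬ p ∣ orderOf g) :
    term p x g (fun _ => 1) (fun _ => 1) + ∑ ξ ∈ T.X1, term p x g (fun _ => 1) (ξ : H → ℂ)
      + ∑ ξ ∈ T.X2, term p x g (fun _ => 1) (ξ : H → ℂ)
      + term p x g (fun _ => 1) (T.ψ₁ : H → ℂ) + term p x g (fun _ => 1) (T.ψ₂ : H → ℂ)
      = (((2 * (d : ℝ) + 1) * ((d : ℝ) + ‖χ g‖ ^ 2) / ((d : ℝ) + 1) : ℝ) : ℂ) := by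
  classical
  have hpp : p.Prime := Fact.out
  have hp1 : ¬ p ∣ 1 := fun hdvd => hpp.one_lt.ne' (Nat.dvd_one.mp hdvd)
  have hpd : p = 2 * d + 1 := by rw [← hd]; exact h.hdeg.symm
  have hP : (p : ℂ) = 2 * (d : ℂ) + 1 := by rw [hpd]; push_cast; ring
  have hd0 : (d : ℂ) ≠ 0 := by
    have h0 : d ≠ 0 := by omega
    exact_mod_cast h0
  have hd1 : (d : ℂ) + 1 ≠ 0 := by
    have h0 : ((d + 1 : ℕ) : ℂ) ≠ 0 := by exact_mod_cast Nat.succ_ne_zero d
    rw [Nat.cast_add, Nat.cast_one] at h0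
    exact h0
  have h2d : (2 * (d : ℂ) + 1 + 1) ≠ 0 := by
    have e : (2 * (d : ℂ) + 1 + 1) = 2 * ((d : ℂ) + 1) := by ring
    rw [e]; exact mul_ne_zero two_ne_zero hd1
  have hcardb : ((bset p).card : ℂ) = (p : ℂ) - 1 := by
    rw [card_bset p hpp.pos, Nat.cast_sub hpp.one_lt.le, Nat.cast_one]
  obtain ⟨u2, hu2⟩ : ∃ u2 : ℂ, u2 = ((‖χ g‖ : ℝ) : ℂ) ^ 2 := ⟨_, rfl⟩
  have hu2' : χ g * conj (χ g) = u2 := by rw [hu2, Complex.mul_conj']
  have hu2conj : conj u2 = u2 := by rw [hu2, map_pow, Complex.conj_ofReal]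
  obtain ⟨c, hc⟩ : ∃ c : ℂ, c = conj ((T.ψ₁ : H → ℂ) g) := ⟨_, rfl⟩
  have hdec1 := T.hdec₁ g
  have hdec2 := T.hdec₂ g hg
  rw [hu2'] at hdec1 hdec2
  have hψ21 : (T.ψ₂ : H → ℂ) 1 = (T.ψ₁ : H → ℂ) 1 :=
    T.hψreg 1 (by rw [orderOf_one]; exact hp1)
  have hψ2g : (T.ψ₂ : H → ℂ) g = (T.ψ₁ : H → ℂ) g := T.hψreg g hg
  have hs1 := T.hψsum₁
  have hs2 := T.hψsum₂
  have hψx := T.hψx
  have ht0 : term p x g (fun _ => 1) (fun _ => 1) = (p : ℂ) - 1 := by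
    simp only [term, mul_one, one_mul, map_one, div_one, Finset.sum_const, nsmul_eq_mul]
    exact hcardb
  have htX1 : ∀ ξ ∈ T.X1, term p x g (fun _ => 1) (ξ : H → ℂ)
      = ((p : ℂ) - 1) / ((p : ℂ) + 1) * conj ((ξ : H → ℂ) g) := by
    intro ξ hξ
    have hx1 : (ξ : H → ℂ) x = 1 := by
      have h3 := T.hX1val ξ hξ 1 hp1
      rwa [pow_one] at h3
    have h1 : (ξ : H → ℂ) 1 = (p : ℂ) + 1 := by
      rw [Cfsg.Agent.Helper81.irr_one_eq_charDegree ξ, T.hX1deg ξ hξ]; push_cast; ring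
    have hsum : ∑ b ∈ bset p, (1 : ℂ) * (ξ : H → ℂ) (x ^ b) = (p : ℂ) - 1 := by
      rw [Finset.sum_congr rfl (fun b hb => by
        rw [one_mul, T.hX1val ξ hξ b (not_dvd_of_mem_bset hb)]), Finset.sum_const,
        nsmul_eq_mul, mul_one]
      exact hcardb
    simp only [term]
    rw [hx1, hsum, h1]
    ring
  have htX2 : ∀ ξ ∈ T.X2, term p x g (fun _ => 1) (ξ : H → ℂ) = conj ((ξ : H → ℂ) g) := by
    intro ξ hξ
    have hx1 : (ξ : H → ℂ) x = -1 := by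
      have h3 := T.hX2val ξ hξ 1 hp1
      rwa [pow_one] at h3
    have h1 : (ξ : H → ℂ) 1 = (p : ℂ) - 1 := by
      rw [Cfsg.Agent.Helper81.irr_one_eq_charDegree ξ, T.hX2deg ξ hξ,
        Nat.cast_sub hpp.one_lt.le, Nat.cast_one]
    have hsum : ∑ b ∈ bset p, (1 : ℂ) * (ξ : H → ℂ) (x ^ b) = -((p : ℂ) - 1) := by
      rw [Finset.sum_congr rfl (fun b hb => by
        rw [one_mul, T.hX2val ξ hξ b (not_dvd_of_mem_bset hb)]), Finset.sum_const,
        nsmul_eq_mul, hcardb]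
      ring
    have hne : (p : ℂ) - 1 ≠ 0 := by
      rw [hP]
      have e : 2 * (d : ℂ) + 1 - 1 = 2 * (d : ℂ) := by ring
      rw [e]; exact mul_ne_zero two_ne_zero hd0
    simp only [term]
    rw [hx1, hsum, h1]
    field_simp
  have htψ1 : term p x g (fun _ => 1) (T.ψ₁ : H → ℂ)
      = (T.ψ₁ : H → ℂ) x * ((if Even d then (p : ℂ) else 0) - (T.ψ₁ : H → ℂ) 1) * c
        / (T.ψ₁ : H → ℂ) 1 := by
    simp only [term]
    rw [bset_sum_pow p hpp.pos, hs1, hc]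
  have htψ2 : term p x g (fun _ => 1) (T.ψ₂ : H → ℂ)
      = (T.ψ₂ : H → ℂ) x * ((if Even d then (p : ℂ) else 0) - (T.ψ₁ : H → ℂ) 1) * c
        / (T.ψ₁ : H → ℂ) 1 := by
    simp only [term]
    rw [bset_sum_pow p hpp.pos, hs2, hψ21, hψ2g, hc]
  rw [ht0, Finset.sum_congr rfl htX1, Finset.sum_congr rfl htX2, ← Finset.mul_sum, htψ1, htψ2]
  by_cases hev : Even d
  · rw [if_pos hev] at hdec1
    rw [if_pos hev] at hdec2
    rw [if_pos hev]
    have hψ1 : (T.ψ₁ : H → ℂ) 1 = (d : ℂ) + 1 := by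
      rw [Cfsg.Agent.Helper81.irr_one_eq_charDegree T.ψ₁, T.hψdeg, if_pos hev]; push_cast; ring
    have hA1 : ∑ ξ ∈ T.X1, conj ((ξ : H → ℂ) g) = u2 - 1 - c := by
      have e := congrArg conj hdec1
      rw [hu2conj, map_add, map_add, map_one, map_sum, ← hc] at e
      linear_combination -e
    have hA2 : ∑ ξ ∈ T.X2, conj ((ξ : H → ℂ) g) = u2 := by
      have e := congrArg conj hdec2
      rw [hu2conj, map_add, map_zero, add_zero, map_sum] at e
      exact e.symm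
    have hx : (T.ψ₂ : H → ℂ) x = 1 - (T.ψ₁ : H → ℂ) x := by
      rw [hev.neg_one_pow] at hψx
      linear_combination hψx
    rw [hA1, hA2, hψ1, hx]
    push_cast
    rw [← hu2, hP]
    field_simp
    ring
  · rw [if_neg hev] at hdec1
    rw [if_neg hev] at hdec2
    rw [if_neg hev]
    have hodd : Odd d := Nat.not_even_iff_odd.mp hev
    have hψ1 : (T.ψ₁ : H → ℂ) 1 = (d : ℂ) := by
      rw [Cfsg.Agent.Helper81.irr_one_eq_charDegree T.ψ₁, T.hψdeg, if_neg hev]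
    have hA1 : ∑ ξ ∈ T.X1, conj ((ξ : H → ℂ) g) = u2 - 1 := by
      have e := congrArg conj hdec1
      rw [hu2conj, map_add, map_add, map_one, map_sum, map_zero, add_zero] at e
      linear_combination -e
    have hA2 : ∑ ξ ∈ T.X2, conj ((ξ : H → ℂ) g) = u2 - c := by
      have e := congrArg conj hdec2
      rw [hu2conj, map_add, map_sum, ← hc] at e
      linear_combination -e
    have hx : (T.ψ₂ : H → ℂ) x = -1 - (T.ψ₁ : H → ℂ) x := by
      rw [hodd.neg_one_pow] at hψx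
      linear_combination hψx
    rw [hA1, hA2, hψ1, hx]
    push_cast
    rw [← hu2, hP]
    field_simp
    ring

end Cfsg.Agent.Helper27.S4504BRHSB
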