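import Mathlib
import Cfsg.Agent.Helper8.S4504Defs

/-! CALL S4504 (helper8), piece COUNT: the fourth-moment count giving `#Syl_p ≤ p + 1`. -/

set_option autoImplicit false
open Cfsg Cfsg.Agent.Helper8
open scoped ComplexConjugate

universe u

namespace Cfsg.Agent.Helper27

/-- COUNT (pure arithmetic with sums over `H`) -/
theorem s4504_count {H : Type u} [Group H] [Fintype H] (p : ℕ) [Fact p.Prime] (d : ℕ)
    (hp : p = 2 * d + 1) (hd2 : 2 ≤ d) (χ : H → ℂ) (N : ℕ)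
    (hcard : Nat.card H = N * (p * d * Nat.card (Subgroup.center H)))
    (hmom : 2 * ∑ g : H, ‖χ g‖ ^ 4
      = (Nat.card H : ℝ) * ((d : ℝ) + 1 + (if Even d then 1 else 0)))
    (hsq : ∑ g : H, ‖χ g‖ ^ 2 = (Nat.card H : ℝ))
    (hcen : ∀ g ∈ Subgroup.center H, ‖χ g‖ = (d : ℝ))
    (hreg : ∀ g : H, g ∉ Subgroup.center H → ¬ p ∣ orderOf g → ‖χ g‖ ≤ 1)
    (hcp : ∀ g ∈ Subgroup.center H, ¬ p ∣ orderOf g)
    (hsing : (p : ℝ) * ∑ g ∈ Finset.univ.filter (fun g : H => p ∣ orderOf g),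
        (‖χ g‖ ^ 4 - ‖χ g‖ ^ 2)
      = (Nat.card H : ℝ) * (if Even d then (d : ℝ) * (d + 2) / 2 else ((d : ℝ) ^ 2 - 1) / 2)) :
    N ≤ p + 1 := by
  classical
  obtain ⟨f, hf⟩ : ∃ f : H → ℝ, ∀ g, f g = ‖χ g‖ ^ 4 - ‖χ g‖ ^ 2 := ⟨_, fun _ => rfl⟩
  have hsing' : (p : ℝ) * ∑ g ∈ Finset.univ.filter (fun g : H => p ∣ orderOf g), f g
      = (Nat.card H : ℝ) * (if Even d then (d : ℝ) * (d + 2) / 2 else ((d : ℝ) ^ 2 - 1) / 2) := by
    rw [← hsing]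
    congr 1
    exact Finset.sum_congr rfl (fun g _ => hf g)
  have hsplit1 : ∑ g : H, f g
      = ∑ g ∈ Finset.univ.filter (fun g : H => p ∣ orderOf g), f g
        + ∑ g ∈ Finset.univ.filter (fun g : H => ¬ p ∣ orderOf g), f g :=
    (Finset.sum_filter_add_sum_filter_not Finset.univ _ f).symm
  have hsplit2 : ∑ g ∈ Finset.univ.filter (fun g : H => ¬ p ∣ orderOf g), f g
      = ∑ g ∈ (Finset.univ.filter (fun g : H => ¬ p ∣ orderOf g)).filter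
            (fun g => g ∈ Subgroup.center H), f g
        + ∑ g ∈ (Finset.univ.filter (fun g : H => ¬ p ∣ orderOf g)).filter
            (fun g => g ∉ Subgroup.center H), f g :=
    (Finset.sum_filter_add_sum_filter_not _ _ f).symm
  have hZ : ∑ g ∈ (Finset.univ.filter (fun g : H => ¬ p ∣ orderOf g)).filter
        (fun g => g ∈ Subgroup.center H), f g
      = (Nat.card (Subgroup.center H) : ℝ) * ((d : ℝ) ^ 4 - (d : ℝ) ^ 2) := by
    have hset : (Finset.univ.filter (fun g : H => ¬ p ∣ orderOf g)).filter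
        (fun g => g ∈ Subgroup.center H)
        = Finset.univ.filter (fun g : H => g ∈ Subgroup.center H) := by
      ext g
      simp only [Finset.mem_filter, Finset.mem_univ, true_and]
      exact ⟨fun h => h.2, fun h => ⟨hcp g h, h⟩⟩
    have hcardZ : Nat.card (Subgroup.center H)
        = (Finset.univ.filter (fun g : H => g ∈ Subgroup.center H)).card := by
      rw [← Nat.card_eq_finsetCard]
      exact Nat.card_congr (Equiv.subtypeEquivRight (fun g => by simp))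
    rw [hset, Finset.sum_congr rfl (fun g hg => by
      have hgZ : g ∈ Subgroup.center H := (Finset.mem_filter.mp hg).2
      rw [hf g, hcen g hgZ]), Finset.sum_const, nsmul_eq_mul, hcardZ]
  have hR : ∑ g ∈ (Finset.univ.filter (fun g : H => ¬ p ∣ orderOf g)).filter
        (fun g => g ∉ Subgroup.center H), f g ≤ 0 := by
    apply Finset.sum_nonpos
    intro g hg
    obtain ⟨hg1, hg2⟩ := Finset.mem_filter.mp hg
    have hg1' : ¬ p ∣ orderOf g := (Finset.mem_filter.mp hg1).2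
    have hle := hreg g hg2 hg1'
    have h0 : 0 ≤ ‖χ g‖ := norm_nonneg _
    have hu2 : ‖χ g‖ ^ 2 ≤ 1 := by nlinarith
    have e : f g = ‖χ g‖ ^ 2 * (‖χ g‖ ^ 2 - 1) := by rw [hf]; ring
    rw [e]
    exact mul_nonpos_of_nonneg_of_nonpos (sq_nonneg _) (by linarith)
  have hsum4 : ∑ g : H, f g = ∑ g : H, ‖χ g‖ ^ 4 - ∑ g : H, ‖χ g‖ ^ 2 := by
    rw [← Finset.sum_sub_distrib]
    exact Finset.sum_congr rfl (fun g _ => hf g)
  have hd2R : (2 : ℝ) ≤ d := by exact_mod_cast hd2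
  have hpR : (p : ℝ) = 2 * d + 1 := by rw [hp]; push_cast; ring
  have hppos : (0 : ℝ) < p := by rw [hpR]; linarith
  have hzpos : (0 : ℝ) < (Nat.card (Subgroup.center H) : ℝ) := by exact_mod_cast Nat.card_pos
  have hcardR : (Nat.card H : ℝ) = N * (p * d * (Nat.card (Subgroup.center H) : ℝ)) := by
    exact_mod_cast hcard
  obtain ⟨A4, hA4⟩ : ∃ A4 : ℝ, A4 = ∑ g : H, ‖χ g‖ ^ 4 := ⟨_, rfl⟩
  obtain ⟨Sg, hSg⟩ : ∃ Sg : ℝ,
      Sg = ∑ g ∈ Finset.univ.filter (fun g : H => p ∣ orderOf g), f g := ⟨_, rfl⟩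
  obtain ⟨z, hz⟩ : ∃ z : ℝ, z = (Nat.card (Subgroup.center H) : ℝ) := ⟨_, rfl⟩
  obtain ⟨h, hh⟩ : ∃ h : ℝ, h = (Nat.card H : ℝ) := ⟨_, rfl⟩
  rw [← hA4, ← hh] at hmom
  rw [← hSg, ← hh] at hsing'
  rw [← hz] at hzpos hZ
  rw [← hh, ← hz] at hcardR
  have h1 : A4 - h ≤ Sg + z * ((d : ℝ) ^ 4 - (d : ℝ) ^ 2) := by
    have e := hsum4
    rw [hsplit1, hsplit2, hZ, ← hSg, ← hA4, hsq, ← hh] at e
    linarith
  have h4 : (p : ℝ) * (A4 - h) ≤ p * (Sg + z * ((d : ℝ) ^ 4 - (d : ℝ) ^ 2)) :=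
    mul_le_mul_of_nonneg_left h1 hppos.le
  have hmain : h * d * ((d : ℝ) - 1) ≤ 2 * p * z * (d : ℝ) ^ 2 * ((d : ℝ) ^ 2 - 1) := by
    by_cases hev : Even d
    · rw [if_pos hev] at hmom hsing'
      have h2 : (p : ℝ) * (2 * A4) = p * (h * ((d : ℝ) + 1 + 1)) := by rw [hmom]
      rw [hpR] at h2 h4 hsing' ⊢
      linarith
    · rw [if_neg hev] at hmom hsing'
      have h2 : (p : ℝ) * (2 * A4) = p * (h * ((d : ℝ) + 1 + 0)) := by rw [hmom]
      rw [hpR] at h2 h4 hsing' ⊢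
      linarith
  have hd1 : (0 : ℝ) < (d : ℝ) - 1 := by linarith
  have hK : 0 < (p : ℝ) * z * (d : ℝ) ^ 2 * ((d : ℝ) - 1) :=
    mul_pos (mul_pos (mul_pos hppos hzpos) (by positivity)) hd1
  have hNK : (N : ℝ) * ((p : ℝ) * z * (d : ℝ) ^ 2 * ((d : ℝ) - 1))
      ≤ (2 * ((d : ℝ) + 1)) * ((p : ℝ) * z * (d : ℝ) ^ 2 * ((d : ℝ) - 1)) := by
    calc (N : ℝ) * ((p : ℝ) * z * (d : ℝ) ^ 2 * ((d : ℝ) - 1))
        = h * d * ((d : ℝ) - 1) := by rw [hcardR]; ring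
      _ ≤ 2 * p * z * (d : ℝ) ^ 2 * ((d : ℝ) ^ 2 - 1) := hmain
      _ = (2 * ((d : ℝ) + 1)) * ((p : ℝ) * z * (d : ℝ) ^ 2 * ((d : ℝ) - 1)) := by ring
  have hN : (N : ℝ) ≤ 2 * ((d : ℝ) + 1) := le_of_mul_le_mul_right hNK hK
  have hfin : (N : ℝ) ≤ ((p + 1 : ℕ) : ℝ) := by
    push_cast
    rw [hpR]
    linarith
  exact_mod_cast hfin

end Cfsg.Agent.Helper27
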