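import Mathlib
import Cfsg.Agent.Helper8.S4504Defs

/-! CALL S4504 (helper8), piece GAUSS: the Gauss-sum values `χ(x), χ₂(x)` and their moments. -/

set_option autoImplicit false
open Cfsg Cfsg.Agent.Helper8
open scoped ComplexConjugate

universe u

namespace Cfsg.Agent.Helper27

theorem s4504_gauss_even (s d : ℝ) (hs : s ^ 2 = 2 * d + 1) :
    ‖(((-1 + s) / 2 : ℝ) : ℂ)‖ ^ 4 - ‖(((-1 + s) / 2 : ℝ) : ℂ)‖ ^ 2
      + (‖(((-1 - s) / 2 : ℝ) : ℂ)‖ ^ 4 - ‖(((-1 - s) / 2 : ℝ) : ℂ)‖ ^ 2)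
      = d * (d + 2) / 2 := by
  have e : ∀ u : ℝ, ‖((u : ℝ) : ℂ)‖ ^ 4 - ‖((u : ℝ) : ℂ)‖ ^ 2 = u ^ 4 - u ^ 2 := by
    intro u
    rw [Complex.norm_real, Real.norm_eq_abs]
    have e2 : |u| ^ 2 = u ^ 2 := sq_abs u
    have e4 : |u| ^ 4 = u ^ 4 := by
      have h4 : |u| ^ 4 = (|u| ^ 2) ^ 2 := by ring
      rw [h4, e2]; ring
    rw [e2, e4]
  rw [e, e]
  linear_combination ((s ^ 2 + 2 * d + 3) / 8) * hs

theorem s4504_gauss_odd (s d : ℝ) (hs : s ^ 2 = 2 * d + 1) (a : ℂ)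
    (ha : a = (-1 + Complex.I * s) / 2 ∨ a = (-1 - Complex.I * s) / 2) :
    ‖a‖ ^ 2 = (d + 1) / 2 := by
  rw [Complex.sq_norm]
  rcases ha with rfl | rfl
  · have e : (-1 + Complex.I * (s : ℂ)) / 2
        = (((-1 / 2 : ℝ) : ℂ)) + (((s / 2 : ℝ) : ℂ)) * Complex.I := by
      push_cast; ring
    rw [e, Complex.normSq_add_mul_I]
    linear_combination (1 / 4 : ℝ) * hs
  · have e : (-1 - Complex.I * (s : ℂ)) / 2
        = (((-1 / 2 : ℝ) : ℂ)) + (((-s / 2 : ℝ) : ℂ)) * Complex.I := by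
      push_cast; ring
    rw [e, Complex.normSq_add_mul_I]
    linear_combination (1 / 4 : ℝ) * hs

/-- GAUSS -/
theorem s4504_gauss {H : Type u} [Group H] [Finite H] (p : ℕ) [Fact p.Prime] (x : H)
    (χ : H → ℂ) (h : S4504Hyp p x χ) (d : ℕ) (hd : Cfsg.charDegree χ = d)
    (T : S4504Tab p d x χ) :
    ‖χ x‖ ^ 4 - ‖χ x‖ ^ 2 + (‖(T.χ₂ : H → ℂ) x‖ ^ 4 - ‖(T.χ₂ : H → ℂ) x‖ ^ 2)
      = if Even d then (d : ℝ) * (d + 2) / 2 else ((d : ℝ) ^ 2 - 1) / 2 := by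
  have hpp : p.Prime := Fact.out
  have hp1 : ¬ p ∣ 1 := fun hdvd => hpp.one_lt.ne' (Nat.dvd_one.mp hdvd)
  have hsum := T.hsum 1 hp1
  have hdiff := T.hdiff 1 hp1
  rw [pow_one] at hsum hdiff
  have hpd : (p : ℝ) = 2 * d + 1 := by
    have h3 := h.hdeg
    rw [hd] at h3
    exact_mod_cast h3.symm
  obtain ⟨a, ha⟩ : ∃ a : ℂ, a = χ x := ⟨_, rfl⟩
  obtain ⟨b, hb⟩ : ∃ b : ℂ, b = (T.χ₂ : H → ℂ) x := ⟨_, rfl⟩
  rw [← ha, ← hb] at hsum hdiff ⊢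
  obtain ⟨s, hs⟩ : ∃ s : ℝ, s ^ 2 = 2 * d + 1 :=
    ⟨Real.sqrt (2 * d + 1), Real.sq_sqrt (by positivity)⟩
  have hpc : (p : ℂ) = (s : ℂ) ^ 2 := by
    rw [← Complex.ofReal_pow, hs, ← hpd]
    norm_cast
  by_cases hev : Even d
  · rw [if_pos hev]
    rw [hev.neg_one_pow, one_mul, hpc] at hdiff
    rcases sq_eq_sq_iff_eq_or_eq_neg.mp hdiff with h1 | h1
    · have ea : a = (((-1 + s) / 2 : ℝ) : ℂ) := by
        push_cast; linear_combination (1 / 2 : ℂ) * hsum + (1 / 2 : ℂ) * h1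
      have eb : b = (((-1 - s) / 2 : ℝ) : ℂ) := by
        push_cast; linear_combination (1 / 2 : ℂ) * hsum - (1 / 2 : ℂ) * h1
      rw [ea, eb]
      exact s4504_gauss_even s d hs
    · have ea : a = (((-1 - s) / 2 : ℝ) : ℂ) := by
        push_cast; linear_combination (1 / 2 : ℂ) * hsum + (1 / 2 : ℂ) * h1
      have eb : b = (((-1 + s) / 2 : ℝ) : ℂ) := by
        push_cast; linear_combination (1 / 2 : ℂ) * hsum - (1 / 2 : ℂ) * h1
      rw [ea, eb, add_comm]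
      exact s4504_gauss_even s d hs
  · rw [if_neg hev]
    have hodd : Odd d := Nat.not_even_iff_odd.mp hev
    rw [hodd.neg_one_pow, neg_one_mul, hpc] at hdiff
    have hI : -((s : ℂ) ^ 2) = (Complex.I * s) ^ 2 := by
      rw [mul_pow, Complex.I_sq]; ring
    rw [hI] at hdiff
    have hab : (a = (-1 + Complex.I * s) / 2 ∨ a = (-1 - Complex.I * s) / 2) ∧
        (b = (-1 + Complex.I * s) / 2 ∨ b = (-1 - Complex.I * s) / 2) := by
      rcases sq_eq_sq_iff_eq_or_eq_neg.mp hdiff with h1 | h1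
      · refine ⟨Or.inl ?_, Or.inr ?_⟩
        · linear_combination (1 / 2 : ℂ) * hsum + (1 / 2 : ℂ) * h1
        · linear_combination (1 / 2 : ℂ) * hsum - (1 / 2 : ℂ) * h1
      · refine ⟨Or.inr ?_, Or.inl ?_⟩
        · linear_combination (1 / 2 : ℂ) * hsum + (1 / 2 : ℂ) * h1
        · linear_combination (1 / 2 : ℂ) * hsum - (1 / 2 : ℂ) * h1
    have hna := s4504_gauss_odd s d hs a hab.1
    have hnb := s4504_gauss_odd s d hs b hab.2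
    have e4 : ∀ z : ℂ, ‖z‖ ^ 4 = (‖z‖ ^ 2) ^ 2 := fun z => by ring
    rw [e4 a, e4 b, hna, hnb]
    ring

end Cfsg.Agent.Helper27
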