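import Mathlib
import Cfsg.Agent.Helper8.S4504Defs
import Cfsg.Agent.Helper4.FullyRam

/-! CALL S4504 (helper8), piece NORM2: `⟨χ, χ⟩ = 1` for an irreducible character. -/

set_option autoImplicit false
open Cfsg Cfsg.Agent.Helper8
open scoped ComplexConjugate

universe u

namespace Cfsg.Agent.Helper27

/-- NORM2 -/
theorem s4504_norm_sq {H : Type u} [Group H] [Fintype H] (χ : H → ℂ)
    (hχ : Cfsg.IsIrrCharacter H χ) : ∑ g : H, ‖χ g‖ ^ 2 = (Nat.card H : ℝ) := by
  rw [← Cfsg.Agent.Helper4.sum_normSq_of_irr hχ]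
  exact Finset.sum_congr rfl (fun g _ => Complex.sq_norm (χ g))

end Cfsg.Agent.Helper27
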