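import Mathlib
import Cfsg.Agent.Helper3.SU2Defs
import Cfsg.Agent.Helper13.UnitRoot

/-!
# CALL S2412C (helper3), piece TG (double): the window transvection and the diagonal element
commute, `t² = 1`, `g³ = 1`.
-/

set_option autoImplicit false

namespace Cfsg.Agent.Helper27

open Cfsg.Agent.Helper3.SU2 Cfsg.Agent.Helper13

variable {F : Type*} [Field F] [Fintype F] {n : ℕ}

/-- the transvection with centre the window and the diagonal element commute, `t² = 1`, `g³ = 1` -/
theorem su2c_tg (hF : Fintype.card F = 2 ^ 2) (hn : 5 ≤ n) (ω : F) (hω0 : ω ≠ 0)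
    (hω3 : ω ^ 3 = 1) (g : ↥(Cfsg.SU n F 2))
    (hg : ∀ x : Fin n → F, uact g x =
      fun i => (if i.val < 4 then ω else if i.val = 4 then ω ^ 2 else 1) * x i) :
    utv hF (win (⟨0, by omega⟩ : Fin n) ⟨1, by omega⟩ ⟨2, by omega⟩ ⟨3, by omega⟩) 1 * g =
        g * utv hF (win (⟨0, by omega⟩ : Fin n) ⟨1, by omega⟩ ⟨2, by omega⟩ ⟨3, by omega⟩) 1 ∧
      utv hF (win (⟨0, by omega⟩ : Fin n) ⟨1, by omega⟩ ⟨2, by omega⟩ ⟨3, by omega⟩) 1 ^ 2 = 1 ∧
      g ^ 3 = 1 := by
  obtain ⟨w, hw⟩ : ∃ w : Fin n → F,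
      w = win (⟨0, by omega⟩ : Fin n) ⟨1, by omega⟩ ⟨2, by omega⟩ ⟨3, by omega⟩ := ⟨_, rfl⟩
  rw [← hw]
  have h11 : (1 : F) + 1 = 0 := by
    rw [one_add_one_eq_two]
    exact ufld2_two hF
  have hneg : (-1 : F) = 1 := by linear_combination -h11
  have hgw : uact g w = ω • w := by
    rw [hg]
    funext i
    rw [Pi.smul_apply, smul_eq_mul]
    by_cases h4 : i.val < 4
    · rw [if_pos h4]
    · rw [if_neg h4]
      have hw0 : w i = 0 := by
        have hne : ∀ (k : ℕ) (hk : k < n), k < 4 → i ≠ ⟨k, hk⟩ := fun k hk hk4 h =>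
          h4 (by rw [h]; exact hk4)
        rw [hw, win_apply, if_neg (hne 0 _ (by norm_num)), if_neg (hne 1 _ (by norm_num)),
          if_neg (hne 2 _ (by norm_num)), if_neg (hne 3 _ (by norm_num))]
        simp
      rw [hw0, mul_zero, mul_zero]
  have hconj : g * utv hF w 1 * g⁻¹ = utv hF w 1 := by
    rw [utv_conj, hgw, utv_smul hF ω hω0, ufld2_norm hF ω hω0, mul_one]
  refine ⟨?_, ?_, ?_⟩
  · calc utv hF w 1 * g = (g * utv hF w 1 * g⁻¹) * g := by rw [hconj]
      _ = g * utv hF w 1 := by group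
  · by_cases hv : Cfsg.hermForm n F 2 w w = 0
    · have h1 : Cfsg.Agent.Helper5.frobQ hF (1 : F) = -1 := by rw [map_one, hneg]
      rw [pow_two, utv_mul hF w 1 1 hv h1 h1, h11, utv_zero_right]
    · have h1 : utv hF w 1 = 1 := by
        unfold utv
        rw [dif_neg (fun h => hv h.1)]
      rw [h1, one_pow]
  · rw [uact_eq_iff]
    intro x
    have e : g ^ 3 = g * (g * g) := by rw [pow_succ', pow_two]
    rw [e]
    simp only [uact_mul, hg, uact_one]
    funext i
    by_cases h4 : i.val < 4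
    · simp only [if_pos h4]
      linear_combination (x i) * hω3
    · by_cases h5 : i.val = 4
      · simp only [if_neg h4, if_pos h5]
        linear_combination (x i) * (ω ^ 3 + 1) * hω3
      · simp only [if_neg h4, if_neg h5, one_mul]

end Cfsg.Agent.Helper27
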