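import Mathlib
import Cfsg.Prelude.Def_Solvable
import Cfsg.Agent.Helper1.FpfSylow
import Cfsg.Agent.Helper27.SameOrderA

/-!
# Groups all of whose elements have order `1`, `r` or `r'` (helper27)

A solvable group of this kind (with both primes occurring) has a self-normalizing subgroup of
prime order, i.e. a Frobenius complement of prime order.
-/

set_option autoImplicit false
set_option linter.unusedSectionVars false
set_option linter.unusedVariables false

namespace Cfsg.Agent.Helper27.SO

open scoped commutatorElement Pointwise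

theorem eq_one_of_pow_coprime {M : Type*} [Monoid M] (x : M) {m n : ℕ} (hm : x ^ m = 1)
    (hn : x ^ n = 1) (h : m.Coprime n) : x = 1 := by
  have h1 := orderOf_dvd_of_pow_eq_one hm
  have h2 := orderOf_dvd_of_pow_eq_one hn
  have h3 : orderOf x ∣ 1 := by
    have := Nat.dvd_gcd h1 h2
    rwa [h] at this
  exact orderOf_eq_one_iff.mp (Nat.dvd_one.mp h3)

/-- **Norm lemma.** `D` acts on the abelian group `A` of exponent `r`; the norm of the subgroup
`C` and the norms of all cyclic subgroups `⟨g⟩`, `g ∉ C` (of order `r`) vanish on `A`.  If `|C|` and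
`|D| - |C|` are prime to `r`, then `A = 1`. -/
theorem norm_lemma {D A : Type*} [Group D] [Fintype D] [CommGroup A] (ρ : D →* MulAut A)
    (C : Subgroup D) [DecidablePred (fun d => d ∈ C)] (r : ℕ) (hr : r.Prime)
    (h1 : ∀ g : D, g ∉ C → g ^ r = 1)
    (h2 : ∀ g : D, g ∉ C → ∀ a : A, ∏ i ∈ Finset.range r, ρ (g ^ i) a = 1)
    (h3 : ∀ a : A, ∏ c ∈ Finset.univ.filter (fun d => d ∈ C), ρ c a = 1)
    (h4 : ∀ a : A, a ^ r = 1)
    (h5 : ((Finset.univ.filter (fun d => d ∈ C)).card).Coprime r)
    (h6 : ((Finset.univ.filter (fun d => d ∉ C)).card).Coprime r) (a : A) : a = 1 := by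
  classical
  -- the total norm is trivial
  have hT : ∏ d : D, ρ d a = 1 := by
    have e1 : ∏ c ∈ Finset.univ.filter (fun d => d ∈ C), ∏ d : D, ρ (d * c) a
        = (∏ d : D, ρ d a) ^ (Finset.univ.filter (fun d => d ∈ C)).card := by
      rw [← Finset.prod_const]
      refine Finset.prod_congr rfl (fun c _ => ?_)
      exact Fintype.prod_equiv (Equiv.mulRight c) _ _ (fun d => rfl)
    have e2 : ∏ c ∈ Finset.univ.filter (fun d => d ∈ C), ∏ d : D, ρ (d * c) a = 1 := by
      rw [Finset.prod_comm]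
      refine Finset.prod_eq_one (fun d _ => ?_)
      have : ∀ c : D, ρ (d * c) a = ρ d (ρ c a) := fun c => by rw [map_mul]; rfl
      simp only [this]
      rw [← map_prod, h3 a, map_one]
    rw [e1] at e2
    exact eq_one_of_pow_coprime _ e2 (h4 _) h5
  have hS : ∏ d ∈ Finset.univ.filter (fun d => d ∉ C), ρ d a = 1 := by
    have := Finset.prod_filter_mul_prod_filter_not Finset.univ (fun d => d ∈ C) (fun d => ρ d a)
    rw [h3 a, one_mul, hT] at this
    exact this
  obtain ⟨r', rfl⟩ : ∃ r', r = r' + 1 := ⟨r - 1, by have := hr.two_le; omega⟩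
  -- orders outside `C`
  have hord : ∀ g : D, g ∉ C → orderOf g = r' + 1 := by
    intro g hg
    rcases (Nat.dvd_prime hr).mp (orderOf_dvd_of_pow_eq_one (h1 g hg)) with h | h
    · exact absurd (by rw [orderOf_eq_one_iff.mp h]; exact C.one_mem) hg
    · exact h
  -- powers permute the complement of `C`
  have hperm : ∀ i : ℕ, i < r' →
      ∏ g ∈ Finset.univ.filter (fun d => d ∉ C), ρ (g ^ (i + 1)) a = 1 := by
    intro i hi
    have hcop : (i + 1).Coprime (r' + 1) :=
      ((Nat.Prime.coprime_iff_not_dvd hr).mpr (Nat.not_dvd_of_pos_of_lt (by omega) (by omega))).symm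
    obtain ⟨j, -, hj⟩ := Nat.exists_mul_mod_eq_one_of_coprime hcop hr.one_lt
    have hback : ∀ g : D, g ∉ C → (g ^ (i + 1)) ^ j = g := by
      intro g hg
      rw [← pow_mul, ← pow_mod_orderOf, hord g hg, hj, pow_one]
    have hmem : ∀ g : D, g ∉ C → g ^ (i + 1) ∉ C := by
      intro g hg hmem
      apply hg
      rw [← hback g hg]
      exact C.pow_mem hmem j
    rw [← hS]
    refine Finset.prod_bij (fun g _ => g ^ (i + 1)) ?_ ?_ ?_ ?_
    · intro g hg
      simp only [Finset.mem_filter, Finset.mem_univ, true_and] at hg ⊢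
      exact hmem g hg
    · intro g hg g' hg' hgg
      simp only [Finset.mem_filter, Finset.mem_univ, true_and] at hg hg'
      rw [← hback g hg, ← hback g' hg', hgg]
    · intro g hg
      simp only [Finset.mem_filter, Finset.mem_univ, true_and] at hg
      have hj0 : j ≠ 0 := by
        rintro rfl
        rw [mul_zero, Nat.zero_mod] at hj
        exact absurd hj (by norm_num)
      have hgj : g ^ j ∉ C := by
        intro hmem'
        -- `g = (g ^ j) ^ (i + 1)`
        apply hg
        have : (g ^ j) ^ (i + 1) = g := by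
          rw [← pow_mul, mul_comm, ← pow_mod_orderOf, hord g hg, hj, pow_one]
        rw [← this]
        exact C.pow_mem hmem' _
      refine ⟨g ^ j, by simp only [Finset.mem_filter, Finset.mem_univ, true_and]; exact hgj, ?_⟩
      rw [← pow_mul, mul_comm, ← pow_mod_orderOf, hord g hg, hj, pow_one]
    · intro g _
      rfl
  -- double counting
  have hdc : ∏ g ∈ Finset.univ.filter (fun d => d ∉ C), ∏ i ∈ Finset.range (r' + 1), ρ (g ^ i) a
      = 1 := by
    refine Finset.prod_eq_one (fun g hg => ?_)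
    simp only [Finset.mem_filter, Finset.mem_univ, true_and] at hg
    exact h2 g hg a
  rw [Finset.prod_comm, Finset.prod_range_succ'] at hdc
  have hz : ∏ i ∈ Finset.range r', ∏ g ∈ Finset.univ.filter (fun d => d ∉ C), ρ (g ^ (i + 1)) a
      = 1 := by
    refine Finset.prod_eq_one (fun i hi => ?_)
    exact hperm i (Finset.mem_range.mp hi)
  rw [hz, one_mul] at hdc
  simp only [pow_zero, map_one, MulAut.one_apply, Finset.prod_const] at hdc
  exact eq_one_of_pow_coprime _ hdc (h4 a) h6

section EPO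

variable {H : Type*} [Group H] [Finite H]

/-- A nontrivial solvable group has a nontrivial normal abelian subgroup. -/
theorem exists_normal_abelian (H : Type*) [Group H] [Nontrivial H] (hs : Group.IsSolvable H) :
    ∃ N : Subgroup H, N.Normal ∧ N ≠ ⊥ ∧ ∀ a ∈ N, ∀ b ∈ N, a * b = b * a := by
  classical
  have hex : ∃ n, derivedSeries H n = ⊥ := hs.solvable
  have h0 : derivedSeries H (Nat.find hex) = ⊥ := Nat.find_spec hex
  have hn0 : Nat.find hex ≠ 0 := by
    intro h
    rw [h, derivedSeries_zero] at h0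
    exact top_ne_bot h0
  obtain ⟨k, hk⟩ : ∃ k, Nat.find hex = k + 1 := ⟨Nat.find hex - 1, by omega⟩
  refine ⟨derivedSeries H k, derivedSeries_normal H k, ?_, ?_⟩
  · intro h
    have := Nat.find_min' hex h
    omega
  · intro a ha b hb
    have h1 : ⁅a, b⁆ ∈ derivedSeries H (k + 1) := by
      rw [derivedSeries_succ]
      exact Subgroup.commutator_mem_commutator ha hb
    rw [← hk, h0, Subgroup.mem_bot] at h1
    exact commutatorElement_eq_one_iff_mul_comm.mp h1

/-- The self-normalizing property of a subgroup `C` of prime order `r'` acting fixed-point-freely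
on a normal abelian subgroup `N` of exponent `r`, in a group of exponent-`r` Sylow `r`-subgroups. -/
theorem normalizer_eq_of_fpf {r r' : ℕ} (hr : r.Prime) (hr' : r'.Prime) (hne : r ≠ r')
    (hord : ∀ g : H, orderOf g = 1 ∨ orderOf g = r ∨ orderOf g = r')
    (N : Subgroup H) [N.Normal] (hN : N ≠ ⊥) (hNc : ∀ a ∈ N, ∀ b ∈ N, a * b = b * a)
    (hNr : ∀ a ∈ N, a ^ r = 1)
    (hfpf : ∀ h : H, orderOf h = r' → ∀ n ∈ N, n * h = h * n → n = 1)
    (C : Subgroup H) (hCcard : Nat.card C = r')
    (c₀ : H) (hc₀ : c₀ ∈ C) (hc₀o : orderOf c₀ = r')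
    (hCn : ∀ g ∈ Subgroup.normalizer (C : Set H), orderOf g = r' → g ∈ C)
    (hidx : ∃ i, Nat.card (Subgroup.normalizer (C : Set H)) = r' * r ^ i) :
    Subgroup.normalizer (C : Set H) = C := by
  classical
  obtain ⟨i, hi⟩ := hidx
  have hCD : C ≤ Subgroup.normalizer (C : Set H) := Subgroup.le_normalizer
  rcases Nat.eq_zero_or_pos i with rfl | hipos
  · rw [pow_zero, mul_one] at hi
    exact (Subgroup.eq_of_le_of_card_ge hCD (by rw [hi, hCcard])).symm
  exfalso
  obtain ⟨D, hD⟩ : ∃ D : Subgroup H, D = Subgroup.normalizer (C : Set H) := ⟨_, rfl⟩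
  rw [← hD] at hi hCD hCn
  have : Fintype ↥D := Fintype.ofFinite _
  let _ : CommGroup ↥N :=
    { (inferInstance : Group ↥N) with
      mul_comm := fun a b => Subtype.ext (hNc a.1 a.2 b.1 b.2) }
  let ρ : ↥D →* MulAut ↥N := (MulAut.conjNormal (H := N)).comp D.subtype
  have hρ : ∀ (d : ↥D) (a : ↥N), ((ρ d a : ↥N) : H) = d.1 * a.1 * d.1⁻¹ := fun d a =>
    MulAut.conjNormal_apply (d : H) a
  -- (h1)
  have h1 : ∀ g : ↥D, g ∉ C.subgroupOf D → g ^ r = 1 := by
    intro g hg
    have hg' : (g : H) ∉ C := fun h => hg (Subgroup.mem_subgroupOf.mpr h)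
    apply Subtype.ext
    show (g : H) ^ r = 1
    rcases hord (g : H) with h | h | h
    · rw [orderOf_eq_one_iff.mp h, one_pow]
    · rw [← h]; exact pow_orderOf_eq_one _
    · exact absurd (hCn g.1 g.2 h) hg'
  -- (h4)
  have h4 : ∀ a : ↥N, a ^ r = 1 := fun a => Subtype.ext (hNr a.1 a.2)
  -- (h2)
  have h2 : ∀ g : ↥D, g ∉ C.subgroupOf D → ∀ a : ↥N,
      ∏ i ∈ Finset.range r, ρ (g ^ i) a = 1 := by
    intro g hg a
    have hpow : ∀ k : ℕ, ((a : H) * (g : H)) ^ k
        = ((∏ i ∈ Finset.range k, ρ (g ^ i) a : ↥N) : H) * (g : H) ^ k := by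
      intro k
      induction k with
      | zero => simp
      | succ k ih =>
        rw [pow_succ, ih, Finset.prod_range_succ]
        have e1 : (((∏ i ∈ Finset.range k, ρ (g ^ i) a) * ρ (g ^ k) a : ↥N) : H)
            = ((∏ i ∈ Finset.range k, ρ (g ^ i) a : ↥N) : H) * ((g : H) ^ k * a.1 * ((g : H) ^ k)⁻¹) := by
          have := hρ (g ^ k) a
          rw [Subgroup.coe_pow] at this
          rw [← this]
          rfl
        rw [e1, pow_succ]
        group
    have hgr : (g : H) ^ r = 1 := congrArg Subtype.val (h1 g hg)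
    have hw := hpow r
    rw [hgr, mul_one] at hw
    -- `(a g) ^ r` lies in `N`, so `a g` is an `r`-element
    have hw2 : (((a : H) * (g : H)) ^ r) ^ r = 1 := by
      rw [hw]
      exact hNr _ (Subtype.property _)
    have hag : ((a : H) * (g : H)) ^ r = 1 := by
      rcases hord ((a : H) * (g : H)) with h | h | h
      · rw [orderOf_eq_one_iff.mp h, one_pow]
      · rw [← h]; exact pow_orderOf_eq_one _
      · exfalso
        rw [← pow_mul] at hw2
        have h5 := orderOf_dvd_of_pow_eq_one hw2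
        rw [h] at h5
        have h6 : r' ∣ r := by
          rcases (Nat.Prime.dvd_mul hr').mp h5 with h7 | h7 <;> exact h7
        exact hne ((Nat.prime_dvd_prime_iff_eq hr' hr).mp h6).symm
    apply Subtype.ext
    rw [← hw, hag]
    rfl
  -- (h3)
  have hc₀D : c₀ ∈ D := hCD hc₀
  have hc₀' : (⟨c₀, hc₀D⟩ : ↥D) ∈ C.subgroupOf D := Subgroup.mem_subgroupOf.mpr hc₀
  have h3 : ∀ a : ↥N, ∏ c ∈ Finset.univ.filter (fun d : ↥D => d ∈ C.subgroupOf D), ρ c a = 1 := by
    intro a
    obtain ⟨m, hm⟩ : ∃ m : ↥N, m = ∏ c ∈ Finset.univ.filter (fun d : ↥D => d ∈ C.subgroupOf D), ρ c a :=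
      ⟨_, rfl⟩
    rw [← hm]
    have hfix : ρ ⟨c₀, hc₀D⟩ m = m := by
      rw [hm, map_prod]
      refine Finset.prod_equiv (Equiv.mulLeft (⟨c₀, hc₀D⟩ : ↥D)) ?_ ?_
      · intro d
        simp only [Finset.mem_filter, Finset.mem_univ, true_and, Equiv.coe_mulLeft]
        constructor
        · intro hd
          exact (C.subgroupOf D).mul_mem hc₀' hd
        · intro hd
          have := (C.subgroupOf D).mul_mem ((C.subgroupOf D).inv_mem hc₀') hd
          rwa [inv_mul_cancel_left] at this
      · intro d _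
        rw [Equiv.coe_mulLeft, map_mul]
        rfl
    have hfix' : c₀ * (m : H) * c₀⁻¹ = (m : H) := by
      rw [← hρ ⟨c₀, hc₀D⟩ m, hfix]
    have hcomm : (m : H) * c₀ = c₀ * (m : H) := by
      have := congrArg (fun t => t * c₀) hfix'
      simp only [inv_mul_cancel_right] at this
      exact this.symm
    exact Subtype.ext (hfpf c₀ hc₀o m.1 m.2 hcomm)
  -- cardinalities
  have hcardC : (Finset.univ.filter (fun d : ↥D => d ∈ C.subgroupOf D)).card = r' := by
    rw [← Fintype.card_subtype, ← Nat.card_eq_fintype_card, ← hCcard]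
    exact Nat.card_congr (Subgroup.subgroupOfEquivOfLe hCD).toEquiv
  have hcardS : (Finset.univ.filter (fun d : ↥D => d ∉ C.subgroupOf D)).card + r' = r' * r ^ i := by
    have h := Finset.card_filter_add_card_filter_not (s := Finset.univ)
      (fun d : ↥D => d ∈ C.subgroupOf D)
    rw [hcardC, Finset.card_univ, ← Nat.card_eq_fintype_card, hi] at h
    omega
  have h5 : ((Finset.univ.filter (fun d : ↥D => d ∈ C.subgroupOf D)).card).Coprime r := by
    rw [hcardC]
    exact (Nat.coprime_primes hr' hr).mpr (Ne.symm hne)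
  have h6 : ((Finset.univ.filter (fun d : ↥D => d ∉ C.subgroupOf D)).card).Coprime r := by
    apply Nat.Coprime.symm
    rw [Nat.Prime.coprime_iff_not_dvd hr]
    intro hdvd
    have h7 : r ∣ r' * r ^ i := Dvd.dvd.mul_left (dvd_pow_self r hipos.ne') r'
    rw [← hcardS] at h7
    have h8 : r ∣ r' := (Nat.dvd_add_right hdvd).mp h7
    exact hne ((Nat.prime_dvd_prime_iff_eq hr hr').mp h8)
  have key := norm_lemma ρ (C.subgroupOf D) r hr h1 h2 h3 h4 h5 h6
  apply hN
  rw [Subgroup.eq_bot_iff_forall]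
  intro x hx
  exact congrArg Subtype.val (key ⟨x, hx⟩)

/-- Core: `N` a nontrivial normal abelian subgroup of exponent `r`; then a Sylow `r'`-subgroup
has order `r'` and is a Frobenius complement. -/
theorem epo_core {r r' : ℕ} (hr : r.Prime) (hr' : r'.Prime) (hne : r ≠ r')
    (hord : ∀ g : H, orderOf g = 1 ∨ orderOf g = r ∨ orderOf g = r')
    (hrd' : r' ∣ Nat.card H)
    (N : Subgroup H) [N.Normal] (hN : N ≠ ⊥) (hNc : ∀ a ∈ N, ∀ b ∈ N, a * b = b * a)
    (hNr : ∀ a ∈ N, a ^ r = 1) :
    ∃ C : Subgroup H, Cfsg.IsFrobeniusComplement C ∧ Nat.card C = r' := by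
  classical
  have : Fact r'.Prime := ⟨hr'⟩
  have hcop : r.Coprime r' := (Nat.coprime_primes hr hr').mpr hne
  have hr2 := hr.two_le
  have hr2' := hr'.two_le
  -- fixed-point-freeness
  have hfpf : ∀ h : H, orderOf h = r' → ∀ n ∈ N, n * h = h * n → n = 1 := by
    intro h hh n hn hcomm
    by_contra hn1
    have hno : orderOf n = r := by
      rcases (Nat.dvd_prime hr).mp (orderOf_dvd_of_pow_eq_one (hNr n hn)) with h1 | h1
      · exact absurd (orderOf_eq_one_iff.mp h1) hn1
      · exact h1
    have hc : Commute n h := hcomm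
    have h2 := hc.orderOf_mul_eq_mul_orderOf_of_coprime (by rw [hno, hh]; exact hcop)
    rw [hno, hh] at h2
    rcases hord (n * h) with h3 | h3 | h3 <;> rw [h3] at h2 <;> nlinarith
  obtain ⟨Q⟩ : Nonempty (Sylow r' H) := inferInstance
  have hQord : ∀ h ∈ (Q : Subgroup H), h ≠ 1 → orderOf h = r' := by
    intro h hh h1
    obtain ⟨k, hk⟩ := Q.isPGroup' ⟨h, hh⟩
    have hk' : h ^ r' ^ k = 1 := congrArg Subtype.val hk
    have hdvd := orderOf_dvd_of_pow_eq_one hk'
    rcases hord h with h2 | h2 | h2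
    · exact absurd (orderOf_eq_one_iff.mp h2) h1
    · rw [h2] at hdvd
      exact absurd ((Nat.prime_dvd_prime_iff_eq hr hr').mp (hr.dvd_of_dvd_pow hdvd)) hne
    · exact h2
  obtain ⟨h₁, hh₁Q, hh₁⟩ : ∃ h₁ ∈ (Q : Subgroup H), h₁ ≠ 1 := by
    have hQne : (Q : Subgroup H) ≠ ⊥ := Q.ne_bot_of_dvd_card hrd'
    by_contra hcon
    push Not at hcon
    exact hQne ((Subgroup.eq_bot_iff_forall _).mpr hcon)
  have hh₁o := hQord h₁ hh₁Q hh₁
  obtain ⟨C, hC⟩ : ∃ C : Subgroup H, C = Subgroup.zpowers h₁ := ⟨_, rfl⟩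
  have hCcard : Nat.card C = r' := by rw [hC, Nat.card_zpowers, hh₁o]
  have hh₁C : h₁ ∈ C := by rw [hC]; exact Subgroup.mem_zpowers h₁
  have hCQ : C ≤ Q := by rw [hC, Subgroup.zpowers_le]; exact hh₁Q
  have hQfpf : ∀ h ∈ (Q : Subgroup H), h ≠ 1 → N ⊓ Subgroup.centralizer {h} = ⊥ := by
    intro h hh h1
    rw [Subgroup.eq_bot_iff_forall]
    rintro n ⟨hn, hc⟩
    have hc' : h * n = n * h := Subgroup.mem_centralizer_iff.mp hc h rfl
    exact hfpf h (hQord h hh h1) n hn hc'.symm
  have hQC : (Q : Subgroup H) = C := by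
    apply le_antisymm _ hCQ
    intro h hh
    by_cases h1 : h = 1
    · rw [h1]; exact C.one_mem
    · have ho := hQord h hh h1
      have := Cfsg.Agent.Helper1.fpf_eq_of_card_prime N Q hN
        (by rw [Subgroup.normalizer_eq_top]; exact le_top) hQfpf r' Q.isPGroup'
        (Subgroup.zpowers h) C (by rw [Subgroup.zpowers_le]; exact hh) hCQ
        (by rw [Nat.card_zpowers, ho]) hCcard
      rw [← this]; exact Subgroup.mem_zpowers h
  -- `r'`-elements of the normalizer
  have hCn : ∀ g ∈ Subgroup.normalizer (C : Set H), orderOf g = r' → g ∈ C := by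
    intro g hg ho
    have hP : IsPGroup r' (Subgroup.zpowers g) := by
      apply IsPGroup.of_card (n := 1)
      rw [Nat.card_zpowers, ho, pow_one]
    have h1 := hP.inf_normalizer_sylow Q
    have h2 : g ∈ Subgroup.zpowers g ⊓ Subgroup.normalizer (Q : Set H) := by
      refine ⟨Subgroup.mem_zpowers g, ?_⟩
      show g ∈ Subgroup.normalizer ((Q : Subgroup H) : Set H)
      rw [hQC]; exact hg
    rw [h1] at h2
    rw [← hQC]; exact h2.2
  have hidx : ∃ i, Nat.card (Subgroup.normalizer (C : Set H)) = r' * r ^ i := by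
    obtain ⟨m, hm⟩ : r' ∣ Nat.card (Subgroup.normalizer (C : Set H)) := by
      rw [← hCcard]; exact Subgroup.card_dvd_of_le Subgroup.le_normalizer
    have hm0 : m ≠ 0 := by
      rintro rfl
      rw [mul_zero] at hm
      exact Nat.card_pos.ne' hm
    have hdH : r' * m ∣ Nat.card H := by rw [← hm]; exact Subgroup.card_subgroup_dvd_card _
    have hprime : ∀ {d : ℕ}, d.Prime → d ∣ m → d = r := by
      intro d hd hdm
      have hdH' : d ∣ Nat.card H := (Dvd.dvd.mul_left hdm r').trans hdH
      obtain ⟨g, hg⟩ := exists_orderOf_eq_prime hd hdH'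
      rcases hord g with h | h | h
      · rw [h] at hg; exact absurd hg.symm hd.ne_one
      · rw [← hg, h]
      · exfalso
        have hd' : d = r' := by rw [← hg, h]
        have h2 : r' * r' ∣ Nat.card H := by
          rw [hd'] at hdm
          exact (Nat.mul_dvd_mul_left r' hdm).trans hdH
        have h3 := Q.not_dvd_index
        have h4 : Nat.card (Q : Subgroup H) * (Q : Subgroup H).index = Nat.card H :=
          Subgroup.card_mul_index _
        have h5 : Nat.card (Q : Subgroup H) = r' := by rw [hQC]; exact hCcard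
        rw [h5] at h4
        rw [← h4] at h2
        exact h3 ((Nat.mul_dvd_mul_iff_left hr'.pos).mp h2)
    refine ⟨m.primeFactorsList.length, ?_⟩
    rw [hm]
    congr 1
    exact Nat.eq_prime_pow_of_unique_prime_dvd hm0 hprime
  have hnorm := normalizer_eq_of_fpf hr hr' hne hord N hN hNc hNr hfpf C hCcard h₁ hh₁C hh₁o hCn
    hidx
  refine ⟨C, ⟨?_, ?_, ?_⟩, hCcard⟩
  · intro h
    rw [h, Subgroup.card_bot] at hCcard
    omega
  · intro h
    obtain ⟨n, hn, hn1⟩ : ∃ n ∈ N, n ≠ 1 := by
      by_contra hcon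
      push Not at hcon
      exact hN ((Subgroup.eq_bot_iff_forall _).mpr hcon)
    have hnC : n ∈ C := by rw [h]; exact Subgroup.mem_top n
    have h2 := hQord n (by rw [hQC]; exact hnC) hn1
    have h3 : orderOf n ∣ r := orderOf_dvd_of_pow_eq_one (hNr n hn)
    rw [h2] at h3
    exact hne ((Nat.prime_dvd_prime_iff_eq hr' hr).mp h3).symm
  · intro g hg
    by_contra hcon
    have hle : C ⊓ (MulAut.conj g • C) ≤ C := inf_le_left
    have hcard : Nat.card ↥(C ⊓ (MulAut.conj g • C)) = r' := by
      have h1 := Subgroup.card_dvd_of_le hle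
      rw [hCcard] at h1
      rcases (Nat.dvd_prime hr').mp h1 with h2 | h2
      · exact absurd (Subgroup.card_eq_one.mp h2) hcon
      · exact h2
    have heq : C ⊓ (MulAut.conj g • C) = C :=
      Subgroup.eq_of_le_of_card_ge hle (by rw [hcard, hCcard])
    have hCle : C ≤ MulAut.conj g • C := by
      intro x hx
      rw [← heq] at hx
      exact hx.2
    have hcard2 : Nat.card ↥(MulAut.conj g • C) = r' := by
      rw [← hCcard]
      exact Nat.card_congr (Subgroup.equivSMul (MulAut.conj g) C).toEquiv.symm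
    have heq2 : C = MulAut.conj g • C :=
      Subgroup.eq_of_le_of_card_ge hCle (by rw [hcard2, hCcard])
    apply hg
    rw [← hnorm, Subgroup.mem_set_normalizer_iff]
    show ∀ h : H, h ∈ C ↔ g * h * g⁻¹ ∈ C
    intro h
    constructor
    · intro hh
      have h1 : MulAut.conj g • h ∈ MulAut.conj g • C := Subgroup.smul_mem_pointwise_smul h _ C hh
      rw [← heq2] at h1
      simpa [MulAut.smul_def] using h1
    · intro hh
      rw [heq2, Subgroup.mem_pointwise_smul_iff_inv_smul_mem] at hh
      simpa [MulAut.smul_def, mul_assoc] using hh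

/-- A solvable group all of whose elements have order `1`, `p` or `q` (both occurring) has a
Frobenius complement of prime order. -/
theorem exists_frobenius_compl {p q : ℕ} (hp : p.Prime) (hq : q.Prime) (hpq : p ≠ q)
    (hpd : p ∣ Nat.card H) (hqd : q ∣ Nat.card H)
    (hord : ∀ g : H, orderOf g = 1 ∨ orderOf g = p ∨ orderOf g = q)
    (hsol : Group.IsSolvable H) :
    ∃ C : Subgroup H, Cfsg.IsFrobeniusComplement C ∧ (Nat.card C).Prime := by
  have hnt : Nontrivial H := by
    obtain ⟨g, hg⟩ := exists_orderOf_eq_prime hp hpd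
    refine ⟨⟨g, 1, ?_⟩⟩
    rintro rfl
    rw [orderOf_one] at hg
    exact hp.ne_one hg.symm
  obtain ⟨N, hNn, hN, hNc⟩ := exists_normal_abelian H hsol
  obtain ⟨n₀, hn₀, hn₀1⟩ : ∃ n ∈ N, n ≠ 1 := by
    by_contra hcon
    push Not at hcon
    exact hN ((Subgroup.eq_bot_iff_forall _).mpr hcon)
  have gen : ∀ r r' : ℕ, r.Prime → r'.Prime → r ≠ r' → r' ∣ Nat.card H →
      (∀ g : H, orderOf g = 1 ∨ orderOf g = r ∨ orderOf g = r') → orderOf n₀ = r →
      ∃ C : Subgroup H, Cfsg.IsFrobeniusComplement C ∧ (Nat.card C).Prime := by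
    intro r r' hr hr' hne hrd' hord' hn₀o
    have hNr : ∀ a ∈ N, a ^ r = 1 := by
      intro a ha
      rcases hord' a with h | h | h
      · rw [orderOf_eq_one_iff.mp h, one_pow]
      · rw [← h]; exact pow_orderOf_eq_one a
      · exfalso
        have hc : Commute n₀ a := hNc n₀ hn₀ a ha
        have h2 := hc.orderOf_mul_eq_mul_orderOf_of_coprime
          (by rw [hn₀o, h]; exact (Nat.coprime_primes hr hr').mpr hne)
        rw [hn₀o, h] at h2
        have := hr.two_le
        have := hr'.two_le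
        rcases hord' (n₀ * a) with h3 | h3 | h3 <;> rw [h3] at h2 <;> nlinarith
    obtain ⟨C, hC, hCc⟩ := epo_core hr hr' hne hord' hrd' N hN hNc hNr
    exact ⟨C, hC, by rw [hCc]; exact hr'⟩
  rcases hord n₀ with h | h | h
  · exact absurd (orderOf_eq_one_iff.mp h) hn₀1
  · exact gen p q hp hq hpq hqd hord h
  · refine gen q p hq hp (Ne.symm hpq) hpd (fun g => ?_) h
    rcases hord g with h | h | h
    · exact Or.inl h
    · exact Or.inr (Or.inr h)
    · exact Or.inr (Or.inl h)

end EPO

end Cfsg.Agent.Helper27.SO
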