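import Mathlib
import Cfsg.Agent.Helper3.Burnside2
import Cfsg.Agent.Helper27.SameOrderB
import Cfsg.Agent.Helper27.SameOrderC

/-!
# Groups whose same-order classes have three sizes: two odd primes (helper27)
-/

set_option autoImplicit false
set_option linter.unusedSectionVars false
set_option linter.unusedVariables false

namespace Cfsg.Agent.Helper27.SO

section Two

variable {H : Type*} [Group H] [Finite H]

/-- The hypothesis "exactly three values" unpacked. -/
theorem three_values
    (h3 : ((fun m : ℕ => Nat.card {g : H // orderOf g = m}) ''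
      Set.range (orderOf : H → ℕ)).ncard = 3) :
    ∃ a b : ℕ, a ≠ b ∧ a ≠ 1 ∧ b ≠ 1 ∧ a ≠ 0 ∧ b ≠ 0 ∧
      ∀ m, sc H m = 0 ∨ sc H m = 1 ∨ sc H m = a ∨ sc H m = b := by
  obtain ⟨x, y, z, hxy, hxz, hyz, hS⟩ := Set.ncard_eq_three.mp h3
  have h1 : (1 : ℕ) ∈ ((fun m : ℕ => Nat.card {g : H // orderOf g = m}) ''
      Set.range (orderOf : H → ℕ)) := ⟨1, ⟨1, orderOf_one⟩, sc_one⟩
  have hmem : ∀ m, sc H m = 0 ∨ sc H m = x ∨ sc H m = y ∨ sc H m = z := by
    intro m
    by_cases h0 : sc H m = 0
    · exact Or.inl h0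
    · right
      obtain ⟨g, hg⟩ := exists_of_sc_ne_zero h0
      have : sc H m ∈ ((fun m : ℕ => Nat.card {g : H // orderOf g = m}) ''
          Set.range (orderOf : H → ℕ)) := ⟨m, ⟨g, hg⟩, rfl⟩
      rw [hS] at this
      simpa using this
  have hnz : ∀ w, w ∈ ((fun m : ℕ => Nat.card {g : H // orderOf g = m}) ''
      Set.range (orderOf : H → ℕ)) → w ≠ 0 := by
    rintro w ⟨m, ⟨g, hg⟩, rfl⟩
    exact sc_ne_zero g hg
  have hx0 : x ≠ 0 := hnz x (by rw [hS]; simp)
  have hy0 : y ≠ 0 := hnz y (by rw [hS]; simp)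
  have hz0 : z ≠ 0 := hnz z (by rw [hS]; simp)
  rw [hS] at h1
  simp only [Set.mem_insert_iff, Set.mem_singleton_iff] at h1
  rcases h1 with h1 | h1 | h1
  · refine ⟨y, z, hyz, ?_, ?_, hy0, hz0, ?_⟩
    · omega
    · omega
    · intro m
      rcases hmem m with h | h | h | h <;> omega
  · refine ⟨x, z, hxz, ?_, ?_, hx0, hz0, ?_⟩
    · omega
    · omega
    · intro m
      rcases hmem m with h | h | h | h <;> omega
  · refine ⟨x, y, hxy, ?_, ?_, hx0, hy0, ?_⟩
    · omega
    · omega
    · intro m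
      rcases hmem m with h | h | h | h <;> omega

theorem hV_of_values {a b : ℕ}
    (h : ∀ m, sc H m = 0 ∨ sc H m = 1 ∨ sc H m = a ∨ sc H m = b) :
    ∀ m, 3 ≤ m → sc H m = 0 ∨ sc H m = a ∨ sc H m = b := by
  intro m hm
  rcases h m with h | h | h | h
  · exact Or.inl h
  · have := even_sc (H := H) hm
    rw [h] at this
    exact absurd this (by decide)
  · exact Or.inr (Or.inl h)
  · exact Or.inr (Or.inr h)

/-- Two odd primes of different colours: no element of order `p q`. -/
theorem sc_mul_eq_zero_of_ne {a b : ℕ}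
    (hV : ∀ m, 3 ≤ m → sc H m = 0 ∨ sc H m = a ∨ sc H m = b)
    {p q : ℕ} (hp : p.Prime) (hq : q.Prime) (hpq : p ≠ q) (hp2 : p ≠ 2) (hq2 : q ≠ 2)
    (hpd : p ∣ Nat.card H) (hqd : q ∣ Nat.card H) (hne : sc H p ≠ sc H q) :
    sc H (p * q) = 0 := by
  have hp3 : 3 ≤ p := by have := hp.two_le; omega
  have hq3 : 3 ≤ q := by have := hq.two_le; omega
  have hpm := sc_prime_mem hV hp hp2 hpd
  have hqm := sc_prime_mem hV hq hq2 hqd
  rcases revalue hpm hqm (Ne.symm hne) (hV (p * q) (by nlinarith)) with h | h | h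
  · exact h
  · exfalso
    have hnd : ¬ p ∣ sc H (p * q) := by
      intro hd
      have h1 := zmod_of_dvd hd
      rw [h, prime_cong hp hpd] at h1
      exact neg_one_ne_zero_zmod hp h1
    have h2 := two_mul_sc_le hp hq hpq hq3 hnd
    have h3 := sc_prime_ne_zero (H := H) hp hpd
    omega
  · exfalso
    have hnd : ¬ q ∣ sc H (q * p) := by
      intro hd
      have h1 := zmod_of_dvd hd
      rw [mul_comm q p, h, prime_cong hq hqd] at h1
      exact neg_one_ne_zero_zmod hq h1
    have h2 := two_mul_sc_le hq hp (Ne.symm hpq) hp3 hnd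
    rw [mul_comm q p] at h2
    have h3 := sc_prime_ne_zero (H := H) hq hqd
    omega

/-- Two odd primes of different colours: no element of order `p²`. -/
theorem sc_sq_eq_zero_of_ne {a b : ℕ}
    (hV : ∀ m, 3 ≤ m → sc H m = 0 ∨ sc H m = a ∨ sc H m = b)
    {p q : ℕ} (hp : p.Prime) (hq : q.Prime) (hpq : p ≠ q) (hp2 : p ≠ 2) (hq2 : q ≠ 2)
    (hpd : p ∣ Nat.card H) (hqd : q ∣ Nat.card H) (hne : sc H p ≠ sc H q) :
    sc H (p ^ 2) = 0 := by
  by_contra hne2
  have hp3 : 3 ≤ p := by have := hp.two_le; omega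
  have hq3 : 3 ≤ q := by have := hq.two_le; omega
  have hpm := sc_prime_mem hV hp hp2 hpd
  have hqm := sc_prime_mem hV hq hq2 hqd
  have hpq0 := sc_mul_eq_zero_of_ne hV hp hq hpq hp2 hq2 hpd hqd hne
  obtain ⟨g, hg⟩ := exists_of_sc_ne_zero hne2
  have hd : p ^ 2 ∣ Nat.card H := by rw [← hg]; exact orderOf_dvd_natCard g
  have h1 := sq_cong hp hd
  have h2 := sq_mul_cong hp hq hpq hd hqd
  have h3 : sc H (p ^ 2 * q) = 0 := by
    apply sc_eq_zero
    rintro ⟨x, hx⟩
    have h4 : orderOf (x ^ p) = p * q := by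
      rw [orderOf_pow_of_dvd hp.ne_zero (by rw [hx]; exact Dvd.intro (p * q) (by ring)), hx,
        show p ^ 2 * q = p * (p * q) by ring, Nat.mul_div_cancel_left _ hp.pos]
    exact sc_ne_zero _ h4 hpq0
  rw [h3, Nat.cast_zero, add_zero] at h2
  rcases revalue hpm hqm (Ne.symm hne) (hV (p ^ 2) (by nlinarith)) with h | h | h
  · exact hne2 h
  · rw [h, prime_cong hp hpd] at h1
    exact neg_one_ne_zero_zmod hp h1
  · rw [h, prime_cong hq hqd] at h2
    exact neg_one_ne_zero_zmod hq h2

/-- If there are no elements of order `p q`, `p²`, `q²`, and `p`, `q` are the only prime divisors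
of `|H|`, every element has order `1`, `p` or `q`. -/
theorem orders_of_two_primes {p q : ℕ} (hp : p.Prime) (hq : q.Prime)
    (hpf : ∀ t : ℕ, t.Prime → t ∣ Nat.card H → t = p ∨ t = q)
    (hpq0 : sc H (p * q) = 0) (hpp0 : sc H (p ^ 2) = 0) (hqq0 : sc H (q ^ 2) = 0) (g : H) :
    orderOf g = 1 ∨ orderOf g = p ∨ orderOf g = q := by
  by_cases h1 : orderOf g = 1
  · exact Or.inl h1
  · right
    obtain ⟨t, ht, htd⟩ := Nat.exists_prime_and_dvd h1
    obtain ⟨m, hm⟩ := htd
    by_cases hm1 : m = 1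
    · rw [hm1, mul_one] at hm
      rcases hpf t ht (by rw [← hm]; exact orderOf_dvd_natCard g) with h | h
      · left; rw [hm, h]
      · right; rw [hm, h]
    · exfalso
      obtain ⟨t', ht', htd'⟩ := Nat.exists_prime_and_dvd hm1
      obtain ⟨m', hm'⟩ := htd'
      have hd : orderOf g = (t * t') * m' := by rw [hm, hm']; ring
      have hpos : 0 < orderOf g := orderOf_pos g
      have hm'pos : m' ≠ 0 := by
        rintro rfl
        rw [mul_zero] at hd
        omega
      have ho : orderOf (g ^ m') = t * t' := by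
        rw [orderOf_pow_of_dvd hm'pos ⟨t * t', by rw [hd]; ring⟩, hd,
          Nat.mul_div_cancel _ (Nat.pos_of_ne_zero hm'pos)]
      have htn : t ∣ Nat.card H := (Dvd.intro _ hm.symm).trans (orderOf_dvd_natCard g)
      have htn' : t' ∣ Nat.card H :=
        ((Dvd.intro _ hm'.symm).trans (Dvd.intro_left _ hm.symm)).trans (orderOf_dvd_natCard g)
      rcases hpf t ht htn with h | h <;> rcases hpf t' ht' htn' with h' | h'
      · rw [h, h', ← sq] at ho
        exact sc_ne_zero _ ho hpp0
      · rw [h, h'] at ho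
        exact sc_ne_zero _ ho hpq0
      · rw [h, h', mul_comm] at ho
        exact sc_ne_zero _ ho hpq0
      · rw [h, h', ← sq] at ho
        exact sc_ne_zero _ ho hqq0

theorem eq_pow_mul_pow {n p q : ℕ} (hn : n ≠ 0) (hpq : p ≠ q)
    (h : ∀ t : ℕ, t.Prime → t ∣ n → t = p ∨ t = q) :
    n = p ^ n.factorization p * q ^ n.factorization q := by
  conv_lhs => rw [← Nat.prod_factorization_pow_eq_self hn]
  rw [Finsupp.prod_of_support_subset (s := {p, q}) _ _ _ (fun i _ => pow_zero i),
    Finset.prod_pair hpq]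
  intro t ht
  rw [Nat.support_factorization] at ht
  have := h t (Nat.prime_of_mem_primeFactors ht) (Nat.dvd_of_mem_primeFactors ht)
  simp only [Finset.mem_insert, Finset.mem_singleton]
  exact this

/-- Burnside: a group whose order has at most the prime divisors `p`, `q` is solvable. -/
theorem solvable_of_two_primes {p q : ℕ} (hp : p.Prime) (hq : q.Prime) (hpq : p ≠ q)
    (h : ∀ t : ℕ, t.Prime → t ∣ Nat.card H → t = p ∨ t = q) : Group.IsSolvable H :=
  Cfsg.Agent.Helper3.isSolvable_of_card_eq p q _ _ hp hq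
    (eq_pow_mul_pow Nat.card_pos.ne' hpq h)

/-- Burnside: a group whose order has at most two prime divisors is solvable. -/
theorem solvable_of_primeFactors_card_le_two (h : (Nat.card H).primeFactors.card ≤ 2) :
    Group.IsSolvable H := by
  have key : ∃ p q : ℕ, p.Prime ∧ q.Prime ∧ p ≠ q ∧
      ∀ t : ℕ, t.Prime → t ∣ Nat.card H → t = p ∨ t = q := by
    have hmem : ∀ t : ℕ, t.Prime → t ∣ Nat.card H → t ∈ (Nat.card H).primeFactors :=
      fun t ht htd => Nat.mem_primeFactors.mpr ⟨ht, htd, Nat.card_pos.ne'⟩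
    rcases Nat.lt_or_ge (Nat.card H).primeFactors.card 2 with h2 | h2
    · rcases Nat.lt_or_ge (Nat.card H).primeFactors.card 1 with h1 | h1
      · have h0 : (Nat.card H).primeFactors = ∅ := Finset.card_eq_zero.mp (by omega)
        refine ⟨2, 3, Nat.prime_two, Nat.prime_three, by norm_num, ?_⟩
        intro t ht htd
        have := hmem t ht htd
        rw [h0] at this
        exact absurd this (Finset.notMem_empty t)
      · obtain ⟨p, hp⟩ := Finset.card_eq_one.mp (by omega : (Nat.card H).primeFactors.card = 1)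
        have hpp : p.Prime :=
          Nat.prime_of_mem_primeFactors (by rw [hp]; exact Finset.mem_singleton_self p)
        by_cases hp2 : p = 2
        · refine ⟨p, 3, hpp, Nat.prime_three, by omega, ?_⟩
          intro t ht htd
          have := hmem t ht htd
          rw [hp, Finset.mem_singleton] at this
          exact Or.inl this
        · refine ⟨p, 2, hpp, Nat.prime_two, hp2, ?_⟩
          intro t ht htd
          have := hmem t ht htd
          rw [hp, Finset.mem_singleton] at this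
          exact Or.inl this
    · obtain ⟨p, q, hpq, hS⟩ :=
        Finset.card_eq_two.mp (by omega : (Nat.card H).primeFactors.card = 2)
      refine ⟨p, q, Nat.prime_of_mem_primeFactors (by rw [hS]; simp),
        Nat.prime_of_mem_primeFactors (by rw [hS]; simp), hpq, ?_⟩
      intro t ht htd
      have := hmem t ht htd
      rw [hS] at this
      simpa using this
  obtain ⟨p, q, hp, hq, hpq, hpf⟩ := key
  exact solvable_of_two_primes hp hq hpq hpf

/-- **Odd order, two prime divisors**: all elements have order `1`, `p` or `q`. -/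
theorem odd_two_primes_orders (hodd : Odd (Nat.card H)) {a b : ℕ}
    (hV : ∀ m, 3 ≤ m → sc H m = 0 ∨ sc H m = a ∨ sc H m = b)
    {p q : ℕ} (hp : p.Prime) (hq : q.Prime) (hpq : p ≠ q)
    (hpd : p ∣ Nat.card H) (hqd : q ∣ Nat.card H)
    (hpf : ∀ t : ℕ, t.Prime → t ∣ Nat.card H → t = p ∨ t = q) (g : H) :
    orderOf g = 1 ∨ orderOf g = p ∨ orderOf g = q := by
  have hne2 : ∀ t : ℕ, t ∣ Nat.card H → t ≠ 2 := by
    rintro t htd rfl
    exact (Nat.not_even_iff_odd.mpr hodd) (even_iff_two_dvd.mpr htd)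
  have hp2 := hne2 p hpd
  have hq2 := hne2 q hqd
  have hne : sc H p ≠ sc H q := by
    intro hc
    apply not_card_dvd (H := H) hp hq hpq hqd
    apply dvd_of_forall_prime_pow Nat.card_pos.ne' (by omega)
    intro t ht htd
    rcases hpf t ht htd with rfl | rfl
    · exact pow_dvd_of_sq ht htd (sc_sq_eq_zero_of_same hV ht hq hpq hp2 hpd hqd hc)
    · have := pow_dvd_of_sq ht htd
        (sc_sq_eq_zero_of_same hV ht hp (Ne.symm hpq) hq2 hqd hpd hc.symm)
      rwa [← hc] at this
  exact orders_of_two_primes hp hq hpf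
    (sc_mul_eq_zero_of_ne hV hp hq hpq hp2 hq2 hpd hqd hne)
    (sc_sq_eq_zero_of_ne hV hp hq hpq hp2 hq2 hpd hqd hne)
    (sc_sq_eq_zero_of_ne hV hq hp (Ne.symm hpq) hq2 hp2 hqd hpd (Ne.symm hne)) g

end Two

end Cfsg.Agent.Helper27.SO
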