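import Mathlib
import Cfsg.Agent.Helper27.SameOrderD

/-!
# Groups whose same-order classes have three sizes: even order (helper27)
-/

set_option autoImplicit false
set_option linter.unusedSectionVars false
set_option linter.unusedVariables false

namespace Cfsg.Agent.Helper27.SO

section Even

variable {H : Type*} [Group H] [Finite H]

/-- `s_{s² q} + s_{s² p q} ≡ 0 (mod p)`. -/
theorem sq_mul_mul_cong {s p q : ℕ} (hs : s.Prime) (hp : p.Prime) (hq : q.Prime) (hsp : s ≠ p)
    (hsq : s ≠ q) (hpq : p ≠ q)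
    (hsd : s ^ 2 ∣ Nat.card H) (hpd : p ∣ Nat.card H) (hqd : q ∣ Nat.card H) :
    ((sc H (s ^ 2 * q) : ℕ) : ZMod p) + ((sc H (s ^ 2 * (p * q)) : ℕ) : ZMod p) = 0 := by
  have hcpq : p.Coprime q := (Nat.coprime_primes hp hq).mpr hpq
  have hcop : (s ^ 2).Coprime (p * q) :=
    Nat.Coprime.pow_left 2 (Nat.Coprime.mul_right ((Nat.coprime_primes hs hp).mpr hsp)
      ((Nat.coprime_primes hs hq).mpr hsq))
  have hsd1 : s ∣ Nat.card H := (dvd_pow_self s (by norm_num : 2 ≠ 0)).trans hsd
  have h := frob (H := H) (hcop.mul_dvd_of_dvd_of_dvd hsd (hcpq.mul_dvd_of_dvd_of_dvd hpd hqd))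
  rw [sum_div_mul hcop, Nat.sum_divisors_prime_pow hs] at h
  simp only [Finset.sum_range_succ, Finset.sum_range_zero, pow_zero, pow_one, zero_add,
    sum_div_mul hcpq, hp.sum_divisors, hq.sum_divisors, mul_one, one_mul, sc_one] at h
  have h2 := zmod_of_dvd (((dvd_mul_right p q).trans (dvd_mul_left (p * q) (s ^ 2))).trans h)
  have h3 := prime_cong hp hpd
  have h4 := pq_cong hp hq hpq hpd hqd
  have h5 := pq_cong hp hs (Ne.symm hsp) hpd hsd1
  have h6 := pqr_cong hp hs hq (Ne.symm hsp) hpq hsq hpd hsd1 hqd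
  have h7 := sq_mul_cong hs hp hsp hsd hpd
  rw [mul_comm p s] at h5
  rw [show p * (s * q) = s * (p * q) by ring] at h6
  push_cast at h2
  linear_combination h2 - h3 - h4 - h5 - h6 - h7

/-- **Case E1**: the number of involutions is not `1`. -/
theorem even_case_one {a b : ℕ} (hV : ∀ m, 3 ≤ m → sc H m = 0 ∨ sc H m = a ∨ sc H m = b)
    (h2 : sc H 2 = a ∨ sc H 2 = b) (h2d : 2 ∣ Nat.card H)
    {p q : ℕ} (hp : p.Prime) (hq : q.Prime) (hpq : p ≠ q) (hp2 : p ≠ 2) (hq2 : q ≠ 2)
    (hpd : p ∣ Nat.card H) (hqd : q ∣ Nat.card H) : False := by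
  have hp3 : 3 ≤ p := by have := hp.two_le; omega
  have hq3 : 3 ≤ q := by have := hq.two_le; omega
  have hodd2 : Odd (sc H 2) := by
    have h := frob (H := H) h2d
    rw [Nat.prime_two.sum_divisors, sc_one] at h
    rw [Nat.odd_iff]
    omega
  have hep := even_sc (H := H) hp3
  have heq := even_sc (H := H) hq3
  have hpm := sc_prime_mem hV hp hp2 hpd
  have hqm := sc_prime_mem hV hq hq2 hqd
  have hpne : sc H p ≠ sc H 2 := by
    intro h
    rw [h] at hep
    exact (Nat.not_even_iff_odd.mpr hodd2) hep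
  have hqne : sc H q ≠ sc H 2 := by
    intro h
    rw [h] at heq
    exact (Nat.not_even_iff_odd.mpr hodd2) heq
  have hc : sc H p = sc H q := by omega
  obtain ⟨-, hc0, hcc⟩ := pair_same hp hq hpq hp2 hpd hqd hc
  have hepq := even_sc (H := H) (show 3 ≤ p * q by nlinarith)
  have h3 : sc H (p * q) = sc H 2 := by
    rcases hV (p * q) (by nlinarith) with h | h | h <;> omega
  rw [h3] at hepq
  exact (Nat.not_even_iff_odd.mpr hodd2) hepq

/-- Two odd primes of the same colour force `4 ∣ |H|`. -/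
theorem four_dvd_of_same {a b : ℕ} (hV : ∀ m, 3 ≤ m → sc H m = 0 ∨ sc H m = a ∨ sc H m = b)
    {p q : ℕ} (hp : p.Prime) (hq : q.Prime) (hpq : p ≠ q) (hp2 : p ≠ 2) (hq2 : q ≠ 2)
    (hpd : p ∣ Nat.card H) (hqd : q ∣ Nat.card H) (hc : sc H p = sc H q) :
    4 ∣ Nat.card H := by
  by_contra h4
  have hp3 : 3 ≤ p := by have := hp.two_le; omega
  have hq3 : 3 ≤ q := by have := hq.two_le; omega
  obtain ⟨-, hc0, hcc⟩ := pair_same hp hq hpq hp2 hpd hqd hc
  have hbig : 3 * q ≤ p * q := Nat.mul_le_mul_right q hp3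
  have hbig' : p * 3 ≤ p * q := Nat.mul_le_mul_left p hq3
  have hepq := even_sc (H := H) (show 3 ≤ p * q by omega)
  have hcol : ∀ t : ℕ, t.Prime → t ∣ Nat.card H → t ≠ 2 → sc H t = sc H p := by
    intro t ht htd ht2
    by_cases htp : t = p
    · rw [htp]
    · by_cases htq : t = q
      · rw [htq]; exact hc.symm
      · exact triple_same hV hp hq ht hpq (Ne.symm htp) (Ne.symm htq) hp2 hq2 ht2 hpd hqd htd hc
  have hdvd : Nat.card H ∣ 2 * (1 + sc H p) := by
    apply dvd_of_forall_prime_pow Nat.card_pos.ne' (by omega)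
    intro t ht htd
    by_cases ht2 : t = 2
    · rw [ht2]
      have hle : (Nat.card H).factorization 2 ≤ 1 := by
        by_contra hgt
        apply h4
        have h5 : 2 ^ 2 ∣ Nat.card H :=
          (Nat.prime_two.pow_dvd_iff_le_factorization Nat.card_pos.ne').mpr (by omega)
        exact h5
      exact (pow_dvd_pow 2 hle).trans (by rw [pow_one]; exact dvd_mul_right 2 _)
    · have hsq : sc H (t ^ 2) = 0 := by
        by_cases htp : t = p
        · rw [htp]
          exact sc_sq_eq_zero_of_same hV hp hq hpq hp2 hpd hqd hc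
        · exact sc_sq_eq_zero_of_same hV ht hp htp ht2 htd hpd (hcol t ht htd ht2)
      have h5 := pow_dvd_of_sq ht htd hsq
      rw [hcol t ht htd ht2] at h5
      exact h5.trans (dvd_mul_left _ 2)
  have h1 := Nat.le_of_dvd (by omega) hdvd
  have h2 := sum_sc_le (H := H) {1, p, q, p * q}
  have hp1 := hp.one_lt
  have hq1 := hq.one_lt
  rw [Finset.sum_insert (by simp only [Finset.mem_insert, Finset.mem_singleton]; omega),
    Finset.sum_insert (by simp only [Finset.mem_insert, Finset.mem_singleton]; omega),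
    Finset.sum_insert (by simp only [Finset.mem_singleton]; omega),
    Finset.sum_singleton, sc_one] at h2
  obtain ⟨k, hk⟩ := hepq
  omega

/-- **Case E2a**: a unique involution and `4 ∣ |H|`. -/
theorem even_case_two_a {a b : ℕ} (hV : ∀ m, 3 ≤ m → sc H m = 0 ∨ sc H m = a ∨ sc H m = b)
    (h21 : sc H 2 = 1) (h4 : 4 ∣ Nat.card H)
    {p q : ℕ} (hp : p.Prime) (hq : q.Prime) (hpq : p ≠ q) (hp2 : p ≠ 2) (hq2 : q ≠ 2)
    (hpd : p ∣ Nat.card H) (hqd : q ∣ Nat.card H) : False := by
  have hp3 : 3 ≤ p := by have := hp.two_le; omega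
  have hq3 : 3 ≤ q := by have := hq.two_le; omega
  have h4' : 2 ^ 2 ∣ Nat.card H := h4
  have h2d : 2 ∣ Nat.card H := (by norm_num : 2 ∣ 4).trans h4
  have hbig : 3 * q ≤ p * q := Nat.mul_le_mul_right q hp3
  have hbig' : p * 3 ≤ p * q := Nat.mul_le_mul_left p hq3
  -- `s_4 ≡ 2 (mod 4)`
  have hf4 := frob (H := H) h4'
  rw [Nat.sum_divisors_prime_pow Nat.prime_two] at hf4
  simp only [Finset.sum_range_succ, Finset.sum_range_zero, pow_zero, pow_one, zero_add,
    sc_one, h21] at hf4
  have hs40 : sc H (2 ^ 2) ≠ 0 := by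
    intro h0
    rw [h0] at hf4
    omega
  have hpm := sc_prime_mem hV hp hp2 hpd
  have hqm := sc_prime_mem hV hq hq2 hqd
  have hcp := prime_cong hp hpd
  have hcq := prime_cong hq hqd
  have hsp := sq_mul_cong Nat.prime_two hp (Ne.symm hp2) h4' hpd
  have hsq := sq_mul_cong Nat.prime_two hq (Ne.symm hq2) h4' hqd
  by_cases hc : sc H p = sc H q
  · -- Claim A
    obtain ⟨hc1p, hc0, hcc⟩ := pair_same hp hq hpq hp2 hpd hqd hc
    obtain ⟨hc1q, -, -⟩ := pair_same hq hp (Ne.symm hpq) hq2 hqd hpd hc.symm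
    rw [mul_comm q p] at hc1q
    have hpqm : sc H (p * q) = a ∨ sc H (p * q) = b := by
      rcases hV (p * q) (by omega) with h | h | h
      · exact absurd h hc0
      · exact Or.inl h
      · exact Or.inr h
    have hV' : ∀ m, 3 ≤ m → sc H m = 0 ∨ sc H m = sc H p ∨ sc H m = sc H (p * q) :=
      fun m hm => revalue hpm hpqm hcc (hV m hm)
    rw [← hc] at hcq
    -- `s_{2p} = c`
    have h2p := pq_cong hp Nat.prime_two hp2 hpd h2d
    rw [h21, Nat.cast_one] at h2p
    have h2pc : sc H (p * 2) = sc H p := by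
      rcases hV' (p * 2) (by omega) with h | h | h
      · rw [h, Nat.cast_zero] at h2p
        exact absurd (by linear_combination h2p) (one_ne_zero_zmod hp)
      · exact h
      · rw [h, hc1p] at h2p
        exact absurd (by linear_combination h2p) (two_ne_zero_zmod hp hp2)
    -- `s_{2q} = c`
    have h2q := pq_cong hq Nat.prime_two hq2 hqd h2d
    rw [h21, Nat.cast_one] at h2q
    have h2qc : sc H (q * 2) = sc H p := by
      rcases hV' (q * 2) (by omega) with h | h | h
      · rw [h, Nat.cast_zero] at h2q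
        exact absurd (by linear_combination h2q) (one_ne_zero_zmod hq)
      · exact h
      · rw [h, hc1q] at h2q
        exact absurd (by linear_combination h2q) (two_ne_zero_zmod hq hq2)
    -- `s_{2pq} = c'`
    have h2pq := pqr_cong hp Nat.prime_two hq hp2 hpq (Ne.symm hq2) hpd h2d hqd
    rw [mul_comm 2 q, h2qc, hcp] at h2pq
    have h2pqc : sc H (p * (q * 2)) = sc H (p * q) := by
      rcases hV' (p * (q * 2)) (by nlinarith) with h | h | h
      · rw [h, Nat.cast_zero] at h2pq
        exact absurd (by linear_combination -h2pq) (one_ne_zero_zmod hp)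
      · rw [h, hcp] at h2pq
        exact absurd (by linear_combination -h2pq) (two_ne_zero_zmod hp hp2)
      · exact h
    -- `s_4 + s_{4p} = c + c'`
    have h4p : sc H (2 ^ 2) + sc H (2 ^ 2 * p) = sc H p + sc H (p * q) := by
      rcases hV' (2 ^ 2) (by norm_num) with h | h | h
      · exact absurd h hs40
      · rw [h, hcp] at hsp
        rcases hV' (2 ^ 2 * p) (by omega) with h' | h' | h'
        · rw [h', Nat.cast_zero] at hsp
          exact absurd (by linear_combination -hsp) (one_ne_zero_zmod hp)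
        · rw [h', hcp] at hsp
          exact absurd (by linear_combination -hsp) (two_ne_zero_zmod hp hp2)
        · rw [h, h']
      · rw [h, hc1p] at hsp
        rcases hV' (2 ^ 2 * p) (by omega) with h' | h' | h'
        · rw [h', Nat.cast_zero] at hsp
          exact absurd (by linear_combination hsp) (one_ne_zero_zmod hp)
        · rw [h, h', add_comm]
        · rw [h', hc1p] at hsp
          exact absurd (by linear_combination hsp) (two_ne_zero_zmod hp hp2)
    -- `s_{4q} ≠ 0`
    have h4q0 : sc H (2 ^ 2 * q) ≠ 0 := by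
      intro h0
      rw [h0, Nat.cast_zero, add_zero] at hsq
      rcases hV' (2 ^ 2) (by norm_num) with h | h | h
      · exact hs40 h
      · rw [h, hcq] at hsq
        exact neg_one_ne_zero_zmod hq hsq
      · rw [h, hc1q] at hsq
        exact one_ne_zero_zmod hq hsq
    -- `s_{4q} + s_{4pq} = c + c'`
    have hspq := sq_mul_mul_cong Nat.prime_two hp hq (Ne.symm hp2) (Ne.symm hq2) hpq h4' hpd hqd
    have h4pq : sc H (2 ^ 2 * q) + sc H (2 ^ 2 * (p * q)) = sc H p + sc H (p * q) := by
      rcases hV' (2 ^ 2 * q) (by omega) with h | h | h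
      · exact absurd h h4q0
      · rw [h, hcp] at hspq
        rcases hV' (2 ^ 2 * (p * q)) (by omega) with h' | h' | h'
        · rw [h', Nat.cast_zero] at hspq
          exact absurd (by linear_combination -hspq) (one_ne_zero_zmod hp)
        · rw [h', hcp] at hspq
          exact absurd (by linear_combination -hspq) (two_ne_zero_zmod hp hp2)
        · rw [h, h']
      · rw [h, hc1p] at hspq
        rcases hV' (2 ^ 2 * (p * q)) (by omega) with h' | h' | h'
        · rw [h', Nat.cast_zero] at hspq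
          exact absurd (by linear_combination hspq) (one_ne_zero_zmod hp)
        · rw [h, h', add_comm]
        · rw [h', hc1p] at hspq
          exact absurd (by linear_combination hspq) (two_ne_zero_zmod hp hp2)
    -- Frobenius at `4 p q`
    have hcpq : p.Coprime q := (Nat.coprime_primes hp hq).mpr hpq
    have hcop : (2 ^ 2).Coprime (p * q) :=
      Nat.Coprime.pow_left 2 (Nat.Coprime.mul_right
        ((Nat.coprime_primes Nat.prime_two hp).mpr (Ne.symm hp2))
        ((Nat.coprime_primes Nat.prime_two hq).mpr (Ne.symm hq2)))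
    have hf := frob (H := H) (hcop.mul_dvd_of_dvd_of_dvd h4' (hcpq.mul_dvd_of_dvd_of_dvd hpd hqd))
    rw [sum_div_mul hcop, Nat.sum_divisors_prime_pow Nat.prime_two] at hf
    simp only [Finset.sum_range_succ, Finset.sum_range_zero, pow_zero, pow_one, zero_add,
      sum_div_mul hcpq, hp.sum_divisors, hq.sum_divisors, mul_one, one_mul, sc_one] at hf
    have hf' := (Dvd.intro (p * q) rfl : 2 ^ 2 ∣ 2 ^ 2 * (p * q)).trans hf
    rw [mul_comm 2 p, mul_comm 2 q, show 2 * (p * q) = p * (q * 2) by ring, h2pc, h2qc, h2pqc,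
      h21, ← hc] at hf'
    have hep := even_sc (H := H) hp3
    obtain ⟨k, hk⟩ := hep
    omega
  · -- different colours
    have hpq0 := sc_mul_eq_zero_of_ne hV hp hq hpq hp2 hq2 hpd hqd hc
    have hV' : ∀ m, 3 ≤ m → sc H m = 0 ∨ sc H m = sc H p ∨ sc H m = sc H q :=
      fun m hm => revalue hpm hqm (Ne.symm hc) (hV m hm)
    have h1 := pq_cong hp hq hpq hpd hqd
    rw [hpq0, Nat.cast_zero, add_zero] at h1
    have h2 := pq_cong hq hp (Ne.symm hpq) hqd hpd
    rw [mul_comm q p, hpq0, Nat.cast_zero, add_zero] at h2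
    rcases hV' (2 ^ 2) (by norm_num) with h | h | h
    · exact hs40 h
    · rw [h, hcp] at hsp
      rcases hV' (2 ^ 2 * p) (by omega) with h' | h' | h'
      · rw [h', Nat.cast_zero] at hsp
        exact absurd (by linear_combination -hsp) (one_ne_zero_zmod hp)
      · rw [h', hcp] at hsp
        exact absurd (by linear_combination -hsp) (two_ne_zero_zmod hp hp2)
      · rw [h', h1] at hsp
        exact absurd (by linear_combination -hsp) (one_ne_zero_zmod hp)
    · rw [h, hcq] at hsq
      rcases hV' (2 ^ 2 * q) (by omega) with h' | h' | h'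
      · rw [h', Nat.cast_zero] at hsq
        exact absurd (by linear_combination -hsq) (one_ne_zero_zmod hq)
      · rw [h', h2] at hsq
        exact absurd (by linear_combination -hsq) (one_ne_zero_zmod hq)
      · rw [h', hcq] at hsq
        exact absurd (by linear_combination -hsq) (two_ne_zero_zmod hq hq2)

/-- **Case E2b**: a unique involution and `4 ∤ |H|`. -/
theorem even_case_two_b {a b : ℕ} (hV : ∀ m, 3 ≤ m → sc H m = 0 ∨ sc H m = a ∨ sc H m = b)
    (h21 : sc H 2 = 1) (h4 : ¬ 4 ∣ Nat.card H)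
    {p q : ℕ} (hp : p.Prime) (hq : q.Prime) (hpq : p ≠ q) (hp2 : p ≠ 2) (hq2 : q ≠ 2)
    (hpd : p ∣ Nat.card H) (hqd : q ∣ Nat.card H) : Group.IsSolvable H := by
  have hne : sc H p ≠ sc H q := fun hc => h4 (four_dvd_of_same hV hp hq hpq hp2 hq2 hpd hqd hc)
  have hpm := sc_prime_mem hV hp hp2 hpd
  have hqm := sc_prime_mem hV hq hq2 hqd
  have hpf : ∀ t : ℕ, t.Prime → t ∣ Nat.card H → t ≠ 2 → t = p ∨ t = q := by
    intro t ht htd ht2
    by_contra hcon
    push Not at hcon
    have htm := sc_prime_mem hV ht ht2 htd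
    have h5 : sc H t = sc H p ∨ sc H t = sc H q := by omega
    rcases h5 with h5 | h5
    · exact h4 (four_dvd_of_same hV ht hp hcon.1 ht2 hp2 htd hpd h5)
    · exact h4 (four_dvd_of_same hV ht hq hcon.2 ht2 hq2 htd hqd h5)
  -- the unique involution
  obtain ⟨hsub, ⟨⟨z, hz⟩⟩⟩ := Nat.card_eq_one_iff_unique.mp h21
  have hzc : ∀ g : H, g * z * g⁻¹ = z := by
    intro g
    have h5 : orderOf (g * z * g⁻¹) = 2 := by rw [orderOf_conj', hz]
    exact congrArg Subtype.val (hsub.elim ⟨g * z * g⁻¹, h5⟩ ⟨z, hz⟩)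
  have hN : (Subgroup.zpowers z).Normal := by
    constructor
    intro n hn g
    obtain ⟨k, rfl⟩ := Subgroup.mem_zpowers_iff.mp hn
    have h5 : g * z ^ k * g⁻¹ = (g * z * g⁻¹) ^ k := (conj_zpow (a := g) (b := z) (i := k)).symm
    rw [h5, hzc g]
    exact Subgroup.zpow_mem_zpowers z k
  have hNcard : Nat.card (Subgroup.zpowers z) = 2 := by rw [Nat.card_zpowers, hz]
  have hcard := Subgroup.card_eq_card_quotient_mul_card_subgroup (Subgroup.zpowers z)
  rw [hNcard] at hcard
  have hQ : Group.IsSolvable (H ⧸ Subgroup.zpowers z) := by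
    apply solvable_of_two_primes hp hq hpq
    intro t ht htd
    have htd' : t ∣ Nat.card H := by rw [hcard]; exact Dvd.dvd.mul_right htd 2
    apply hpf t ht htd'
    rintro rfl
    apply h4
    rw [hcard]
    obtain ⟨m, hm⟩ := htd
    exact ⟨m, by rw [hm]; ring⟩
  have hNs : Group.IsSolvable (Subgroup.zpowers z) := by
    apply solvable_of_primeFactors_card_le_two
    rw [hNcard, Nat.prime_two.primeFactors]
    simp
  exact Group.isSolvable_of_ker_le_range (Subgroup.zpowers z).subtype
    (QuotientGroup.mk' (Subgroup.zpowers z)) (by simp)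

theorem two_odd_primes {n : ℕ} (hc : ¬ n.primeFactors.card ≤ 2) :
    ∃ p q : ℕ, p.Prime ∧ q.Prime ∧ p ≠ q ∧ p ≠ 2 ∧ q ≠ 2 ∧ p ∣ n ∧ q ∣ n := by
  obtain ⟨x, y, z, hx, hy, hz, hxy, hxz, hyz⟩ :=
    Finset.two_lt_card_iff.mp (by omega : 2 < n.primeFactors.card)
  have hxp := Nat.prime_of_mem_primeFactors hx
  have hyp := Nat.prime_of_mem_primeFactors hy
  have hzp := Nat.prime_of_mem_primeFactors hz
  have hxd := Nat.dvd_of_mem_primeFactors hx
  have hyd := Nat.dvd_of_mem_primeFactors hy
  have hzd := Nat.dvd_of_mem_primeFactors hz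
  by_cases hx2 : x = 2
  · exact ⟨y, z, hyp, hzp, hyz, by omega, by omega, hyd, hzd⟩
  · by_cases hy2 : y = 2
    · exact ⟨x, z, hxp, hzp, hxz, hx2, by omega, hxd, hzd⟩
    · exact ⟨x, y, hxp, hyp, hxy, hx2, hy2, hxd, hyd⟩

/-- **Three same-order class sizes imply solvability.** -/
theorem solvable_of_three_values
    (h3 : ((fun m : ℕ => Nat.card {g : H // orderOf g = m}) ''
      Set.range (orderOf : H → ℕ)).ncard = 3) : Group.IsSolvable H := by
  obtain ⟨a, b, hab, ha1, hb1, ha0, hb0, hval⟩ := three_values h3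
  have hV := hV_of_values hval
  by_cases hc : (Nat.card H).primeFactors.card ≤ 2
  · exact solvable_of_primeFactors_card_le_two hc
  · by_cases hodd : Odd (Nat.card H)
    · exact absurd (odd_primeFactors_le_two hodd hV) hc
    · have h2d : 2 ∣ Nat.card H := even_iff_two_dvd.mp (Nat.not_odd_iff_even.mp hodd)
      obtain ⟨p, q, hp, hq, hpq, hp2, hq2, hpd, hqd⟩ := two_odd_primes hc
      by_cases h21 : sc H 2 = 1
      · by_cases h4 : 4 ∣ Nat.card H
        · exact (even_case_two_a hV h21 h4 hp hq hpq hp2 hq2 hpd hqd).elim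
        · exact even_case_two_b hV h21 h4 hp hq hpq hp2 hq2 hpd hqd
      · exfalso
        have h2ne : sc H 2 ≠ 0 := sc_prime_ne_zero Nat.prime_two h2d
        have h2m : sc H 2 = a ∨ sc H 2 = b := by
          rcases hval 2 with h | h | h | h
          · exact absurd h h2ne
          · exact absurd h h21
          · exact Or.inl h
          · exact Or.inr h
        exact even_case_one hV h2m h2d hp hq hpq hp2 hq2 hpd hqd

end Even

end Cfsg.Agent.Helper27.SO
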