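import Cfsg.Agent.Helper7.PermOf
import Cfsg.Agent.Helper7.M24Sets
import Cfsg.Agent.Helper26.GolaySextet

/-!
# The stabiliser of a sextet, I

The base sextet `S0` (the sextet of the tetrad `pt 0, …, pt 3`), transitivity of `M24` on
sextets, the order `138240` of a sextet stabiliser, and the action on the six tetrads: it induces
the full symmetric group, with kernel of order `192`.
-/

set_option autoImplicit false
open scoped Pointwise

namespace Cfsg.Agent.Helper27.Sextet

open Cfsg Cfsg.Agent.Helper7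

/-- masks of the six tetrads of the base sextet -/
def tetM : Fin 6 → ℕ := ![0xf, 0x1490, 0x98100, 0x342000, 0x400a40, 0x824020]

/-- the six tetrads of the base sextet -/
def tet (i : Fin 6) : Finset GolayPt := Helper7.setOf (tetM i)

/-- the base sextet -/
def S0 : Finset (Finset GolayPt) := Finset.univ.image tet

theorem tetM_lt : ∀ i, tetM i < 2 ^ 24 := by decide

theorem tetM_inj : ∀ i j, tetM i = tetM j → i = j := by decide

theorem tet_injective : Function.Injective tet :=
  fun i j h => tetM_inj i j (setOf_inj (tetM_lt i) (tetM_lt j) h)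

theorem mem_S0 {t : Finset GolayPt} : t ∈ S0 ↔ ∃ i, tet i = t := by
  simp [S0]

theorem tet_mem (i : Fin 6) : tet i ∈ S0 := mem_S0.mpr ⟨i, rfl⟩

theorem card_S0 : S0.card = 6 := by
  rw [S0, Finset.card_image_of_injective _ tet_injective]
  rfl

theorem wt_tetM : ∀ i, wt (tetM i) = 4 := by decide +kernel

theorem card_tet (i : Fin 6) : (tet i).card = 4 := by
  rw [tet, card_setOf, wt_tetM]

theorem tetM_union : ∀ i j, i ≠ j →
    inCode (tetM i ||| tetM j) = true ∧ wt (tetM i ||| tetM j) = 8 := by decide +kernel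

theorem tet_union (i j : Fin 6) (h : i ≠ j) : tet i ∪ tet j ∈ octads := by
  rw [tet, tet, ← setOf_or]
  have h1 := setOf_mem_wordsOfWeight (tetM_union i j h).1
  rw [(tetM_union i j h).2] at h1
  exact h1

theorem S0_mem : S0 ∈ sextets := by
  refine ⟨card_S0, ?_, ?_⟩
  · intro t ht
    obtain ⟨i, rfl⟩ := mem_S0.mp ht
    exact card_tet i
  · intro t ht u hu hne
    obtain ⟨i, rfl⟩ := mem_S0.mp ht
    obtain ⟨j, rfl⟩ := mem_S0.mp hu
    exact tet_union i j (fun e => hne (by rw [e]))

theorem tet_cover_idx : ∀ j < 24, ∃ i, (tetM i).testBit j = true := by decide +kernel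

theorem tet_cover (q : GolayPt) : ∃ i, q ∈ tet i := by
  obtain ⟨i, hi⟩ := tet_cover_idx (idx q) (idx_lt q)
  exact ⟨i, mem_setOf.mpr hi⟩

/-! ### Transitivity and the order of the stabiliser -/

theorem smul_mem_sextets {g : Equiv.Perm GolayPt} (hg : g ∈ M24) {S : Finset (Finset GolayPt)}
    (hS : S ∈ sextets) : g • S ∈ sextets := by
  obtain ⟨h6, h4, hun⟩ := hS
  refine ⟨by rw [Finset.card_smul_finset]; exact h6, ?_, ?_⟩
  · intro t ht
    obtain ⟨t', ht', rfl⟩ := Finset.mem_smul_finset.1 ht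
    rw [Finset.card_smul_finset]; exact h4 t' ht'
  · intro t ht u hu hne
    obtain ⟨t', ht', rfl⟩ := Finset.mem_smul_finset.1 ht
    obtain ⟨u', hu', rfl⟩ := Finset.mem_smul_finset.1 hu
    rw [← Finset.smul_finset_union]
    exact smul_mem_wordsOfWeight hg (hun t' ht' u' hu' (fun e => hne (by rw [e])))

/-- `M24` is transitive on the sextets. -/
theorem exists_smul_S0 {S : Finset (Finset GolayPt)} (hS : S ∈ sextets) :
    ∃ u ∈ M24, u • S0 = S := by
  have hne : S.Nonempty := by
    rw [← Finset.card_pos, hS.1]; norm_num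
  obtain ⟨t, ht⟩ := hne
  have h4 := hS.2.1 t ht
  obtain ⟨u, hu, e⟩ := m24_lists (l := (tet 0).toList) (l' := t.toList)
    (by rw [Finset.length_toList, Finset.length_toList, card_tet, h4])
    (by rw [Finset.length_toList, card_tet]; norm_num)
    (Finset.nodup_toList _) (Finset.nodup_toList _)
  have e' : u • tet 0 = t := smul_finset_eq_of_map_toList e
  refine ⟨u, hu, ?_⟩
  have h1 : u • S0 ∈ sextets := smul_mem_sextets hu S0_mem
  have h2 : t ∈ u • S0 := by
    rw [← e']; exact Finset.smul_mem_smul_finset (tet_mem 0)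
  rw [Helper26.eq_sextetOf h1 h2, Helper26.eq_sextetOf hS ht]

theorem orbit_eq {S : Finset (Finset GolayPt)} (hS : S ∈ sextets) :
    MulAction.orbit (↥M24) S = sextets := by
  ext X
  constructor
  · rintro ⟨g, rfl⟩
    exact smul_mem_sextets g.2 hS
  · intro hX
    obtain ⟨u, hu, rfl⟩ := exists_smul_S0 hS
    obtain ⟨w, hw, rfl⟩ := exists_smul_S0 hX
    refine ⟨⟨w * u⁻¹, M24.mul_mem hw (M24.inv_mem hu)⟩, ?_⟩
    show (w * u⁻¹) • u • S0 = w • S0
    rw [mul_smul, inv_smul_smul]

/-- A sextet stabiliser has order `138240`. -/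
theorem card_stab {S : Finset (Finset GolayPt)} (hS : S ∈ sextets) :
    Nat.card ↥(MulAction.stabilizer (↥M24) S) = 138240 := by
  have hos : Nat.card (MulAction.orbit (↥M24) S) * Nat.card (MulAction.stabilizer (↥M24) S)
      = Nat.card ↥M24 := by
    rw [Subgroup.card_eq_card_quotient_mul_card_subgroup (MulAction.stabilizer (↥M24) S),
      Nat.card_congr (MulAction.orbitEquivQuotientStabilizer (↥M24) S)]
  rw [orbit_eq hS, Nat.card_coe_set_eq, Helper26.sextets_ncard, card_M24] at hos
  omega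

/-! ### The action on the tetrads -/

/-- the permutation of the tetrads induced by a permutation stabilising the sextet -/
def actPerm (S : Finset (Finset GolayPt)) (g : Equiv.Perm GolayPt) (hg : g • S = S) :
    Equiv.Perm ↥S where
  toFun t := ⟨g • (t : Finset GolayPt), by
    have h := Finset.smul_mem_smul_finset (a := g) t.2
    rw [hg] at h
    exact h⟩
  invFun t := ⟨g⁻¹ • (t : Finset GolayPt), by
    have hg' : g⁻¹ • S = S := by rw [inv_smul_eq_iff, hg]
    have h := Finset.smul_mem_smul_finset (a := g⁻¹) t.2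
    rw [hg'] at h
    exact h⟩
  left_inv t := Subtype.ext (inv_smul_smul g _)
  right_inv t := Subtype.ext (smul_inv_smul g _)

/-- the action of the stabiliser on the tetrads, as a homomorphism -/
def actHom (S : Finset (Finset GolayPt)) :
    ↥(MulAction.stabilizer (↥M24) S) →* Equiv.Perm ↥S where
  toFun x := actPerm S (x : ↥M24) (MulAction.mem_stabilizer_iff.mp x.2)
  map_one' := by
    refine Equiv.ext (fun t => Subtype.ext ?_)
    show (1 : Equiv.Perm GolayPt) • (t : Finset GolayPt) = t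
    rw [one_smul]
  map_mul' x y := by
    refine Equiv.ext (fun t => Subtype.ext ?_)
    show ((x : ↥M24) * (y : ↥M24) : Equiv.Perm GolayPt) • (t : Finset GolayPt) =
      ((x : ↥M24) : Equiv.Perm GolayPt) • ((y : ↥M24) : Equiv.Perm GolayPt) • (t : Finset GolayPt)
    rw [mul_smul]

theorem actHom_apply (S : Finset (Finset GolayPt)) (x : ↥(MulAction.stabilizer (↥M24) S))
    (t : ↥S) : ((actHom S x t : ↥S) : Finset GolayPt) =
      ((x : ↥M24) : Equiv.Perm GolayPt) • (t : Finset GolayPt) := rfl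

/-- tables of elements inducing the transpositions of the tetrads -/
def swL : List ℕ := [0x0, 0x75a549d6287dda348170118a161c8a, 0x8a5b5050a11de4731162559cc7a213, 0x8d862782f09b82c3292822ca7ad1b2, 0xb825485633795a40a868389cc49976, 0x199b54501078a4cb11733a42a895d7, 0x75a549d6287dda348170118a161c8a, 0x0, 0x2d9b5251cc3de5333d2a42e3000823, 0x8988c79cb09dd4d4d2c8aadd218440, 0xbb2547d5d3445ab558f0310a900c41, 0x65a547d48881da55dcd38a54e08043, 0x8a5b5050a11de4731162559cc7a213, 0x2d9b5251cc3de5333d2a42e3000823, 0x0, 0x75a1393eeda150a31d3522e2c08860, 0x2ce954ca36339aa7920b622e710061, 0x826b42b51773e4c5aad121a6710c20, 0x8d862782f09b82c3292822ca7ad1b2, 0x8988c79cb09dd4d4d2c8aadd218440, 0x75a1393eeda150a31d3522e2c08860, 0x0, 0x8c8d69aeef8392aa1ea8234ac08c02, 0x6acb79ba90456244a8cf3da4c10061, 0xb825485633795a40a868389cc49976, 0xbb2547d5d3445ab558f0310a900c41, 0x2ce954ca36339aa7920b622e710061, 0x8c8d69aeef8392aa1ea8234ac08c02, 0x0, 0x5c6547d4d09a5a7712e8516cc10061, 0x199b54501078a4cb11733a42a895d7,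 0x65a547d48881da55dcd38a54e08043, 0x826b42b51773e4c5aad121a6710c20, 0x6acb79ba90456244a8cf3da4c10061, 0x5c6547d4d09a5a7712e8516cc10061, 0x0]

/-- the table for the transposition `(i j)` -/
def swC (i j : Fin 6) : ℕ := swL.getD (6 * i.val + j.val) 0

theorem swC_ok : ∀ i j : Fin 6, i ≠ j → codeM24 (swC i j) = true ∧
    ∀ k : Fin 6, pm (swC i j) (tetM k) = tetM (Equiv.swap i j k) := by decide +kernel

theorem tbl_of_ok {c : ℕ} (h : codeM24 c = true) : IsTbl (permOf c) c := by
  rw [codeM24, Bool.and_eq_true] at h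
  exact isTbl_permOf h.1

theorem swap_elt (i j : Fin 6) (hij : i ≠ j) :
    ∃ g ∈ M24, ∀ k, g • tet k = tet (Equiv.swap i j k) := by
  have h := swC_ok i j hij
  refine ⟨permOf (swC i j), permOf_mem_M24 h.1, fun k => ?_⟩
  have ht : IsTbl (permOf (swC i j)) (swC i j) := tbl_of_ok h.1
  rw [tet, ← setOf_pm ht, h.2 k]
  rfl

theorem exists_idx {u : Equiv.Perm GolayPt} (t : ↥(u • S0)) :
    ∃ k, (t : Finset GolayPt) = u • tet k := by
  obtain ⟨y, hy, e⟩ := Finset.mem_smul_finset.mp t.2
  obtain ⟨k, rfl⟩ := mem_S0.mp hy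
  exact ⟨k, e.symm⟩

/-- the subgroup of permutations of the tetrads induced by the stabiliser -/
def indSub (S : Finset (Finset GolayPt)) : Subgroup (Equiv.Perm ↥S) where
  carrier := {e | ∃ g ∈ MulAction.stabilizer (↥M24) S, ∀ t : ↥S,
    (g : Equiv.Perm GolayPt) • (t : Finset GolayPt) = ((e t : ↥S) : Finset GolayPt)}
  mul_mem' := by
    rintro e₁ e₂ ⟨g₁, hg₁, h₁⟩ ⟨g₂, hg₂, h₂⟩
    refine ⟨g₁ * g₂, mul_mem hg₁ hg₂, fun t => ?_⟩
    rw [Subgroup.coe_mul, mul_smul, h₂ t, h₁ (e₂ t)]
    rfl
  one_mem' := ⟨1, one_mem _, fun t => by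
    rw [Subgroup.coe_one, one_smul]
    rfl⟩
  inv_mem' := by
    rintro e ⟨g, hg, h⟩
    refine ⟨g⁻¹, inv_mem hg, fun t => ?_⟩
    have h1 := h (e.symm t)
    rw [Equiv.apply_symm_apply] at h1
    rw [Subgroup.coe_inv, inv_smul_eq_iff]
    exact h1.symm

theorem swap_mem {u : Equiv.Perm GolayPt} (hu : u ∈ M24) (t₁ t₂ : ↥(u • S0)) (hne : t₁ ≠ t₂) :
    Equiv.swap t₁ t₂ ∈ indSub (u • S0) := by
  obtain ⟨i, hi⟩ := exists_idx t₁
  obtain ⟨j, hj⟩ := exists_idx t₂
  have hij : i ≠ j := by
    rintro rfl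
    exact hne (Subtype.ext (hi.trans hj.symm))
  obtain ⟨g, hg, hgk⟩ := swap_elt i j hij
  have key : ∀ t : ↥(u • S0), (u * g * u⁻¹) • (t : Finset GolayPt) =
      ((Equiv.swap t₁ t₂ t : ↥(u • S0)) : Finset GolayPt) := by
    intro t
    obtain ⟨k, hk⟩ := exists_idx t
    rw [hk, mul_smul, mul_smul, inv_smul_smul, hgk k]
    by_cases h1 : t = t₁
    · have hki : k = i := by
        apply tet_injective
        apply MulAction.injective u
        show u • tet k = u • tet i
        rw [← hk, ← hi, h1]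
      rw [h1, hki, Equiv.swap_apply_left, Equiv.swap_apply_left, hj]
    · by_cases h2 : t = t₂
      · have hkj : k = j := by
          apply tet_injective
          apply MulAction.injective u
          show u • tet k = u • tet j
          rw [← hk, ← hj, h2]
        rw [h2, hkj, Equiv.swap_apply_right, Equiv.swap_apply_right, hi]
      · have hki : k ≠ i := by
          rintro rfl
          exact h1 (Subtype.ext (hk.trans hi.symm))
        have hkj : k ≠ j := by
          rintro rfl
          exact h2 (Subtype.ext (hk.trans hj.symm))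
        rw [Equiv.swap_apply_of_ne_of_ne hki hkj, Equiv.swap_apply_of_ne_of_ne h1 h2, hk]
  have hm : u * g * u⁻¹ ∈ M24 := M24.mul_mem (M24.mul_mem hu hg) (M24.inv_mem hu)
  have hst : (u * g * u⁻¹) • (u • S0) = u • S0 := by
    apply Finset.eq_of_subset_of_card_le
    · intro x hx
      obtain ⟨y, hy, rfl⟩ := Finset.mem_smul_finset.mp hx
      have h := key ⟨y, hy⟩
      rw [show (u * g * u⁻¹) • y = ((Equiv.swap t₁ t₂ ⟨y, hy⟩ : ↥(u • S0)) : Finset GolayPt)
        from h]
      exact Subtype.coe_prop _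
    · exact le_of_eq (Finset.card_smul_finset _ _).symm
  exact ⟨⟨u * g * u⁻¹, hm⟩, MulAction.mem_stabilizer_iff.mpr hst, key⟩

theorem indSub_top {u : Equiv.Perm GolayPt} (hu : u ∈ M24) : indSub (u • S0) = ⊤ := by
  rw [eq_top_iff, ← Equiv.Perm.closure_isSwap, Subgroup.closure_le]
  rintro σ ⟨x, y, hxy, rfl⟩
  exact swap_mem hu x y hxy

/-- The stabiliser of a sextet induces every permutation of its six tetrads. -/
theorem induces_all {S : Finset (Finset GolayPt)} (hS : S ∈ sextets) (e : Equiv.Perm ↥S) :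
    ∃ g ∈ MulAction.stabilizer (↥M24) S, ∀ t : ↥S,
      (g : Equiv.Perm GolayPt) • (t : Finset GolayPt) = ((e t : ↥S) : Finset GolayPt) := by
  obtain ⟨u, hu, rfl⟩ := exists_smul_S0 hS
  have h : e ∈ indSub (u • S0) := by
    rw [indSub_top hu]; trivial
  exact h

theorem actHom_surjective {S : Finset (Finset GolayPt)} (hS : S ∈ sextets) :
    Function.Surjective (actHom S) := by
  intro e
  obtain ⟨g, hg, h⟩ := induces_all hS e
  refine ⟨⟨g, hg⟩, ?_⟩
  exact Equiv.ext (fun t => Subtype.ext (h t))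

/-- The kernel of the action on the tetrads has order `192`. -/
theorem card_ker {S : Finset (Finset GolayPt)} (hS : S ∈ sextets) :
    Nat.card ↥(actHom S).ker = 192 := by
  have h1 := Subgroup.card_eq_card_quotient_mul_card_subgroup (actHom S).ker
  have h2 : Nat.card (↥(MulAction.stabilizer (↥M24) S) ⧸ (actHom S).ker) = 720 := by
    rw [Nat.card_congr
      (QuotientGroup.quotientKerEquivOfSurjective _ (actHom_surjective hS)).toEquiv,
      Nat.card_eq_fintype_card, Fintype.card_perm, Fintype.card_coe, hS.1]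
    rfl
  rw [card_stab hS, h2] at h1
  omega

theorem mem_ker_iff {S : Finset (Finset GolayPt)} (x : ↥(MulAction.stabilizer (↥M24) S)) :
    x ∈ (actHom S).ker ↔ ∀ t ∈ S, ((x : ↥M24) : Equiv.Perm GolayPt) • t = t := by
  rw [MonoidHom.mem_ker]
  constructor
  · intro h t ht
    have h1 := congrArg (fun e : Equiv.Perm ↥S => ((e ⟨t, ht⟩ : ↥S) : Finset GolayPt)) h
    exact h1
  · intro h
    exact Equiv.ext (fun t => Subtype.ext (h t.1 t.2))

/-- The subgroup of a sextet stabiliser fixing every tetrad has order `192`. -/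
theorem card_fix_tetrads {S : Finset (Finset GolayPt)} (hS : S ∈ sextets) :
    Nat.card {g : ↥(MulAction.stabilizer (↥M24) S) //
      ∀ t ∈ S, ((g : ↥M24) : Equiv.Perm GolayPt) • t = t} = 192 := by
  rw [← card_ker hS]
  exact Nat.card_congr (Equiv.subtypeEquivRight (fun x => (mem_ker_iff x).symm))

end Cfsg.Agent.Helper27.Sextet
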