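import Mathlib
import Cfsg.Prelude.Def_Classical
import Cfsg.Agent.Helper6.BN
import Cfsg.Agent.Helper40.BNStD

/-! CALL S2547 (helper45), piece GPOW: if the rank-one cells have `p`-power size and cell sizes
multiply along reduced words, every cell `B n B / B` has `p`-power size. -/

set_option autoImplicit false

namespace Cfsg.Agent.Helper27.StGPOW

open Cfsg

section gen

open Cfsg.Agent.Helper6

variable {G : Type*} [Group G]

-- === PIECE GPOW ===
theorem p_GPOW [Finite G] (P : Cfsg.BNPair G) (p : ℕ)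
    (hmul : ∀ s ∈ P.S, ∀ n ∈ P.N, Pg P s n →
      Nat.card (MulAction.orbit ↥P.B (((s * n : G)) : G ⧸ P.B)) =
        Nat.card (MulAction.orbit ↥P.B ((s : G) : G ⧸ P.B)) *
          Nat.card (MulAction.orbit ↥P.B ((n : G) : G ⧸ P.B)))
    (h1 : ∀ s ∈ P.S, ∃ k : ℕ, Nat.card (MulAction.orbit ↥P.B ((s : G) : G ⧸ P.B)) = p ^ k) :
    ∀ n ∈ P.N, ∃ k : ℕ, Nat.card (MulAction.orbit ↥P.B ((n : G) : G ⧸ P.B)) = p ^ k := by
  have key : ∀ l : List (Wg P), Reduced (SW P) l → ∀ n ∈ P.N, proj P n = l.prod →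
      ∃ k : ℕ, Nat.card (MulAction.orbit ↥P.B ((n : G) : G ⧸ P.B)) = p ^ k := by
    intro l
    induction l with
    | nil =>
      intro _ n hn hpn
      rw [List.prod_nil, proj_eq_one_iff P hn] at hpn
      refine ⟨0, ?_⟩
      have hset : MulAction.orbit ↥P.B ((n : G) : G ⧸ P.B) = {((n : G) : G ⧸ P.B)} := by
        rw [Set.eq_singleton_iff_unique_mem]
        refine ⟨MulAction.mem_orbit_self _, ?_⟩
        intro y hy
        induction y using QuotientGroup.induction_on with
        | H x =>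
          have hx : x ∈ DC P n := (Cfsg.Agent.Helper40.BNSt.mem_orbit_iff P).mp hy
          have hxB : x ∈ P.B := mem_B_of_mem_DC P hpn hx
          rw [QuotientGroup.eq]
          exact P.B.mul_mem (P.B.inv_mem hxB) hpn
      rw [hset, pow_zero, Nat.card_coe_set_eq, Set.ncard_singleton]
    | cons x l ih =>
      intro hr n hn hpn
      have hx : x ∈ SW P := (isWord_cons.1 hr.1).1
      obtain ⟨s, hs, rfl⟩ := hx
      obtain ⟨n', hn', hpn'⟩ := proj_surj P l.prod
      obtain ⟨k', hk'⟩ := ih hr.tail n' hn' hpn'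
      have hPg : Pg P s n' := by
        have hmem := (exchFamily P).mem_of_reduced_cons hr
        rw [← hpn'] at hmem
        exact (mem_PsW_iff P hs hn').mp hmem
      obtain ⟨a, ha⟩ := h1 s hs
      have hsN := S_mem_N P hs
      have hproj : proj P n = proj P (s * n') := by
        rw [hpn, proj_mul P hsN hn', hpn', List.prod_cons]
      have hDC := DC_eq_of_proj_eq P hn (P.N.mul_mem hsN hn') hproj
      have horb : MulAction.orbit ↥P.B ((n : G) : G ⧸ P.B)
          = MulAction.orbit ↥P.B (((s * n' : G)) : G ⧸ P.B) := by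
        rw [MulAction.orbit_eq_iff, Cfsg.Agent.Helper40.BNSt.mem_orbit_iff, ← hDC]
        exact DC_self P n
      refine ⟨a + k', ?_⟩
      rw [horb, hmul s hs n' hn' hPg, ha, hk', pow_add]
  intro n hn
  obtain ⟨l, hl, hlp⟩ := exists_reduced_of_word (SW_gen P (proj P n))
  exact key l hl n hn hlp.symm

end gen

end Cfsg.Agent.Helper27.StGPOW
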