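import Mathlib
import Cfsg.Prelude.Def_Classical
import Cfsg.Agent.Helper6.BN
import Cfsg.Agent.Helper40.BNStD

/-! CALL S2547 (helper45), piece TRANS: transport of a Steinberg-type character along a group
isomorphism. -/

set_option autoImplicit false

namespace Cfsg.Agent.Helper27.StTRANS

open Cfsg

section gen

open Cfsg.Agent.Helper6

variable {G : Type*} [Group G]

-- === PIECE TRANS ===
theorem p_TRANS {G' : Type*} {H' : Type*} [Group G'] [Group H'] [Finite G'] (e : G' ≃* H')
    (p : ℕ) [Fact p.Prime]
    (h : ∃ χ : H' → ℂ, Cfsg.IsIrrCharacter H' χ ∧ ∀ P : Sylow p H', χ 1 = Nat.card P ∧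
      ∀ x : H', x ∈ P → x ≠ 1 → χ x = 0) :
    ∃ χ : G' → ℂ, Cfsg.IsIrrCharacter G' χ ∧ ∀ P : Sylow p G', χ 1 = Nat.card P ∧
      ∀ x : G', x ∈ P → x ≠ 1 → χ x = 0 := by
  classical
  obtain ⟨χ, ⟨n, ρ, hirr, hchar⟩, hχ⟩ := h
  haveI : Finite H' := Finite.of_equiv G' e.toEquiv
  refine ⟨fun g => χ (e g), ⟨n, ρ.comp e.toMonoidHom, ?_, ?_⟩, ?_⟩
  · let iso : Subrepresentation ρ ≃o
        Subrepresentation (ρ.comp e.toMonoidHom : Representation ℂ G' (Fin n → ℂ)) :=
      { toFun := fun W => ⟨W.toSubmodule, fun g v hv => W.apply_mem_toSubmodule (e g) hv⟩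
        invFun := fun W => ⟨W.toSubmodule, fun g v hv => by
          have h := W.apply_mem_toSubmodule (e.symm g) hv
          simpa using h⟩
        left_inv := fun W => rfl
        right_inv := fun W => rfl
        map_rel_iff' := Iff.rfl }
    exact (OrderIso.isSimpleOrder_iff iso).mp hirr
  · funext g
    rw [← hchar]
    rfl
  · intro P
    obtain ⟨Q, hQ⟩ : ∃ Q : Sylow p H',
        (Q : Subgroup H') = (P : Subgroup G').comap e.symm.toMonoidHom :=
      ⟨P.comapOfInjective e.symm.toMonoidHom e.symm.injective (by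
        rw [MonoidHom.range_eq_top.mpr e.symm.surjective]; exact le_top),
        Sylow.coe_comapOfInjective _ _ _ _⟩
    obtain ⟨h1, h2⟩ := hχ Q
    have hcard : Nat.card Q = Nat.card P := by
      rw [Sylow.card_eq_multiplicity Q, Sylow.card_eq_multiplicity P, Nat.card_congr e.toEquiv]
    refine ⟨?_, ?_⟩
    · show χ (e 1) = _
      rw [map_one, h1, hcard]
    · intro x hx hx1
      show χ (e x) = 0
      apply h2
      · have hmem : e x ∈ (Q : Subgroup H') := by
          rw [hQ, Subgroup.mem_comap]
          have hex : e.symm.toMonoidHom (e x) = x := e.symm_apply_apply x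
          rw [hex]
          exact hx
        exact hmem
      · intro hex
        apply hx1
        have := congrArg e.symm hex
        simpa using this

end gen

end Cfsg.Agent.Helper27.StTRANS
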