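import Mathlib
import Cfsg.Prelude.Def_Classical
import Cfsg.Agent.Helper6.BN
import Cfsg.Agent.Helper40.BNStD

/-! CALL S2547 (helper45), piece WEYLG: lifting Weyl-group elements through a multiplicative
pattern predicate. -/

set_option autoImplicit false

namespace Cfsg.Agent.Helper27.StWEYLG

open Cfsg

section gen

open Cfsg.Agent.Helper6

variable {G : Type*} [Group G]

-- === PIECE WEYLG ===
theorem p_WEYLG {I : Type*} (PatG : G → Equiv.Perm I → Prop)
    (hmul : ∀ g h π ρ, PatG g π → PatG h ρ → PatG (g * h) (π * ρ))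
    (hinv : ∀ g π, PatG g π → PatG g⁻¹ π⁻¹) (hone : PatG 1 1)
    {J : Type*} (sg : J → G) (sp : J → Equiv.Perm I) (hs : ∀ j, PatG (sg j) (sp j))
    (π : Equiv.Perm I) (hπ : π ∈ Subgroup.closure (Set.range sp)) :
    ∃ w ∈ Subgroup.closure (Set.range sg), PatG w π := by
  induction hπ using Subgroup.closure_induction with
  | mem x hx =>
    obtain ⟨j, rfl⟩ := hx
    exact ⟨sg j, Subgroup.subset_closure ⟨j, rfl⟩, hs j⟩
  | one => exact ⟨1, Subgroup.one_mem _, hone⟩
  | mul x y _ _ hx hy =>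
    obtain ⟨w, hw, hwx⟩ := hx
    obtain ⟨v, hv, hvy⟩ := hy
    exact ⟨w * v, Subgroup.mul_mem _ hw hv, hmul _ _ _ _ hwx hvy⟩
  | inv x _ hx =>
    obtain ⟨w, hw, hwx⟩ := hx
    exact ⟨w⁻¹, Subgroup.inv_mem _ hw, hinv _ _ hwx⟩

end gen

end Cfsg.Agent.Helper27.StWEYLG
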