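import Mathlib
import Cfsg.Agent.Helper89.Stem

/-!
# Stem extensions: the 2-part for an elementary abelian Sylow 2-subgroup of order 8 with a
Singer cycle (helper27)

If `a, b, c` are pairwise commuting involutions of `G` generating a subgroup of order `≥ 5`
(hence `8`), `16 ∤ |G|`, and `t` conjugates `a ↦ b ↦ c ↦ a * b`, then `2` does not divide the
order of the kernel of any finite stem extension of `G`.
-/

set_option autoImplicit false

namespace Cfsg.Agent.Helper27.StemSinger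

open Subgroup Cfsg.Agent.Helper89

/-- Lifts of `a, b, c` to a central extension commute pairwise. -/
theorem lift_comm3 {Γ G : Type*} [Group Γ] [Group G] (σ : Γ →* G) (hc : σ.ker ≤ center Γ)
    {a b c t : G} (hab : a * b = b * a) (hbc : b * c = c * b) (hac : a * c = c * a)
    (hta : t * a * t⁻¹ = b) (htb : t * b * t⁻¹ = c) (htc : t * c * t⁻¹ = a * b)
    {a' b' c' t' : Γ} (hA : σ a' = a) (hB : σ b' = b) (hC : σ c' = c) (hT : σ t' = t) :
    a' * b' = b' * a' ∧ b' * c' = c' * b' ∧ a' * c' = c' * a' := by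
  have cen : ∀ {k : Γ}, σ k = 1 → ∀ g, k * g = g * k := fun hk g =>
    (Subgroup.mem_center_iff.1 (hc (MonoidHom.mem_ker.2 hk)) g).symm
  have huK : σ (a' * b' * a'⁻¹ * b'⁻¹) = 1 := by
    rw [map_mul, map_mul, map_mul, map_inv, map_inv, hA, hB, hab]; group
  have hvK : σ (b' * c' * b'⁻¹ * c'⁻¹) = 1 := by
    rw [map_mul, map_mul, map_mul, map_inv, map_inv, hB, hC, hbc]; group
  have hwK : σ (a' * c' * a'⁻¹ * c'⁻¹) = 1 := by
    rw [map_mul, map_mul, map_mul, map_inv, map_inv, hA, hC, hac]; group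
  generalize hu : a' * b' * a'⁻¹ * b'⁻¹ = u at huK
  generalize hv : b' * c' * b'⁻¹ * c'⁻¹ = v at hvK
  generalize hw : a' * c' * a'⁻¹ * c'⁻¹ = w at hwK
  have huc := cen huK
  have hvc := cen hvK
  have hwc := cen hwK
  have hk₁ : σ (b'⁻¹ * (t' * a' * t'⁻¹)) = 1 := by
    rw [map_mul, map_mul, map_mul, map_inv, map_inv, hA, hB, hT, hta, inv_mul_cancel]
  have hk₂ : σ (c'⁻¹ * (t' * b' * t'⁻¹)) = 1 := by
    rw [map_mul, map_mul, map_mul, map_inv, map_inv, hB, hC, hT, htb, inv_mul_cancel]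
  have hk₃ : σ ((a' * b')⁻¹ * (t' * c' * t'⁻¹)) = 1 := by
    rw [map_mul, map_mul, map_mul, map_inv, map_inv, map_mul, hA, hB, hC, hT, htc,
      inv_mul_cancel]
  have e1 : t' * a' * t'⁻¹ = b' * (b'⁻¹ * (t' * a' * t'⁻¹)) := by group
  have e2 : t' * b' * t'⁻¹ = c' * (c'⁻¹ * (t' * b' * t'⁻¹)) := by group
  have e3 : t' * c' * t'⁻¹ = (a' * b') * ((a' * b')⁻¹ * (t' * c' * t'⁻¹)) := by group
  have hu1 : t' * u * t'⁻¹ = u := by rw [← huc t', mul_inv_cancel_right]
  have hv1 : t' * v * t'⁻¹ = v := by rw [← hvc t', mul_inv_cancel_right]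
  have hw1 : t' * w * t'⁻¹ = w := by rw [← hwc t', mul_inv_cancel_right]
  have hu2 : t' * u * t'⁻¹ = (t' * a' * t'⁻¹) * (t' * b' * t'⁻¹) * (t' * a' * t'⁻¹)⁻¹ *
      (t' * b' * t'⁻¹)⁻¹ := by rw [← hu]; group
  have hv2 : t' * v * t'⁻¹ = (t' * b' * t'⁻¹) * (t' * c' * t'⁻¹) * (t' * b' * t'⁻¹)⁻¹ *
      (t' * c' * t'⁻¹)⁻¹ := by rw [← hv]; group
  have hw2 : t' * w * t'⁻¹ = (t' * a' * t'⁻¹) * (t' * c' * t'⁻¹) * (t' * a' * t'⁻¹)⁻¹ *
      (t' * c' * t'⁻¹)⁻¹ := by rw [← hw]; group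
  -- `u = v`
  have huv : u = v := by
    rw [e1, e2, Stem.comm_central_mul (cen hk₁) (cen hk₂), hu1, hv] at hu2
    exact hu2
  -- `v = w⁻¹ * v⁻¹`
  have hvw : v = w⁻¹ * v⁻¹ := by
    rw [e2, e3, Stem.comm_central_mul (cen hk₂) (cen hk₃), hv1] at hv2
    have h1 : c' * (a' * b') * c'⁻¹ * (a' * b')⁻¹ = w⁻¹ * (a' * v⁻¹ * a'⁻¹) := by
      rw [← hw, ← hv]; group
    have h2 : a' * v⁻¹ * a'⁻¹ = v⁻¹ := by
      have : v⁻¹ * a' = a' * v⁻¹ := by
        rw [eq_mul_inv_iff_mul_eq, mul_assoc, ← hvc a', inv_mul_cancel_left]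
      rw [← this, mul_inv_cancel_right]
    rw [h1, h2] at hv2
    exact hv2
  -- `w = u⁻¹`
  have hwu : w = u⁻¹ := by
    rw [e1, e3, Stem.comm_central_mul (cen hk₁) (cen hk₃), hw1] at hw2
    have h1 : b' * (a' * b') * b'⁻¹ * (a' * b')⁻¹ = u⁻¹ := by
      rw [← hu]; group
    rw [h1] at hw2
    exact hw2
  have hv1' : v = 1 := by
    rw [hwu, inv_inv, huv, mul_inv_cancel] at hvw
    exact hvw
  have hu1' : u = 1 := huv.trans hv1'
  have hw1' : w = 1 := by rw [hwu, hu1', inv_one]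
  rw [hu1'] at hu
  rw [hv1'] at hv
  rw [hw1'] at hw
  refine ⟨?_, ?_, ?_⟩
  · calc a' * b' = a' * b' * a'⁻¹ * b'⁻¹ * (b' * a') := by group
      _ = b' * a' := by rw [hu, one_mul]
  · calc b' * c' = b' * c' * b'⁻¹ * c'⁻¹ * (c' * b') := by group
      _ = c' * b' := by rw [hv, one_mul]
  · calc a' * c' = a' * c' * a'⁻¹ * c'⁻¹ * (c' * a') := by group
      _ = c' * a' := by rw [hw, one_mul]

/-- Pairwise commuting elements generate a commutative subgroup. -/
theorem closure_comm3 {G : Type*} [Group G] {a b c : G} (hab : a * b = b * a)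
    (hbc : b * c = c * b) (hac : a * c = c * a) :
    ∀ x ∈ closure ({a, b, c} : Set G), ∀ y ∈ closure ({a, b, c} : Set G), x * y = y * x := by
  apply Stem.closure_comm
  intro x hx y hy
  simp only [Set.mem_insert_iff, Set.mem_singleton_iff] at hx hy
  rcases hx with rfl | rfl | rfl <;> rcases hy with rfl | rfl | rfl
  · rfl
  · exact hab
  · exact hac
  · exact hab.symm
  · rfl
  · exact hbc
  · exact hac.symm
  · exact hbc.symm
  · rfl

/-- A subgroup whose image lies in the group generated by `a, b, c` is commutative. -/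
theorem comm_of_map_le3 {Γ G : Type*} [Group Γ] [Group G] (σ : Γ →* G)
    (hσ : Function.Surjective σ) (hc : σ.ker ≤ center Γ)
    {a b c t : G} (hab : a * b = b * a) (hbc : b * c = c * b) (hac : a * c = c * a)
    (hta : t * a * t⁻¹ = b) (htb : t * b * t⁻¹ = c) (htc : t * c * t⁻¹ = a * b)
    (P : Subgroup Γ) (hP : P.map σ ≤ closure {a, b, c}) : ∀ x ∈ P, ∀ y ∈ P, x * y = y * x := by
  obtain ⟨a', hA⟩ := hσ a
  obtain ⟨b', hB⟩ := hσ b
  obtain ⟨c', hC⟩ := hσ c
  obtain ⟨t', hT⟩ := hσ t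
  obtain ⟨hab', hbc', hac'⟩ := lift_comm3 σ hc hab hbc hac hta htb htc hA hB hC hT
  have hcl := closure_comm3 hab' hbc' hac'
  have hdec : ∀ x ∈ P, ∃ y ∈ closure ({a', b', c'} : Set Γ), ∃ k : Γ, σ k = 1 ∧ x = y * k := by
    intro x hx
    have h1 : σ x ∈ (closure ({a', b', c'} : Set Γ)).map σ := by
      rw [MonoidHom.map_closure, Set.image_insert_eq, Set.image_pair, hA, hB, hC]
      exact hP (Subgroup.mem_map_of_mem σ hx)
    obtain ⟨y, hy, hyx⟩ := h1
    refine ⟨y, hy, y⁻¹ * x, ?_, by group⟩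
    rw [map_mul, map_inv, hyx, inv_mul_cancel]
  have cen : ∀ {k : Γ}, σ k = 1 → ∀ g, k * g = g * k := fun hk g =>
    (Subgroup.mem_center_iff.1 (hc (MonoidHom.mem_ker.2 hk)) g).symm
  intro x hx y hy
  obtain ⟨x₁, hx₁, k₁, hk₁, rfl⟩ := hdec x hx
  obtain ⟨y₁, hy₁, k₂, hk₂, rfl⟩ := hdec y hy
  have e := hcl x₁ hx₁ y₁ hy₁
  calc x₁ * k₁ * (y₁ * k₂) = x₁ * (k₁ * y₁) * k₂ := by group
    _ = x₁ * (y₁ * k₁) * k₂ := by rw [cen hk₁ y₁]
    _ = (x₁ * y₁) * (k₁ * k₂) := by group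
    _ = (y₁ * x₁) * (k₂ * k₁) := by rw [e, cen hk₁ k₂]
    _ = y₁ * (x₁ * k₂) * k₁ := by group
    _ = y₁ * (k₂ * x₁) * k₁ := by rw [cen hk₂ x₁]
    _ = y₁ * k₂ * (x₁ * k₁) := by group

/-- Sylow 2-subgroup of `G` elementary abelian of order 8 with a Singer cycle: `2` does not
divide the order of the kernel of a stem extension of `G`. -/
theorem two_not_dvd_card_ker_of_singer {Γ G : Type*} [Group Γ] [Finite Γ] [Group G] [Finite G]
    (σ : Γ →* G) (hσ : Function.Surjective σ) (hc : σ.ker ≤ center Γ)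
    (hd : σ.ker ≤ commutator Γ) (a b c t : G)
    (ha : a * a = 1) (hb : b * b = 1) (hcc : c * c = 1)
    (hab : a * b = b * a) (hbc : b * c = c * b) (hac : a * c = c * a)
    (ha1 : a ≠ 1) (hb1 : b ≠ 1) (hba : b ≠ a) (hc1 : c ≠ 1) (hca : c ≠ a) (hcb : c ≠ b)
    (hcab : c ≠ a * b)
    (hta : t * a * t⁻¹ = b) (htb : t * b * t⁻¹ = c) (htc : t * c * t⁻¹ = a * b)
    (hG : ¬ 2 ^ 4 ∣ Nat.card G) : ¬ 2 ∣ Nat.card σ.ker := by
  classical
  have hpp : Nat.Prime 2 := Nat.prime_two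
  have : Fact (Nat.Prime 2) := ⟨hpp⟩
  apply Stem.not_dvd_card_ker_of_comm σ hc hd 2
  intro P
  have hcl := closure_comm3 hab hbc hac
  have hexp : ∀ x ∈ closure ({a, b, c} : Set G), x * x = 1 := by
    intro x hx
    induction hx using Subgroup.closure_induction with
    | mem x hx =>
      simp only [Set.mem_insert_iff, Set.mem_singleton_iff] at hx
      rcases hx with rfl | rfl | rfl
      · exact ha
      · exact hb
      · exact hcc
    | one => exact one_mul 1
    | mul x y hx hy ihx ihy =>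
      calc x * y * (x * y) = x * (y * x) * y := by group
        _ = x * (x * y) * y := by rw [hcl x hx y hy]
        _ = (x * x) * (y * y) := by group
        _ = 1 := by rw [ihx, ihy, one_mul]
    | inv x hx ih =>
      rw [← mul_inv_rev, ih, inv_one]
  have hpg : IsPGroup 2 (closure ({a, b, c} : Set G)) := by
    intro g
    refine ⟨1, ?_⟩
    rw [pow_one, sq]
    exact Subtype.ext (hexp g g.2)
  obtain ⟨k, hk⟩ := IsPGroup.iff_card.1 hpg
  -- at least five elements
  have h5 : 5 ≤ Nat.card (closure ({a, b, c} : Set G)) := by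
    have hS : ({1, a, b, c, a * b} : Finset G).card = 5 := by
      rw [Finset.card_insert_of_notMem, Finset.card_insert_of_notMem,
        Finset.card_insert_of_notMem, Finset.card_insert_of_notMem, Finset.card_singleton]
      · simpa using hcab
      · simp only [Finset.mem_insert, Finset.mem_singleton, not_or]
        refine ⟨hcb.symm, fun h => ha1 ?_⟩
        exact mul_eq_right.1 h.symm
      · simp only [Finset.mem_insert, Finset.mem_singleton, not_or]
        refine ⟨hba.symm, hca.symm, fun h => hb1 ?_⟩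
        exact mul_eq_left.1 h.symm
      · simp only [Finset.mem_insert, Finset.mem_singleton, not_or]
        refine ⟨ha1.symm, hb1.symm, hc1.symm, fun h => hba ?_⟩
        calc b = a * a * b := by rw [ha, one_mul]
          _ = a * (a * b) := by group
          _ = a := by rw [← h, mul_one]
    have hsub : (({1, a, b, c, a * b} : Finset G) : Set G) ⊆
        ((closure ({a, b, c} : Set G) : Subgroup G) : Set G) := by
      intro x hx
      simp only [Finset.coe_insert, Finset.coe_singleton, Set.mem_insert_iff,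
        Set.mem_singleton_iff] at hx
      have hma : a ∈ closure ({a, b, c} : Set G) := subset_closure (by simp)
      have hmb : b ∈ closure ({a, b, c} : Set G) := subset_closure (by simp)
      have hmc : c ∈ closure ({a, b, c} : Set G) := subset_closure (by simp)
      rcases hx with rfl | rfl | rfl | rfl | rfl
      · exact one_mem _
      · exact hma
      · exact hmb
      · exact hmc
      · exact mul_mem hma hmb
    have h1 := Set.ncard_le_ncard hsub (Set.toFinite _)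
    rw [Set.ncard_coe_finset, hS] at h1
    rw [← Nat.card_coe_set_eq] at h1
    exact h1
  have hk3 : 3 ≤ k := by
    by_contra hcon
    have h1 : 2 ^ k ≤ 2 ^ 2 := Nat.pow_le_pow_right (by norm_num) (by omega)
    rw [hk] at h5
    omega
  obtain ⟨Q₀, hQ₀⟩ := hpg.exists_le_sylow
  obtain ⟨m, hm⟩ := IsPGroup.iff_card.1 Q₀.isPGroup'
  have hm3 : m ≤ 3 := by
    by_contra hcon
    have h1 : 2 ^ m ∣ Nat.card G := hm ▸ Subgroup.card_subgroup_dvd_card _
    exact hG ((pow_dvd_pow 2 (by omega : 4 ≤ m)).trans h1)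
  have hQeq : closure ({a, b, c} : Set G) = (Q₀ : Subgroup G) := by
    apply Subgroup.eq_of_le_of_card_ge hQ₀
    rw [hk, hm]
    exact Nat.pow_le_pow_right (by norm_num) (by omega)
  -- the image of `P` lies in a conjugate
  have hpgP : IsPGroup 2 ((P : Subgroup Γ).map σ) := P.isPGroup'.map σ
  obtain ⟨Q, hQ⟩ := hpgP.exists_le_sylow
  obtain ⟨g, hg⟩ := MulAction.exists_smul_eq G Q₀ Q
  have hmap : (P : Subgroup Γ).map σ ≤ closure {g * a * g⁻¹, g * b * g⁻¹, g * c * g⁻¹} := by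
    intro y hy
    have h1 : y ∈ (Q : Subgroup G) := hQ hy
    rw [← hg, Sylow.coe_subgroup_smul, Subgroup.mem_pointwise_smul_iff_inv_smul_mem,
      ← hQeq] at h1
    have h2 : (MulAut.conj g).toMonoidHom ((MulAut.conj g)⁻¹ • y) ∈
        (closure ({a, b, c} : Set G)).map (MulAut.conj g).toMonoidHom :=
      Subgroup.mem_map_of_mem _ h1
    rw [MonoidHom.map_closure, Set.image_insert_eq, Set.image_pair] at h2
    have e : g * (g⁻¹ * y * g) * g⁻¹ = y := by group
    have h3 : g * (g⁻¹ * y * g) * g⁻¹ ∈ closure {g * a * g⁻¹, g * b * g⁻¹, g * c * g⁻¹} := by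
      simpa [MulAut.smul_def] using h2
    rwa [e] at h3
  apply comm_of_map_le3 σ hσ hc (a := g * a * g⁻¹) (b := g * b * g⁻¹) (c := g * c * g⁻¹)
    (t := g * t * g⁻¹)
    (by
      calc g * a * g⁻¹ * (g * b * g⁻¹) = g * (a * b) * g⁻¹ := by group
        _ = g * (b * a) * g⁻¹ := by rw [hab]
        _ = g * b * g⁻¹ * (g * a * g⁻¹) := by group)
    (by
      calc g * b * g⁻¹ * (g * c * g⁻¹) = g * (b * c) * g⁻¹ := by group
        _ = g * (c * b) * g⁻¹ := by rw [hbc]
        _ = g * c * g⁻¹ * (g * b * g⁻¹) := by group)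
    (by
      calc g * a * g⁻¹ * (g * c * g⁻¹) = g * (a * c) * g⁻¹ := by group
        _ = g * (c * a) * g⁻¹ := by rw [hac]
        _ = g * c * g⁻¹ * (g * a * g⁻¹) := by group)
    (by
      calc g * t * g⁻¹ * (g * a * g⁻¹) * (g * t * g⁻¹)⁻¹ = g * (t * a * t⁻¹) * g⁻¹ := by group
        _ = g * b * g⁻¹ := by rw [hta])
    (by
      calc g * t * g⁻¹ * (g * b * g⁻¹) * (g * t * g⁻¹)⁻¹ = g * (t * b * t⁻¹) * g⁻¹ := by group
        _ = g * c * g⁻¹ := by rw [htb])
    (by
      calc g * t * g⁻¹ * (g * c * g⁻¹) * (g * t * g⁻¹)⁻¹ = g * (t * c * t⁻¹) * g⁻¹ := by group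
        _ = g * (a * b) * g⁻¹ := by rw [htc]
        _ = g * a * g⁻¹ * (g * b * g⁻¹) := by group)
    (P : Subgroup Γ) hmap

end Cfsg.Agent.Helper27.StemSinger
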