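import Mathlib

/-! CALL S5979 (helper98), piece COMB. -/

set_option autoImplicit false

namespace Cfsg.Agent.Helper27.TECOMB

open Matrix Polynomial
open scoped Kronecker

/-! ## Piece COMB -/
theorem comb_count {K : Type*} [Field K] {a b : ℕ} (ha : 2 ≤ a) (hb : 2 ≤ b)
    (lam : Fin a → K) (nu : Fin b → K)
    (hdist : ∀ p p' : Fin a × Fin b, p ≠ p' → lam p.1 * nu p.2 = lam p'.1 * nu p'.2 →
      lam p.1 * nu p.2 = 1)
    (hne : ∃ p : Fin a × Fin b, lam p.1 * nu p.2 ≠ 1) :
    Nat.card {p : Fin a × Fin b // lam p.1 * nu p.2 = 1} ≤ a := by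
  have _hb := hb
  have hnu : Function.Injective nu := by
    intro j j' hjj
    by_contra hne'
    have h1 : ∀ i, lam i * nu j = 1 := by
      intro i
      exact hdist (i, j) (i, j') (by simp [hne']) (by simp [hjj])
    obtain ⟨⟨i0, j0⟩, h0⟩ := hne
    have hex : ∃ i1 : Fin a, i1 ≠ i0 := by
      by_cases h : i0.val = 0
      · exact ⟨⟨1, by omega⟩, fun h' => by
          have := congrArg Fin.val h'
          simp at this
          omega⟩
      · exact ⟨⟨0, by omega⟩, fun h' => h (by rw [← h'])⟩
    obtain ⟨i1, hi1⟩ := hex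
    have hnz : nu j ≠ 0 := by
      intro hz
      have := h1 i0
      rw [hz, mul_zero] at this
      exact zero_ne_one this
    have hl : lam i0 = lam i1 := by
      have e0 := h1 i0
      have e1 := h1 i1
      exact mul_right_cancel₀ hnz (e0.trans e1.symm)
    apply h0
    exact hdist (i0, j0) (i1, j0) (by simp [Ne.symm hi1]) (by simp [hl])
  have hinj : Function.Injective
      (fun p : {p : Fin a × Fin b // lam p.1 * nu p.2 = 1} => p.1.1) := by
    rintro ⟨⟨i, j⟩, hp⟩ ⟨⟨i', j'⟩, hp'⟩ hii
    simp only at hii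
    subst hii
    simp only at hp hp'
    have hnz : lam i ≠ 0 := by
      intro hz
      rw [hz, zero_mul] at hp
      exact zero_ne_one hp
    have h2 : nu j = nu j' := mul_left_cancel₀ hnz (hp.trans hp'.symm)
    have h3 := hnu h2
    subst h3
    rfl
  have h4 := Nat.card_le_card_of_injective _ hinj
  simpa using h4

end Cfsg.Agent.Helper27.TECOMB
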