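import Mathlib

/-! CALL S5979 (helper98), piece KCH. -/

set_option autoImplicit false

namespace Cfsg.Agent.Helper27.TEKCH

open Matrix Polynomial
open scoped Kronecker

/-! ## Piece KCH -/
theorem kron_charpoly {K : Type*} [Field K] {a b : ℕ}
    (P P' : Matrix (Fin a) (Fin a) K) (Q Q' : Matrix (Fin b) (Fin b) K)
    (hP : P * P' = 1) (hP' : P' * P = 1) (hQ : Q * Q' = 1) (hQ' : Q' * Q = 1)
    (lam : Fin a → K) (nu : Fin b → K) :
    ((P * Matrix.diagonal lam * P') ⊗ₖ (Q * Matrix.diagonal nu * Q')).charpoly =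
      ∏ p : Fin a × Fin b, (X - C (lam p.1 * nu p.2)) := by
  have _h1 := hP
  have _h2 := hQ
  have h1 : (P * Matrix.diagonal lam * P') ⊗ₖ (Q * Matrix.diagonal nu * Q') =
      (P ⊗ₖ Q) * ((Matrix.diagonal lam ⊗ₖ Matrix.diagonal nu) * (P' ⊗ₖ Q')) := by
    rw [Matrix.mul_kronecker_mul, Matrix.mul_kronecker_mul, Matrix.mul_assoc]
  have h2 : (P' ⊗ₖ Q') * (P ⊗ₖ Q) = 1 := by
    rw [← Matrix.mul_kronecker_mul, hP', hQ', Matrix.one_kronecker_one]
  rw [h1, Matrix.charpoly_mul_comm, Matrix.mul_assoc, h2, Matrix.mul_one,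
    Matrix.diagonal_kronecker_diagonal, Matrix.charpoly_diagonal]

end Cfsg.Agent.Helper27.TEKCH
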