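import Mathlib

/-! CALL S5979 (helper98), piece ROOTS. -/

set_option autoImplicit false

namespace Cfsg.Agent.Helper27.TEROOTS

open Matrix Polynomial
open scoped Kronecker

/-! ## Piece ROOTS -/
theorem exists_roots {K : Type*} [Field K] [IsAlgClosed K] (r : ℕ) (hr0 : 0 < r)
    (hr : (r : K) ≠ 0) (s : K) (hs : s ≠ 0) :
    ∃ θ : Fin r → K, Function.Injective θ ∧ ∀ k, θ k ^ r = s := by
  classical
  have hsep : (X ^ r - C s : K[X]).Separable := separable_X_pow_sub_C s hr hs
  have hdeg : (X ^ r - C s : K[X]).natDegree = r := natDegree_X_pow_sub_C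
  have hne0 : (X ^ r - C s : K[X]) ≠ 0 := X_pow_sub_C_ne_zero hr0 s
  have hcard : Multiset.card (X ^ r - C s : K[X]).roots = r := by
    have h1 := IsAlgClosed.card_roots_eq_natDegree (k := K) (p := (X ^ r - C s : K[X]))
    rw [h1, hdeg]
  have hnodup : (X ^ r - C s : K[X]).roots.Nodup := nodup_roots hsep
  have hfin : (X ^ r - C s : K[X]).roots.toFinset.card = r := by
    rw [Multiset.toFinset_card_of_nodup hnodup, hcard]
  let e := Finset.equivFinOfCardEq hfin
  refine ⟨fun k => ((e.symm k : (X ^ r - C s : K[X]).roots.toFinset) : K), ?_, ?_⟩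
  · intro k k' hkk
    exact e.symm.injective (Subtype.ext hkk)
  · intro k
    have hmem : ((e.symm k : (X ^ r - C s : K[X]).roots.toFinset) : K) ∈
        (X ^ r - C s : K[X]).roots := Multiset.mem_toFinset.mp (e.symm k).2
    have hroot := (mem_roots hne0).mp hmem
    have h2 : ((e.symm k : (X ^ r - C s : K[X]).roots.toFinset) : K) ^ r - s = 0 := by
      simpa [IsRoot.def] using hroot
    exact sub_eq_zero.mp h2

end Cfsg.Agent.Helper27.TEROOTS
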