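import Mathlib

/-! CALL S5979 (helper98), piece XC1. -/

set_option autoImplicit false

namespace Cfsg.Agent.Helper27.TEXC1

open Matrix Polynomial
open scoped Kronecker

/-! ## Piece XC1 -/
theorem exists_elt_split {F : Type*} [Field F] [Fintype F] (r : ℕ) (hr : r.Prime) (hr2 : r ≠ 2)
    (hdvd : r ∣ Fintype.card F - 1) (n : ℕ) (hn : 2 ≤ n) :
    ∃ (x : Matrix (Fin n) (Fin n) F) (Φ : F[X]), x ^ r = 1 ∧ x.det = 1 ∧ Φ.Separable ∧
      Φ.eval 1 ≠ 0 ∧ Φ.natDegree = 2 ∧ x.charpoly = Φ * (X - 1) ^ (n - 2) := by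
  classical
  obtain ⟨k, rfl⟩ : ∃ k, n = k + 2 := ⟨n - 2, by omega⟩
  haveI : Fact r.Prime := ⟨hr⟩
  have hcard : r ∣ Fintype.card Fˣ := by
    rw [Fintype.card_units]
    exact hdvd
  obtain ⟨ζ, hζ⟩ := exists_prime_orderOf_dvd_card r hcard
  have hζr : ζ ^ r = 1 := by rw [← hζ]; exact pow_orderOf_eq_one ζ
  have hζ1 : ζ ≠ 1 := by
    intro h
    rw [h, orderOf_one] at hζ
    exact hr.one_lt.ne hζ
  have hζinv : ζ ≠ ζ⁻¹ := by
    intro h
    have h2 : ζ ^ 2 = 1 := by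
      rw [pow_two]
      nth_rewrite 2 [h]
      exact mul_inv_cancel ζ
    have h3 : orderOf ζ ∣ 2 := orderOf_dvd_of_pow_eq_one h2
    rw [hζ] at h3
    exact hr2 ((Nat.prime_dvd_prime_iff_eq hr Nat.prime_two).mp h3)
  have hF1 : (ζ : F) ≠ 1 := fun h => hζ1 (Units.ext h)
  have hFinv1 : ((ζ⁻¹ : Fˣ) : F) ≠ 1 := by
    intro h
    have : ζ⁻¹ = 1 := Units.ext h
    exact hζ1 (inv_eq_one.mp this)
  have hFne : (ζ : F) ≠ ((ζ⁻¹ : Fˣ) : F) := fun h => hζinv (Units.ext h)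
  have hFr : (ζ : F) ^ r = 1 := by
    have := congrArg (fun u : Fˣ => (u : F)) hζr
    simpa using this
  have hFinvr : ((ζ⁻¹ : Fˣ) : F) ^ r = 1 := by
    have h1 : (ζ⁻¹) ^ r = 1 := by rw [inv_pow, hζr, inv_one]
    have := congrArg (fun u : Fˣ => (u : F)) h1
    simpa using this
  let d : Fin (k + 2) → F := fun i =>
    if i.val = 0 then (ζ : F) else if i.val = 1 then ((ζ⁻¹ : Fˣ) : F) else 1
  have hd0 : d 0 = (ζ : F) := by simp [d]
  have hd1 : d (Fin.succ 0) = ((ζ⁻¹ : Fˣ) : F) := by simp [d]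
  have hd2 : ∀ i : Fin k, d i.succ.succ = 1 := by
    intro i
    simp [d]
  refine ⟨Matrix.diagonal d, (X - C (ζ : F)) * (X - C ((ζ⁻¹ : Fˣ) : F)), ?_, ?_, ?_, ?_, ?_, ?_⟩
  · rw [Matrix.diagonal_pow, ← Matrix.diagonal_one]
    congr 1
    funext i
    simp only [Pi.pow_apply, Pi.one_apply, d]
    split_ifs
    · exact hFr
    · exact hFinvr
    · exact one_pow r
  · rw [Matrix.det_diagonal, Fin.prod_univ_succ, Fin.prod_univ_succ, hd0, hd1]
    simp only [hd2, Finset.prod_const_one, mul_one]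
    have := congrArg (fun u : Fˣ => (u : F)) (mul_inv_cancel ζ)
    simpa using this
  · apply Separable.mul (separable_X_sub_C) (separable_X_sub_C)
    apply isCoprime_X_sub_C_of_isUnit_sub
    exact (sub_ne_zero.mpr hFne).isUnit
  · rw [eval_mul, eval_sub, eval_sub, eval_X, eval_C, eval_C]
    exact mul_ne_zero (sub_ne_zero.mpr (Ne.symm hF1)) (sub_ne_zero.mpr (Ne.symm hFinv1))
  · rw [(monic_X_sub_C _).natDegree_mul (monic_X_sub_C _), natDegree_X_sub_C,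
      natDegree_X_sub_C]
  · rw [Matrix.charpoly_diagonal, Fin.prod_univ_succ, Fin.prod_univ_succ, hd0, hd1]
    simp only [hd2, Finset.prod_const, Finset.card_univ, Fintype.card_fin, map_one,
      Nat.add_sub_cancel]
    ring

end Cfsg.Agent.Helper27.TEXC1
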