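import Mathlib

set_option autoImplicit false

/-!
# Piece BLK of S5980 (helper98's CALL): block-diagonal symplectic matrices.
-/

namespace Cfsg.Agent.Helper27.TFBLK

open Matrix Polynomial
open scoped Kronecker

theorem fromBlocks_symp {F : Type*} [Field F] {d : ℕ} (M M' : Matrix (Fin d) (Fin d) F)
    (h : M * M' = 1) :
    Matrix.fromBlocks M 0 0 M'ᵀ ∈ Matrix.symplecticGroup (Fin d) F := by
  rw [SymplecticGroup.mem_iff]
  unfold Matrix.J
  rw [Matrix.fromBlocks_transpose, Matrix.fromBlocks_multiply, Matrix.fromBlocks_multiply]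
  have h' : M'ᵀ * Mᵀ = 1 := by rw [← Matrix.transpose_mul, h, Matrix.transpose_one]
  simp [h, h']

end Cfsg.Agent.Helper27.TFBLK
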