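import Mathlib

set_option autoImplicit false

/-!
# Piece DSP of S5980 (helper98's CALL): diagonal symplectic matrices.
-/

namespace Cfsg.Agent.Helper27.TFDSP

open Matrix Polynomial
open scoped Kronecker

theorem diagonal_symp {F : Type*} [Field F] {d : ℕ} (dd : Fin d ⊕ Fin d → F)
    (h : ∀ i : Fin d, dd (Sum.inl i) * dd (Sum.inr i) = 1) :
    Matrix.diagonal dd ∈ Matrix.symplecticGroup (Fin d) F := by
  have h1 : Matrix.diagonal dd =
      Matrix.fromBlocks (Matrix.diagonal (dd ∘ Sum.inl)) 0 0 (Matrix.diagonal (dd ∘ Sum.inr)) := by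
    rw [Matrix.fromBlocks_diagonal, Sum.elim_comp_inl_inr]
  have h2 : (Matrix.diagonal (dd ∘ Sum.inl) : Matrix (Fin d) (Fin d) F) *
      Matrix.diagonal (dd ∘ Sum.inr) = 1 := by
    rw [Matrix.diagonal_mul_diagonal, ← Matrix.diagonal_one]
    congr 1
    funext i
    exact h i
  have h3 : (Matrix.diagonal (dd ∘ Sum.inr) : Matrix (Fin d) (Fin d) F) *
      Matrix.diagonal (dd ∘ Sum.inl) = 1 := by
    rw [Matrix.diagonal_mul_diagonal, ← Matrix.diagonal_one]
    congr 1
    funext i
    rw [mul_comm]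
    exact h i
  rw [h1, SymplecticGroup.mem_iff]
  unfold Matrix.J
  rw [Matrix.fromBlocks_transpose, Matrix.fromBlocks_multiply, Matrix.fromBlocks_multiply]
  simp only [Matrix.diagonal_transpose, Matrix.transpose_zero, Matrix.mul_zero, Matrix.zero_mul,
    Matrix.mul_one, Matrix.mul_neg, Matrix.neg_mul, zero_add, add_zero, neg_zero, h2, h3]

end Cfsg.Agent.Helper27.TFDSP
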