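import Mathlib
import Cfsg.Prelude.Def_GeometricClasses
import Cfsg.Prelude.Def_ClassicalGeometry

set_option autoImplicit false

/-!
# Piece G1 of S5980 (helper98's CALL): the Gram matrix of a symplectic form in dimension 2.
-/

namespace Cfsg.Agent.Helper27.TFG1

open Matrix Polynomial
open scoped Kronecker

theorem gram_symp_two {F : Type*} [Field F] (f₁ : (Fin 2 → F) → (Fin 2 → F) → F)
    (hf₁ : Cfsg.Geo.IsSymplecticForm f₁) :
    ∃ α : F, α ≠ 0 ∧
      Cfsg.Geo.gramMatrix f₁ = α • (!![0, 1; -1, 0] : Matrix (Fin 2) (Fin 2) F) := by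
  refine ⟨f₁ (Pi.single 0 1) (Pi.single 1 1), ?_, ?_⟩
  · intro h0
    have hv : (Pi.single 0 1 : Fin 2 → F) ≠ 0 := by
      intro h
      have h1 := congrFun h 0
      simp at h1
    obtain ⟨x, hx⟩ := (hf₁.nondegenerate _ hv).2
    apply hx
    have hxdec : x = x 0 • (Pi.single 0 1 : Fin 2 → F) + x 1 • (Pi.single 1 1 : Fin 2 → F) := by
      ext i
      fin_cases i <;> simp
    rw [hxdec, hf₁.bilinear.add_right, hf₁.bilinear.smul_right, hf₁.bilinear.smul_right,
      hf₁.alternating, h0]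
    simp
  · ext i j
    fin_cases i <;> fin_cases j
    · simp [Cfsg.Geo.gramMatrix, hf₁.alternating]
    · simp [Cfsg.Geo.gramMatrix]
    · simp only [Cfsg.Geo.gramMatrix]
      rw [hf₁.skew]
      simp
    · simp [Cfsg.Geo.gramMatrix, hf₁.alternating]

end Cfsg.Agent.Helper27.TFG1
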