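import Mathlib
import Cfsg.Prelude.Def_GeometricClasses
import Cfsg.Prelude.Def_ClassicalGeometry

set_option autoImplicit false

/-!
# Piece HS of S5980 (helper98's CALL): the matrix form of a tensor form structure.
-/

namespace Cfsg.Agent.Helper27.TFHS

open Matrix Polynomial
open scoped Kronecker

theorem tensor_structure_matrix {F : Type*} [Field F] {d a b : ℕ}
    (e : (Fin d ⊕ Fin d) ≃ Fin a × Fin b) (P : GL (Fin d ⊕ Fin d) F)
    (f₁ : (Fin a → F) → (Fin a → F) → F) (f₂ : (Fin b → F) → (Fin b → F) → F)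
    (hS : Cfsg.Geo.IsTensorFormStructure id (Cfsg.sympForm d F) f₁ f₂ e P) :
    ∃ c : F, c ≠ 0 ∧
      ((P : Matrix (Fin d ⊕ Fin d) (Fin d ⊕ Fin d) F)ᵀ * Matrix.J (Fin d) F *
        (P : Matrix (Fin d ⊕ Fin d) (Fin d ⊕ Fin d) F)).submatrix e.symm e.symm =
      c • (Cfsg.Geo.gramMatrix f₁ ⊗ₖ Cfsg.Geo.gramMatrix f₂) := by
  classical
  obtain ⟨c, hc, h⟩ := hS
  refine ⟨c, hc, ?_⟩
  ext p p'
  have h1 := h (Pi.single p 1) (Pi.single p' 1)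
  have hx : ∀ p : Fin a × Fin b,
      ((Pi.single p 1 : Fin a × Fin b → F) ∘ e) = Pi.single (e.symm p) 1 := by
    intro p
    ext k
    simp only [Function.comp_apply, Pi.single_apply]
    by_cases hk : e k = p
    · rw [if_pos hk, if_pos]
      rw [← hk, Equiv.symm_apply_apply]
    · rw [if_neg hk, if_neg]
      intro hk'
      apply hk
      rw [hk', Equiv.apply_symm_apply]
  rw [hx, hx] at h1
  have hL : ∀ k k' : Fin d ⊕ Fin d,
      Cfsg.sympForm d F ((P : Matrix (Fin d ⊕ Fin d) (Fin d ⊕ Fin d) F) *ᵥ Pi.single k 1)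
        ((P : Matrix (Fin d ⊕ Fin d) (Fin d ⊕ Fin d) F) *ᵥ Pi.single k' 1) =
      ((P : Matrix (Fin d ⊕ Fin d) (Fin d ⊕ Fin d) F)ᵀ * Matrix.J (Fin d) F *
        (P : Matrix (Fin d ⊕ Fin d) (Fin d ⊕ Fin d) F)) k k' := by
    intro k k'
    unfold Cfsg.sympForm
    have h2 : ((P : Matrix (Fin d ⊕ Fin d) (Fin d ⊕ Fin d) F)ᵀ * Matrix.J (Fin d) F *
        (P : Matrix (Fin d ⊕ Fin d) (Fin d ⊕ Fin d) F)) k k' =
        Pi.single k 1 ⬝ᵥ (((P : Matrix (Fin d ⊕ Fin d) (Fin d ⊕ Fin d) F)ᵀ * Matrix.J (Fin d) F *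
        (P : Matrix (Fin d ⊕ Fin d) (Fin d ⊕ Fin d) F)) *ᵥ Pi.single k' 1) := by
      rw [single_one_dotProduct, Matrix.mulVec_single_one]
      rfl
    have h3 : ∀ (u w : Fin d ⊕ Fin d → F),
        u ⬝ᵥ ((P : Matrix (Fin d ⊕ Fin d) (Fin d ⊕ Fin d) F)ᵀ *ᵥ w) =
        ((P : Matrix (Fin d ⊕ Fin d) (Fin d ⊕ Fin d) F) *ᵥ u) ⬝ᵥ w := by
      intro u w
      rw [Matrix.dotProduct_mulVec, Matrix.vecMul_transpose]
    rw [h2, ← Matrix.mulVec_mulVec, ← Matrix.mulVec_mulVec, h3]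
  rw [hL] at h1
  have hR : Cfsg.Geo.formOfGram id (Cfsg.Geo.gramMatrix f₁ ⊗ₖ Cfsg.Geo.gramMatrix f₂)
      (Pi.single p 1) (Pi.single p' 1) =
      (Cfsg.Geo.gramMatrix f₁ ⊗ₖ Cfsg.Geo.gramMatrix f₂) p p' := by
    unfold Cfsg.Geo.formOfGram
    simp [Pi.single_apply]
  rw [hR] at h1
  rw [Matrix.submatrix_apply, h1, Matrix.smul_apply, smul_eq_mul]

end Cfsg.Agent.Helper27.TFHS
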