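import Mathlib

set_option autoImplicit false

/-!
# Piece TSP of S5980 (helper98's CALL): a symplectic transvection.
-/

namespace Cfsg.Agent.Helper27.TFTSP

open Matrix Polynomial
open scoped Kronecker

theorem transvection_symp {F : Type*} [Field F] {d : ℕ} (i : Fin d) (c : F) :
    Matrix.transvection (Sum.inl i : Fin d ⊕ Fin d) (Sum.inr i) c ∈
      Matrix.symplecticGroup (Fin d) F := by
  have h1 : Matrix.transvection (Sum.inl i : Fin d ⊕ Fin d) (Sum.inr i) c =
      Matrix.fromBlocks 1 (Matrix.single i i c) 0 1 := by
    ext (x | x) (y | y) <;>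
      simp [Matrix.transvection, Matrix.single_apply, Matrix.one_apply]
  rw [h1, SymplecticGroup.mem_iff]
  unfold Matrix.J
  rw [Matrix.fromBlocks_transpose, Matrix.fromBlocks_multiply, Matrix.fromBlocks_multiply]
  simp [Matrix.transpose_single]

end Cfsg.Agent.Helper27.TFTSP
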