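import Mathlib
import Cfsg.Agent.Helper97.TGDefs

/-! CALL S2414 (helper97), piece DS1: the double swap sends `f_a` to `e_a`. -/

set_option autoImplicit false

universe u

namespace Cfsg.Agent.Helper27

open Cfsg Matrix Cfsg.Agent.Helper45 Cfsg.Agent.Helper98 Cfsg.Agent.Helper97.TG

variable {m : ℕ} {F : Type u} [Field F]

/-- DS1 -/
theorem tg_dS_fV (a b : Fin m) (hab : a ≠ b) :
    mv ⇑(QP m F) (dS a b) (fV m F a) = eV m F a := by
  unfold dS
  rw [mv_mul, mv_reflO, mv_reflO]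
  have h1 : QuadraticMap.polar ⇑(QP m F) (eV m F b - fV m F b) (fV m F a) = 0 := by
    rw [polar_fV_right]
    simp [hab]
  rw [h1, mul_zero, zero_smul, sub_zero]
  have h2 : QuadraticMap.polar ⇑(QP m F) (eV m F a - fV m F a) (fV m F a) = 1 := by
    rw [polar_fV_right]
    simp
  rw [h2, QP_eV_sub_fV]
  have h3 : ((-1 : F)⁻¹ * 1) = -1 := by
    rw [mul_one, inv_neg, inv_one]
  rw [h3]
  simp

end Cfsg.Agent.Helper27
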