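import Mathlib
import Cfsg.Agent.Helper97.TGDefs
import Cfsg.Agent.S0248
import Cfsg.Agent.Helper39.LawTransfer

/-! CALL S2414 (helper97), piece IOM: the Levi image of `SL_m` lies in `Ω` for `m ≥ 3`. -/

set_option autoImplicit false

universe u

namespace Cfsg.Agent.Helper27

open Cfsg Matrix Cfsg.Agent.Helper45 Cfsg.Agent.Helper98 Cfsg.Agent.Helper97.TG

variable {m : ℕ} {F : Type u} [Field F]

/-- IOM -/
theorem tg_iota_mem_omega (hm : 3 ≤ m) (A : Matrix.SpecialLinearGroup (Fin m) F) :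
    iota m F A ∈ Omega F ⇑(QP m F) :=
  Helper39.perfect_map_mem_commutator (Cfsg.Agent.S0248.result m hm) (iota m F) A

end Cfsg.Agent.Helper27
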