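import Mathlib
import Cfsg.Agent.Helper27.TernaryGolay

set_option autoImplicit false

namespace Cfsg.Agent.Helper27

open Cfsg

theorem units_zmod3 : ∀ u : (ZMod 3)ˣ, u = 1 ∨ u = -1 := by decide

theorem tg_weight_mem (z : ArrayPt → ZMod 3) (hz : z ∈ ternaryGolayCode) :
    (ternarySupport z).card = 0 ∨ (ternarySupport z).card = 6 ∨ (ternarySupport z).card = 9 ∨
      (ternarySupport z).card = 12 := by
  by_cases h0 : z = 0
  · left
    subst h0
    simp [ternarySupport]
  · right
    obtain ⟨c, rfl⟩ := (mem_code_iff z).mp hz
    exact tg_weights c h0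

theorem exists_weight12 : ∃ x ∈ ternaryGolayCode, ternarySupport x = Finset.univ :=
  ⟨tgEnc ![1, 1, 1, 1, 1, 2], tgEnc_mem _, by decide⟩

theorem monomialMap_one_apply (c : ArrayPt → (ZMod 3)ˣ) (x : ArrayPt → ZMod 3) (p : ArrayPt) :
    monomialMap 1 c x p = (c p : ZMod 3) * x p := rfl

theorem supp_sub_monomial (c : ArrayPt → (ZMod 3)ˣ) (x : ArrayPt → ZMod 3) :
    ternarySupport (x - monomialMap 1 c x) = (ternarySupport x).filter (fun p => c p = -1) := by
  ext p
  rw [ternarySupport, ternarySupport, Finset.mem_filter, Finset.mem_filter, Finset.mem_filter]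
  simp only [Finset.mem_univ, true_and, Pi.sub_apply, monomialMap_one_apply]
  rcases units_zmod3 (c p) with h | h
  · rw [h]
    generalize x p = a
    revert a
    decide
  · rw [h]
    generalize x p = a
    revert a
    decide

theorem supp_add_monomial (c : ArrayPt → (ZMod 3)ˣ) (x : ArrayPt → ZMod 3) :
    ternarySupport (x + monomialMap 1 c x) = (ternarySupport x).filter (fun p => c p = 1) := by
  ext p
  rw [ternarySupport, ternarySupport, Finset.mem_filter, Finset.mem_filter, Finset.mem_filter]
  simp only [Finset.mem_univ, true_and, Pi.add_apply, monomialMap_one_apply]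
  rcases units_zmod3 (c p) with h | h
  · rw [h]
    generalize x p = a
    revert a
    decide
  · rw [h]
    generalize x p = a
    revert a
    decide

/-- the diagonal automorphisms of the ternary code are the two scalars -/
theorem diag_aut (c : ArrayPt → (ZMod 3)ˣ)
    (h : ∀ x ∈ ternaryGolayCode, monomialMap 1 c x ∈ ternaryGolayCode) :
    (∀ p, c p = 1) ∨ (∀ p, c p = -1) := by
  classical
  set N : Finset ArrayPt := Finset.univ.filter (fun p => c p = -1) with hN
  set P : Finset ArrayPt := Finset.univ.filter (fun p => c p = 1) with hP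
  have hsubN : ∀ x ∈ ternaryGolayCode, ((ternarySupport x).filter (fun p => c p = -1)).card = 0 ∨
      ((ternarySupport x).filter (fun p => c p = -1)).card = 6 ∨
      ((ternarySupport x).filter (fun p => c p = -1)).card = 9 ∨
      ((ternarySupport x).filter (fun p => c p = -1)).card = 12 := by
    intro x hx
    rw [← supp_sub_monomial]
    exact tg_weight_mem _ (Submodule.sub_mem _ hx (h x hx))
  have hsubP : ∀ x ∈ ternaryGolayCode, ((ternarySupport x).filter (fun p => c p = 1)).card = 0 ∨
      ((ternarySupport x).filter (fun p => c p = 1)).card = 6 ∨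
      ((ternarySupport x).filter (fun p => c p = 1)).card = 9 ∨
      ((ternarySupport x).filter (fun p => c p = 1)).card = 12 := by
    intro x hx
    rw [← supp_add_monomial]
    exact tg_weight_mem _ (Submodule.add_mem _ hx (h x hx))
  obtain ⟨x0, hx0, hx0s⟩ := exists_weight12
  have hNc : N.card = 0 ∨ N.card = 6 ∨ N.card = 9 ∨ N.card = 12 := by
    have := hsubN x0 hx0
    rw [hx0s] at this
    exact this
  have hPc : P.card = 0 ∨ P.card = 6 ∨ P.card = 9 ∨ P.card = 12 := by
    have := hsubP x0 hx0
    rw [hx0s] at this
    exact this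
  have hNP : N.card + P.card = 12 := by
    have hd : Disjoint N P := by
      rw [Finset.disjoint_left]
      intro p hp hp'
      rw [hN, Finset.mem_filter] at hp
      rw [hP, Finset.mem_filter] at hp'
      rw [hp.2] at hp'
      exact absurd hp'.2 (by decide)
    have hu : N ∪ P = Finset.univ := by
      ext p
      simp only [Finset.mem_union, Finset.mem_univ, iff_true, hN, hP, Finset.mem_filter, true_and]
      rcases units_zmod3 (c p) with h1 | h1
      · exact Or.inr h1
      · exact Or.inl h1
    rw [← Finset.card_union_of_disjoint hd, hu]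
    rfl
  have hN0 : N.card = 0 ∨ N.card = 12 ∨ (N.card = 6 ∧ P.card = 6) := by
    rcases hNc with h1 | h1 | h1 | h1 <;> rcases hPc with h2 | h2 | h2 | h2 <;> omega
  rcases hN0 with h0 | h12 | ⟨h6, h6'⟩
  · left
    intro p
    rcases units_zmod3 (c p) with h1 | h1
    · exact h1
    · exfalso
      have : p ∈ N := by rw [hN, Finset.mem_filter]; exact ⟨Finset.mem_univ _, h1⟩
      rw [Finset.card_eq_zero] at h0
      rw [h0] at this
      exact absurd this (Finset.notMem_empty p)
  · right
    intro p
    have hNu : N = Finset.univ := by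
      rw [← Finset.card_eq_iff_eq_univ, h12]; rfl
    have : p ∈ N := by rw [hNu]; exact Finset.mem_univ p
    rw [hN, Finset.mem_filter] at this
    exact this.2
  · exfalso
    obtain ⟨t, htN, ht4⟩ := Finset.exists_subset_card_eq (s := N) (n := 4) (by omega)
    have hPne : P.Nonempty := by
      rw [← Finset.card_pos]; omega
    obtain ⟨q, hq⟩ := hPne
    have hqN : q ∉ N := by
      intro hqN
      rw [hN, Finset.mem_filter] at hqN
      rw [hP, Finset.mem_filter] at hq
      rw [hqN.2] at hq
      exact absurd hq.2 (by decide)
    have hqt : q ∉ t := fun hqt => hqN (htN hqt)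
    obtain ⟨b, ⟨hb, hsb⟩, -⟩ := tgHex_steiner.2 (insert q t) (by
      rw [Finset.card_insert_of_notMem hqt, ht4])
    have hb' : b ∈ {h : Finset ArrayPt | ∃ x ∈ ternaryGolayCode, ternarySupport x = h ∧
        h.card = 6} := by
      rw [tgHex_coe]; exact hb
    obtain ⟨x1, hx1, hx1s, hb6⟩ := hb'
    have hcard := hsubN x1 hx1
    rw [hx1s] at hcard
    have hlow : 4 ≤ (b.filter (fun p => c p = -1)).card := by
      rw [← ht4]
      apply Finset.card_le_card
      intro p hp
      rw [Finset.mem_filter]
      refine ⟨hsb (Finset.mem_insert_of_mem hp), ?_⟩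
      have := htN hp
      rw [hN, Finset.mem_filter] at this
      exact this.2
    have hhigh : (b.filter (fun p => c p = -1)).card ≤ 5 := by
      have hsub : b.filter (fun p => c p = -1) ⊆ b.erase q := by
        intro p hp
        rw [Finset.mem_filter] at hp
        rw [Finset.mem_erase]
        refine ⟨?_, hp.1⟩
        rintro rfl
        apply hqN
        rw [hN, Finset.mem_filter]
        exact ⟨Finset.mem_univ _, hp.2⟩
      have := Finset.card_le_card hsub
      rw [Finset.card_erase_of_mem (hsb (Finset.mem_insert_self q t)), hb6] at this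
      omega
    omega

end Cfsg.Agent.Helper27
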