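import Mathlib
import Cfsg.Prelude.Def_SporadicCombinatorics
import Cfsg.Agent.Helper27.TernaryGolayDiag
import Cfsg.Agent.Helper27.Monomial

set_option autoImplicit false

namespace Cfsg.Agent.Helper27

open Cfsg
open scoped Pointwise

/-- the array position with a given index -/
def tgPt : Fin 12 → ArrayPt :=
  ![(0, 0), (0, 1), (0, 2), (1, 0), (1, 1), (1, 2), (2, 0), (2, 1), (2, 2), (3, 0), (3, 1), (3, 2)]

/-- the index of an array position, as an element of `Fin 12` -/
def tgIdxF (p : ArrayPt) : Fin 12 := ⟨tgIdx p, tgIdx_lt p⟩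

theorem tgPt_idx : ∀ p, tgPt (tgIdxF p) = p := by decide

theorem tgIdx_pt : ∀ k, tgIdxF (tgPt k) = k := by decide

theorem tgIdx_tgPt (k : Fin 12) : tgIdx (tgPt k) = k.val := congrArg Fin.val (tgIdx_pt k)

/-- images of the twelve generating permutations, on indices -/
def m12tab : Fin 12 → Fin 12 → Fin 12 :=
  ![![7, 11, 0, 8, 5, 6, 2, 1, 3, 9, 10, 4],
    ![8, 11, 4, 1, 2, 3, 6, 0, 9, 5, 10, 7],
    ![4, 7, 2, 6, 1, 3, 5, 11, 0, 10, 9, 8],
    ![0, 10, 1, 7, 6, 3, 8, 5, 4, 9, 2, 11],
    ![0, 6, 4, 3, 2, 10, 8, 9, 11, 1, 7, 5],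
    ![0, 1, 2, 5, 9, 7, 10, 8, 3, 6, 4, 11],
    ![0, 1, 7, 9, 4, 3, 8, 6, 2, 10, 5, 11],
    ![0, 1, 4, 3, 9, 7, 6, 11, 2, 8, 5, 10],
    ![0, 1, 2, 7, 5, 9, 3, 10, 8, 11, 6, 4],
    ![0, 1, 2, 6, 9, 3, 8, 11, 5, 7, 10, 4],
    ![0, 1, 2, 3, 10, 8, 11, 6, 4, 7, 5, 9],
    ![0, 1, 2, 3, 11, 7, 8, 4, 9, 10, 6, 5]]

/-- inverse images of the twelve generating permutations, on indices -/
def m12inv : Fin 12 → Fin 12 → Fin 12 :=
  ![![2, 7, 6, 8, 11, 4, 5, 0, 3, 9, 10, 1],
    ![7, 3, 4, 5, 2, 9, 6, 11, 0, 8, 10, 1],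
    ![8, 4, 2, 5, 0, 6, 3, 1, 11, 10, 9, 7],
    ![0, 2, 10, 5, 8, 7, 4, 3, 6, 9, 1, 11],
    ![0, 9, 4, 3, 2, 11, 1, 10, 6, 7, 5, 8],
    ![0, 1, 2, 8, 10, 3, 9, 5, 7, 4, 6, 11],
    ![0, 1, 8, 5, 4, 10, 7, 2, 6, 3, 9, 11],
    ![0, 1, 8, 3, 2, 10, 6, 5, 9, 4, 11, 7],
    ![0, 1, 2, 6, 11, 4, 10, 3, 8, 5, 7, 9],
    ![0, 1, 2, 5, 11, 8, 3, 9, 6, 4, 10, 7],
    ![0, 1, 2, 3, 8, 10, 7, 9, 5, 11, 4, 6],
    ![0, 1, 2, 3, 7, 11, 10, 5, 6, 8, 9, 4]]

/-- the positions where the sign of a generator is `-1` -/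
def m12neg : Fin 12 → Fin 12 → Bool :=
  ![![false, false, true, true, true, true, true, false, false, true, false, false],
    ![false, false, false, false, true, true, true, false, false, true, false, false],
    ![false, true, true, true, true, false, false, false, true, true, true, true],
    ![false, false, true, false, true, true, true, true, false, false, true, false],
    ![false, false, true, true, false, false, true, true, false, false, false, false],
    ![false, false, true, true, true, true, true, true, true, true, true, true],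
    ![false, false, true, true, true, false, false, true, false, false, true, true],
    ![false, false, false, true, false, true, true, false, false, false, false, true],
    ![false, false, true, true, true, true, true, true, true, true, true, true],
    ![false, true, true, false, false, false, false, false, false, false, false, false],
    ![false, false, true, true, true, true, true, true, true, true, true, true],
    ![false, true, false, true, true, true, true, true, true, true, true, true]]

theorem m12tab_inv : ∀ g i, m12inv g (m12tab g i) = i := by decide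

theorem m12inv_tab : ∀ g i, m12tab g (m12inv g i) = i := by decide

/-- the generating permutations -/
def m12gen (g : Fin 12) : Equiv.Perm ArrayPt where
  toFun p := tgPt (m12tab g (tgIdxF p))
  invFun p := tgPt (m12inv g (tgIdxF p))
  left_inv p := by simp only [tgIdx_pt, m12tab_inv, tgPt_idx]
  right_inv p := by simp only [tgIdx_pt, m12inv_tab, tgPt_idx]

/-- the signs of the generating monomial maps -/
def m12c (g : Fin 12) : ArrayPt → (ZMod 3)ˣ := fun p => if m12neg g (tgIdxF p) then -1 else 1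

set_option maxRecDepth 100000 in
theorem m12gen_basis : ∀ g : Fin 12, ∀ j : Fin 6, monomialMap (m12gen g) (m12c g) (tgB j)
    = tgEnc (fun k => monomialMap (m12gen g) (m12c g) (tgB j) (tgInfo k)) := by
  decide +kernel

theorem code_eq_span : ternaryGolayCode = Submodule.span (ZMod 3) (Set.range tgB) := by
  apply le_antisymm
  · intro x hx
    rw [eq_tgEnc_of_mem x hx, tgEnc_eq_sum]
    exact Submodule.sum_mem _ (fun j _ => Submodule.smul_mem _ _
      (Submodule.subset_span (Set.mem_range_self j)))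
  · rw [Submodule.span_le]
    rintro _ ⟨j, rfl⟩
    exact tgB_mem j

theorem pres_of_basis (σ : Equiv.Perm ArrayPt) (c : ArrayPt → (ZMod 3)ˣ)
    (h : ∀ j, monomialMap σ c (tgB j) ∈ ternaryGolayCode) : Pres ternaryGolayCode σ c := by
  rw [code_eq_span, pres_iff_span]
  rintro _ ⟨j, rfl⟩
  rw [← code_eq_span]
  exact h j

theorem m12gen_pres (g : Fin 12) : Pres ternaryGolayCode (m12gen g) (m12c g) := by
  apply pres_of_basis
  intro j
  rw [m12gen_basis g j]
  exact tgEnc_mem _

instance : Finite ternaryGolayCode := Nat.finite_of_card_ne_zero (by rw [card_code]; norm_num)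

theorem m12gen_mem (g : Fin 12) : m12gen g ∈ monoProj ternaryGolayCode :=
  ⟨m12c g, m12gen_pres g⟩

/-- words in the generators: `m12word k a` fixes the positions of index `< k` and maps the
position of index `k` to the position of index `a` -/
def m12word : Fin 5 → Fin 12 → List (Fin 12) :=
  ![![[], [0, 0], [1, 2], [0, 1], [2], [0, 2], [2, 0, 1], [0], [1], [1, 1], [2, 1, 1], [2, 0]],
    ![[], [], [3, 3], [3, 3, 4, 3], [4, 3, 3], [3, 4, 3], [4], [4, 3], [3, 4], [4, 4, 3], [3], [4, 3, 4]],
    ![[], [], [], [5, 5, 6], [7], [5, 5, 5, 6], [6, 6], [6], [5, 6], [5, 7], [5, 6, 6], [7, 6]],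
    ![[], [], [], [], [8, 9, 8], [9, 9, 9], [9], [8], [9, 9], [9, 8, 9, 8], [8, 8], [9, 8]],
    ![[], [], [], [], [], [10, 10], [11, 10], [11, 10, 10], [10, 10, 10], [10, 11], [10], [11]]]

/-- the elements of the chain -/
def m12elt (k : Fin 5) (a : Fin 12) : Equiv.Perm ArrayPt := ((m12word k a).map m12gen).prod

theorem m12elt_mem (k : Fin 5) (a : Fin 12) : m12elt k a ∈ monoProj ternaryGolayCode := by
  apply Subgroup.list_prod_mem
  intro x hx
  obtain ⟨g, _, rfl⟩ := List.mem_map.mp hx
  exact m12gen_mem g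

set_option maxRecDepth 100000 in
theorem m12elt_chain : ∀ k : Fin 5, ∀ a : Fin 12, k.val ≤ a.val →
    (∀ j : Fin 12, j.val < k.val → m12elt k a (tgPt j) = tgPt j) ∧
      m12elt k a (tgPt (Fin.castLE (by norm_num) k)) = tgPt a := by
  decide +kernel


/-- transitivity on injective tuples from a chain of transitive stabilisers -/
theorem exists_perm_of_chain {α : Type*} (Γ : Subgroup (Equiv.Perm α)) (n : ℕ) (b : Fin n → α)
    (hchain : ∀ k : Fin n, ∀ a : α, (∀ j : Fin n, j < k → a ≠ b j) →
      ∃ σ ∈ Γ, (∀ j : Fin n, j < k → σ (b j) = b j) ∧ σ (b k) = a)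
    (e : Fin n → α) (he : Function.Injective e) : ∃ σ ∈ Γ, ∀ i, σ (b i) = e i := by
  have key : ∀ m : ℕ, m ≤ n → ∃ σ ∈ Γ, ∀ i : Fin n, i.val < m → σ (b i) = e i := by
    intro m
    induction m with
    | zero =>
      intro _
      exact ⟨1, Γ.one_mem, fun i hi => absurd hi (Nat.not_lt_zero _)⟩
    | succ m ih =>
      intro hm
      obtain ⟨σ, hσ, hσe⟩ := ih (Nat.le_of_succ_le hm)
      let k : Fin n := ⟨m, hm⟩
      have ha : ∀ j : Fin n, j < k → σ⁻¹ (e k) ≠ b j := by
        intro j hj h
        have h1 : e k = σ (b j) := by rw [← h]; simp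
        rw [hσe j hj] at h1
        exact absurd (he h1) (ne_of_gt hj)
      obtain ⟨τ, hτ, hτfix, hτk⟩ := hchain k (σ⁻¹ (e k)) ha
      refine ⟨σ * τ, Γ.mul_mem hσ hτ, ?_⟩
      intro i hi
      rw [Equiv.Perm.mul_apply]
      rcases Nat.lt_succ_iff_lt_or_eq.mp hi with h | h
      · have hik : i < k := h
        rw [hτfix i hik, hσe i h]
      · have : i = k := Fin.ext h
        rw [this, hτk]
        simp
  obtain ⟨σ, hσ, h⟩ := key n le_rfl
  exact ⟨σ, hσ, fun i => h i i.2⟩

theorem tgPt_injective : Function.Injective tgPt := by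
  intro a b h
  rw [← tgIdx_pt a, ← tgIdx_pt b, h]

/-- the base: the first five positions -/
def tgBase : Fin 5 ↪ ArrayPt :=
  ⟨fun i => tgPt (Fin.castLE (by norm_num) i), fun i j h => by
    have := tgPt_injective h
    exact Fin.castLE_injective _ this⟩

theorem m12_trans (e : Fin 5 → ArrayPt) (he : Function.Injective e) :
    ∃ σ ∈ monoProj ternaryGolayCode, ∀ i, σ (tgBase i) = e i := by
  apply exists_perm_of_chain (monoProj ternaryGolayCode) 5 tgBase _ e he
  intro k a ha
  have hk : k.val ≤ (tgIdxF a).val := by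
    by_contra h
    rw [not_le] at h
    have hj : (tgIdxF a).val < 5 := lt_trans h k.2
    apply ha ⟨(tgIdxF a).val, hj⟩ h
    have : Fin.castLE (by norm_num : 5 ≤ 12) ⟨(tgIdxF a).val, hj⟩ = tgIdxF a := Fin.ext rfl
    show a = tgPt (Fin.castLE (by norm_num : 5 ≤ 12) ⟨(tgIdxF a).val, hj⟩)
    rw [this, tgPt_idx]
  obtain ⟨h1, h2⟩ := m12elt_chain k (tgIdxF a) hk
  refine ⟨m12elt k (tgIdxF a), m12elt_mem _ _, ?_, ?_⟩
  · intro j hj
    exact h1 (Fin.castLE (by norm_num) j) hj
  · rw [← tgPt_idx a]
    rw [tgIdx_pt]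
    exact h2

theorem card_monoProj_ge : 95040 ≤ Nat.card (monoProj ternaryGolayCode) := by
  have hsurj : Function.Surjective (fun σ : monoProj ternaryGolayCode =>
      tgBase.trans (σ.1 : Equiv.Perm ArrayPt).toEmbedding) := by
    intro e
    obtain ⟨σ, hσ, h⟩ := m12_trans e e.injective
    refine ⟨⟨σ, hσ⟩, ?_⟩
    apply Function.Embedding.ext
    intro i
    exact h i
  have h := Nat.card_le_card_of_surjective _ hsurj
  rw [Nat.card_eq_fintype_card (α := Fin 5 ↪ ArrayPt), Fintype.card_embedding_eq] at h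
  have h2 : (Fintype.card ArrayPt).descFactorial (Fintype.card (Fin 5)) = 95040 := by decide
  rw [h2] at h
  exact h

theorem supp_monomial (σ : Equiv.Perm ArrayPt) (c : ArrayPt → (ZMod 3)ˣ)
    (x : ArrayPt → ZMod 3) : ternarySupport (monomialMap σ c x) = σ • ternarySupport x := by
  ext p
  rw [← Finset.inv_smul_mem_iff, ternarySupport, ternarySupport, Finset.mem_filter,
    Finset.mem_filter, monomialMap_apply]
  have h1 : σ.symm p = σ⁻¹ • p := rfl
  rw [h1]
  simp only [Finset.mem_univ, true_and, ne_eq, mul_eq_zero, Units.ne_zero, false_or]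

theorem smul_mem_tgHex_of_pres (σ : Equiv.Perm ArrayPt) (c : ArrayPt → (ZMod 3)ˣ)
    (h : Pres ternaryGolayCode σ c) (s : Finset ArrayPt) (hs : s ∈ tgHex) : σ • s ∈ tgHex := by
  have hs' : s ∈ {h : Finset ArrayPt | ∃ x ∈ ternaryGolayCode, ternarySupport x = h ∧
      h.card = 6} := by
    rw [tgHex_coe]; exact hs
  obtain ⟨x, hx, rfl, h6⟩ := hs'
  have : σ • ternarySupport x ∈ {h : Finset ArrayPt | ∃ x ∈ ternaryGolayCode,
      ternarySupport x = h ∧ h.card = 6} :=
    ⟨monomialMap σ c x, h x hx, supp_monomial σ c x, by rw [Finset.card_smul_finset]; exact h6⟩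
  rw [tgHex_coe] at this
  exact this

/-- the automorphism group of the hexad system -/
abbrev tgAut : Subgroup (Equiv.Perm ArrayPt) := setSystemAut (↑tgHex : Set (Finset ArrayPt))

theorem monoProj_le_aut : monoProj ternaryGolayCode ≤ tgAut := by
  intro σ hσ
  rw [MulAction.mem_stabilizer_iff]
  apply Set.Subset.antisymm
  · rintro _ ⟨s, hs, rfl⟩
    obtain ⟨c, hc⟩ := hσ
    exact smul_mem_tgHex_of_pres σ c hc s hs
  · intro s hs
    obtain ⟨c, hc⟩ := (monoProj ternaryGolayCode).inv_mem hσ
    have := smul_mem_tgHex_of_pres σ⁻¹ c hc s hs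
    exact ⟨σ⁻¹ • s, this, by simp⟩

theorem smul_mem_tgHex_of_aut (σ : Equiv.Perm ArrayPt) (hσ : σ ∈ tgAut) (s : Finset ArrayPt)
    (hs : s ∈ tgHex) : σ • s ∈ tgHex := by
  have h := MulAction.mem_stabilizer_iff.mp hσ
  have h1 : σ • s ∈ σ • (↑tgHex : Set (Finset ArrayPt)) := Set.smul_mem_smul_set hs
  rw [h] at h1
  exact h1

/-- the set of positions with a given mask -/
def tgSet (m : ℕ) : Finset ArrayPt := Finset.univ.filter (fun p => m.testBit (tgIdx p))

theorem mem_tgSet (m : ℕ) (p : ArrayPt) : p ∈ tgSet m ↔ m.testBit (tgIdx p) = true := by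
  simp [tgSet]

theorem tgMask_tgSet (m : ℕ) (hm : m < 4096) : tgMask (tgSet m) = m := by
  apply Nat.eq_of_testBit_eq
  intro i
  by_cases hi : i < 12
  · have : i = tgIdx (tgPt ⟨i, hi⟩) := (tgIdx_tgPt ⟨i, hi⟩).symm
    rw [this, Bool.eq_iff_iff, tgMask, testBit_maskOf tgIdx tgIdx_injective, mem_tgSet]
  · have hp : (4096 : ℕ) ≤ 2 ^ i := by
      have : (2 : ℕ) ^ 12 ≤ 2 ^ i := Nat.pow_le_pow_right (by norm_num) (not_lt.mp hi)
      norm_num at this
      exact this
    rw [Nat.testBit_eq_false_of_lt (lt_of_lt_of_le (tgMask_lt _) hp),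
      Nat.testBit_eq_false_of_lt (lt_of_lt_of_le hm hp)]

theorem tgMask_insert (p : ArrayPt) (s : Finset ArrayPt) (hp : p ∉ s) :
    tgMask (insert p s) = 2 ^ tgIdx p + tgMask s := by
  unfold tgMask maskOf
  rw [Finset.sum_insert hp]

/-- the bitmap of the list of hexad masks -/
def tgHexBitmap : ℕ := 5661643470739229049383060868634329191391420726740710096321903183076807261028595238427342886899059356659453131924897838616461412918609854705190402732685669038630834329323427813130983174451518106028623781020513028310307129081205450036872019854905177781652095019578042749874953101647794765507143651576318771614780772965393242407380031251469169668245349775256698115771025289585881588089902728375498939317779084718683734203387145734007850845787783745907204722924842891867211811656716768514387854777333345007684494065885921499932512960250155885110497692398275069300912096463281419399168035489363503003083633341546331532525367874678780932018712815698082389963747149222031140494124378605249271318273813432871166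3684007242320418419141695329129535182791143355222521244263987029853496949810499493143085305780784673064128200836929668874800415841456585828974398871352587171226866468138417067278060298687515445872572279023192332183263791556260396583867539176980932805504251174452757142201001178607968280416838410976781783026036177284703664475156443601415081467147860243572819336534469608973602680420013884416783892022513924126910480808755978114617278929873061085508796110570687671481576307753911406027929554142807522829481803776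

theorem tgHexBitmap_eq : tgHexBitmap = (tgHexMasks.map (fun i => 2 ^ i)).sum := by decide +kernel

theorem tgHexMasks_sorted : tgHexMasks.SortedLT := by
  rw [List.sortedLT_iff_pairwise]
  decide +kernel

theorem tgHexBitmap_spec (m : ℕ) : tgHexBitmap.testBit m = true ↔ m ∈ tgHexMasks := by
  rw [← Nat.mem_bitIndices, tgHexBitmap_eq, Nat.bitIndices_sum_map_two_pow tgHexMasks_sorted]

/-- the masks of the 4-subsets of the first six positions -/
def tgFour : List ℕ := [15, 23, 27, 29, 30, 39, 43, 45, 46, 51, 53, 54, 57, 58, 60]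

theorem tgFour_lt : ∀ Fm ∈ tgFour, Fm < 64 := by decide

set_option maxRecDepth 100000 in
theorem tg_duad : ∀ q : Fin 12, 6 ≤ q.val → ∀ q' : Fin 12, 6 ≤ q'.val → q ≠ q' →
    ∀ a : Fin 12, 6 ≤ a.val → ∀ a' : Fin 12, 6 ≤ a'.val →
    (∀ Fm ∈ tgFour, tgHexBitmap.testBit (2 ^ q.val + (2 ^ q'.val + Fm)) = true →
      tgHexBitmap.testBit (2 ^ a.val + (2 ^ a'.val + Fm)) = true) →
    (a = q ∧ a' = q') ∨ (a = q' ∧ a' = q) := by
  decide +kernel


theorem testBit31 : ∀ p : ArrayPt, Nat.testBit 31 (tgIdx p) = true → tgIdx p < 5 := by decide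

theorem testBit63 : ∀ p : ArrayPt, Nat.testBit 63 (tgIdx p) = true → tgIdx p < 6 := by decide

theorem exists_two_others : ∀ q : Fin 12, 6 ≤ q.val → ∃ q' q'' : Fin 12,
    6 ≤ q'.val ∧ 6 ≤ q''.val ∧ q ≠ q' ∧ q ≠ q'' ∧ q' ≠ q'' := by decide

/-- an automorphism of the hexad system fixing the five base positions is trivial -/
theorem aut_eq_one (σ : Equiv.Perm ArrayPt) (hσ : σ ∈ tgAut)
    (hfix : ∀ k : Fin 12, k.val < 5 → σ (tgPt k) = tgPt k) : σ = 1 := by
  -- Step 1: the sixth position of the first hexad is fixed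
  have hh0 : tgSet 63 ∈ tgHex := by
    rw [mem_tgHex_iff, tgMask_tgSet 63 (by norm_num)]
    decide
  have hs5card : (tgSet 31).card = 5 := by
    rw [← popc_tgMask, tgMask_tgSet 31 (by norm_num)]
    decide
  have hs5sub : tgSet 31 ⊆ tgSet 63 := by
    rw [subset_iff_tgMask, tgMask_tgSet 31 (by norm_num), tgMask_tgSet 63 (by norm_num)]
    decide
  have hfixp : ∀ p : ArrayPt, tgIdx p < 5 → σ p = p := by
    intro p hp
    have := hfix (tgIdxF p) hp
    rwa [tgPt_idx] at this
  have hs5sub' : tgSet 31 ⊆ σ • tgSet 63 := by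
    intro p hp
    have h1 : σ p = p := hfixp p (testBit31 p ((mem_tgSet 31 p).mp hp))
    have h2 : σ • p ∈ σ • tgSet 63 := (Finset.smul_mem_smul_finset_iff σ).mpr (hs5sub hp)
    rw [Equiv.Perm.smul_def, h1] at h2
    exact h2
  have hσh0 : σ • tgSet 63 = tgSet 63 := by
    obtain ⟨b, _, huniq⟩ := tgHex_steiner.2 (tgSet 31) hs5card
    rw [huniq (σ • tgSet 63) ⟨smul_mem_tgHex_of_aut σ hσ _ hh0, hs5sub'⟩,
      huniq (tgSet 63) ⟨hh0, hs5sub⟩]
  have hfix6 : ∀ p : ArrayPt, tgIdx p < 6 → σ p = p := by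
    intro p hp
    by_cases hp5 : tgIdx p < 5
    · exact hfixp p hp5
    · have hp6 : p ∈ tgSet 63 := by
        rw [mem_tgSet]
        have : tgIdx p = 5 := by omega
        rw [this]
        decide
      have h2 : σ • p ∈ σ • tgSet 63 := (Finset.smul_mem_smul_finset_iff σ).mpr hp6
      rw [hσh0, Equiv.Perm.smul_def, mem_tgSet] at h2
      have h3 := testBit63 _ h2
      by_cases h4 : tgIdx (σ p) < 5
      · have := hfixp (σ p) h4
        exact σ.injective this
      · apply tgIdx_injective
        omega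
  -- Step 2: positions of index at least 6 stay there
  have hge : ∀ p : ArrayPt, 6 ≤ tgIdx p → 6 ≤ tgIdx (σ p) := by
    intro p hp
    by_contra h
    rw [not_le] at h
    have := hfix6 (σ p) h
    have h2 := σ.injective this
    rw [h2] at h
    omega
  -- Step 3: duads
  have hduad : ∀ q : Fin 12, 6 ≤ q.val → ∀ q' : Fin 12, 6 ≤ q'.val → q ≠ q' →
      (tgIdxF (σ (tgPt q)) = q ∧ tgIdxF (σ (tgPt q')) = q') ∨
      (tgIdxF (σ (tgPt q)) = q' ∧ tgIdxF (σ (tgPt q')) = q) := by
    intro q hq q' hq' hqq'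
    have hq1 : 6 ≤ tgIdx (tgPt q) := by rw [tgIdx_tgPt]; exact hq
    have hq1' : 6 ≤ tgIdx (tgPt q') := by rw [tgIdx_tgPt]; exact hq'
    apply tg_duad q hq q' hq' hqq' (tgIdxF (σ (tgPt q))) (hge _ hq1)
      (tgIdxF (σ (tgPt q'))) (hge _ hq1')
    intro Fm hFm hbit
    have hFm64 := tgFour_lt Fm hFm
    have hFs : ∀ p : ArrayPt, p ∈ tgSet Fm → tgIdx p < 6 := by
      intro p hp
      rw [mem_tgSet] at hp
      by_contra h
      rw [not_lt] at h
      have hpow : (64 : ℕ) ≤ 2 ^ tgIdx p := by
        have : (2 : ℕ) ^ 6 ≤ 2 ^ tgIdx p := Nat.pow_le_pow_right (by norm_num) h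
        norm_num at this
        exact this
      rw [Nat.testBit_eq_false_of_lt (lt_of_lt_of_le hFm64 hpow)] at hp
      exact absurd hp (by decide)
    have hnotin : ∀ p : ArrayPt, 6 ≤ tgIdx p → p ∉ tgSet Fm := by
      intro p hp hp'
      have := hFs p hp'
      omega
    have hne : tgPt q ≠ tgPt q' := fun h => hqq' (tgPt_injective h)
    have hmask : ∀ p p' : ArrayPt, 6 ≤ tgIdx p → 6 ≤ tgIdx p' → p ≠ p' →
        tgMask (insert p (insert p' (tgSet Fm))) = 2 ^ tgIdx p + (2 ^ tgIdx p' + Fm) := by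
      intro p p' hp hp' hpp'
      rw [tgMask_insert, tgMask_insert, tgMask_tgSet Fm (by omega)]
      · exact hnotin p' hp'
      · rw [Finset.mem_insert]
        rintro (h | h)
        · exact hpp' h
        · exact hnotin p hp h
    have hs : insert (tgPt q) (insert (tgPt q') (tgSet Fm)) ∈ tgHex := by
      rw [mem_tgHex_iff, hmask _ _ hq1 hq1' hne, tgIdx_tgPt, tgIdx_tgPt]
      exact (tgHexBitmap_spec _).mp hbit
    have hσs := smul_mem_tgHex_of_aut σ hσ _ hs
    have himg : σ • insert (tgPt q) (insert (tgPt q') (tgSet Fm))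
        = insert (σ (tgPt q)) (insert (σ (tgPt q')) (tgSet Fm)) := by
      rw [Finset.smul_finset_def, Finset.image_insert, Finset.image_insert]
      congr 2
      ext p
      rw [Finset.mem_image]
      constructor
      · rintro ⟨p0, hp0, rfl⟩
        rw [Equiv.Perm.smul_def, hfix6 p0 (hFs p0 hp0)]
        exact hp0
      · intro hp
        exact ⟨p, hp, by rw [Equiv.Perm.smul_def, hfix6 p (hFs p hp)]⟩
    rw [himg, mem_tgHex_iff, hmask _ _ (hge _ hq1) (hge _ hq1')
      (fun h => hne (σ.injective h))] at hσs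
    exact (tgHexBitmap_spec _).mpr hσs
  -- Step 4
  have hall : ∀ k : Fin 12, σ (tgPt k) = tgPt k := by
    intro k
    by_cases hk : k.val < 6
    · apply hfix6
      rw [tgIdx_tgPt]
      exact hk
    · rw [not_lt] at hk
      obtain ⟨q', q'', hq', hq'', h1, h2, h3⟩ := exists_two_others k hk
      have e : tgIdxF (σ (tgPt k)) = k := by
        rcases hduad k hk q' hq' h1 with ⟨ha, -⟩ | ⟨ha, -⟩
        · exact ha
        · rcases hduad k hk q'' hq'' h2 with ⟨hb, -⟩ | ⟨hb, -⟩
          · exact hb
          · exact absurd (ha.symm.trans hb) h3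
      rw [← tgPt_idx (σ (tgPt k)), e]
  ext p : 1
  rw [← tgPt_idx p, hall]
  rfl

theorem aut_ev_injective : Function.Injective (fun σ : tgAut =>
    tgBase.trans (σ.1 : Equiv.Perm ArrayPt).toEmbedding) := by
  intro σ τ h
  have h1 : ∀ i : Fin 5, σ.1 (tgBase i) = τ.1 (tgBase i) := fun i =>
    congrArg (fun e : Fin 5 ↪ ArrayPt => e i) h
  have h2 : τ.1⁻¹ * σ.1 = 1 := by
    apply aut_eq_one _ (tgAut.mul_mem (tgAut.inv_mem τ.2) σ.2)
    intro k hk
    have := h1 ⟨k.val, hk⟩
    have hb : tgBase ⟨k.val, hk⟩ = tgPt k := by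
      show tgPt (Fin.castLE (by norm_num : 5 ≤ 12) ⟨k.val, hk⟩) = tgPt k
      congr 1
    rw [hb] at this
    rw [Equiv.Perm.mul_apply, this]
    simp
  apply Subtype.ext
  have h3 : σ.1 = τ.1 * (τ.1⁻¹ * σ.1) := by simp
  rw [h3, h2, mul_one]

theorem card_aut_le : Nat.card tgAut ≤ 95040 := by
  have h := Nat.card_le_card_of_injective _ aut_ev_injective
  rw [Nat.card_eq_fintype_card (α := Fin 5 ↪ ArrayPt), Fintype.card_embedding_eq] at h
  have h2 : (Fintype.card ArrayPt).descFactorial (Fintype.card (Fin 5)) = 95040 := by decide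
  rw [h2] at h
  exact h

theorem monoProj_eq_aut : monoProj ternaryGolayCode = tgAut :=
  Subgroup.eq_of_le_of_card_ge monoProj_le_aut (card_aut_le.trans card_monoProj_ge)

theorem card_monoProj : Nat.card (monoProj ternaryGolayCode) = 95040 :=
  le_antisymm (by rw [monoProj_eq_aut]; exact card_aut_le) card_monoProj_ge

theorem tg_card_diag : Nat.card {d : ArrayPt → (ZMod 3)ˣ // Pres ternaryGolayCode 1 d} = 2 := by
  classical
  have e : {d : ArrayPt → (ZMod 3)ˣ // Pres ternaryGolayCode 1 d} ≃ (ZMod 3)ˣ :=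
    { toFun := fun d => d.1 (0, 0)
      invFun := fun a => ⟨fun _ => a, by
        intro x hx
        have : monomialMap (1 : Equiv.Perm ArrayPt) (fun _ => a) x = (a : ZMod 3) • x := by
          funext i
          rfl
        rw [this]
        exact Submodule.smul_mem _ _ hx⟩
      left_inv := by
        rintro ⟨d, hd⟩
        apply Subtype.ext
        funext i
        show d (0, 0) = d i
        rcases diag_aut d hd with h | h
        · rw [h, h]
        · rw [h, h]
      right_inv := fun a => rfl }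
  rw [Nat.card_congr e, Nat.card_eq_fintype_card]
  decide

theorem tg_card_aut : Nat.card {f : Equiv.Perm ArrayPt × (ArrayPt → (ZMod 3)ˣ) //
    Pres ternaryGolayCode f.1 f.2} = 190080 := by
  rw [card_pres, tg_card_diag, card_monoProj]

end Cfsg.Agent.Helper27
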