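import Cfsg.Agent.Helper7.PermOf
import Cfsg.Agent.Helper26.GolayTrio
import Cfsg.Agent.Helper91.StabCard

/-!
# The stabiliser of a trio, I

The base trio `T0`, transitivity of `M24` on trios, the order `64512` of a trio stabiliser,
and the action on the three octads (every permutation is induced).
-/

set_option autoImplicit false
open scoped Pointwise

namespace Cfsg.Agent.Helper27.Trio

open Cfsg Cfsg.Agent.Helper7

/-- masks of the three octads of the base trio -/
def octM : Fin 3 → ℕ := ![0x149f, 0x3da100, 0xc24a60]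

/-- the three octads of the base trio -/
def oct (i : Fin 3) : Finset GolayPt := Helper7.setOf (octM i)

/-- the base trio -/
def T0 : Finset (Finset GolayPt) := Finset.univ.image oct

theorem octM_lt : ∀ i, octM i < 2 ^ 24 := by decide

theorem octM_inj : ∀ i j, octM i = octM j → i = j := by decide

theorem oct_injective : Function.Injective oct :=
  fun i j h => octM_inj i j (setOf_inj (octM_lt i) (octM_lt j) h)

theorem mem_T0 {t : Finset GolayPt} : t ∈ T0 ↔ ∃ i, oct i = t := by
  simp [T0]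

theorem oct_mem (i : Fin 3) : oct i ∈ T0 := mem_T0.mpr ⟨i, rfl⟩

theorem card_T0 : T0.card = 3 := by
  rw [T0, Finset.card_image_of_injective _ oct_injective]
  rfl

theorem octM_code : ∀ i, inCode (octM i) = true ∧ wt (octM i) = 8 := by decide +kernel

theorem oct_mem_octads (i : Fin 3) : oct i ∈ octads := by
  have h1 := setOf_mem_wordsOfWeight (octM_code i).1
  rw [(octM_code i).2] at h1
  exact h1

theorem octM_and : ∀ i j, i ≠ j → octM i &&& octM j = 0 := by decide

theorem oct_disjoint (i j : Fin 3) (h : i ≠ j) : Disjoint (oct i) (oct j) := by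
  rw [Finset.disjoint_iff_inter_eq_empty, oct, oct, ← setOf_and, octM_and i j h, setOf_zero]

theorem T0_mem : T0 ∈ trios := by
  refine ⟨card_T0, ?_, ?_⟩
  · intro o ho
    obtain ⟨i, rfl⟩ := mem_T0.mp ho
    exact oct_mem_octads i
  · intro o ho o' ho' hne
    obtain ⟨i, rfl⟩ := mem_T0.mp ho
    obtain ⟨j, rfl⟩ := mem_T0.mp ho'
    exact oct_disjoint i j (fun e => hne (by rw [e]))

theorem oct_cover_idx : ∀ j < 24, ∃ i, (octM i).testBit j = true := by decide +kernel

theorem oct_cover (q : GolayPt) : ∃ i, q ∈ oct i := by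
  obtain ⟨i, hi⟩ := oct_cover_idx (idx q) (idx_lt q)
  exact ⟨i, mem_setOf.mpr hi⟩

/-! ### Transitivity and the order of the stabiliser -/

theorem smul_mem_trios {g : Equiv.Perm GolayPt} (hg : g ∈ M24) {T : Finset (Finset GolayPt)}
    (hT : T ∈ trios) : g • T ∈ trios := by
  obtain ⟨h3, hoct, hdis⟩ := hT
  refine ⟨by rw [Finset.card_smul_finset]; exact h3, ?_, ?_⟩
  · intro o ho
    obtain ⟨o', ho', rfl⟩ := Finset.mem_smul_finset.1 ho
    exact smul_mem_wordsOfWeight hg (hoct o' ho')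
  · intro o ho o₂ ho₂ hne
    obtain ⟨o', ho', rfl⟩ := Finset.mem_smul_finset.1 ho
    obtain ⟨o₂', ho₂', rfl⟩ := Finset.mem_smul_finset.1 ho₂
    have hd := hdis o' ho' o₂' ho₂' (fun e => hne (by rw [e]))
    rw [Finset.disjoint_iff_inter_eq_empty] at hd ⊢
    rw [← Finset.smul_finset_inter, hd, Finset.smul_finset_empty]

/-- `M24` is transitive on the trios. -/
theorem exists_smul_T0 {T : Finset (Finset GolayPt)} (hT : T ∈ trios) :
    ∃ u ∈ M24, u • T0 = T := by
  have h1 : 1 < T.card := by rw [hT.1]; norm_num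
  obtain ⟨a, ha, b, hb, hne⟩ := Finset.one_lt_card.1 h1
  have hao := hT.2.1 a ha
  have hbo := hT.2.1 b hb
  have hdis := hT.2.2 a ha b hb hne
  obtain ⟨u₁, hu₁, e₁⟩ := octad_eq_smul_O0 hao
  have e₁' : u₁ • oct 0 = a := e₁
  have hb' : u₁⁻¹ • b ∈ octads := smul_mem_wordsOfWeight (M24.inv_mem hu₁) hbo
  have hd' : oct 0 ∩ u₁⁻¹ • b = ∅ := by
    have h2 : u₁⁻¹ • (a ∩ b) = ∅ := by
      rw [Finset.disjoint_iff_inter_eq_empty.mp hdis, Finset.smul_finset_empty]
    rw [Finset.smul_finset_inter, ← e₁', inv_smul_smul] at h2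
    exact h2
  obtain ⟨g, hg, hg0, hg1⟩ := Helper91.oct_pair_trans (oct_mem_octads 0) (oct_mem_octads 1) hb'
    (by rw [hd', Finset.disjoint_iff_inter_eq_empty.mp (oct_disjoint 0 1 (by decide))])
  refine ⟨u₁ * g, M24.mul_mem hu₁ hg, ?_⟩
  have h3 : (u₁ * g) • T0 ∈ trios := smul_mem_trios (M24.mul_mem hu₁ hg) T0_mem
  have ha' : a ∈ (u₁ * g) • T0 := by
    have : (u₁ * g) • oct 0 = a := by rw [mul_smul, hg0, e₁']
    rw [← this]; exact Finset.smul_mem_smul_finset (oct_mem 0)
  have hb'' : b ∈ (u₁ * g) • T0 := by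
    have : (u₁ * g) • oct 1 = b := by rw [mul_smul, hg1, smul_inv_smul]
    rw [← this]; exact Finset.smul_mem_smul_finset (oct_mem 1)
  rw [Helper26.trio_eq_trioOf h3 ha' hb'' hne, Helper26.trio_eq_trioOf hT ha hb hne]

theorem orbit_eq {T : Finset (Finset GolayPt)} (hT : T ∈ trios) :
    MulAction.orbit (↥M24) T = trios := by
  ext X
  constructor
  · rintro ⟨g, rfl⟩
    exact smul_mem_trios g.2 hT
  · intro hX
    obtain ⟨u, hu, rfl⟩ := exists_smul_T0 hT
    obtain ⟨w, hw, rfl⟩ := exists_smul_T0 hX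
    refine ⟨⟨w * u⁻¹, M24.mul_mem hw (M24.inv_mem hu)⟩, ?_⟩
    show (w * u⁻¹) • u • T0 = w • T0
    rw [mul_smul, inv_smul_smul]

/-- A trio stabiliser has order `64512`. -/
theorem card_stab {T : Finset (Finset GolayPt)} (hT : T ∈ trios) :
    Nat.card ↥(MulAction.stabilizer (↥M24) T) = 64512 := by
  have hos : Nat.card (MulAction.orbit (↥M24) T) * Nat.card (MulAction.stabilizer (↥M24) T)
      = Nat.card ↥M24 := by
    rw [Subgroup.card_eq_card_quotient_mul_card_subgroup (MulAction.stabilizer (↥M24) T),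
      Nat.card_congr (MulAction.orbitEquivQuotientStabilizer (↥M24) T)]
  rw [orbit_eq hT, Nat.card_coe_set_eq, Helper26.trios_ncard, card_M24] at hos
  omega

/-! ### The action on the octads -/

/-- tables of elements inducing the transpositions of the octads (and fixing the seven sextets
refining the trio) -/
def owL : List ℕ := [0x0, 0xbd9870aa23138955c920a18ad83e68, 0x132b49c870785b6218e84a80b8ddc5, 0xbd9870aa23138955c920a18ad83e68, 0x0, 0x7d6c971a11bcd6c6aa853c90418820, 0x132b49c870785b6218e84a80b8ddc5, 0x7d6c971a11bcd6c6aa853c90418820, 0x0]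

/-- the table for the transposition `(i j)` -/
def owC (i j : Fin 3) : ℕ := owL.getD (3 * i.val + j.val) 0

theorem owC_ok : ∀ i j : Fin 3, i ≠ j → codeM24 (owC i j) = true ∧
    ∀ k : Fin 3, pm (owC i j) (octM k) = octM (Equiv.swap i j k) := by decide +kernel

theorem tbl_of_ok {c : ℕ} (h : codeM24 c = true) : IsTbl (permOf c) c := by
  rw [codeM24, Bool.and_eq_true] at h
  exact isTbl_permOf h.1

theorem swap_elt (i j : Fin 3) (hij : i ≠ j) :
    ∃ g ∈ M24, ∀ k, g • oct k = oct (Equiv.swap i j k) := by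
  have h := owC_ok i j hij
  refine ⟨permOf (owC i j), permOf_mem_M24 h.1, fun k => ?_⟩
  have ht : IsTbl (permOf (owC i j)) (owC i j) := tbl_of_ok h.1
  rw [oct, ← setOf_pm ht, h.2 k]
  rfl

theorem exists_idx {u : Equiv.Perm GolayPt} (t : ↥(u • T0)) :
    ∃ k, (t : Finset GolayPt) = u • oct k := by
  obtain ⟨y, hy, e⟩ := Finset.mem_smul_finset.mp t.2
  obtain ⟨k, rfl⟩ := mem_T0.mp hy
  exact ⟨k, e.symm⟩

/-- the subgroup of permutations of the octads induced by the stabiliser -/
def indSub (T : Finset (Finset GolayPt)) : Subgroup (Equiv.Perm ↥T) where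
  carrier := {e | ∃ g ∈ MulAction.stabilizer (↥M24) T, ∀ t : ↥T,
    (g : Equiv.Perm GolayPt) • (t : Finset GolayPt) = ((e t : ↥T) : Finset GolayPt)}
  mul_mem' := by
    rintro e₁ e₂ ⟨g₁, hg₁, h₁⟩ ⟨g₂, hg₂, h₂⟩
    refine ⟨g₁ * g₂, mul_mem hg₁ hg₂, fun t => ?_⟩
    rw [Subgroup.coe_mul, mul_smul, h₂ t, h₁ (e₂ t)]
    rfl
  one_mem' := ⟨1, one_mem _, fun t => by
    rw [Subgroup.coe_one, one_smul]
    rfl⟩
  inv_mem' := by
    rintro e ⟨g, hg, h⟩
    refine ⟨g⁻¹, inv_mem hg, fun t => ?_⟩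
    have h1 := h (e.symm t)
    rw [Equiv.apply_symm_apply] at h1
    rw [Subgroup.coe_inv, inv_smul_eq_iff]
    exact h1.symm

theorem swap_mem {u : Equiv.Perm GolayPt} (hu : u ∈ M24) (t₁ t₂ : ↥(u • T0)) (hne : t₁ ≠ t₂) :
    Equiv.swap t₁ t₂ ∈ indSub (u • T0) := by
  obtain ⟨i, hi⟩ := exists_idx t₁
  obtain ⟨j, hj⟩ := exists_idx t₂
  have hij : i ≠ j := by
    rintro rfl
    exact hne (Subtype.ext (hi.trans hj.symm))
  obtain ⟨g, hg, hgk⟩ := swap_elt i j hij
  have key : ∀ t : ↥(u • T0), (u * g * u⁻¹) • (t : Finset GolayPt) =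
      ((Equiv.swap t₁ t₂ t : ↥(u • T0)) : Finset GolayPt) := by
    intro t
    obtain ⟨k, hk⟩ := exists_idx t
    rw [hk, mul_smul, mul_smul, inv_smul_smul, hgk k]
    by_cases h1 : t = t₁
    · have hki : k = i := by
        apply oct_injective
        apply MulAction.injective u
        show u • oct k = u • oct i
        rw [← hk, ← hi, h1]
      rw [h1, hki, Equiv.swap_apply_left, Equiv.swap_apply_left, hj]
    · by_cases h2 : t = t₂
      · have hkj : k = j := by
          apply oct_injective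
          apply MulAction.injective u
          show u • oct k = u • oct j
          rw [← hk, ← hj, h2]
        rw [h2, hkj, Equiv.swap_apply_right, Equiv.swap_apply_right, hi]
      · have hki : k ≠ i := by
          rintro rfl
          exact h1 (Subtype.ext (hk.trans hi.symm))
        have hkj : k ≠ j := by
          rintro rfl
          exact h2 (Subtype.ext (hk.trans hj.symm))
        rw [Equiv.swap_apply_of_ne_of_ne hki hkj, Equiv.swap_apply_of_ne_of_ne h1 h2, hk]
  have hm : u * g * u⁻¹ ∈ M24 := M24.mul_mem (M24.mul_mem hu hg) (M24.inv_mem hu)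
  have hst : (u * g * u⁻¹) • (u • T0) = u • T0 := by
    apply Finset.eq_of_subset_of_card_le
    · intro x hx
      obtain ⟨y, hy, rfl⟩ := Finset.mem_smul_finset.mp hx
      have h := key ⟨y, hy⟩
      rw [show (u * g * u⁻¹) • y = ((Equiv.swap t₁ t₂ ⟨y, hy⟩ : ↥(u • T0)) : Finset GolayPt)
        from h]
      exact Subtype.coe_prop _
    · exact le_of_eq (Finset.card_smul_finset _ _).symm
  exact ⟨⟨u * g * u⁻¹, hm⟩, MulAction.mem_stabilizer_iff.mpr hst, key⟩

theorem indSub_top {u : Equiv.Perm GolayPt} (hu : u ∈ M24) : indSub (u • T0) = ⊤ := by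
  rw [eq_top_iff, ← Equiv.Perm.closure_isSwap, Subgroup.closure_le]
  rintro σ ⟨x, y, hxy, rfl⟩
  exact swap_mem hu x y hxy

/-- The stabiliser of a trio induces every permutation of its three octads. -/
theorem induces_all {T : Finset (Finset GolayPt)} (hT : T ∈ trios) (e : Equiv.Perm ↥T) :
    ∃ g ∈ MulAction.stabilizer (↥M24) T, ∀ t : ↥T,
      (g : Equiv.Perm GolayPt) • (t : Finset GolayPt) = ((e t : ↥T) : Finset GolayPt) := by
  obtain ⟨u, hu, rfl⟩ := exists_smul_T0 hT
  have h : e ∈ indSub (u • T0) := by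
    rw [indSub_top hu]; trivial
  exact h

end Cfsg.Agent.Helper27.Trio
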