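import Cfsg.Agent.Helper27.TrioA
import Cfsg.Agent.Helper5.SLGen
import Cfsg.Agent.Helper7.Octad

/-!
# The stabiliser of a trio, II

The seven sextets refining the base trio carry the structure of the nonzero vectors of a
3-dimensional space over the field with two elements.  The subgroup `Gam` of
`Stab(T0) × (GL(3, 2) × S₃)` of pairs `(x, (A, σ))` such that `x` acts on the seven sextets as
`A` and on the three octads as `σ` projects injectively to `Stab(T0)` and onto
`GL(3, 2) × S₃`; the kernel of the second projection has at least 64 elements, so by counting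
the first projection is bijective.  This gives a surjective homomorphism
`Stab(T0) → GL(3, 2) × S₃` whose kernel is elementary abelian of order 64.
-/

set_option autoImplicit false
open scoped Pointwise

namespace Cfsg.Agent.Helper27.Trio

open Cfsg Cfsg.Agent.Helper7

/-! ### The seven sextets -/

/-- tetrad masks of the seven sextets refining the base trio -/
def sxL : List (List ℕ) := [[0xf, 0x1490, 0x98100, 0x342000, 0x400a40, 0x824020], [0x99, 0x1406, 0x112100, 0x2c8000, 0x20a20, 0xc04040], [0x1409, 0x96, 0x18a000, 0x250100, 0x420060, 0x804a00], [0x415, 0x108a, 0x4a100, 0x390000, 0x424200, 0x800860], [0x1085, 0x41a, 0xd2000, 0x308100, 0x24840, 0xc00220], [0x1013, 0x48c, 0x158000, 0x282100, 0x404820, 0x820240], [0x483, 0x101c, 0x1c0100, 0x21a000, 0x4260, 0xc20800]]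

/-- mask of the tetrad `t` of the sextet `k` -/
def sxM (k : Fin 7) (t : Fin 6) : ℕ := (sxL.getD k.val []).getD t.val 0

/-- the tetrad `t` of the sextet `k` -/
def sxt (k : Fin 7) (t : Fin 6) : Finset GolayPt := Helper7.setOf (sxM k t)

/-- the sextet `k` -/
def sx (k : Fin 7) : Finset (Finset GolayPt) := Finset.univ.image (sxt k)

theorem sxM_lt : ∀ k t, sxM k t < 2 ^ 24 := by decide

theorem sxM_inj : ∀ k t t', sxM k t = sxM k t' → t = t' := by decide

theorem sxM_first : ∀ k k' t, sxM k 0 = sxM k' t → k = k' := by decide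

theorem sxt_injective (k : Fin 7) : Function.Injective (sxt k) :=
  fun t t' h => sxM_inj k t t' (setOf_inj (sxM_lt k t) (sxM_lt k t') h)

theorem mem_sx {k : Fin 7} {x : Finset GolayPt} : x ∈ sx k ↔ ∃ t, sxt k t = x := by
  simp [sx]

theorem sxt_mem (k : Fin 7) (t : Fin 6) : sxt k t ∈ sx k := mem_sx.mpr ⟨t, rfl⟩

theorem card_sx (k : Fin 7) : (sx k).card = 6 := by
  rw [sx, Finset.card_image_of_injective _ (sxt_injective k)]
  rfl

theorem sx_injective : Function.Injective sx := by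
  intro k k' h
  have h1 : sxt k 0 ∈ sx k' := h ▸ sxt_mem k 0
  obtain ⟨t, ht⟩ := mem_sx.mp h1
  exact sxM_first k k' t (setOf_inj (sxM_lt k 0) (sxM_lt k' t) ht.symm)

theorem smul_sx_of_tbl {g : Equiv.Perm GolayPt} {c : ℕ} (hg : IsTbl g c) (k k' : Fin 7)
    (h : ∀ t, ∃ t', pm c (sxM k t) = sxM k' t') : g • sx k = sx k' := by
  apply Finset.eq_of_subset_of_card_le
  · intro x hx
    obtain ⟨y, hy, rfl⟩ := Finset.mem_smul_finset.mp hx
    obtain ⟨t, rfl⟩ := mem_sx.mp hy
    obtain ⟨t', ht'⟩ := h t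
    rw [sxt, ← setOf_pm hg, ht']
    exact sxt_mem k' t'
  · rw [Finset.card_smul_finset, card_sx, card_sx]

theorem smul_oct_of_tbl {g : Equiv.Perm GolayPt} {c : ℕ} (hg : IsTbl g c) (m m' : Fin 3)
    (h : pm c (octM m) = octM m') : g • oct m = oct m' := by
  rw [oct, ← setOf_pm hg, h]
  rfl

/-! ### The action of `GL(3, 2)` on seven labels -/

/-- the group `GL(3, 2)` -/
abbrev L32 : Type := Matrix.GeneralLinearGroup (Fin 3) (ZMod 2)

/-- the vector with label `k` -/
def vec (k : Fin 7) : Fin 3 → ZMod 2 := fun r => if (k.val + 1).testBit r.val then 1 else 0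

/-- the label of a nonzero vector -/
def idxV (v : Fin 3 → ZMod 2) : Fin 7 :=
  ⟨((v 0).val + 2 * (v 1).val + 4 * (v 2).val + 6) % 7, Nat.mod_lt _ (by norm_num)⟩

theorem vec_idxV : ∀ v : Fin 3 → ZMod 2, v ≠ 0 → vec (idxV v) = v := by decide

theorem idxV_vec : ∀ k, idxV (vec k) = k := by decide

theorem vec_ne_zero : ∀ k, vec k ≠ 0 := by decide

/-- the action of `GL(3, 2)` on the labels -/
def actA (A : L32) (k : Fin 7) : Fin 7 := idxV (Matrix.mulVec A.1 (vec k))

theorem mulVec_ne_zero (A : L32) {v : Fin 3 → ZMod 2} (hv : v ≠ 0) : Matrix.mulVec A.1 v ≠ 0 := by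
  intro h
  apply hv
  have h1 : Matrix.mulVec (A⁻¹).1 (Matrix.mulVec A.1 v) = v := by
    rw [Matrix.mulVec_mulVec, ← Units.val_mul, inv_mul_cancel, Units.val_one, Matrix.one_mulVec]
  rw [h, Matrix.mulVec_zero] at h1
  exact h1.symm

theorem actA_mul (A B : L32) (k : Fin 7) : actA (A * B) k = actA A (actA B k) := by
  unfold actA
  rw [vec_idxV _ (mulVec_ne_zero B (vec_ne_zero k)), Matrix.mulVec_mulVec, Units.val_mul]

theorem actA_one (k : Fin 7) : actA 1 k = k := by
  unfold actA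
  rw [Units.val_one, Matrix.one_mulVec, idxV_vec]

theorem actA_inv_cancel (A : L32) (k : Fin 7) : actA A (actA A⁻¹ k) = k := by
  rw [← actA_mul, mul_inv_cancel, actA_one]

theorem actA_faithful {A B : L32} (h : ∀ k, actA A k = actA B k) : A = B := by
  have h1 : ∀ k, Matrix.mulVec A.1 (vec k) = Matrix.mulVec B.1 (vec k) := by
    intro k
    have h2 := congrArg vec (h k)
    unfold actA at h2
    rwa [vec_idxV _ (mulVec_ne_zero A (vec_ne_zero k)),
      vec_idxV _ (mulVec_ne_zero B (vec_ne_zero k))] at h2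
  apply Units.ext
  ext i j
  have hne : (Pi.single j 1 : Fin 3 → ZMod 2) ≠ 0 := by
    intro h0
    have h3 := congrFun h0 j
    rw [Pi.single_eq_same] at h3
    exact one_ne_zero h3
  have h4 := congrFun (h1 (idxV (Pi.single j 1))) i
  rw [vec_idxV _ hne, Matrix.mulVec_single_one, Matrix.mulVec_single_one] at h4
  exact h4

/-- the elementary transvections of `GL(3, 2)` -/
def tvG (i j : Fin 3) : L32 :=
  if h : i ≠ j then
    Matrix.SpecialLinearGroup.toGL (Matrix.SpecialLinearGroup.transvection h (1 : ZMod 2))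
  else 1

/-! ### Explicit elements -/

/-- tables of elements acting on the seven sextets as the elementary transvections and fixing
the three octads -/
def tvL : List ℕ := [0x0, 0xba64d4562f83a87312d362caa18820, 0xb99b28523343aaa4b16f258a718820, 0x33a487d62d9da01589343dca41a980, 0x0, 0x719f094e34add0a5b12d3d8a418440, 0xbba95821336d9e15aa32198a438980, 0xba613a3dd5945075aacd618a408860, 0x0]

/-- the table for the transvection `(i, j)` -/
def tvC (i j : Fin 3) : ℕ := tvL.getD (3 * i.val + j.val) 0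

theorem tvC_ok : ∀ i j : Fin 3, i ≠ j → codeM24 (tvC i j) = true ∧
    (∀ m : Fin 3, pm (tvC i j) (octM m) = octM m) ∧
    ∀ k : Fin 7, ∀ t : Fin 6, ∃ t' : Fin 6,
      pm (tvC i j) (sxM k t) = sxM (actA (tvG i j) k) t' := by decide +kernel

theorem owC_sx : ∀ i j : Fin 3, i ≠ j → ∀ k : Fin 7, ∀ t : Fin 6, ∃ t' : Fin 6,
    pm (owC i j) (sxM k t) = sxM k t' := by decide +kernel

/-- generators of the kernel, for the two levels of a chain -/
def kG0 : List ℕ := [0xbd9b24522f83aa459d33518ac10c01, 0xbda958363343a475912f618aa08062, 0xbda70abe34939015892d198a03a984]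
def kG1 : List ℕ := [0x5c613a22d56a5ecba9d2394c418820, 0xb5de894d6da9a0c8a8b43b92418820, 0x33a70abd349590c2aa2d3dd6418820]

theorem kG_ok : ∀ c ∈ kG0 ++ kG1, codeM24 c = true ∧
    (∀ m : Fin 3, pm c (octM m) = octM m) ∧
    ∀ k : Fin 7, ∀ t : Fin 6, ∃ t' : Fin 6, pm c (sxM k t) = sxM k t' := by decide +kernel

theorem kG_comm : ∀ c ∈ kG0 ++ kG1, ∀ d ∈ kG0 ++ kG1,
    Helper7.comp c d = Helper7.comp d c := by decide +kernel

theorem kG_sq : ∀ c ∈ kG0 ++ kG1, Helper7.comp c c = idCode := by decide +kernel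

theorem kLevel0 : levelCheck [] 0 0x149f kG0 3 = true := by decide +kernel
theorem kLevel1 : levelCheck [0] 8 0x3da100 kG1 3 = true := by decide +kernel

/-! ### The subgroup `Gam` -/

/-- the coercion of the stabiliser into the permutation group -/
def toPerm : ↥(MulAction.stabilizer (↥M24) T0) →* Equiv.Perm GolayPt :=
  M24.subtype.comp (MulAction.stabilizer (↥M24) T0).subtype

theorem toPerm_injective : Function.Injective toPerm :=
  fun _ _ h => Subtype.ext (Subtype.ext h)

/-- the target group -/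
abbrev Tgt : Type := L32 × Equiv.Perm (Fin 3)

/-- pairs `(x, (A, σ))` with `x` acting on the sextets as `A` and on the octads as `σ` -/
def Gam : Subgroup (↥(MulAction.stabilizer (↥M24) T0) × Tgt) where
  carrier := {z | (∀ k, toPerm z.1 • sx k = sx (actA z.2.1 k)) ∧
    ∀ i, toPerm z.1 • oct i = oct (z.2.2 i)}
  mul_mem' := by
    rintro a b ⟨ha1, ha2⟩ ⟨hb1, hb2⟩
    refine ⟨fun k => ?_, fun i => ?_⟩
    · show toPerm (a.1 * b.1) • sx k = sx (actA (a.2.1 * b.2.1) k)
      rw [map_mul, mul_smul, hb1 k, ha1, actA_mul]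
    · show toPerm (a.1 * b.1) • oct i = oct ((a.2.2 * b.2.2) i)
      rw [map_mul, mul_smul, hb2 i, ha2]
      rfl
  one_mem' := by
    refine ⟨fun k => ?_, fun i => ?_⟩
    · show toPerm 1 • sx k = sx (actA 1 k)
      rw [map_one, one_smul, actA_one]
    · show toPerm 1 • oct i = oct ((1 : Equiv.Perm (Fin 3)) i)
      rw [map_one, one_smul]
      rfl
  inv_mem' := by
    rintro a ⟨ha1, ha2⟩
    refine ⟨fun k => ?_, fun i => ?_⟩
    · show toPerm a.1⁻¹ • sx k = sx (actA a.2.1⁻¹ k)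
      rw [map_inv, inv_smul_eq_iff, ha1, actA_inv_cancel]
    · show toPerm a.1⁻¹ • oct i = oct (a.2.2.symm i)
      rw [map_inv, inv_smul_eq_iff, ha2, Equiv.apply_symm_apply]

theorem mem_Gam {z : ↥(MulAction.stabilizer (↥M24) T0) × Tgt} :
    z ∈ Gam ↔ (∀ k, toPerm z.1 • sx k = sx (actA z.2.1 k)) ∧
      ∀ i, toPerm z.1 • oct i = oct (z.2.2 i) := Iff.rfl

/-- the first projection -/
def pi1 : ↥Gam →* ↥(MulAction.stabilizer (↥M24) T0) :=
  (MonoidHom.fst _ _).comp Gam.subtype

/-- the second projection -/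
def pi2 : ↥Gam →* Tgt := (MonoidHom.snd _ _).comp Gam.subtype

theorem pi1_injective : Function.Injective pi1 := by
  intro a b hab
  have h1 : a.1.1 = b.1.1 := hab
  obtain ⟨ha1, ha2⟩ := a.2
  obtain ⟨hb1, hb2⟩ := b.2
  apply Subtype.ext
  apply Prod.ext h1
  apply Prod.ext
  · apply actA_faithful
    intro k
    apply sx_injective
    rw [← ha1 k, ← hb1 k, h1]
  · exact Equiv.ext (fun i => oct_injective (by rw [← ha2 i, ← hb2 i, h1]))

theorem smul_T0_of_oct {g : Equiv.Perm GolayPt} (σ : Equiv.Perm (Fin 3))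
    (h : ∀ i, g • oct i = oct (σ i)) : g • T0 = T0 := by
  apply Finset.eq_of_subset_of_card_le
  · intro x hx
    obtain ⟨y, hy, rfl⟩ := Finset.mem_smul_finset.mp hx
    obtain ⟨i, rfl⟩ := mem_T0.mp hy
    rw [h i]
    exact oct_mem _
  · exact le_of_eq (Finset.card_smul_finset _ _).symm

/-- the element of the stabiliser with a given underlying permutation -/
def mkStab (g : Equiv.Perm GolayPt) (hg : g ∈ M24) (h : g • T0 = T0) :
    ↥(MulAction.stabilizer (↥M24) T0) :=
  ⟨⟨g, hg⟩, MulAction.mem_stabilizer_iff.mpr h⟩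

theorem range_of_tbl (c : ℕ) (A : L32) (σ : Equiv.Perm (Fin 3)) (h1 : codeM24 c = true)
    (h2 : ∀ m : Fin 3, pm c (octM m) = octM (σ m))
    (h3 : ∀ k : Fin 7, ∀ t : Fin 6, ∃ t' : Fin 6, pm c (sxM k t) = sxM (actA A k) t') :
    (A, σ) ∈ pi2.range := by
  have ht := tbl_of_ok h1
  have ho : ∀ i, permOf c • oct i = oct (σ i) := fun i => smul_oct_of_tbl ht i (σ i) (h2 i)
  have hs : ∀ k, permOf c • sx k = sx (actA A k) := fun k => smul_sx_of_tbl ht k _ (h3 k)
  exact ⟨⟨(mkStab (permOf c) (permOf_mem_M24 h1) (smul_T0_of_oct σ ho), (A, σ)), ⟨hs, ho⟩⟩, rfl⟩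

theorem tv_range (i j : Fin 3) (hij : i ≠ j) : (tvG i j, (1 : Equiv.Perm (Fin 3))) ∈ pi2.range := by
  obtain ⟨h1, h2, h3⟩ := tvC_ok i j hij
  exact range_of_tbl (tvC i j) (tvG i j) 1 h1 h2 h3

theorem ow_range (i j : Fin 3) (hij : i ≠ j) : ((1 : L32), Equiv.swap i j) ∈ pi2.range := by
  obtain ⟨h1, h2⟩ := owC_ok i j hij
  refine range_of_tbl (owC i j) 1 (Equiv.swap i j) h1 h2 (fun k t => ?_)
  rw [actA_one]
  exact owC_sx i j hij k t

theorem exists_SL (A : L32) :
    ∃ A' : Matrix.SpecialLinearGroup (Fin 3) (ZMod 2), Matrix.SpecialLinearGroup.toGL A' = A := by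
  have h1 : IsUnit (A.1.det) := (Matrix.isUnit_iff_isUnit_det _).mp A.isUnit
  have h2 : A.1.det = 1 := by
    have h3 : ∀ x : ZMod 2, x ≠ 0 → x = 1 := by decide
    exact h3 _ h1.ne_zero
  exact ⟨⟨A.1, h2⟩, Units.ext rfl⟩

theorem transvection_zero (i j : Fin 3) (h : i ≠ j) :
    Matrix.SpecialLinearGroup.transvection h (0 : ZMod 2) = 1 := by
  apply Subtype.ext
  simp [Matrix.SpecialLinearGroup.transvection, Matrix.transvection]

theorem gl_range (A : L32) : (A, (1 : Equiv.Perm (Fin 3))) ∈ pi2.range := by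
  obtain ⟨A', rfl⟩ := exists_SL A
  refine Helper5.SL_transvection_induction
    (fun B => (Matrix.SpecialLinearGroup.toGL B, (1 : Equiv.Perm (Fin 3))) ∈ pi2.range) ?_ ?_ A'
  · intro i j hij a
    have ha : a = 0 ∨ a = 1 := by revert a; decide
    rcases ha with rfl | rfl
    · show (Matrix.SpecialLinearGroup.toGL (Matrix.SpecialLinearGroup.transvection hij 0),
        (1 : Equiv.Perm (Fin 3))) ∈ pi2.range
      rw [transvection_zero, map_one]
      exact pi2.range.one_mem
    · have h := tv_range i j hij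
      unfold tvG at h
      rw [dif_pos hij] at h
      exact h
  · intro B C hB hC
    show (Matrix.SpecialLinearGroup.toGL (B * C), (1 : Equiv.Perm (Fin 3))) ∈ pi2.range
    have h := pi2.range.mul_mem hB hC
    rw [Prod.mk_mul_mk, mul_one, ← map_mul] at h
    exact h

theorem perm_range (σ : Equiv.Perm (Fin 3)) : ((1 : L32), σ) ∈ pi2.range := by
  have h : σ ∈ pi2.range.comap (MonoidHom.inr L32 (Equiv.Perm (Fin 3))) := by
    have htop : pi2.range.comap (MonoidHom.inr L32 (Equiv.Perm (Fin 3))) = ⊤ := by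
      rw [eq_top_iff, ← Equiv.Perm.closure_isSwap, Subgroup.closure_le]
      rintro τ ⟨x, y, hxy, rfl⟩
      exact ow_range x y hxy
    rw [htop]; trivial
  exact h

theorem pi2_surjective : Function.Surjective pi2 := by
  rw [← MonoidHom.range_eq_top, eq_top_iff]
  rintro ⟨A, σ⟩ -
  have h := pi2.range.mul_mem (gl_range A) (perm_range σ)
  rw [Prod.mk_mul_mk, mul_one, one_mul] at h
  exact h

/-! ### The kernel -/

/-- the group generated by the kernel generators -/
def CL : Subgroup (Equiv.Perm GolayPt) :=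
  Subgroup.closure {g | ∃ c ∈ kG0 ++ kG1, g = permOf c}

theorem kG_mem {c : ℕ} (hc : c ∈ kG0 ++ kG1) : ∃ g ∈ CL, IsTbl g c :=
  ⟨permOf c, Subgroup.subset_closure ⟨c, hc, rfl⟩, tbl_of_ok (kG_ok c hc).1⟩

/-- lower bound for one level of a stabilizer chain -/
theorem card_level_ge (K : Subgroup (Equiv.Perm GolayPt)) (pre : List ℕ) (c : ℕ)
    (D : Finset GolayPt) (h2 : ∀ x ∈ D, ∃ g ∈ K ⊓ fixL pre, g (pt c) = x) :
    D.card * Nat.card ↥(K ⊓ fixL (pre ++ [c])) ≤ Nat.card ↥(K ⊓ fixL pre) := by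
  set H : Subgroup (Equiv.Perm GolayPt) := K ⊓ fixL pre with hH
  have hos : Nat.card (MulAction.orbit (↥H) (pt c)) * Nat.card (MulAction.stabilizer (↥H) (pt c))
      = Nat.card ↥H := by
    rw [Subgroup.card_eq_card_quotient_mul_card_subgroup (MulAction.stabilizer (↥H) (pt c)),
      Nat.card_congr (MulAction.orbitEquivQuotientStabilizer (↥H) (pt c))]
  have hsub : (D : Set GolayPt) ⊆ MulAction.orbit (↥H) (pt c) := by
    intro x hx
    obtain ⟨g, hg, rfl⟩ := h2 x (Finset.mem_coe.mp hx)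
    exact ⟨⟨g, hg⟩, rfl⟩
  have hcard1 : D.card ≤ Nat.card (MulAction.orbit (↥H) (pt c)) := by
    rw [Nat.card_coe_set_eq, ← Set.ncard_coe_finset D]
    exact Set.ncard_le_ncard hsub (Set.toFinite _)
  have e : ↥(MulAction.stabilizer (↥H) (pt c)) ≃ ↥(K ⊓ fixL (pre ++ [c])) :=
    { toFun := fun g => ⟨g.1.1, by
        have hg1 : g.1.1 ∈ H := g.1.2
        have hg2 : g.1 • pt c = pt c := g.2
        exact ⟨hg1.1, mem_fixL_append_singleton.mpr ⟨hg1.2, hg2⟩⟩⟩
      invFun := fun g => ⟨⟨g.1, ⟨g.2.1, (mem_fixL_append_singleton.mp g.2.2).1⟩⟩, by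
        show (⟨g.1, _⟩ : ↥H) • pt c = pt c
        exact (mem_fixL_append_singleton.mp g.2.2).2⟩
      left_inv := fun g => rfl
      right_inv := fun g => rfl }
  rw [← hos, ← Nat.card_congr e]
  exact Nat.mul_le_mul_right _ hcard1

theorem card_CL_ge : 64 ≤ Nat.card ↥CL := by
  have c0 := card_level_ge CL [] 0 (lvD 0x149f [])
    (lv_h2' (level_of_check CL [] 0 0x149f kG0 3
      (fun c hc => kG_mem (List.mem_append.mpr (Or.inl hc))) kLevel0) le_rfl)
  have c1 := card_level_ge CL [0] 8 (lvD 0x3da100 [0])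
    (lv_h2' (level_of_check CL [0] 8 0x3da100 kG1 3
      (fun c hc => kG_mem (List.mem_append.mpr (Or.inr hc))) kLevel1) le_rfl)
  have d0 : (lvD 0x149f []).card = 8 := by decide +kernel
  have d1 : (lvD 0x3da100 [0]).card = 8 := by decide +kernel
  rw [d0] at c0
  rw [d1] at c1
  simp only [List.nil_append, List.cons_append] at c0 c1
  have e0 : Nat.card ↥(CL ⊓ fixL []) = Nat.card ↥CL := by
    rw [fixL_nil, inf_top_eq]
  have hpos : 0 < Nat.card ↥(CL ⊓ fixL [0, 8]) := Nat.card_pos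
  rw [e0] at c0
  omega

theorem CL_sq : ∀ g ∈ CL, g * g = 1 := by
  apply sq_eq_one_of_closure
  · rintro x ⟨c, hc, rfl⟩ y ⟨d, hd, rfl⟩
    have h1 := (tbl_of_ok (kG_ok c hc).1).mul (tbl_of_ok (kG_ok d hd).1)
    have h2 := (tbl_of_ok (kG_ok d hd).1).mul (tbl_of_ok (kG_ok c hc).1)
    rw [kG_comm c hc d hd] at h1
    exact h1.eq h2
  · rintro x ⟨c, hc, rfl⟩
    have h1 := (tbl_of_ok (kG_ok c hc).1).mul (tbl_of_ok (kG_ok c hc).1)
    rw [kG_sq c hc] at h1
    exact h1.eq IsTbl.one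

/-- the permutations of `M24` fixing the seven sextets and the three octads -/
def NP : Subgroup (Equiv.Perm GolayPt) where
  carrier := {g | g ∈ M24 ∧ (∀ k, g • sx k = sx k) ∧ ∀ i, g • oct i = oct i}
  mul_mem' := by
    rintro a b ⟨ha, ha1, ha2⟩ ⟨hb, hb1, hb2⟩
    exact ⟨M24.mul_mem ha hb, fun k => by rw [mul_smul, hb1, ha1],
      fun i => by rw [mul_smul, hb2, ha2]⟩
  one_mem' := ⟨M24.one_mem, fun k => one_smul _ _, fun i => one_smul _ _⟩
  inv_mem' := by
    rintro a ⟨ha, ha1, ha2⟩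
    exact ⟨M24.inv_mem ha, fun k => by rw [inv_smul_eq_iff, ha1],
      fun i => by rw [inv_smul_eq_iff, ha2]⟩

theorem CL_le_NP : CL ≤ NP := by
  unfold CL
  rw [Subgroup.closure_le]
  rintro g ⟨c, hc, rfl⟩
  obtain ⟨h1, h2, h3⟩ := kG_ok c hc
  have ht := tbl_of_ok h1
  exact ⟨permOf_mem_M24 h1, fun k => smul_sx_of_tbl ht k k (h3 k),
    fun i => smul_oct_of_tbl ht i i (h2 i)⟩

/-- the element of `Gam` attached to an element of `NP` -/
def ofNP (g : ↥NP) : ↥Gam :=
  ⟨(mkStab g.1 g.2.1 (smul_T0_of_oct 1 g.2.2.2), (1, 1)),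
    ⟨fun k => by
      show g.1 • sx k = sx (actA 1 k)
      rw [actA_one]
      exact g.2.2.1 k, g.2.2.2⟩⟩

theorem card_ker_ge : 64 ≤ Nat.card ↥pi2.ker := by
  refine le_trans card_CL_ge ?_
  let f : ↥CL → ↥pi2.ker := fun g => ⟨ofNP ⟨g.1, CL_le_NP g.2⟩, rfl⟩
  have hf : Function.Injective f := by
    intro a b hab
    apply Subtype.ext
    exact congrArg (fun z : ↥pi2.ker => toPerm z.1.1.1) hab
  exact Nat.card_le_card_of_injective f hf

theorem card_L32 : Nat.card L32 = 168 := by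
  have h := Matrix.card_GL_field (𝔽 := ZMod 2) 3
  rw [h, ZMod.card, Fin.prod_univ_three]
  norm_num

theorem card_Tgt : Nat.card Tgt = 1008 := by
  rw [Nat.card_prod, card_L32, Nat.card_eq_fintype_card, Fintype.card_perm, Fintype.card_fin]
  rfl

theorem card_Gam_eq : Nat.card ↥Gam = Nat.card ↥pi2.ker * 1008 := by
  have h1 := Subgroup.card_eq_card_quotient_mul_card_subgroup pi2.ker
  have h2 : Nat.card (↥Gam ⧸ pi2.ker) = 1008 := by
    rw [Nat.card_congr (QuotientGroup.quotientKerEquivOfSurjective _ pi2_surjective).toEquiv,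
      card_Tgt]
  rw [h1, h2, mul_comm]

theorem card_Gam : Nat.card ↥Gam = 64512 := by
  have h1 := Nat.card_le_card_of_injective pi1 pi1_injective
  rw [card_stab T0_mem] at h1
  have h2 := card_Gam_eq
  have h3 := card_ker_ge
  have h4 : 64 * 1008 ≤ Nat.card ↥pi2.ker * 1008 := Nat.mul_le_mul_right _ h3
  rw [← h2] at h4
  exact le_antisymm h1 h4

theorem pi1_bijective : Function.Bijective pi1 :=
  (Nat.bijective_iff_injective_and_card pi1).mpr
    ⟨pi1_injective, by rw [card_Gam, card_stab T0_mem]⟩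

/-! ### The homomorphism onto `GL(3, 2) × S₃` -/

/-- the homomorphism of the stabiliser of the base trio onto `GL(3, 2) × S₃` -/
noncomputable def Phi : ↥(MulAction.stabilizer (↥M24) T0) →* Tgt :=
  pi2.comp (MulEquiv.ofBijective pi1 pi1_bijective).symm.toMonoidHom

theorem Phi_surjective : Function.Surjective Phi := by
  intro y
  obtain ⟨z, rfl⟩ := pi2_surjective y
  refine ⟨pi1 z, ?_⟩
  show pi2 ((MulEquiv.ofBijective pi1 pi1_bijective).symm (pi1 z)) = pi2 z
  have h : (MulEquiv.ofBijective pi1 pi1_bijective).symm (pi1 z) = z :=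
    (MulEquiv.ofBijective pi1 pi1_bijective).symm_apply_apply z
  rw [h]

theorem Phi_spec (x : ↥(MulAction.stabilizer (↥M24) T0)) : (x, Phi x) ∈ Gam := by
  have h : pi1 ((MulEquiv.ofBijective pi1 pi1_bijective).symm x) = x :=
    (MulEquiv.ofBijective pi1 pi1_bijective).apply_symm_apply x
  have h2 := ((MulEquiv.ofBijective pi1 pi1_bijective).symm x).2
  have e : (((MulEquiv.ofBijective pi1 pi1_bijective).symm x : ↥Gam) :
      ↥(MulAction.stabilizer (↥M24) T0) × Tgt) = (x, Phi x) := Prod.ext h rfl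
  rw [e] at h2
  exact h2

/-- the kernel -/
noncomputable def N0 : Subgroup ↥(MulAction.stabilizer (↥M24) T0) := Phi.ker

theorem card_N0 : Nat.card ↥N0 = 64 := by
  have h1 := Subgroup.card_eq_card_quotient_mul_card_subgroup Phi.ker
  have h2 : Nat.card (↥(MulAction.stabilizer (↥M24) T0) ⧸ Phi.ker) = 1008 := by
    rw [Nat.card_congr (QuotientGroup.quotientKerEquivOfSurjective _ Phi_surjective).toEquiv,
      card_Tgt]
  rw [card_stab T0_mem, h2] at h1
  show Nat.card ↥Phi.ker = 64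
  omega

theorem toPerm_mem_NP {x : ↥(MulAction.stabilizer (↥M24) T0)} (hx : x ∈ N0) : toPerm x ∈ NP := by
  have h := Phi_spec x
  rw [show Phi x = 1 from hx] at h
  obtain ⟨h1, h2⟩ := h
  refine ⟨x.1.2, fun k => ?_, fun i => h2 i⟩
  have h3 := h1 k
  rw [show ((x, (1 : Tgt)) : ↥(MulAction.stabilizer (↥M24) T0) × Tgt).2.1 = 1 from rfl,
    actA_one] at h3
  exact h3

theorem map_N0 : N0.map toPerm = NP := by
  apply le_antisymm
  · rintro g ⟨x, hx, rfl⟩
    exact toPerm_mem_NP hx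
  · intro g hg
    refine ⟨(ofNP ⟨g, hg⟩).1.1, ?_, rfl⟩
    show Phi (ofNP ⟨g, hg⟩).1.1 = 1
    have h1 := Phi_spec (ofNP ⟨g, hg⟩).1.1
    have h2 : pi1 ⟨_, h1⟩ = pi1 (ofNP ⟨g, hg⟩) := rfl
    have h3 := pi1_injective h2
    have h4 := congrArg (fun z : ↥Gam => z.1.2) h3
    exact h4

theorem CL_eq_NP : CL = NP := by
  apply Subgroup.eq_of_le_of_card_ge CL_le_NP
  rw [← map_N0]
  have h : Nat.card ↥(N0.map toPerm) = 64 := by
    rw [← card_N0]
    exact Nat.card_congr (N0.equivMapOfInjective toPerm toPerm_injective).symm.toEquiv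
  rw [h]
  exact card_CL_ge

theorem N0_sq (x : ↥(MulAction.stabilizer (↥M24) T0)) (hx : x ∈ N0) : x * x = 1 := by
  have h := toPerm_mem_NP hx
  rw [← CL_eq_NP] at h
  apply toPerm_injective
  rw [map_mul, map_one]
  exact CL_sq _ h

/-- The stabiliser of a trio has a normal subgroup of order `64` all of whose elements square
to the identity, with quotient isomorphic to `GL(3, 2) × S₃`. -/
theorem exists_normal {T : Finset (Finset GolayPt)} (hT : T ∈ trios) :
    ∃ (N : Subgroup ↥(MulAction.stabilizer (↥M24) T)) (_ : N.Normal),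
      Nat.card ↥N = 64 ∧ (∀ x ∈ N, x * x = 1) ∧
        Nonempty (↥(MulAction.stabilizer (↥M24) T) ⧸ N ≃*
          Matrix.GeneralLinearGroup (Fin 3) (ZMod 2) × Equiv.Perm (Fin 3)) := by
  have hrel : MulAction.orbitRel (↥M24) (Finset (Finset GolayPt)) T0 T := by
    rw [MulAction.orbitRel_apply, orbit_eq hT]
    exact T0_mem
  let ψ := MulAction.stabilizerEquivStabilizerOfOrbitRel hrel
  have hN0 : N0.Normal := MonoidHom.normal_ker Phi
  have hN : (N0.map ψ.toMonoidHom).Normal := Subgroup.Normal.map hN0 _ ψ.surjective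
  refine ⟨N0.map ψ.toMonoidHom, hN, ?_, ?_, ?_⟩
  · rw [← card_N0]
    exact Nat.card_congr (N0.equivMapOfInjective ψ.toMonoidHom ψ.injective).symm.toEquiv
  · rintro x ⟨n, hn, rfl⟩
    rw [← map_mul, N0_sq n hn, map_one]
  · exact ⟨(QuotientGroup.congr N0 (N0.map ψ.toMonoidHom) ψ rfl).symm.trans
      (QuotientGroup.quotientKerEquivOfSurjective Phi Phi_surjective)⟩

end Cfsg.Agent.Helper27.Trio
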